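import Mathlib
import Cfsg.Prelude.Def_GeometricClasses

set_option autoImplicit false

namespace Cfsg.Agent.Helper28

open scoped Matrix

variable {ι : Type} [Fintype ι] [DecidableEq ι] {F : Type*} [Field F]

def funcVec (f : (ι → F) →ₗ[F] F) : ι → F := fun i => f (Pi.single i 1)

theorem funcVec_dot (f : (ι → F) →ₗ[F] F) (x : ι → F) : funcVec f ⬝ᵥ x = f x := by
  rw [LinearMap.pi_apply_eq_sum_univ f x]
  simp only [dotProduct, funcVec, smul_eq_mul]
  refine Finset.sum_congr rfl (fun i _ => ?_)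
  rw [mul_comm]
  congr 2
  ext j
  simp [Pi.single_apply, eq_comm]

def transvMat (v : ι → F) (f : (ι → F) →ₗ[F] F) : Matrix ι ι F :=
  1 + Matrix.vecMulVec v (funcVec f)

theorem transvMat_mulVec (v : ι → F) (f : (ι → F) →ₗ[F] F) (x : ι → F) :
    transvMat v f *ᵥ x = x + f x • v := by
  rw [transvMat, Matrix.add_mulVec, Matrix.one_mulVec, Matrix.vecMulVec_mulVec, funcVec_dot]
  congr 1
  ext i
  simp [mul_comm]

theorem transvMat_det (v : ι → F) (f : (ι → F) →ₗ[F] F) (h : f v = 0) :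
    (transvMat v f).det = 1 := by
  rw [transvMat, Matrix.vecMulVec_eq Unit, Matrix.det_one_add_replicateCol_mul_replicateRow,
    funcVec_dot, h, add_zero]

noncomputable def transvGL (v : ι → F) (f : (ι → F) →ₗ[F] F) (h : f v = 0) : GL ι F :=
  Matrix.GeneralLinearGroup.mkOfDetNeZero (transvMat v f) (by rw [transvMat_det v f h]; exact one_ne_zero)

theorem transvGL_mulVec (v : ι → F) (f : (ι → F) →ₗ[F] F) (h : f v = 0) (x : ι → F) :
    ((transvGL v f h : GL ι F) : Matrix ι ι F) *ᵥ x = x + f x • v :=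
  transvMat_mulVec v f x

theorem transvGL_mem_specialLinear (v : ι → F) (f : (ι → F) →ₗ[F] F) (h : f v = 0) :
    transvGL v f h ∈ Cfsg.Geo.specialLinear ι F := by
  rw [Cfsg.Geo.specialLinear, MonoidHom.mem_ker]
  apply Units.ext
  rw [Matrix.GeneralLinearGroup.val_det_apply]
  exact transvMat_det v f h

theorem mem_subspaceStabilizer_iff (W : Submodule F (ι → F)) (g : GL ι F) :
    g ∈ Cfsg.Geo.subspaceStabilizer W ↔ ∀ x : ι → F, x ∈ W ↔ (g : Matrix ι ι F) *ᵥ x ∈ W :=
  Iff.rfl

theorem exists_stab_not_stab (W U : Submodule F (ι → F)) (u v : ι → F) (hu : u ∈ U) (hv : v ∉ U)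
    (huW : u ∉ W ⊔ Submodule.span F {v}) :
    ∃ g : GL ι F, g ∈ Cfsg.Geo.specialLinear ι F ∧ g ∈ Cfsg.Geo.subspaceStabilizer W ∧
      g ∉ Cfsg.Geo.subspaceStabilizer U := by
  obtain ⟨f, hfu, hfp⟩ := Submodule.exists_dual_map_eq_bot_of_notMem huW inferInstance
  have hker : ∀ w ∈ W ⊔ Submodule.span F {v}, f w = 0 := by
    intro w hw
    have : f w ∈ (W ⊔ Submodule.span F {v}).map f := Submodule.mem_map_of_mem hw
    rw [hfp] at this
    exact (Submodule.mem_bot F).1 this
  have hfv : f v = 0 := hker v (Submodule.mem_sup_right (Submodule.mem_span_singleton_self v))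
  have hfW : ∀ w ∈ W, f w = 0 := fun w hw => hker w (Submodule.mem_sup_left hw)
  refine ⟨transvGL v f hfv, transvGL_mem_specialLinear v f hfv, ?_, ?_⟩
  · rw [mem_subspaceStabilizer_iff]
    intro x
    rw [transvGL_mulVec]
    constructor
    · intro hx
      rw [hfW x hx, zero_smul, add_zero]
      exact hx
    · intro hx
      have h1 : f (x + f x • v) = 0 := hfW _ hx
      rw [map_add, map_smul, hfv, smul_zero, add_zero] at h1
      rw [h1, zero_smul, add_zero] at hx
      exact hx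
  · rw [mem_subspaceStabilizer_iff]
    intro hall
    have h1 := (hall u).1 hu
    rw [transvGL_mulVec] at h1
    have h2 : f u • v ∈ U := by
      have := U.sub_mem h1 hu
      rwa [add_sub_cancel_left] at this
    have h3 : v ∈ U := by
      have := U.smul_mem (f u)⁻¹ h2
      rwa [smul_smul, inv_mul_cancel₀ hfu, one_smul] at this
    exact hv h3

theorem exists_specialLinear_not_stab (W : Submodule F (ι → F)) (hW0 : W ≠ ⊥) (hW1 : W ≠ ⊤) :
    ∃ g : GL ι F, g ∈ Cfsg.Geo.specialLinear ι F ∧ g ∉ Cfsg.Geo.subspaceStabilizer W := by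
  obtain ⟨w, hw, hw0⟩ := (Submodule.ne_bot_iff W).1 hW0
  obtain ⟨v, hv⟩ : ∃ v : ι → F, v ∉ W := by
    by_contra hcon
    push Not at hcon
    exact hW1 (eq_top_iff.2 (fun x _ => hcon x))
  have hwv : w ∉ (⊥ : Submodule F (ι → F)) ⊔ Submodule.span F {v} := by
    rw [bot_sup_eq, Submodule.mem_span_singleton]
    rintro ⟨c, hc⟩
    have hc0 : c ≠ 0 := by
      rintro rfl
      rw [zero_smul] at hc
      exact hw0 hc.symm
    apply hv
    have := W.smul_mem c⁻¹ hw
    rwa [← hc, smul_smul, inv_mul_cancel₀ hc0, one_smul] at this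
  obtain ⟨g, hg1, _, hg3⟩ := exists_stab_not_stab (⊥ : Submodule F (ι → F)) W w v hw hv hwv
  exact ⟨g, hg1, hg3⟩

end Cfsg.Agent.Helper28
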