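import Cfsg.Agent.Helper28.ModTwo

/-!
The lattice modulo twice the lattice is a faithful (modulo the centre) and irreducible module
for the automorphism group.
-/

set_option autoImplicit false

namespace Cfsg.Agent.Helper28

open Cfsg

theorem co0_map_zero (g : Co0) : (g : Equiv.Perm leechLattice) 0 = 0 := by
  have h := g.2.1 0 0
  rw [add_zero] at h
  exact left_eq_add.1 h

theorem pm_of_trivial (g : Co0)
    (h : ∀ v : leechLattice, ∃ w : leechLattice,
      ((g • v : leechLattice) : GolayPt → ℤ) - (v : GolayPt → ℤ) = 2 • (w : GolayPt → ℤ))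
    (v : leechLattice) (hv : sqNorm (v : GolayPt → ℤ) = 32) :
    (g • v : leechLattice) = v ∨ (g • v : leechLattice) = -v := by
  by_cases hgv : (g • v : leechLattice) = v
  · exact Or.inl hgv
  · right
    obtain ⟨w, hw⟩ := h v
    have hn : sqNorm ((g • v : leechLattice) : GolayPt → ℤ) = 32 := (g.2.2 v).trans hv
    have hn1 : ∑ i, ((g • v : leechLattice) : GolayPt → ℤ) i ^ 2 = 32 := hn
    have hn2 : ∑ i, (v : GolayPt → ℤ) i ^ 2 = 32 := hv
    have hc := short_congruent leechLattice leech_min_sum
      ((g • v : leechLattice) : GolayPt → ℤ) (v : GolayPt → ℤ) (g • v).2 v.2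
      (fun e => hgv (Subtype.ext e)) (by omega) (by omega) ⟨w, w.2, hw⟩
    rcases hc with e | ⟨e1, _, _⟩
    · exact Subtype.ext e
    · omega

theorem sign_consistent (g : Co0) (v w : leechLattice)
    (hd : dotInt (v : GolayPt → ℤ) (w : GolayPt → ℤ) ≠ 0)
    (hv : (g • v : leechLattice) = v ∨ (g • v : leechLattice) = -v)
    (hw : (g • w : leechLattice) = w ∨ (g • w : leechLattice) = -w) :
    ((g • v : leechLattice) = v ↔ (g • w : leechLattice) = w) := by
  have hdot : dotInt ((g • v : leechLattice) : GolayPt → ℤ)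
      ((g • w : leechLattice) : GolayPt → ℤ) =
      dotInt (v : GolayPt → ℤ) (w : GolayPt → ℤ) :=
    co0_dot (g : Equiv.Perm leechLattice) g.2 v w
  constructor
  · intro e
    rcases hw with e' | e'
    · exact e'
    · exfalso
      rw [e, e', AddSubgroup.coe_neg, dot_neg_right] at hdot
      omega
  · intro e
    rcases hv with e' | e'
    · exact e'
    · exfalso
      rw [e, e', AddSubgroup.coe_neg, dot_neg_left] at hdot
      omega

/-- a minimal vector of the form `(4, ±4)` linking a minimal vector to the base vector -/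
theorem exists_link (x : GolayPt → ℤ) (hn : ∑ i, x i ^ 2 = 32) :
    ∃ u : GolayPt → ℤ, (u ∈ leechLattice ∧ sqNorm u = 32) ∧
      dotInt (sgnVec 4 {none, some 0} ∅) u ≠ 0 ∧ dotInt x u ≠ 0 := by
  have key : ∀ a c : GolayPt, a ≠ c → (a = none ∨ a = some 0) → c ≠ none → c ≠ some 0 →
      ∀ V : Finset GolayPt, V ⊆ {c} → x a * 4 + x c * sgnVec 4 {a, c} V c ≠ 0 →
      ∃ u : GolayPt → ℤ, (u ∈ leechLattice ∧ sqNorm u = 32) ∧
        dotInt (sgnVec 4 {none, some 0} ∅) u ≠ 0 ∧ dotInt x u ≠ 0 := by
    intro a c hac ha hc1 hc2 V hV hne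
    have hV' : V ⊆ {a, c} := hV.trans (by
      intro i hi
      rw [Finset.mem_singleton] at hi
      rw [hi]
      exact Finset.mem_insert_of_mem (Finset.mem_singleton_self c))
    have haV : a ∉ V := fun h => hac (Finset.mem_singleton.1 (hV h))
    have hua : sgnVec 4 {a, c} V a = 4 := by
      unfold sgnVec
      rw [if_neg haV, if_pos (Finset.mem_insert_self a _)]
    refine ⟨sgnVec 4 {a, c} V, sgn4_min a c hac V hV', ?_, ?_⟩
    · rw [dot_sgnVec_pair _ 4 a c hac V hV', hua]
      have hba : sgnVec 4 ({none, some 0} : Finset GolayPt) ∅ a = 4 := by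
        unfold sgnVec
        rcases ha with rfl | rfl <;> simp
      have hbc : sgnVec 4 ({none, some 0} : Finset GolayPt) ∅ c = 0 := by
        unfold sgnVec
        simp [hc1, hc2]
      rw [hba, hbc]
      norm_num
    · rw [dot_sgnVec_pair _ 4 a c hac V hV', hua]
      exact hne
  have hval : ∀ a c : GolayPt, a ≠ c → sgnVec 4 {a, c} ∅ c = 4 ∧ sgnVec 4 {a, c} {c} c = -4 := by
    intro a c hac
    constructor
    · unfold sgnVec
      simp
    · unfold sgnVec
      simp
  by_cases h1 : x none ≠ 0
  · have hv := hval none (some 1) (by decide)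
    by_cases h2 : x none * 4 + x (some 1) * 4 ≠ 0
    · exact key none (some 1) (by decide) (Or.inl rfl) (by decide) (by decide) ∅
        (Finset.empty_subset _) (by rw [hv.1]; exact h2)
    · exact key none (some 1) (by decide) (Or.inl rfl) (by decide) (by decide) {some 1}
        (Finset.Subset.refl _) (by rw [hv.2]; omega)
  · by_cases h3 : x (some 0) ≠ 0
    · have hv := hval (some 0) (some 1) (by decide)
      by_cases h2 : x (some 0) * 4 + x (some 1) * 4 ≠ 0
      · exact key (some 0) (some 1) (by decide) (Or.inr rfl) (by decide) (by decide) ∅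
          (Finset.empty_subset _) (by rw [hv.1]; exact h2)
      · exact key (some 0) (some 1) (by decide) (Or.inr rfl) (by decide) (by decide) {some 1}
          (Finset.Subset.refl _) (by rw [hv.2]; omega)
    · push Not at h1 h3
      have hex : ∃ j, x j ≠ 0 := by
        by_contra hall
        push Not at hall
        have h0 : ∑ i, x i ^ 2 = 0 := Finset.sum_eq_zero (fun i _ => by rw [hall i]; norm_num)
        omega
      obtain ⟨j, hj⟩ := hex
      have hj1 : j ≠ none := fun e => hj (by rw [e]; exact h1)
      have hj2 : j ≠ some 0 := fun e => hj (by rw [e]; exact h3)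
      have hv := hval none j (fun e => hj1 e.symm)
      exact key none j (fun e => hj1 e.symm) (Or.inl rfl) hj1 hj2 ∅ (Finset.empty_subset _)
        (by rw [hv.1, h1]; omega)

/-- an automorphism acting trivially modulo twice the lattice is central -/
theorem central_of_trivial (g : Co0)
    (h : ∀ v : leechLattice, ∃ w : leechLattice,
      ((g • v : leechLattice) : GolayPt → ℤ) - (v : GolayPt → ℤ) = 2 • (w : GolayPt → ℤ)) :
    g ∈ Subgroup.center Co0 := by
  obtain ⟨hBm, hBn⟩ := sgn4_min none (some 0) (by decide) ∅ (Finset.empty_subset _)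
  have hpm := pm_of_trivial g h
  have hiff : ∀ w : leechLattice, sqNorm (w : GolayPt → ℤ) = 32 →
      ((g • (⟨sgnVec 4 {none, some 0} ∅, hBm⟩ : leechLattice) : leechLattice) =
        ⟨sgnVec 4 {none, some 0} ∅, hBm⟩ ↔ (g • w : leechLattice) = w) := by
    intro w hw
    obtain ⟨u, ⟨huL, hun⟩, hd1, hd2⟩ := exists_link (w : GolayPt → ℤ) hw
    exact (sign_consistent g ⟨sgnVec 4 {none, some 0} ∅, hBm⟩ ⟨u, huL⟩ hd1
      (hpm _ hBn) (hpm ⟨u, huL⟩ hun)).trans
      (sign_consistent g w ⟨u, huL⟩ hd2 (hpm w hw) (hpm ⟨u, huL⟩ hun)).symm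
  by_cases hgB : (g • (⟨sgnVec 4 {none, some 0} ∅, hBm⟩ : leechLattice) : leechLattice) =
      ⟨sgnVec 4 {none, some 0} ∅, hBm⟩
  · have hall : ∀ x : leechLattice, (g • x : leechLattice) = x := by
      refine leech_induction (fun x => (g • x : leechLattice) = x) ?_ ?_ ?_ ?_
      · exact co0_map_zero g
      · intro m hm
        exact (hiff m hm).1 hgB
      · intro x y hx hy
        have hx' : (g : Equiv.Perm leechLattice) x = x := hx
        have hy' : (g : Equiv.Perm leechLattice) y = y := hy
        show (g : Equiv.Perm leechLattice) (x + y) = x + y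
        rw [g.2.1, hx', hy']
      · intro x hx
        have hx' : (g : Equiv.Perm leechLattice) x = x := hx
        show (g : Equiv.Perm leechLattice) (-x) = -x
        rw [co0_map_neg, hx']
    have e : g = 1 := by
      apply Subtype.ext
      apply Equiv.ext
      intro v
      exact hall v
    rw [e]
    exact Subgroup.one_mem _
  · have hall : ∀ x : leechLattice, (g • x : leechLattice) = -x := by
      refine leech_induction (fun x => (g • x : leechLattice) = -x) ?_ ?_ ?_ ?_
      · show (g : Equiv.Perm leechLattice) 0 = -0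
        rw [co0_map_zero, neg_zero]
      · intro m hm
        rcases hpm m hm with e | e
        · exact absurd ((hiff m hm).2 e) hgB
        · exact e
      · intro x y hx hy
        have hx' : (g : Equiv.Perm leechLattice) x = -x := hx
        have hy' : (g : Equiv.Perm leechLattice) y = -y := hy
        show (g : Equiv.Perm leechLattice) (x + y) = -(x + y)
        rw [g.2.1, hx', hy', neg_add]
      · intro x hx
        have hx' : (g : Equiv.Perm leechLattice) x = -x := hx
        show (g : Equiv.Perm leechLattice) (-x) = - -x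
        rw [co0_map_neg, hx']
    have e : g = co0Neg := by
      apply Subtype.ext
      apply Equiv.ext
      intro v
      exact hall v
    rw [e, Subgroup.mem_center_iff]
    intro x
    exact (co0Neg_central x).symm

theorem fiveVec_mem (p : GolayPt) : fiveVec p ∈ leechLattice := by
  apply (mem_leechLattice_iff _).2
  refine ⟨1, ?_, ?_, ?_⟩
  · intro i
    show (if i = p then (5 : ℤ) else 1) % 2 = 1 % 2
    split_ifs <;> norm_num
  · show (∑ i, (if i = p then (5 : ℤ) else 1)) % 8 = (4 * 1) % 8
    have e : ∀ i : GolayPt, (if i = p then (5 : ℤ) else 1) = 1 + (if i = p then 4 else 0) := by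
      intro i
      split_ifs <;> norm_num
    rw [Finset.sum_congr rfl (fun i _ => e i), Finset.sum_add_distrib, Finset.sum_ite_eq',
      Finset.sum_const, Finset.card_univ, golayLike.hcard]
    simp
  · have e0 : halfWord (fiveVec p) 1 = 0 := by
      funext i
      simp only [halfWord, fiveVec, Pi.zero_apply]
      rw [intCast_zmod2_eq_zero]
      split_ifs <;> norm_num
    rw [e0]
    exact golayCode.zero_mem

theorem fiveVec_norm (p : GolayPt) : ∑ i, fiveVec p i ^ 2 = 48 := by
  have e : ∀ i : GolayPt, fiveVec p i ^ 2 = 1 + (if i = p then 24 else 0) := by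
    intro i
    unfold fiveVec
    split_ifs <;> norm_num
  rw [Finset.sum_congr rfl (fun i _ => e i), Finset.sum_add_distrib, Finset.sum_ite_eq',
    Finset.sum_const, Finset.card_univ, golayLike.hcard]
  simp

theorem four_mem (U : Finset GolayPt) (hU : U.card = 4) :
    (fun i => if i ∈ U then (4 : ℤ) else 0) ∈ leechLattice ∧
      ∑ i, (fun i => if i ∈ U then (4 : ℤ) else 0) i ^ 2 = 64 := by
  constructor
  · apply (mem_leechLattice_iff _).2
    refine ⟨0, ?_, ?_, ?_⟩
    · intro i
      show (if i ∈ U then (4 : ℤ) else 0) % 2 = 0 % 2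
      split_ifs <;> norm_num
    · show (∑ i, (if i ∈ U then (4 : ℤ) else 0)) % 8 = (4 * 0) % 8
      have e : ∀ i : GolayPt, (if i ∈ U then (4 : ℤ) else 0) = 4 * (if i ∈ U then 1 else 0) := by
        intro i
        split_ifs <;> norm_num
      rw [Finset.sum_congr rfl (fun i _ => e i), ← Finset.mul_sum, sum_ind_mem, hU]
      norm_num
    · have e0 : halfWord (fun i => if i ∈ U then (4 : ℤ) else 0) 0 = 0 := by
        funext i
        simp only [halfWord, Pi.zero_apply]
        rw [intCast_zmod2_eq_zero]
        split_ifs <;> norm_num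
      rw [e0]
      exact golayCode.zero_mem
  · have e : ∀ i : GolayPt, (fun i => if i ∈ U then (4 : ℤ) else 0) i ^ 2 =
        16 * (if i ∈ U then 1 else 0) := by
      intro i
      show (if i ∈ U then (4 : ℤ) else 0) ^ 2 = 16 * (if i ∈ U then 1 else 0)
      split_ifs <;> norm_num
    rw [Finset.sum_congr rfl (fun i _ => e i), ← Finset.mul_sum, sum_ind_mem, hU]
    norm_num

theorem five_diff : fiveVec none - fiveVec (some 0) = sgnVec 4 {none, some 0} {some 0} := by
  funext i
  revert i
  decide +kernel

theorem four_diff :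
    (fun i => if i ∈ ({some 1, some 2, some 3, none} : Finset GolayPt) then (4 : ℤ) else 0) -
      (fun i => if i ∈ ({some 1, some 2, some 3, some 0} : Finset GolayPt) then (4 : ℤ) else 0) =
      sgnVec 4 {none, some 0} {some 0} := by
  funext i
  revert i
  decide +kernel

/-- an invariant subgroup between twice the lattice and the lattice is one of the two -/
theorem invariant_sub (M : AddSubgroup (GolayPt → ℤ))
    (h2 : ∀ v ∈ leechLattice, (2 : ℤ) • v ∈ M) (hM : M ≤ leechLattice)
    (hinv : ∀ g : Co0, ∀ v : leechLattice, (v : GolayPt → ℤ) ∈ M →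
      ((g • v : leechLattice) : GolayPt → ℤ) ∈ M) :
    (∀ x ∈ M, ∃ w ∈ leechLattice, x = (2 : ℤ) • w) ∨ M = leechLattice := by
  by_cases hall : ∀ x ∈ M, ∃ w ∈ leechLattice, x = (2 : ℤ) • w
  · exact Or.inl hall
  · right
    push Not at hall
    obtain ⟨x, hx, hx2⟩ := hall
    obtain ⟨y, hy, hn, z, hz, e⟩ := exists_short x (hM hx)
    have e2 : (2 : ℤ) • z = 2 • z := by rw [two_zsmul, two_nsmul]
    have hyM : y ∈ M := by
      have e3 : y = x - (2 : ℤ) • z := by
        rw [e2, ← e]
        abel
      rw [e3]
      exact M.sub_mem hx (h2 z hz)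
    have htrans : ∀ y' : GolayPt → ℤ, CoRel y y' → y' ∈ M := by
      rintro y' ⟨hy1, g, rfl⟩
      exact hinv g ⟨y, hy1⟩ hyM
    have hmin_all : ∀ m : GolayPt → ℤ, m ∈ M → m ∈ leechLattice ∧ sqNorm m = 32 →
        M = leechLattice := by
      rintro m hmM ⟨hmL, hmn⟩
      apply le_antisymm hM
      rw [← closure_min]
      apply (AddSubgroup.closure_le M).2
      rintro m' ⟨hm'L, hm'n⟩
      obtain ⟨hm1, g, hg⟩ := min_trans m m' hmL hmn hm'L hm'n
      rw [SetLike.mem_coe, ← hg]
      exact hinv g ⟨m, hm1⟩ hmM
    have hsg := sgn4_min none (some 0) (by decide) {some 0} (by simp)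
    rcases hn with hn | hn | hn | hn
    · exfalso
      have hy0 : y = 0 := by
        by_contra hne
        have h32 := leech_min_norm y hy hne
        omega
      apply hx2 z hz
      rw [e2, ← e, hy0, sub_zero]
    · exact hmin_all y hyM ⟨hy, hn⟩
    · have h5 : ∀ p, fiveVec p ∈ M := fun p =>
        htrans _ (trans48 y (fiveVec p) hy hn (fiveVec_mem p) (fiveVec_norm p))
      refine hmin_all (sgnVec 4 {none, some 0} {some 0}) ?_ hsg
      rw [← five_diff]
      exact M.sub_mem (h5 _) (h5 _)
    · have h4 : ∀ U : Finset GolayPt, U.card = 4 →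
          (fun i => if i ∈ U then (4 : ℤ) else 0) ∈ M := fun U hU =>
        htrans _ (trans64 y _ hy hn (four_mem U hU).1 (four_mem U hU).2)
      refine hmin_all (sgnVec 4 {none, some 0} {some 0}) ?_ hsg
      rw [← four_diff]
      exact M.sub_mem (h4 _ (by decide)) (h4 _ (by decide))

end Cfsg.Agent.Helper28
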