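import Cfsg.Agent.Helper28.LeechTag
import Cfsg.Agent.Helper28.ModTwoIrr

/-!
Censuses of minimal vectors by their inner product with a fixed vector.
-/

set_option autoImplicit false

namespace Cfsg.Agent.Helper28

open Cfsg

/-- lattice vectors of given sum of squares and given dot product with `v` -/
def dotSet (v : leechLattice) (n s : ℤ) : Set leechLattice :=
  {w | sqNorm (w : GolayPt → ℤ) = n ∧ dotInt (v : GolayPt → ℤ) (w : GolayPt → ℤ) = s}

theorem dotSet_map_mem (g : Co0) (v : leechLattice) (n s : ℤ) {w : leechLattice}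
    (h : w ∈ dotSet v n s) :
    (g : Equiv.Perm leechLattice) w ∈ dotSet ((g : Equiv.Perm leechLattice) v) n s := by
  obtain ⟨hn, hd⟩ := h
  exact ⟨(g.2.2 w).trans hn, (co0_dot (g : Equiv.Perm leechLattice) g.2 v w).trans hd⟩

theorem dotSet_map (g : Co0) (v : leechLattice) (n s : ℤ) :
    dotSet ((g : Equiv.Perm leechLattice) v) n s =
      (g : Equiv.Perm leechLattice) '' dotSet v n s := by
  ext w
  constructor
  · intro h
    have h' := dotSet_map_mem g⁻¹ _ n s h
    refine ⟨((g⁻¹ : Co0) : Equiv.Perm leechLattice) w, ?_, ?_⟩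
    · have e : ((g⁻¹ : Co0) : Equiv.Perm leechLattice) ((g : Equiv.Perm leechLattice) v) = v :=
        Equiv.symm_apply_apply (g : Equiv.Perm leechLattice) v
      rw [e] at h'
      exact h'
    · exact Equiv.apply_symm_apply (g : Equiv.Perm leechLattice) w
  · rintro ⟨u, hu, rfl⟩
    exact dotSet_map_mem g v n s hu

theorem dotSet_ncard_eq (v : leechLattice) (n s : ℤ) :
    (dotSet v n s).ncard = {w : GolayPt → ℤ | w ∈ leechLattice ∧ sqNorm w = n ∧
      dotInt (v : GolayPt → ℤ) w = s}.ncard := by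
  rw [← Set.ncard_image_of_injective (dotSet v n s) Subtype.val_injective]
  congr 1
  ext x
  constructor
  · rintro ⟨w, ⟨hn, hd⟩, rfl⟩
    exact ⟨w.2, hn, hd⟩
  · rintro ⟨hx, hn, hd⟩
    exact ⟨⟨x, hx⟩, ⟨hn, hd⟩, rfl⟩

/-- the census is the same for vectors in one orbit -/
theorem dot_count_rel {x y : GolayPt → ℤ} (h : CoRel x y) (n s : ℤ) :
    {w : GolayPt → ℤ | w ∈ leechLattice ∧ sqNorm w = n ∧ dotInt x w = s}.ncard =
      {w : GolayPt → ℤ | w ∈ leechLattice ∧ sqNorm w = n ∧ dotInt y w = s}.ncard := by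
  obtain ⟨hx, g, rfl⟩ := h
  have h1 := dotSet_ncard_eq ⟨x, hx⟩ n s
  have h2 := dotSet_ncard_eq ((g : Equiv.Perm leechLattice) ⟨x, hx⟩) n s
  rw [dotSet_map, Set.ncard_image_of_injective _ (g : Equiv.Perm leechLattice).injective] at h2
  exact h1.symm.trans h2

theorem gSupp_pair : Cfsg.Agent.Helper3.gSupp 8388609 = {none, some 0} := by decide +kernel

theorem gSupp_single : Cfsg.Agent.Helper3.gSupp 8388608 = {none} := by decide +kernel

/-- the tag `v + 5` -/
def tagShift (v : ℤ) : ℕ := (v + 5).toNat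

/-- the zero tag -/
def tagZero (_ : ℤ) : ℕ := 0

/-- the tag `5 v + 25` -/
def tagFive (v : ℤ) : ℕ := (5 * v + 25).toNat

theorem base_dot (x : GolayPt → ℤ) :
    dotInt (sgnVec 4 {none, some 0} ∅) x = 4 * x none + 4 * x (some 0) := by
  rw [dot_comm', dot_sgnVec_pair x 4 none (some 0) (by decide) ∅ (Finset.empty_subset _)]
  have h1 : sgnVec 4 ({none, some 0} : Finset GolayPt) ∅ none = 4 := by decide
  have h2 : sgnVec 4 ({none, some 0} : Finset GolayPt) ∅ (some 0) = 4 := by decide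
  rw [h1, h2]
  ring

theorem pair_tag (x : GolayPt → ℤ) (hn : ∑ i, x i ^ 2 = 32) :
    ((∑ i, (if i ∈ Cfsg.Agent.Helper3.gSupp 8388609 then tagShift (x i) else tagZero (x i)) :
      ℕ) : ℤ) = x none + x (some 0) + 10 := by
  rw [gSupp_pair]
  simp only [tagZero]
  rw [Finset.sum_ite_mem, Finset.univ_inter, Finset.sum_pair (by decide)]
  have h1 := abs_le_five hn none
  have h2 := abs_le_five hn (some 0)
  unfold tagShift
  omega

theorem census_set (s : ℤ) (t : ℕ) (hst : s = 4 * ((t : ℤ) - 10)) :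
    {w : GolayPt → ℤ | w ∈ leechLattice ∧ sqNorm w = 32 ∧
      dotInt (sgnVec 4 {none, some 0} ∅) w = s} =
    {x : GolayPt → ℤ | (x ∈ leechLattice ∧ ∑ i, x i ^ 2 = ((32 : ℕ) : ℤ) ∧
        ∀ i, x i ∈ Finset.Icc (-5 : ℤ) 5) ∧
      ∑ i, (if i ∈ Cfsg.Agent.Helper3.gSupp 8388609 then tagShift (x i) else tagZero (x i))
        = t} := by
  ext x
  constructor
  · rintro ⟨hx, hn, hd⟩
    have hn' : ∑ i, x i ^ 2 = 32 := hn
    refine ⟨⟨hx, by rw [hn']; norm_num, fun i => ?_⟩, ?_⟩
    · have h := abs_le_five hn' i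
      rw [Finset.mem_Icc]
      exact h
    · have h := pair_tag x hn'
      rw [base_dot] at hd
      omega
  · rintro ⟨⟨hx, hn, _⟩, ht⟩
    have hn' : ∑ i, x i ^ 2 = 32 := by
      rw [hn]
      norm_num
    refine ⟨hx, hn', ?_⟩
    have h := pair_tag x hn'
    rw [base_dot]
    rw [ht] at h
    omega

theorem census_T : Cfsg.Agent.Helper3.gAllLt 4096 (fun n => decide
    (clsOf 8388609 n ∈ ({0, 8, 12, 16, 24} : Finset ℕ) ×ˢ Finset.range 3)) = true := by
  decide +kernel

theorem census_num6 : ∑ kj ∈ ({0, 8, 12, 16, 24} : Finset ℕ) ×ˢ Finset.range 3,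
    Cfsg.Agent.Helper3.gCountLt 4096 (fun n => decide (clsOf 8388609 n = kj)) *
      (dCnt (Finset.Icc (-5) 5) tagShift tagZero (Cfsg.Agent.Helper3.gPopc 8388609) 0 32 6
          kj.1 kj.2 +
        dCnt (Finset.Icc (-5) 5) tagShift tagZero (Cfsg.Agent.Helper3.gPopc 8388609) 1 32 6
          kj.1 kj.2) = 4600 := by
  decide +kernel

theorem census_num8 : ∑ kj ∈ ({0, 8, 12, 16, 24} : Finset ℕ) ×ˢ Finset.range 3,
    Cfsg.Agent.Helper3.gCountLt 4096 (fun n => decide (clsOf 8388609 n = kj)) *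
      (dCnt (Finset.Icc (-5) 5) tagShift tagZero (Cfsg.Agent.Helper3.gPopc 8388609) 0 32 8
          kj.1 kj.2 +
        dCnt (Finset.Icc (-5) 5) tagShift tagZero (Cfsg.Agent.Helper3.gPopc 8388609) 1 32 8
          kj.1 kj.2) = 47104 := by
  decide +kernel

theorem census_num10 : ∑ kj ∈ ({0, 8, 12, 16, 24} : Finset ℕ) ×ˢ Finset.range 3,
    Cfsg.Agent.Helper3.gCountLt 4096 (fun n => decide (clsOf 8388609 n = kj)) *
      (dCnt (Finset.Icc (-5) 5) tagShift tagZero (Cfsg.Agent.Helper3.gPopc 8388609) 0 32 10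
          kj.1 kj.2 +
        dCnt (Finset.Icc (-5) 5) tagShift tagZero (Cfsg.Agent.Helper3.gPopc 8388609) 1 32 10
          kj.1 kj.2) = 93150 := by
  decide +kernel

theorem census_base (s : ℤ) (t : ℕ) (hst : s = 4 * ((t : ℤ) - 10)) (k : ℕ)
    (hk : ∑ kj ∈ ({0, 8, 12, 16, 24} : Finset ℕ) ×ˢ Finset.range 3,
      Cfsg.Agent.Helper3.gCountLt 4096 (fun n => decide (clsOf 8388609 n = kj)) *
        (dCnt (Finset.Icc (-5) 5) tagShift tagZero (Cfsg.Agent.Helper3.gPopc 8388609) 0 32 t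
            kj.1 kj.2 +
          dCnt (Finset.Icc (-5) 5) tagShift tagZero (Cfsg.Agent.Helper3.gPopc 8388609) 1 32 t
            kj.1 kj.2) = k) :
    {w : GolayPt → ℤ | w ∈ leechLattice ∧ sqNorm w = 32 ∧
      dotInt (sgnVec 4 {none, some 0} ∅) w = s}.ncard = k := by
  rw [census_set s t hst, count_tag (Finset.Icc (-5) 5) (Finset.Subset.refl _) 8388609
    tagShift tagZero 32 t (by norm_num) _ census_T]
  exact hk

/-- the census of minimal vectors by inner product with a minimal vector -/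
theorem census (v : GolayPt → ℤ) (hv : v ∈ leechLattice) (hvn : sqNorm v = 32) :
    {w : GolayPt → ℤ | w ∈ leechLattice ∧ sqNorm w = 32 ∧ dotInt v w = -16}.ncard = 4600 ∧
    {w : GolayPt → ℤ | w ∈ leechLattice ∧ sqNorm w = 32 ∧ dotInt v w = -8}.ncard = 47104 ∧
    {w : GolayPt → ℤ | w ∈ leechLattice ∧ sqNorm w = 32 ∧ dotInt v w = 0}.ncard = 93150 := by
  obtain ⟨hBm, hBn⟩ := sgn4_min none (some 0) (by decide) ∅ (Finset.empty_subset _)
  have hrel := min_trans v _ hv hvn hBm hBn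
  refine ⟨?_, ?_, ?_⟩
  · rw [dot_count_rel hrel 32 (-16)]
    exact census_base (-16) 6 (by norm_num) 4600 census_num6
  · rw [dot_count_rel hrel 32 (-8)]
    exact census_base (-8) 8 (by norm_num) 47104 census_num8
  · rw [dot_count_rel hrel 32 0]
    exact census_base 0 10 (by norm_num) 93150 census_num10

theorem five_tag (x : GolayPt → ℤ) (hn : ∑ i, x i ^ 2 = 32) :
    ((∑ i, (if i ∈ Cfsg.Agent.Helper3.gSupp 8388608 then tagFive (x i) else tagShift (x i)) :
      ℕ) : ℤ) = dotInt (fiveVec none) x + 140 := by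
  rw [gSupp_single, Nat.cast_sum]
  unfold dotInt
  have e : ∀ i : GolayPt, ((if i ∈ ({none} : Finset GolayPt) then tagFive (x i)
      else tagShift (x i) : ℕ) : ℤ) = fiveVec none i * x i + (if i = none then 25 else 5) := by
    intro i
    have h := abs_le_five hn i
    unfold tagFive tagShift fiveVec
    by_cases hi : i = none
    · rw [if_pos (Finset.mem_singleton.2 hi), if_pos hi, if_pos hi]
      omega
    · rw [if_neg (fun h' => hi (Finset.mem_singleton.1 h')), if_neg hi, if_neg hi]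
      omega
  have e2 : ∑ i : GolayPt, (if i = none then (25 : ℤ) else 5) = 140 := by decide +kernel
  rw [Finset.sum_congr rfl (fun i _ => e i), Finset.sum_add_distrib, e2]

theorem census5_set :
    {w : GolayPt → ℤ | w ∈ leechLattice ∧ sqNorm w = 32 ∧ dotInt (fiveVec none) w = 24} =
    {x : GolayPt → ℤ | (x ∈ leechLattice ∧ ∑ i, x i ^ 2 = ((32 : ℕ) : ℤ) ∧
        ∀ i, x i ∈ Finset.Icc (-5 : ℤ) 5) ∧
      ∑ i, (if i ∈ Cfsg.Agent.Helper3.gSupp 8388608 then tagFive (x i) else tagShift (x i))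
        = 164} := by
  ext x
  constructor
  · rintro ⟨hx, hn, hd⟩
    have hn' : ∑ i, x i ^ 2 = 32 := hn
    refine ⟨⟨hx, by rw [hn']; norm_num, fun i => ?_⟩, ?_⟩
    · have h := abs_le_five hn' i
      rw [Finset.mem_Icc]
      exact h
    · have h := five_tag x hn'
      omega
  · rintro ⟨⟨hx, hn, _⟩, ht⟩
    have hn' : ∑ i, x i ^ 2 = 32 := by
      rw [hn]
      norm_num
    refine ⟨hx, hn', ?_⟩
    have h := five_tag x hn'
    rw [ht] at h
    omega

theorem census5_T : Cfsg.Agent.Helper3.gAllLt 4096 (fun n => decide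
    (clsOf 8388608 n ∈ ({0, 8, 12, 16, 24} : Finset ℕ) ×ˢ Finset.range 2)) = true := by
  decide +kernel

theorem census5_num : ∑ kj ∈ ({0, 8, 12, 16, 24} : Finset ℕ) ×ˢ Finset.range 2,
    Cfsg.Agent.Helper3.gCountLt 4096 (fun n => decide (clsOf 8388608 n = kj)) *
      (dCnt (Finset.Icc (-5) 5) tagFive tagShift (Cfsg.Agent.Helper3.gPopc 8388608) 0 32 164
          kj.1 kj.2 +
        dCnt (Finset.Icc (-5) 5) tagFive tagShift (Cfsg.Agent.Helper3.gPopc 8388608) 1 32 164
          kj.1 kj.2) = 552 := by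
  decide +kernel

theorem sqNorm_sub (x y : GolayPt → ℤ) :
    sqNorm (x - y) = sqNorm x + sqNorm y - 2 * dotInt x y := by
  rw [sub_eq_add_neg, sqNorm_add, sqNorm_neg', dot_neg_right]
  ring

/-- a vector of sum of squares 48 is a sum of two minimal vectors in 552 ordered ways -/
theorem census48 (u : leechLattice) (hu : sqNorm (u : GolayPt → ℤ) = 48) :
    {v : leechLattice | sqNorm (v : GolayPt → ℤ) = 32 ∧
      sqNorm ((u : GolayPt → ℤ) - (v : GolayPt → ℤ)) = 32}.ncard = 552 := by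
  have hset : {v : leechLattice | sqNorm (v : GolayPt → ℤ) = 32 ∧
      sqNorm ((u : GolayPt → ℤ) - (v : GolayPt → ℤ)) = 32} = dotSet u 32 24 := by
    ext v
    constructor
    · rintro ⟨h1, h2⟩
      refine ⟨h1, ?_⟩
      rw [sqNorm_sub, hu, h1] at h2
      omega
    · rintro ⟨h1, h2⟩
      refine ⟨h1, ?_⟩
      rw [sqNorm_sub, hu, h1, h2]
      norm_num
  have hrel := trans48 (u : GolayPt → ℤ) (fiveVec none) u.2 hu (fiveVec_mem none)
    (fiveVec_norm none)
  rw [hset, dotSet_ncard_eq, dot_count_rel hrel 32 24, census5_set,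
    count_tag (Finset.Icc (-5) 5) (Finset.Subset.refl _) 8388608 tagFive tagShift 32 164
      (by norm_num) _ census5_T]
  exact census5_num

end Cfsg.Agent.Helper28
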