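import Mathlib

/-!
Counting congruence classes modulo 2 in an even positive definite lattice of rank 24 without
vectors of norm 2: with the vector counts of the lattice of the sphere packing in dimension 24,
the vectors of norm at most 8 fill all `2 ^ 24` classes, and every class of vectors of norm 8
has exactly 48 members.
-/

set_option autoImplicit false

namespace Cfsg.Agent.Helper28

open Matrix

/-- the sign normalisation of an integer vector: the smaller of `x` and `-x` in the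
lexicographic order -/
noncomputable def lexNorm (x : Fin 24 → ℤ) : Fin 24 → ℤ :=
  ofLex (min (toLex x) (toLex (-x)))

theorem lexNorm_cases (x : Fin 24 → ℤ) : lexNorm x = x ∨ lexNorm x = -x := by
  unfold lexNorm
  rcases min_choice (toLex x) (toLex (-x)) with h | h
  · left
    rw [h]
    rfl
  · right
    rw [h]
    rfl

theorem lexNorm_neg (x : Fin 24 → ℤ) : lexNorm (-x) = lexNorm x := by
  unfold lexNorm
  rw [neg_neg, min_comm]

/-- the weights of the classes: 48 for the zero class, 24 for norms 4 and 6, 1 for norm 8 -/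
def clsWt (n : ℤ) : ℕ := if n = 8 then 1 else if n = 0 then 48 else 24

section ClassCount

variable (B : Matrix (Fin 24) (Fin 24) ℤ)

theorem bil_symm (hsymm : B.IsSymm) (u v : Fin 24 → ℤ) :
    u ⬝ᵥ (B *ᵥ v) = v ⬝ᵥ (B *ᵥ u) := by
  rw [Matrix.dotProduct_mulVec, ← Matrix.mulVec_transpose, hsymm.eq, dotProduct_comm]

theorem qf_neg (x : Fin 24 → ℤ) : (-x) ⬝ᵥ (B *ᵥ (-x)) = x ⬝ᵥ (B *ᵥ x) := by
  rw [Matrix.mulVec_neg, neg_dotProduct, dotProduct_neg, neg_neg]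

theorem qf_min (hpos : ∀ x : Fin 24 → ℤ, x ≠ 0 → 0 < x ⬝ᵥ (B *ᵥ x))
    (heven : ∀ x : Fin 24 → ℤ, (2 : ℤ) ∣ x ⬝ᵥ (B *ᵥ x))
    (h2 : ∀ x : Fin 24 → ℤ, x ⬝ᵥ (B *ᵥ x) ≠ 2) (v : Fin 24 → ℤ) :
    v = 0 ∨ 4 ≤ v ⬝ᵥ (B *ᵥ v) := by
  by_cases hv : v = 0
  · left
    exact hv
  · right
    have h1 := hpos v hv
    have h3 := h2 v
    obtain ⟨k, hk⟩ := heven v
    omega

theorem short_core (hsymm : B.IsSymm) (hpos : ∀ x : Fin 24 → ℤ, x ≠ 0 → 0 < x ⬝ᵥ (B *ᵥ x))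
    (heven : ∀ x : Fin 24 → ℤ, (2 : ℤ) ∣ x ⬝ᵥ (B *ᵥ x))
    (h2 : ∀ x : Fin 24 → ℤ, x ⬝ᵥ (B *ᵥ x) ≠ 2) (w z : Fin 24 → ℤ)
    (hx : (w + z) ⬝ᵥ (B *ᵥ (w + z)) ≤ 8) (hy : (w - z) ⬝ᵥ (B *ᵥ (w - z)) ≤ 8) :
    z = 0 ∨ w = 0 ∨ ((w + z) ⬝ᵥ (B *ᵥ (w + z)) = 8 ∧ (w - z) ⬝ᵥ (B *ᵥ (w - z)) = 8 ∧
      (w + z) ⬝ᵥ (B *ᵥ (w - z)) = 0) := by
  have hsym := bil_symm B hsymm
  have e1 : (w + z) ⬝ᵥ (B *ᵥ (w + z)) =
      w ⬝ᵥ (B *ᵥ w) + z ⬝ᵥ (B *ᵥ z) + 2 * (w ⬝ᵥ (B *ᵥ z)) := by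
    rw [Matrix.mulVec_add, add_dotProduct, dotProduct_add, dotProduct_add, hsym z w]
    ring
  have e2 : (w - z) ⬝ᵥ (B *ᵥ (w - z)) =
      w ⬝ᵥ (B *ᵥ w) + z ⬝ᵥ (B *ᵥ z) - 2 * (w ⬝ᵥ (B *ᵥ z)) := by
    rw [Matrix.mulVec_sub, sub_dotProduct, dotProduct_sub, dotProduct_sub, hsym z w]
    ring
  have e3 : (w + z) ⬝ᵥ (B *ᵥ (w - z)) = w ⬝ᵥ (B *ᵥ w) - z ⬝ᵥ (B *ᵥ z) := by
    rw [Matrix.mulVec_sub, add_dotProduct, dotProduct_sub, dotProduct_sub, hsym z w]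
    ring
  rcases qf_min B hpos heven h2 z with hz0 | hz4
  · exact Or.inl hz0
  rcases qf_min B hpos heven h2 w with hw0 | hw4
  · exact Or.inr (Or.inl hw0)
  right
  right
  rw [e1] at hx
  rw [e2] at hy
  rw [e1, e2, e3]
  refine ⟨?_, ?_, ?_⟩ <;> omega

/-- vectors of norm at most 8 congruent modulo 2 are equal, opposite, or orthogonal of
norm 8 -/
theorem short_cong (hsymm : B.IsSymm) (hpos : ∀ x : Fin 24 → ℤ, x ≠ 0 → 0 < x ⬝ᵥ (B *ᵥ x))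
    (heven : ∀ x : Fin 24 → ℤ, (2 : ℤ) ∣ x ⬝ᵥ (B *ᵥ x))
    (h2 : ∀ x : Fin 24 → ℤ, x ⬝ᵥ (B *ᵥ x) ≠ 2) (x y : Fin 24 → ℤ)
    (hx : x ⬝ᵥ (B *ᵥ x) ≤ 8) (hy : y ⬝ᵥ (B *ᵥ y) ≤ 8) (hc : ∀ i, (2 : ℤ) ∣ (x - y) i) :
    y = x ∨ y = -x ∨
      (x ⬝ᵥ (B *ᵥ x) = 8 ∧ y ⬝ᵥ (B *ᵥ y) = 8 ∧ x ⬝ᵥ (B *ᵥ y) = 0) := by
  choose z hz using hc
  have hxe : x = (y + z) + z := by
    funext i
    have := hz i
    simp only [Pi.sub_apply, Pi.add_apply] at this ⊢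
    linarith
  have hye : y = (y + z) - z := by
    funext i
    simp
  have hx' : ((y + z) + z) ⬝ᵥ (B *ᵥ ((y + z) + z)) ≤ 8 := by
    rw [← hxe]
    exact hx
  have hy' : ((y + z) - z) ⬝ᵥ (B *ᵥ ((y + z) - z)) ≤ 8 := by
    rw [← hye]
    exact hy
  rcases short_core B hsymm hpos heven h2 (y + z) z hx' hy' with h | h | ⟨h1, h2', h3⟩
  · left
    rw [hxe, h]
    simp
  · right
    left
    have hy0 : y = -z := eq_neg_of_add_eq_zero_left h
    rw [hxe, h, zero_add]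
    exact hy0
  · right
    right
    rw [← hxe] at h1 h3
    rw [← hye] at h2' h3
    exact ⟨h1, h2', h3⟩

/-- a family of pairwise orthogonal vectors of non-zero norm has at most 24 members -/
theorem orth_card_le (R : Finset (Fin 24 → ℤ))
    (hq : ∀ r ∈ R, r ⬝ᵥ (B *ᵥ r) ≠ 0)
    (horth : ∀ r ∈ R, ∀ s ∈ R, r ≠ s → r ⬝ᵥ (B *ᵥ s) = 0) : R.card ≤ 24 := by
  have hli : LinearIndependent ℤ (fun x => x : R → (Fin 24 → ℤ)) := by
    rw [linearIndependent_iff']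
    intro s g hsum i hi
    have hsum' : ∑ j ∈ s, g j • (j : Fin 24 → ℤ) = 0 := hsum
    have h1 : (i : Fin 24 → ℤ) ⬝ᵥ (B *ᵥ (∑ j ∈ s, g j • (j : Fin 24 → ℤ))) = 0 := by
      rw [hsum']
      simp
    rw [Matrix.mulVec_sum, dotProduct_sum] at h1
    have h2 : ∀ j ∈ s, (i : Fin 24 → ℤ) ⬝ᵥ (B *ᵥ (g j • (j : Fin 24 → ℤ))) =
        if j = i then g i * ((i : Fin 24 → ℤ) ⬝ᵥ (B *ᵥ (i : Fin 24 → ℤ))) else 0 := by
      intro j _
      rw [Matrix.mulVec_smul, dotProduct_smul, smul_eq_mul]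
      by_cases hji : j = i
      · rw [if_pos hji, hji]
      · rw [if_neg hji, horth i.1 i.2 j.1 j.2 (fun h => hji (Subtype.ext h.symm)), mul_zero]
    rw [Finset.sum_congr rfl h2, Finset.sum_ite_eq' s i
      (fun _ => g i * ((i : Fin 24 → ℤ) ⬝ᵥ (B *ᵥ (i : Fin 24 → ℤ)))), if_pos hi] at h1
    exact (mul_eq_zero.1 h1).resolve_right (hq i.1 i.2)
  have h := hli.finset_card_le_finrank
  rw [Module.finrank_fin_fun ℤ] at h
  exact h

/-- a family of vectors of non-zero norm that are pairwise equal, opposite or orthogonal has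
at most 48 members -/
theorem frame_card_le (F : Finset (Fin 24 → ℤ))
    (hq : ∀ x ∈ F, x ⬝ᵥ (B *ᵥ x) ≠ 0)
    (hpair : ∀ x ∈ F, ∀ y ∈ F, y = x ∨ y = -x ∨ x ⬝ᵥ (B *ᵥ y) = 0) : F.card ≤ 48 := by
  classical
  have hR : (F.image lexNorm).card ≤ 24 := by
    apply orth_card_le B
    · intro r hr
      obtain ⟨x, hx, rfl⟩ := Finset.mem_image.1 hr
      rcases lexNorm_cases x with h | h
      · rw [h]
        exact hq x hx
      · rw [h, qf_neg]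
        exact hq x hx
    · intro r hr s hs hne
      obtain ⟨x, hx, rfl⟩ := Finset.mem_image.1 hr
      obtain ⟨y, hy, rfl⟩ := Finset.mem_image.1 hs
      have hxy : x ⬝ᵥ (B *ᵥ y) = 0 := by
        rcases hpair x hx y hy with h | h | h
        · exact absurd (by rw [h]) hne
        · exact absurd (by rw [h, lexNorm_neg]) hne
        · exact h
      rcases lexNorm_cases x with h | h <;> rcases lexNorm_cases y with h' | h' <;> rw [h, h']
      · exact hxy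
      · rw [Matrix.mulVec_neg, dotProduct_neg, hxy, neg_zero]
      · rw [neg_dotProduct, hxy, neg_zero]
      · rw [Matrix.mulVec_neg, dotProduct_neg, neg_dotProduct, hxy]
        simp
  have hfib : ∀ r ∈ F.image lexNorm, (F.filter (fun x => lexNorm x = r)).card ≤ 2 := by
    intro r _
    have hsub : F.filter (fun x => lexNorm x = r) ⊆ {r, -r} := by
      intro x hx
      rw [Finset.mem_filter] at hx
      rw [Finset.mem_insert, Finset.mem_singleton]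
      rcases lexNorm_cases x with h | h
      · left
        rw [← hx.2, h]
      · right
        rw [← hx.2, h, neg_neg]
    exact (Finset.card_le_card hsub).trans Finset.card_le_two
  have h := Finset.card_le_mul_card_image F 2 hfib
  omega

theorem shell_finset (k : ℤ) (n : ℕ) (hn : n ≠ 0)
    (h : {x : Fin 24 → ℤ | x ⬝ᵥ (B *ᵥ x) = k}.ncard = n) :
    ∃ S : Finset (Fin 24 → ℤ), (∀ y, y ∈ S ↔ y ⬝ᵥ (B *ᵥ y) = k) ∧ S.card = n := by
  have hf : {x : Fin 24 → ℤ | x ⬝ᵥ (B *ᵥ x) = k}.Finite :=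
    Set.finite_of_ncard_ne_zero (by rw [h]; exact hn)
  refine ⟨hf.toFinset, fun y => ?_, ?_⟩
  · rw [Set.Finite.mem_toFinset]
    exact Iff.rfl
  · rw [← Set.ncard_eq_toFinset_card _ hf]
    exact h

theorem mod2_iff (y z : Fin 24 → ℤ) :
    (fun i => ((y i : ℤ) : ZMod 2)) = (fun i => ((z i : ℤ) : ZMod 2)) ↔
      ∀ i, (2 : ℤ) ∣ (y - z) i := by
  constructor
  · intro h i
    have hi : ((y i : ℤ) : ZMod 2) = ((z i : ℤ) : ZMod 2) := congrFun h i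
    have key := ZMod.intCast_zmod_eq_zero_iff_dvd (y i - z i) 2
    rw [Nat.cast_ofNat] at key
    rw [Pi.sub_apply]
    apply key.1
    rw [Int.cast_sub, hi, sub_self]
  · intro h
    funext i
    have hi := h i
    rw [Pi.sub_apply] at hi
    have key := ZMod.intCast_zmod_eq_zero_iff_dvd (y i - z i) 2
    rw [Nat.cast_ofNat] at key
    have h0 := key.2 hi
    rw [Int.cast_sub, sub_eq_zero] at h0
    exact h0

/-- the vectors of norm at most 8, with their total weight -/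
theorem shell_total
    (h4 : {x : Fin 24 → ℤ | x ⬝ᵥ (B *ᵥ x) = 4}.ncard = 196560)
    (h6 : {x : Fin 24 → ℤ | x ⬝ᵥ (B *ᵥ x) = 6}.ncard = 16773120)
    (h8 : {x : Fin 24 → ℤ | x ⬝ᵥ (B *ᵥ x) = 8}.ncard = 398034000) :
    ∃ T : Finset (Fin 24 → ℤ),
      (∀ y, y ∈ T ↔ y = 0 ∨ y ⬝ᵥ (B *ᵥ y) = 4 ∨ y ⬝ᵥ (B *ᵥ y) = 6 ∨ y ⬝ᵥ (B *ᵥ y) = 8) ∧
      ∑ y ∈ T, clsWt (y ⬝ᵥ (B *ᵥ y)) = 805306368 := by
  classical
  obtain ⟨S4, m4, c4⟩ := shell_finset B 4 196560 (by norm_num) h4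
  obtain ⟨S6, m6, c6⟩ := shell_finset B 6 16773120 (by norm_num) h6
  obtain ⟨S8, m8, c8⟩ := shell_finset B 8 398034000 (by norm_num) h8
  have hq0 : (0 : Fin 24 → ℤ) ⬝ᵥ (B *ᵥ 0) = 0 := by simp
  have d1 : Disjoint ({0} : Finset (Fin 24 → ℤ)) S4 := by
    rw [Finset.disjoint_left]
    intro y hy hy'
    rw [Finset.mem_singleton] at hy
    rw [m4, hy, hq0] at hy'
    norm_num at hy'
  have d2 : Disjoint (({0} : Finset (Fin 24 → ℤ)) ∪ S4) S6 := by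
    rw [Finset.disjoint_left]
    intro y hy hy'
    rw [m6] at hy'
    rw [Finset.mem_union, Finset.mem_singleton, m4] at hy
    rcases hy with h | h
    · rw [h, hq0] at hy'
      norm_num at hy'
    · omega
  have d3 : Disjoint (({0} : Finset (Fin 24 → ℤ)) ∪ S4 ∪ S6) S8 := by
    rw [Finset.disjoint_left]
    intro y hy hy'
    rw [m8] at hy'
    rw [Finset.mem_union, Finset.mem_union, Finset.mem_singleton, m4, m6] at hy
    rcases hy with (h | h) | h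
    · rw [h, hq0] at hy'
      norm_num at hy'
    · omega
    · omega
  refine ⟨({0} : Finset (Fin 24 → ℤ)) ∪ S4 ∪ S6 ∪ S8, ?_, ?_⟩
  · intro y
    rw [Finset.mem_union, Finset.mem_union, Finset.mem_union, Finset.mem_singleton, m4, m6, m8]
    tauto
  · have w4 : ∀ y ∈ S4, clsWt (y ⬝ᵥ (B *ᵥ y)) = 24 := by
      intro y hy
      rw [(m4 y).1 hy]
      rfl
    have w6 : ∀ y ∈ S6, clsWt (y ⬝ᵥ (B *ᵥ y)) = 24 := by
      intro y hy
      rw [(m6 y).1 hy]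
      rfl
    have w8 : ∀ y ∈ S8, clsWt (y ⬝ᵥ (B *ᵥ y)) = 1 := by
      intro y hy
      rw [(m8 y).1 hy]
      rfl
    have w0 : clsWt 0 = 48 := rfl
    rw [Finset.sum_union d3, Finset.sum_union d2, Finset.sum_union d1, Finset.sum_singleton,
      Finset.sum_congr rfl w4, Finset.sum_congr rfl w6, Finset.sum_congr rfl w8, hq0, w0,
      Finset.sum_const, Finset.sum_const, Finset.sum_const, c4, c6, c8, smul_eq_mul,
      smul_eq_mul, smul_eq_mul]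

/-- the weight of a class is at most 48 -/
theorem class_bound (hsymm : B.IsSymm) (hpos : ∀ x : Fin 24 → ℤ, x ≠ 0 → 0 < x ⬝ᵥ (B *ᵥ x))
    (heven : ∀ x : Fin 24 → ℤ, (2 : ℤ) ∣ x ⬝ᵥ (B *ᵥ x))
    (h2 : ∀ x : Fin 24 → ℤ, x ⬝ᵥ (B *ᵥ x) ≠ 2) (F : Finset (Fin 24 → ℤ))
    (mT : ∀ y ∈ F, y = 0 ∨ y ⬝ᵥ (B *ᵥ y) = 4 ∨ y ⬝ᵥ (B *ᵥ y) = 6 ∨ y ⬝ᵥ (B *ᵥ y) = 8)
    (hcong : ∀ y ∈ F, ∀ z ∈ F, ∀ i, (2 : ℤ) ∣ (y - z) i) :
    ∑ y ∈ F, clsWt (y ⬝ᵥ (B *ᵥ y)) ≤ 48 := by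
  classical
  have hq0 : (0 : Fin 24 → ℤ) ⬝ᵥ (B *ᵥ 0) = 0 := by simp
  have hle : ∀ y ∈ F, y ⬝ᵥ (B *ᵥ y) ≤ 8 := by
    intro y hy
    rcases mT y hy with h | h | h | h
    · rw [h, hq0]
      norm_num
    · omega
    · omega
    · omega
  have hcls : ∀ y ∈ F, ∀ z ∈ F, z = y ∨ z = -y ∨
      (y ⬝ᵥ (B *ᵥ y) = 8 ∧ z ⬝ᵥ (B *ᵥ z) = 8 ∧ y ⬝ᵥ (B *ᵥ z) = 0) := by
    intro y hy z hz
    exact short_cong B hsymm hpos heven h2 y z (hle y hy) (hle z hz) (hcong y hy z hz)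
  by_cases hex : ∃ y ∈ F, y ⬝ᵥ (B *ᵥ y) ≠ 8
  · obtain ⟨y₀, hy₀, hne⟩ := hex
    have hsub : F ⊆ {y₀, -y₀} := by
      intro y hy
      rw [Finset.mem_insert, Finset.mem_singleton]
      rcases hcls y₀ hy₀ y hy with h | h | ⟨h, _, _⟩
      · exact Or.inl h
      · exact Or.inr h
      · exact absurd h hne
    refine (Finset.sum_le_sum_of_subset hsub).trans ?_
    by_cases h0 : y₀ = 0
    · have w0 : clsWt 0 = 48 := rfl
      rw [h0, neg_zero, Finset.pair_eq_singleton, Finset.sum_singleton, hq0, w0]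
    · have hne' : y₀ ≠ -y₀ := by
        intro h
        apply h0
        funext i
        have hi := congrFun h i
        rw [Pi.neg_apply] at hi
        show y₀ i = 0
        omega
      have hw : clsWt (y₀ ⬝ᵥ (B *ᵥ y₀)) = 24 := by
        rcases mT y₀ hy₀ with h | h | h | h
        · exact absurd h h0
        · rw [h]
          rfl
        · rw [h]
          rfl
        · exact absurd h hne
      rw [Finset.sum_pair hne', qf_neg, hw]
  · push Not at hex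
    have hw : ∀ y ∈ F, clsWt (y ⬝ᵥ (B *ᵥ y)) = 1 := by
      intro y hy
      rw [hex y hy]
      rfl
    rw [Finset.sum_congr rfl hw, Finset.sum_const, smul_eq_mul, mul_one]
    apply frame_card_le B
    · intro y hy
      rw [hex y hy]
      norm_num
    · intro y hy z hz
      rcases hcls y hy z hz with h | h | ⟨_, _, h⟩
      · exact Or.inl h
      · exact Or.inr (Or.inl h)
      · exact Or.inr (Or.inr h)

theorem card_cls : Fintype.card (Fin 24 → ZMod 2) = 16777216 := by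
  rw [Fintype.card_fun, ZMod.card, Fintype.card_fin]
  norm_num

/-- if the weights of the classes are at most 48 and add up to `48 * 2 ^ 24`, then every class
has weight 48 -/
theorem fiber_all (T : Finset (Fin 24 → ℤ)) (w : (Fin 24 → ℤ) → ℕ)
    (hbound : ∀ c : Fin 24 → ZMod 2,
      ∑ y ∈ T.filter (fun y => (fun i => ((y i : ℤ) : ZMod 2)) = c), w y ≤ 48)
    (hsum : ∑ y ∈ T, w y = 805306368) (c : Fin 24 → ZMod 2) :
    ∑ y ∈ T.filter (fun y => (fun i => ((y i : ℤ) : ZMod 2)) = c), w y = 48 := by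
  have hfib := Finset.sum_fiberwise T (fun y : Fin 24 → ℤ => (fun i => ((y i : ℤ) : ZMod 2))) w
  have e48 : ∑ _c : Fin 24 → ZMod 2, (48 : ℕ) = 805306368 := by
    rw [Finset.sum_const, Finset.card_univ, card_cls, smul_eq_mul]
  have htot : ∑ c : Fin 24 → ZMod 2,
      ∑ y ∈ T.filter (fun y => (fun i => ((y i : ℤ) : ZMod 2)) = c), w y =
      ∑ _c : Fin 24 → ZMod 2, (48 : ℕ) := hfib.trans (hsum.trans e48.symm)
  exact (Finset.sum_eq_sum_iff_of_le (s := (Finset.univ : Finset (Fin 24 → ZMod 2)))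
    (fun c _ => hbound c)).1 htot c (Finset.mem_univ c)

/-- every class of vectors of norm 8 modulo 2 has exactly 48 members -/
theorem class48 (hsymm : B.IsSymm) (hpos : ∀ x : Fin 24 → ℤ, x ≠ 0 → 0 < x ⬝ᵥ (B *ᵥ x))
    (heven : ∀ x : Fin 24 → ℤ, (2 : ℤ) ∣ x ⬝ᵥ (B *ᵥ x))
    (h2 : ∀ x : Fin 24 → ℤ, x ⬝ᵥ (B *ᵥ x) ≠ 2)
    (h4 : {x : Fin 24 → ℤ | x ⬝ᵥ (B *ᵥ x) = 4}.ncard = 196560)
    (h6 : {x : Fin 24 → ℤ | x ⬝ᵥ (B *ᵥ x) = 6}.ncard = 16773120)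
    (h8 : {x : Fin 24 → ℤ | x ⬝ᵥ (B *ᵥ x) = 8}.ncard = 398034000)
    (x : Fin 24 → ℤ) (hx : x ⬝ᵥ (B *ᵥ x) = 8) :
    {y : Fin 24 → ℤ | y ⬝ᵥ (B *ᵥ y) = 8 ∧ ∀ i, (2 : ℤ) ∣ (x - y) i}.ncard = 48 := by
  classical
  obtain ⟨T, mT, sT⟩ := shell_total B h4 h6 h8
  have hbound : ∀ c : Fin 24 → ZMod 2,
      ∑ y ∈ T.filter (fun y => (fun i => ((y i : ℤ) : ZMod 2)) = c),
        clsWt (y ⬝ᵥ (B *ᵥ y)) ≤ 48 := by
    intro c
    apply class_bound B hsymm hpos heven h2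
    · intro y hy
      exact (mT y).1 (Finset.mem_filter.1 hy).1
    · intro y hy z hz
      exact (mod2_iff y z).1
        ((Finset.mem_filter.1 hy).2.trans (Finset.mem_filter.1 hz).2.symm)
  have h48 : ∑ y ∈ T.filter (fun y => (fun i => ((y i : ℤ) : ZMod 2)) =
      (fun i => ((x i : ℤ) : ZMod 2))), clsWt (y ⬝ᵥ (B *ᵥ y)) = 48 :=
    fiber_all T (fun y => clsWt (y ⬝ᵥ (B *ᵥ y))) hbound sT _
  have hxT : x ∈ T := (mT x).2 (Or.inr (Or.inr (Or.inr hx)))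
  have hq0 : (0 : Fin 24 → ℤ) ⬝ᵥ (B *ᵥ 0) = 0 := by simp
  have hle : ∀ y ∈ T, y ⬝ᵥ (B *ᵥ y) ≤ 8 := by
    intro y hy
    rcases (mT y).1 hy with h | h | h | h
    · rw [h, hq0]
      norm_num
    · omega
    · omega
    · omega
  have hq8 : ∀ y ∈ T.filter (fun y => (fun i => ((y i : ℤ) : ZMod 2)) =
      (fun i => ((x i : ℤ) : ZMod 2))), y ⬝ᵥ (B *ᵥ y) = 8 := by
    intro y hy
    rw [Finset.mem_filter] at hy
    rcases short_cong B hsymm hpos heven h2 x y (hle x hxT) (hle y hy.1)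
      ((mod2_iff x y).1 hy.2.symm) with h | h | ⟨_, h, _⟩
    · rw [h]
      exact hx
    · rw [h, qf_neg]
      exact hx
    · exact h
  have hw : ∀ y ∈ T.filter (fun y => (fun i => ((y i : ℤ) : ZMod 2)) =
      (fun i => ((x i : ℤ) : ZMod 2))), clsWt (y ⬝ᵥ (B *ᵥ y)) = 1 := by
    intro y hy
    rw [hq8 y hy]
    rfl
  have h48' : ∑ y ∈ T.filter (fun y => (fun i => ((y i : ℤ) : ZMod 2)) =
      (fun i => ((x i : ℤ) : ZMod 2))), clsWt (y ⬝ᵥ (B *ᵥ y)) = 48 := h48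
  rw [Finset.sum_congr rfl hw, Finset.sum_const, smul_eq_mul, mul_one] at h48'
  have hset : {y : Fin 24 → ℤ | y ⬝ᵥ (B *ᵥ y) = 8 ∧ ∀ i, (2 : ℤ) ∣ (x - y) i} =
      ((T.filter (fun y => (fun i => ((y i : ℤ) : ZMod 2)) =
        (fun i => ((x i : ℤ) : ZMod 2))) : Finset (Fin 24 → ℤ)) : Set (Fin 24 → ℤ)) := by
    ext y
    rw [Finset.mem_coe, Finset.mem_filter]
    constructor
    · rintro ⟨h1, h2'⟩
      exact ⟨(mT y).2 (Or.inr (Or.inr (Or.inr h1))), ((mod2_iff x y).2 h2').symm⟩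
    · rintro ⟨h1, h2'⟩
      exact ⟨hq8 y (Finset.mem_filter.2 ⟨h1, h2'⟩), (mod2_iff x y).1 h2'.symm⟩
  rw [hset, Set.ncard_coe_finset]
  exact h48'

end ClassCount

end Cfsg.Agent.Helper28
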