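import Cfsg.Agent.Helper28.LeechCount

/-!
The number of lattice vectors of sum of squares 64.
-/

set_option autoImplicit false

namespace Cfsg.Agent.Helper28

open Cfsg

theorem coord_bound64 {x : GolayPt → ℤ} (hn : ∑ i, x i ^ 2 = 64) (i : GolayPt) :
    x i ∈ Finset.Icc (-8 : ℤ) 8 := by
  have h := sq_le_of_sum hn i
  rw [Finset.mem_Icc]
  constructor <;> nlinarith

theorem num64 :
    (gCnt (Finset.Icc (-8) 8) 0 0 64 + 759 * gCnt (Finset.Icc (-8) 8) 0 8 64 +
      2576 * gCnt (Finset.Icc (-8) 8) 0 12 64 + 759 * gCnt (Finset.Icc (-8) 8) 0 16 64 +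
        gCnt (Finset.Icc (-8) 8) 0 24 64) +
      (gCnt (Finset.Icc (-8) 8) 1 0 64 + 759 * gCnt (Finset.Icc (-8) 8) 1 8 64 +
        2576 * gCnt (Finset.Icc (-8) 8) 1 12 64 + 759 * gCnt (Finset.Icc (-8) 8) 1 16 64 +
          gCnt (Finset.Icc (-8) 8) 1 24 64) = 398034000 := by
  decide +kernel

/-- the number of lattice vectors of sum of squares 64 -/
theorem count64 :
    {x : GolayPt → ℤ | x ∈ leechLattice ∧ sqNorm x = 64}.ncard = 398034000 := by
  have hset : {x : GolayPt → ℤ | x ∈ leechLattice ∧ sqNorm x = 64} =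
      {x : GolayPt → ℤ | x ∈ leechLattice ∧ ∑ i, x i ^ 2 = ((64 : ℕ) : ℤ) ∧
        ∀ i, x i ∈ Finset.Icc (-8 : ℤ) 8} := by
    ext x
    constructor
    · rintro ⟨hx, hn⟩
      have hn' : ∑ i, x i ^ 2 = (64 : ℤ) := hn
      exact ⟨hx, by rw [hn']; norm_num, fun i => coord_bound64 hn' i⟩
    · rintro ⟨hx, hn, _⟩
      refine ⟨hx, ?_⟩
      show ∑ i, x i ^ 2 = 64
      rw [hn]
      norm_num
  rw [hset, count_lattice _ (Finset.Subset.refl _) 64]
  exact num64

end Cfsg.Agent.Helper28
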