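import Cfsg.Agent.Helper28.CrossCard
import Cfsg.Agent.Helper28.Count64

/-!
The order of the automorphism group of the lattice: it permutes the crosses transitively, and
the stabiliser of the standard cross is the monomial group.
-/

set_option autoImplicit false

namespace Cfsg.Agent.Helper28

open Cfsg
open scoped Pointwise

/-- the standard cross inside the lattice -/
def stdSub : Set leechLattice := {v | (v : GolayPt → ℤ) ∈ stdCross}

/-- the lattice vectors of sum of squares 64 -/
def n64 : Set leechLattice := {v | sqNorm (v : GolayPt → ℤ) = 64}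

theorem crossSub_e8 : crossSub (leechE none) = stdSub := by
  ext v
  have h := cross_eq_image (leechE none)
  rw [leechE_eq_single, cross_single] at h
  constructor
  · intro hv
    show (v : GolayPt → ℤ) ∈ stdCross
    rw [h]
    exact ⟨v, hv, rfl⟩
  · intro hv
    have hv' : (v : GolayPt → ℤ) ∈ Subtype.val '' crossSub (leechE none) := by
      rw [← h]
      exact hv
    obtain ⟨w, hw, e⟩ := hv'
    rw [← Subtype.ext e]
    exact hw

theorem smul_stdSub (g : Co0) :
    g • stdSub = crossSub ((g : Equiv.Perm leechLattice) (leechE none)) := by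
  rw [crossSub_map, crossSub_e8]
  rfl

theorem orbit_eq : MulAction.orbit Co0 stdSub = crossSub '' n64 := by
  ext c
  constructor
  · rintro ⟨g, rfl⟩
    refine ⟨(g : Equiv.Perm leechLattice) (leechE none), ?_, (smul_stdSub g).symm⟩
    show sqNorm _ = 64
    rw [g.2.2, leechE_eq_single, sqNorm_single]
    norm_num
  · rintro ⟨v, hv, rfl⟩
    have he : ∑ i, ((leechE none : leechLattice) : GolayPt → ℤ) i ^ 2 = 64 := by
      have h := sqNorm_single none 8
      rw [← leechE_eq_single] at h
      unfold sqNorm at h
      rw [h]
      norm_num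
    obtain ⟨_, g, hg⟩ := trans64 _ _ (leechE none).2 he v.2 hv
    refine ⟨g, ?_⟩
    show g • stdSub = crossSub v
    rw [smul_stdSub]
    congr 1
    exact Subtype.ext hg

theorem stdSub_ncard : stdSub.ncard = 48 := by
  rw [← crossSub_e8, ← Set.ncard_image_of_injective _ Subtype.val_injective, ← cross_eq_image,
    leechE_eq_single, cross_single, stdCross_ncard]

theorem mem_stabilizer_iff_crossStab (g : Co0) :
    g ∈ MulAction.stabilizer Co0 stdSub ↔ CrossStab g := by
  rw [MulAction.mem_stabilizer_iff]
  constructor
  · intro h v hv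
    have hv' : v ∈ stdSub := hv
    have h1 : g • v ∈ g • stdSub := Set.smul_mem_smul_set hv'
    rw [h] at h1
    exact h1
  · intro h
    have hfin : stdSub.Finite := Set.finite_of_ncard_ne_zero (by rw [stdSub_ncard]; norm_num)
    apply Set.eq_of_subset_of_ncard_le
    · rintro w ⟨v, hv, rfl⟩
      exact h v hv
    · have h1 : (g • stdSub).ncard = stdSub.ncard :=
        Set.ncard_image_of_injective _ (MulAction.injective g)
      exact le_of_eq h1.symm
    · exact hfin

theorem crossSub_eq_of_mem {v w : leechLattice} (h : w ∈ crossSub v) :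
    crossSub w = crossSub v := by
  obtain ⟨hn, z, e⟩ := h
  ext u
  constructor
  · rintro ⟨hn', z', e'⟩
    refine ⟨hn'.trans hn, z + z', ?_⟩
    rw [nsmul_add, ← e, ← e']
    abel
  · rintro ⟨hn', z', e'⟩
    refine ⟨hn'.trans hn.symm, z' - z, ?_⟩
    rw [nsmul_sub, ← e, ← e']
    abel

theorem crossSub_self (v : leechLattice) : v ∈ crossSub v :=
  ⟨rfl, 0, by rw [sub_self, smul_zero]⟩

theorem crossSub_ncard (v : leechLattice) (hv : sqNorm (v : GolayPt → ℤ) = 64) :
    (crossSub v).ncard = 48 := by
  rw [← Set.ncard_image_of_injective _ Subtype.val_injective, ← cross_eq_image]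
  exact cross_ncard _ v.2 hv

theorem n64_ncard : n64.ncard = 398034000 := by
  rw [← count64, ← Set.ncard_image_of_injective n64 Subtype.val_injective]
  congr 1
  ext x
  constructor
  · rintro ⟨v, hv, rfl⟩
    exact ⟨v.2, hv⟩
  · rintro ⟨hx, hn⟩
    exact ⟨⟨x, hx⟩, hn, rfl⟩

/-- the number of crosses -/
theorem card_classes : (crossSub '' n64).ncard = 8292375 := by
  classical
  have hfin : n64.Finite := Set.finite_of_ncard_ne_zero (by rw [n64_ncard]; norm_num)
  have hcard : hfin.toFinset.card = 398034000 := by
    rw [← Set.ncard_eq_toFinset_card n64 hfin, n64_ncard]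
  have himg : crossSub '' n64 = ↑(hfin.toFinset.image crossSub) := by
    rw [Finset.coe_image, Set.Finite.coe_toFinset]
  rw [himg, Set.ncard_coe_finset]
  have hsum := Finset.card_eq_sum_card_image crossSub hfin.toFinset
  have hfib : ∀ c ∈ hfin.toFinset.image crossSub,
      (hfin.toFinset.filter (fun v => crossSub v = c)).card = 48 := by
    intro c hc
    obtain ⟨v₀, hv₀, rfl⟩ := Finset.mem_image.1 hc
    have hv₀' : v₀ ∈ n64 := (Set.Finite.mem_toFinset hfin).1 hv₀
    have hset : (↑(hfin.toFinset.filter (fun v => crossSub v = crossSub v₀)) :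
        Set leechLattice) = crossSub v₀ := by
      ext v
      rw [Finset.mem_coe, Finset.mem_filter, Set.Finite.mem_toFinset]
      constructor
      · rintro ⟨_, h⟩
        rw [← h]
        exact crossSub_self v
      · intro h
        refine ⟨?_, crossSub_eq_of_mem h⟩
        show sqNorm _ = 64
        rw [h.1]
        exact hv₀'
    rw [← Set.ncard_coe_finset, hset, crossSub_ncard v₀ hv₀']
  rw [Finset.sum_congr rfl hfib, Finset.sum_const, smul_eq_mul, hcard] at hsum
  omega

/-- the order of the automorphism group of the lattice -/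
theorem co0_card : Nat.card Co0 = 8315553613086720000 := by
  have h1 := Subgroup.card_eq_card_quotient_mul_card_subgroup (MulAction.stabilizer Co0 stdSub)
  have h2 : Nat.card (Co0 ⧸ MulAction.stabilizer Co0 stdSub) = 8292375 := by
    rw [← Nat.card_congr (MulAction.orbitEquivQuotientStabilizer Co0 stdSub),
      Nat.card_coe_set_eq, orbit_eq, card_classes]
  have h3 : Nat.card (MulAction.stabilizer Co0 stdSub) = 4096 * 244823040 := by
    rw [← card_crossStab]
    exact Nat.card_congr (Equiv.subtypeEquivRight mem_stabilizer_iff_crossStab)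
  have h4 : Nat.card Co0 = 8292375 * (4096 * 244823040) := by
    rw [h1, h2, h3]
  exact h4.trans (by norm_num)

end Cfsg.Agent.Helper28
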