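import Cfsg.Agent.Helper28.Co0Elts
import Cfsg.Agent.Helper3.Leech.Basic
import Cfsg.Agent.Helper3.Golay.M24Trans

/-!
Coordinate permutations and sign changes as automorphisms of the lattice of the definitions,
and the centre of the automorphism group.
-/

set_option autoImplicit false

namespace Cfsg.Agent.Helper28

open Cfsg

/-- a coordinate permutation from the group of the code, as a lattice automorphism -/
def co0Perm (σ : Equiv.Perm GolayPt) (hσ : σ ∈ M24) : Co0 :=
  ⟨{ toFun := fun v => ⟨fun i => (v : GolayPt → ℤ) (σ i),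
        Cfsg.Agent.Helper3.leech_perm σ hσ v v.2⟩
     invFun := fun v => ⟨fun i => (v : GolayPt → ℤ) (σ⁻¹ i),
        Cfsg.Agent.Helper3.leech_perm σ⁻¹ (inv_mem hσ) v v.2⟩
     left_inv := by
       intro v
       apply Subtype.ext
       funext i
       show (v : GolayPt → ℤ) (σ (σ⁻¹ i)) = (v : GolayPt → ℤ) i
       simp
     right_inv := by
       intro v
       apply Subtype.ext
       funext i
       show (v : GolayPt → ℤ) (σ⁻¹ (σ i)) = (v : GolayPt → ℤ) i
       simp }, by
    constructor
    · intro v w
      apply Subtype.ext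
      funext i
      rfl
    · intro v
      show sqNorm (fun i => (v : GolayPt → ℤ) (σ i)) = sqNorm (v : GolayPt → ℤ)
      unfold sqNorm
      exact Equiv.sum_comp σ (fun j => (v : GolayPt → ℤ) j ^ 2)⟩

theorem co0Perm_apply (σ : Equiv.Perm GolayPt) (hσ : σ ∈ M24) (v : leechLattice) (i : GolayPt) :
    (((co0Perm σ hσ : Equiv.Perm leechLattice) v : leechLattice) : GolayPt → ℤ) i =
      (v : GolayPt → ℤ) (σ i) := rfl

/-- the sign change on the support of a code word, as a lattice automorphism -/
def co0Sign (c : Finset GolayPt) (hc : c ∈ supports (golayCode : Set (GolayPt → ZMod 2))) :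
    Co0 :=
  ⟨{ toFun := fun v => ⟨fun i => if i ∈ c then -(v : GolayPt → ℤ) i else (v : GolayPt → ℤ) i,
        Cfsg.Agent.Helper3.leech_sign c hc v v.2⟩
     invFun := fun v => ⟨fun i => if i ∈ c then -(v : GolayPt → ℤ) i else (v : GolayPt → ℤ) i,
        Cfsg.Agent.Helper3.leech_sign c hc v v.2⟩
     left_inv := by
       intro v
       apply Subtype.ext
       funext i
       show (if i ∈ c then -(if i ∈ c then -(v : GolayPt → ℤ) i else (v : GolayPt → ℤ) i)
         else (if i ∈ c then -(v : GolayPt → ℤ) i else (v : GolayPt → ℤ) i)) = (v : GolayPt → ℤ) i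
       split_ifs <;> simp
     right_inv := by
       intro v
       apply Subtype.ext
       funext i
       show (if i ∈ c then -(if i ∈ c then -(v : GolayPt → ℤ) i else (v : GolayPt → ℤ) i)
         else (if i ∈ c then -(v : GolayPt → ℤ) i else (v : GolayPt → ℤ) i)) = (v : GolayPt → ℤ) i
       split_ifs <;> simp }, by
    constructor
    · intro v w
      apply Subtype.ext
      funext i
      show (if i ∈ c then -((v : GolayPt → ℤ) i + (w : GolayPt → ℤ) i)
          else ((v : GolayPt → ℤ) i + (w : GolayPt → ℤ) i)) =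
        (if i ∈ c then -(v : GolayPt → ℤ) i else (v : GolayPt → ℤ) i) +
          (if i ∈ c then -(w : GolayPt → ℤ) i else (w : GolayPt → ℤ) i)
      split_ifs <;> ring
    · intro v
      show sqNorm (fun i => if i ∈ c then -(v : GolayPt → ℤ) i else (v : GolayPt → ℤ) i) =
        sqNorm (v : GolayPt → ℤ)
      unfold sqNorm
      apply Finset.sum_congr rfl
      intro i _
      beta_reduce
      split_ifs <;> ring⟩

theorem co0Sign_apply (c : Finset GolayPt)
    (hc : c ∈ supports (golayCode : Set (GolayPt → ZMod 2))) (v : leechLattice) (i : GolayPt) :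
    (((co0Sign c hc : Equiv.Perm leechLattice) v : leechLattice) : GolayPt → ℤ) i =
      if i ∈ c then -(v : GolayPt → ℤ) i else (v : GolayPt → ℤ) i := rfl

/-- eight times a coordinate vector, as a lattice vector -/
def leechE (j : GolayPt) : leechLattice :=
  ⟨fun i => if i = j then 8 else 0, (mem_leechLattice _).2
    (Spor.mem_leechSet_of_const_mod_four _ 0 0 (Int.ModEq.refl _)
      (fun i => by
        show (if i = j then (8 : ℤ) else 0) ≡ 0 [ZMOD 4]
        split_ifs <;> decide)
      (by
        show ∑ i, (if i = j then (8 : ℤ) else 0) ≡ 4 * 0 [ZMOD 8]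
        rw [Finset.sum_ite_eq' Finset.univ j (fun _ => (8 : ℤ)), if_pos (Finset.mem_univ j)]
        decide))⟩

theorem leechE_apply (j i : GolayPt) :
    (leechE j : GolayPt → ℤ) i = if i = j then 8 else 0 := rfl

/-- the code separates points -/
theorem code_sep (i j : GolayPt) (hij : i ≠ j) : ∃ w ∈ golayCode, w j ≠ 0 ∧ w i = 0 := by
  obtain ⟨g, hg, h1, h2⟩ := Cfsg.Agent.Helper3.M24_trans2 (some 0) none j i (by decide)
    (Ne.symm hij)
  refine ⟨fun p => qrWord 0 (g⁻¹ p), (Cfsg.Agent.Helper3.mem_M24_iff g).1 hg _ qr_mem, ?_, ?_⟩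
  · show qrWord 0 (g⁻¹ j) ≠ 0
    rw [← h1]
    have e : g⁻¹ (g (some 0)) = some 0 := by simp
    rw [e]
    decide
  · show qrWord 0 (g⁻¹ i) = 0
    rw [← h2]
    have e : g⁻¹ (g none) = none := by simp
    rw [e]
    rfl

theorem center_apply_E (z : Co0) (hz : ∀ g : Co0, g * z = z * g) (j i : GolayPt) (hij : i ≠ j) :
    (((z : Equiv.Perm leechLattice) (leechE j) : leechLattice) : GolayPt → ℤ) i = 0 := by
  obtain ⟨w, hw, hwj, hwi⟩ := code_sep i j hij
  have hc : support₂ w ∈ supports (golayCode : Set (GolayPt → ZMod 2)) := ⟨w, hw, rfl⟩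
  have hcomm := hz (co0Sign (support₂ w) hc)
  have h1 : (co0Sign (support₂ w) hc : Equiv.Perm leechLattice)
        ((z : Equiv.Perm leechLattice) (leechE j)) =
      (z : Equiv.Perm leechLattice)
        ((co0Sign (support₂ w) hc : Equiv.Perm leechLattice) (leechE j)) :=
    congrArg (fun g : Co0 => (g : Equiv.Perm leechLattice) (leechE j)) hcomm
  have h2 : (co0Sign (support₂ w) hc : Equiv.Perm leechLattice) (leechE j) = -leechE j := by
    apply Subtype.ext
    funext k
    rw [co0Sign_apply]
    show (if k ∈ support₂ w then -(leechE j : GolayPt → ℤ) k else (leechE j : GolayPt → ℤ) k) =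
      -(leechE j : GolayPt → ℤ) k
    by_cases hk : k = j
    · rw [hk, if_pos ((mem_support₂ w j).2 hwj)]
    · have hk2 : (leechE j : GolayPt → ℤ) k = 0 := by rw [leechE_apply, if_neg hk]
      rw [hk2]
      simp
  rw [h2, co0_map_neg] at h1
  have h3 := congrArg (fun v : leechLattice => (v : GolayPt → ℤ) i) h1
  simp only [co0Sign_apply] at h3
  have hi : i ∉ support₂ w := by
    rw [mem_support₂]
    simp [hwi]
  rw [if_neg hi] at h3
  have h4 : ((-(z : Equiv.Perm leechLattice) (leechE j) : leechLattice) : GolayPt → ℤ) i =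
      -(((z : Equiv.Perm leechLattice) (leechE j) : leechLattice) : GolayPt → ℤ) i := rfl
  rw [h4] at h3
  omega

theorem sqNorm_leechE (j : GolayPt) : sqNorm (leechE j : GolayPt → ℤ) = 64 := by
  unfold sqNorm
  rw [Finset.sum_eq_single j]
  · rw [leechE_apply, if_pos rfl]
    norm_num
  · intro i _ hi
    rw [leechE_apply, if_neg hi]
    norm_num
  · intro h
    exact absurd (Finset.mem_univ j) h

theorem center_E_eq (z : Co0) (hz : ∀ g : Co0, g * z = z * g) (j : GolayPt) :
    (z : Equiv.Perm leechLattice) (leechE j) = leechE j ∨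
      (z : Equiv.Perm leechLattice) (leechE j) = -leechE j := by
  have h0 : ∀ i, i ≠ j →
      (((z : Equiv.Perm leechLattice) (leechE j) : leechLattice) : GolayPt → ℤ) i = 0 :=
    fun i hi => center_apply_E z hz j i hi
  have hn : sqNorm (((z : Equiv.Perm leechLattice) (leechE j) : leechLattice) : GolayPt → ℤ) =
      sqNorm (leechE j : GolayPt → ℤ) := z.2.2 (leechE j)
  have e2 : sqNorm (((z : Equiv.Perm leechLattice) (leechE j) : leechLattice) : GolayPt → ℤ) =
      (((z : Equiv.Perm leechLattice) (leechE j) : leechLattice) : GolayPt → ℤ) j ^ 2 := by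
    unfold sqNorm
    rw [Finset.sum_eq_single j]
    · intro i _ hi
      rw [h0 i hi]
      norm_num
    · intro h
      exact absurd (Finset.mem_univ j) h
  rw [e2, sqNorm_leechE] at hn
  have h8 : (((z : Equiv.Perm leechLattice) (leechE j) : leechLattice) : GolayPt → ℤ) j = 8 ∨
      (((z : Equiv.Perm leechLattice) (leechE j) : leechLattice) : GolayPt → ℤ) j = -8 := by
    have h' : ((((z : Equiv.Perm leechLattice) (leechE j) : leechLattice) : GolayPt → ℤ) j - 8) *
        ((((z : Equiv.Perm leechLattice) (leechE j) : leechLattice) : GolayPt → ℤ) j + 8) = 0 := by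
      linear_combination hn
    rcases mul_eq_zero.1 h' with h | h
    · left
      linarith
    · right
      linarith
  rcases h8 with h8 | h8
  · left
    apply Subtype.ext
    funext i
    rw [leechE_apply]
    by_cases hi : i = j
    · rw [if_pos hi, hi, h8]
    · rw [if_neg hi, h0 i hi]
  · right
    apply Subtype.ext
    funext i
    show _ = -(leechE j : GolayPt → ℤ) i
    rw [leechE_apply]
    by_cases hi : i = j
    · rw [if_pos hi, hi, h8]
    · rw [if_neg hi, h0 i hi]
      norm_num

theorem center_E_const (z : Co0) (hz : ∀ g : Co0, g * z = z * g) (j k : GolayPt)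
    (h : (z : Equiv.Perm leechLattice) (leechE j) = leechE j) :
    (z : Equiv.Perm leechLattice) (leechE k) = leechE k := by
  obtain ⟨g, hg, hgk⟩ := Cfsg.Agent.Helper3.M24_trans1 k j
  have hp : (co0Perm g hg : Equiv.Perm leechLattice) (leechE j) = leechE k := by
    apply Subtype.ext
    funext i
    rw [co0Perm_apply, leechE_apply, leechE_apply]
    by_cases hi : i = k
    · rw [if_pos hi, hi, hgk, if_pos rfl]
    · rw [if_neg hi, if_neg]
      intro h'
      exact hi (g.injective (h'.trans hgk.symm))
  have hcomm := hz (co0Perm g hg)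
  have h1 : (co0Perm g hg : Equiv.Perm leechLattice) ((z : Equiv.Perm leechLattice) (leechE j)) =
      (z : Equiv.Perm leechLattice) ((co0Perm g hg : Equiv.Perm leechLattice) (leechE j)) :=
    congrArg (fun g' : Co0 => (g' : Equiv.Perm leechLattice) (leechE j)) hcomm
  rw [h, hp] at h1
  exact h1.symm

theorem eight_smul_eq (v : leechLattice) :
    (8 : ℤ) • v = ∑ j, ((v : GolayPt → ℤ) j) • leechE j := by
  apply Subtype.ext
  funext i
  rw [AddSubgroup.coe_zsmul, AddSubgroup.val_finsetSum, Finset.sum_apply]
  simp only [AddSubgroup.coe_zsmul, Pi.smul_apply, smul_eq_mul, leechE_apply, mul_ite, mul_zero,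
    Finset.sum_ite_eq, Finset.mem_univ, if_true]
  ring

theorem center_eq_one (z : Co0) (hz : ∀ g : Co0, g * z = z * g)
    (h : (z : Equiv.Perm leechLattice) (leechE none) = leechE none) : z = 1 := by
  have hE : ∀ k, (z : Equiv.Perm leechLattice) (leechE k) = leechE k :=
    fun k => center_E_const z hz none k h
  let f : leechLattice →+ leechLattice := AddMonoidHom.mk' (z : Equiv.Perm leechLattice) z.2.1
  have hf : ∀ v, f v = (z : Equiv.Perm leechLattice) v := fun v => rfl
  apply Subtype.ext
  apply Equiv.ext
  intro v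
  show (z : Equiv.Perm leechLattice) v = v
  have h1 : f ((8 : ℤ) • v) = (8 : ℤ) • v := by
    rw [eight_smul_eq v, map_sum]
    apply Finset.sum_congr rfl
    intro j _
    rw [map_zsmul, hf, hE j]
  rw [map_zsmul, hf] at h1
  apply Subtype.ext
  funext i
  have h2 := congrArg (fun w : leechLattice => (w : GolayPt → ℤ) i) h1
  simp only [AddSubgroup.coe_zsmul, Pi.smul_apply, smul_eq_mul] at h2
  omega

theorem center_co0 (z : Co0) (hz : ∀ g : Co0, g * z = z * g) : z = 1 ∨ z = co0Neg := by
  rcases center_E_eq z hz none with h | h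
  · exact Or.inl (center_eq_one z hz h)
  · right
    have hz' : ∀ g : Co0, g * (co0Neg * z) = (co0Neg * z) * g := by
      intro g
      rw [← mul_assoc, ← co0Neg_central g, mul_assoc, hz g, mul_assoc]
    have h' : ((co0Neg * z : Co0) : Equiv.Perm leechLattice) (leechE none) = leechE none := by
      show -((z : Equiv.Perm leechLattice) (leechE none)) = leechE none
      rw [h, neg_neg]
    have h1 := center_eq_one (co0Neg * z) hz' h'
    calc z = co0Neg * (co0Neg * z) := by rw [← mul_assoc, co0Neg_sq, one_mul]
      _ = co0Neg := by rw [h1, mul_one]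

theorem card_center_co0 : Nat.card (Subgroup.center Co0) = 2 := by
  have hset : (Subgroup.center Co0 : Set Co0) = {1, co0Neg} := by
    ext z
    constructor
    · intro hz
      have hz' : ∀ g : Co0, g * z = z * g := fun g => Subgroup.mem_center_iff.1 hz g
      rcases center_co0 z hz' with h | h
      · exact Or.inl h
      · exact Or.inr h
    · rintro (h | h)
      · rw [h]
        exact (Subgroup.center Co0).one_mem
      · rw [h]
        exact Subgroup.mem_center_iff.2 (fun g => (co0Neg_central g).symm)
  have h1 : Nat.card (Subgroup.center Co0) = Set.ncard (Subgroup.center Co0 : Set Co0) :=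
    Nat.card_coe_set_eq _
  rw [h1, hset]
  exact Set.ncard_pair (Ne.symm co0Neg_ne_one)

end Cfsg.Agent.Helper28
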