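import Cfsg.Agent.Helper28.LeechAbs

/-!
An index `|C|` subgroup of the lattice of a Golay-like code containing twice the lattice,
all of whose vectors have sum of squares divisible by 32 (abstract index type).
-/

set_option autoImplicit false
set_option linter.unusedSectionVars false

namespace Cfsg.Agent.Helper28

open Cfsg

section LeechIdx

variable {ι : Type*} [Fintype ι] [DecidableEq ι] (C : Submodule (ZMod 2) (ι → ZMod 2))

theorem LP_congr (h1 : (1 : ι → ZMod 2) ∈ C) {x : ι → ℤ} {m m' : ℤ} (h : LP C x m)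
    (hm : m' ≡ m [ZMOD 2]) : LP C x m' := by
  obtain ⟨hpar, hsum, ha⟩ := h
  refine ⟨?_, ?_, ?_⟩
  · intro i
    have := hpar i
    unfold Int.ModEq at *
    omega
  · unfold Int.ModEq at *
    omega
  · have e : halfWord x m' =
        halfWord x m + (((m - m') / 2 : ℤ) : ZMod 2) • (1 : ι → ZMod 2) := by
      ext i
      have := hpar i
      unfold Int.ModEq at this hm
      simp only [halfWord, Pi.add_apply, Pi.smul_apply, Pi.one_apply, smul_eq_mul, mul_one]
      rw [← Int.cast_add]
      congr 1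
      omega
    rw [e]
    exact C.add_mem ha (C.smul_mem _ h1)

/-- the code word attached to a lattice vector and a point -/
def lword (p : ι) (x : ι → ℤ) : ι → ZMod 2 :=
  halfWord x (x p) + ((x p : ℤ) : ZMod 2) • (1 : ι → ZMod 2)

theorem lword_mem (h1 : (1 : ι → ZMod 2) ∈ C) {x : ι → ℤ} {m : ℤ} (h : LP C x m) (p : ι) :
    lword p x ∈ C :=
  C.add_mem (LP_congr C h1 h (h.1 p)).2.2 (C.smul_mem _ h1)

theorem lword_add {x y : ι → ℤ} {m n : ℤ} (hx : LP C x m) (hy : LP C y n) (p : ι) :
    lword p (x + y) = lword p x + lword p y := by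
  ext i
  have h1 := hx.1 i
  have h2 := hx.1 p
  have h3 := hy.1 i
  have h4 := hy.1 p
  unfold Int.ModEq at h1 h2 h3 h4
  simp only [lword, halfWord, Pi.add_apply, Pi.smul_apply, Pi.one_apply, smul_eq_mul, mul_one]
  have e : (x i + y i - (x p + y p)) / 2 = (x i - x p) / 2 + (y i - y p) / 2 := by omega
  rw [e]
  push_cast
  ring

theorem lword_eq_zero {x : ι → ℤ} {m : ℤ} (hx : LP C x m) (p : ι) (h0 : lword p x = 0) :
    x p % 2 = 0 ∧ ∀ i, x i % 4 = x p % 4 := by
  have hp : x p % 2 = 0 := by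
    have h := congrFun h0 p
    simp only [lword, halfWord, Pi.add_apply, Pi.smul_apply, Pi.one_apply, smul_eq_mul, mul_one,
      sub_self, Pi.zero_apply, Int.zero_ediv, Int.cast_zero, zero_add] at h
    exact (intCast_zmod2_eq_zero _).1 h
  refine ⟨hp, fun i => ?_⟩
  have h := congrFun h0 i
  simp only [lword, halfWord, Pi.add_apply, Pi.smul_apply, Pi.one_apply, smul_eq_mul, mul_one,
    Pi.zero_apply] at h
  rw [(intCast_zmod2_eq_zero (x p)).2 hp, add_zero, intCast_zmod2_eq_zero] at h
  have h1 := hx.1 i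
  have h2 := hx.1 p
  unfold Int.ModEq at h1 h2
  omega

theorem norm_dvd_of_const (hι : Fintype.card ι = 24) (x : ι → ℤ) (c : ℤ) (hc : c = 0 ∨ c = 2)
    (hx : ∀ i, x i % 4 = c) (hsum : (∑ i, x i) % 8 = 0) : (32 : ℤ) ∣ ∑ i, x i ^ 2 := by
  obtain ⟨y, hy⟩ : ∃ y : ι → ℤ, ∀ i, x i = c + 4 * y i :=
    ⟨fun i => (x i - c) / 4, fun i => by
      have := hx i
      show x i = c + 4 * ((x i - c) / 4)
      omega⟩
  have e1 : ∑ i, x i = 24 * c + 4 * ∑ i, y i := by
    rw [Finset.sum_congr rfl (fun i _ => hy i), Finset.sum_add_distrib, ← Finset.mul_sum]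
    simp [hι]
  have e2 : ∑ i, x i ^ 2 = 24 * c ^ 2 + 8 * c * ∑ i, y i + 16 * ∑ i, y i ^ 2 := by
    have e : ∀ i, x i ^ 2 = c ^ 2 + 8 * c * y i + 16 * y i ^ 2 := by
      intro i
      rw [hy i]
      ring
    rw [Finset.sum_congr rfl (fun i _ => e i), Finset.sum_add_distrib, Finset.sum_add_distrib,
      ← Finset.mul_sum, ← Finset.mul_sum]
    simp [hι]
  have e3 : (∑ i, y i ^ 2) % 2 = (∑ i, y i) % 2 := by
    have h1 : ∀ i, (2 : ℤ) ∣ y i ^ 2 - y i := by
      intro i
      obtain ⟨t, ht⟩ := Int.even_mul_pred_self (y i)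
      exact ⟨t, by linear_combination ht⟩
    have h2 : (2 : ℤ) ∣ ∑ i, (y i ^ 2 - y i) := Finset.dvd_sum (fun i _ => h1 i)
    rw [Finset.sum_sub_distrib] at h2
    omega
  rcases hc with rfl | rfl
  · norm_num at e1 e2
    omega
  · norm_num at e1 e2
    omega

/-- the lift of a word with coordinates 0 and 2 -/
def twoLift (c : ι → ZMod 2) : ι → ℤ := fun i => if c i = 0 then 0 else 2

theorem halfWord_twoLift (c : ι → ZMod 2) : halfWord (twoLift c) 0 = c := by
  ext i
  simp only [halfWord, twoLift, sub_zero]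
  by_cases hi : c i = 0
  · rw [if_pos hi, hi]
    simp
  · rw [if_neg hi]
    have h1 : c i = 1 := by
      revert hi
      generalize c i = a
      revert a
      decide
    rw [h1]
    norm_num

theorem LP_twoLift (h : GolayLike C) {c : ι → ZMod 2} (hc : c ∈ C) : LP C (twoLift c) 0 := by
  refine ⟨?_, ?_, ?_⟩
  · intro i
    simp only [twoLift]
    split_ifs <;> decide
  · have e : ∑ i, twoLift c i = 2 * (hammingNorm c : ℤ) := by
      have e1 : ∀ i, twoLift c i = 2 * (if c i ≠ 0 then 1 else 0) := by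
        intro i
        simp only [twoLift]
        by_cases hi : c i = 0
        · simp [hi]
        · simp [hi]
      rw [Finset.sum_congr rfl (fun i _ => e1 i), ← Finset.mul_sum, Finset.sum_boole]
      rfl
    rw [e]
    rcases h.hwt c hc with hw | hw | hw | hw | hw <;> rw [hw] <;> decide
  · rw [halfWord_twoLift]
    exact hc

theorem lword_twoLift {c : ι → ZMod 2} (p : ι) (hp : c p = 0) :
    lword p (twoLift c) = c := by
  have e0 : twoLift c p = 0 := by simp [twoLift, hp]
  unfold lword
  rw [e0, halfWord_twoLift]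
  simp

/-- the vector with `-3` at one point and `1` elsewhere -/
def oddVec (p : ι) : ι → ℤ := fun i => if i = p then -3 else 1

theorem sum_oddVec (hι : Fintype.card ι = 24) (p : ι) : ∑ i, oddVec p i = 20 := by
  have e : ∀ i, oddVec p i = 1 - (if i = p then 4 else 0) := by
    intro i
    simp only [oddVec]
    split_ifs <;> norm_num
  rw [Finset.sum_congr rfl (fun i _ => e i), Finset.sum_sub_distrib, Finset.sum_ite_eq']
  simp [hι]

theorem LP_oddVec (hι : Fintype.card ι = 24) (p : ι) : LP C (oddVec p) 1 := by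
  refine ⟨?_, ?_, ?_⟩
  · intro i
    simp only [oddVec]
    split_ifs <;> decide
  · rw [sum_oddVec hι p]
    decide
  · have e : halfWord (oddVec p) 1 = 0 := by
      ext i
      simp only [halfWord, oddVec, Pi.zero_apply]
      rw [intCast_zmod2_eq_zero]
      split_ifs <;> norm_num
    rw [e]
    exact C.zero_mem

theorem lword_oddVec (p : ι) : lword p (oddVec p) = 1 := by
  have e0 : oddVec p p = -3 := by simp [oddVec]
  ext i
  simp only [lword, halfWord, e0, Pi.add_apply, Pi.smul_apply, Pi.one_apply, smul_eq_mul,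
    mul_one]
  have e1 : (((oddVec p i - -3) / 2 : ℤ) : ZMod 2) = 0 := by
    rw [intCast_zmod2_eq_zero]
    simp only [oddVec]
    split_ifs <;> norm_num
  rw [e1, zero_add]
  decide

theorem zmod2_add_add (a : ZMod 2) : 1 + (a + 1) = a := by
  revert a
  decide

theorem zmod2_add_self (a : ZMod 2) : a + a = 0 := by
  revert a
  decide

/-- the index subgroup -/
theorem exists_index (h : GolayLike C) (h1 : (1 : ι → ZMod 2) ∈ C) (p : ι) :
    ∃ A : AddSubgroup (ι → ℤ), A ≤ leechSub C h1 ∧
      (∀ v ∈ leechSub C h1, (2 : ℤ) • v ∈ A) ∧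
      (A.addSubgroupOf (leechSub C h1)).index = Nat.card C ∧
      ∀ v ∈ A, (32 : ℤ) ∣ ∑ i, v i ^ 2 := by
  have hLP : ∀ x ∈ leechSub C h1, ∃ m, LP C x m := fun x hx => (leech_iff C h1 x).1 hx
  let φ : leechSub C h1 →+ (ι → ZMod 2) :=
    { toFun := fun x => lword p (x : ι → ℤ)
      map_zero' := by
        ext i
        simp [lword, halfWord]
      map_add' := by
        intro x y
        obtain ⟨m, hm⟩ := hLP x x.2
        obtain ⟨n, hn⟩ := hLP y y.2
        exact lword_add C hm hn p }
  have hφ : ∀ x : leechSub C h1, φ x = lword p (x : ι → ℤ) := fun x => rfl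
  have hrange : (φ.range : Set (ι → ZMod 2)) = (C : Set (ι → ZMod 2)) := by
    ext c
    constructor
    · rintro ⟨x, rfl⟩
      obtain ⟨m, hm⟩ := hLP x x.2
      exact lword_mem C h1 hm p
    · intro hc
      by_cases hp : c p = 0
      · exact ⟨⟨twoLift c, (leech_iff C h1 _).2 ⟨0, LP_twoLift C h hc⟩⟩, lword_twoLift p hp⟩
      · have hc' : c + 1 ∈ C := C.add_mem hc h1
        have hp' : (c + 1) p = 0 := by
          simp only [Pi.add_apply, Pi.one_apply]
          revert hp
          generalize c p = a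
          revert a
          decide
        have hL1 := LP_oddVec C h.hcard p
        have hL2 := LP_twoLift C h hc'
        refine ⟨⟨oddVec p + twoLift (c + 1), (leech_iff C h1 _).2 ⟨_, LP_add C hL1 hL2⟩⟩, ?_⟩
        rw [hφ]
        show lword p (oddVec p + twoLift (c + 1)) = c
        rw [lword_add C hL1 hL2 p, lword_oddVec, lword_twoLift p hp']
        ext i
        simp only [Pi.add_apply, Pi.one_apply]
        exact zmod2_add_add _
  refine ⟨φ.ker.map (leechSub C h1).subtype, ?_, ?_, ?_, ?_⟩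
  · rintro _ ⟨x, _, rfl⟩
    exact x.2
  · intro v hv
    refine ⟨(⟨v, hv⟩ : leechSub C h1) + ⟨v, hv⟩, ?_, ?_⟩
    · show φ ((⟨v, hv⟩ : leechSub C h1) + ⟨v, hv⟩) = 0
      rw [map_add]
      ext i
      simp only [Pi.add_apply, Pi.zero_apply]
      exact zmod2_add_self _
    · ext i
      simp
      ring
  · have e : (φ.ker.map (leechSub C h1).subtype).addSubgroupOf (leechSub C h1) = φ.ker := by
      unfold AddSubgroup.addSubgroupOf
      exact AddSubgroup.comap_map_eq_self_of_injective (leechSub C h1).subtype_injective _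
    rw [e, AddSubgroup.index_ker]
    exact Nat.card_congr (Equiv.setCongr hrange)
  · rintro _ ⟨x, hx, rfl⟩
    obtain ⟨m, hm⟩ := hLP x x.2
    have h0 : lword p (x : ι → ℤ) = 0 := hx
    obtain ⟨hp2, h4⟩ := lword_eq_zero C hm p h0
    have hc : (x : ι → ℤ) p % 4 = 0 ∨ (x : ι → ℤ) p % 4 = 2 := by omega
    have hs : (∑ i, (x : ι → ℤ) i) % 8 = 0 := by
      have h5 := hm.2.1
      have h6 := hm.1 p
      unfold Int.ModEq at h5 h6
      omega
    exact norm_dvd_of_const h.hcard (x : ι → ℤ) _ hc h4 hs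

end LeechIdx

end Cfsg.Agent.Helper28
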