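import Cfsg.Agent.Helper28.Co0Center
import Cfsg.Agent.Helper28.LeechIdx
import Cfsg.Agent.Helper3.Golay.M24
import Cfsg.Prelude.Def_SporadicCombinatorics

/-!
The stabiliser of the standard cross in the automorphism group of the lattice of the
definitions is the monomial group of the code.
-/

set_option autoImplicit false

namespace Cfsg.Agent.Helper28

open Cfsg

/-- preservation of the standard cross -/
def CrossStab (g : Co0) : Prop :=
  ∀ v : leechLattice, (v : GolayPt → ℤ) ∈ stdCross →
    ((g • v : leechLattice) : GolayPt → ℤ) ∈ stdCross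

theorem leechE_eq_single (j : GolayPt) : (leechE j : GolayPt → ℤ) = Pi.single j 8 := by
  funext i
  rw [leechE_apply, Pi.single_apply]

theorem leechE_mem_stdCross (j : GolayPt) : (leechE j : GolayPt → ℤ) ∈ stdCross :=
  ⟨j, 8, Or.inl rfl, leechE_eq_single j⟩

theorem halfcast_neg (a : ℤ) (h : a % 2 = 0) :
    (((-a) / 2 : ℤ) : ZMod 2) = ((a / 2 : ℤ) : ZMod 2) := by
  rw [ZMod.intCast_eq_intCast_iff]
  unfold Int.ModEq
  push_cast
  omega

theorem twoLift_even (w : GolayPt → ZMod 2) (k : GolayPt) : twoLift w k % 2 = 0 := by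
  unfold twoLift
  split_ifs <;> rfl

theorem oddVec_cases (p k : GolayPt) : oddVec p k = 1 ∨ oddVec p k = -3 := by
  unfold oddVec
  split_ifs
  · exact Or.inr rfl
  · exact Or.inl rfl

theorem signedPerm_single (σ : Equiv.Perm GolayPt) (c : Finset GolayPt) (j : GolayPt) (s0 : ℤ) :
    signedPerm σ c (Pi.single j s0) = Pi.single (σ j) (if σ j ∈ c then -s0 else s0) := by
  funext i
  simp only [signedPerm, Pi.single_apply]
  by_cases hi : i = σ j
  · subst hi
    simp
  · have h2 : σ.symm i ≠ j := by
      intro h
      apply hi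
      rw [← h, Equiv.apply_symm_apply]
    simp [h2, hi]

/-- elements preserving the standard cross are monomial -/
theorem crossStab_monomial (g : Co0) (hg : CrossStab g) :
    ∃ (σ : Equiv.Perm GolayPt) (c : Finset GolayPt), σ ∈ M24 ∧
      c ∈ supports (golayCode : Set (GolayPt → ZMod 2)) ∧
      ∀ v : leechLattice, ((g • v : leechLattice) : GolayPt → ℤ) =
        signedPerm σ c (v : GolayPt → ℤ) := by
  have hE : ∀ j, ∃ (i : GolayPt) (s : ℤ), (s = 8 ∨ s = -8) ∧
      ((g • leechE j : leechLattice) : GolayPt → ℤ) = Pi.single i s :=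
    fun j => hg (leechE j) (leechE_mem_stdCross j)
  choose π s hs hπ using hE
  have hginj : ∀ a b : leechLattice, g • a = g • b → a = b :=
    fun a b h => (g : Equiv.Perm leechLattice).injective h
  have hinj : Function.Injective π := by
    intro j k hjk
    by_contra hne
    have h1 := hπ j
    have h2 := hπ k
    rw [← hjk] at h2
    have hcase : s j = s k ∨ s j = - s k := by
      rcases hs j with h | h <;> rcases hs k with h' | h' <;> rw [h, h'] <;> norm_num
    rcases hcase with hc | hc
    · have h3 : g • leechE j = g • leechE k := Subtype.ext (by rw [h1, h2, hc])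
      have h4 := congrArg (fun v : leechLattice => (v : GolayPt → ℤ) j) (hginj _ _ h3)
      simp only [leechE_apply, if_true] at h4
      rw [if_neg hne] at h4
      norm_num at h4
    · have h3 : g • leechE j = g • (-leechE k) := by
        apply Subtype.ext
        rw [h1]
        show _ = (((g : Equiv.Perm leechLattice) (-leechE k) : leechLattice) : GolayPt → ℤ)
        rw [co0_map_neg]
        show _ = -(((g • leechE k : leechLattice)) : GolayPt → ℤ)
        rw [h2, hc, Pi.single_neg]
      have h4 := congrArg (fun v : leechLattice => (v : GolayPt → ℤ) j) (hginj _ _ h3)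
      simp only [AddSubgroup.coe_neg, Pi.neg_apply, leechE_apply, if_true] at h4
      rw [if_neg hne] at h4
      norm_num at h4
  have hbij : Function.Bijective π := Finite.injective_iff_bijective.1 hinj
  let σ : Equiv.Perm GolayPt := Equiv.ofBijective π hbij
  have hσ : ∀ j, σ j = π j := fun j => rfl
  let c : Finset GolayPt := Finset.univ.filter (fun i => s (σ.symm i) = -8)
  have hform : ∀ v : leechLattice, ((g • v : leechLattice) : GolayPt → ℤ) =
      signedPerm σ c (v : GolayPt → ℤ) := by
    intro v
    let f : leechLattice →+ leechLattice := AddMonoidHom.mk' (g : Equiv.Perm leechLattice) g.2.1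
    have hf : ∀ v, f v = g • v := fun v => rfl
    have h1 : f ((8 : ℤ) • v) = ∑ j, ((v : GolayPt → ℤ) j) • (g • leechE j) := by
      rw [eight_smul_eq v, map_sum]
      apply Finset.sum_congr rfl
      intro j _
      rw [map_zsmul, hf]
    rw [map_zsmul, hf] at h1
    funext i
    have h2 := congrArg (fun w : leechLattice => (w : GolayPt → ℤ) i) h1
    simp only [AddSubgroup.coe_zsmul, Pi.smul_apply, smul_eq_mul, AddSubgroup.val_finsetSum,
      Finset.sum_apply, hπ, Pi.single_apply] at h2
    have h3 : ∑ j, (v : GolayPt → ℤ) j * (if i = π j then s j else 0) =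
        (v : GolayPt → ℤ) (σ.symm i) * s (σ.symm i) := by
      rw [Finset.sum_eq_single (σ.symm i)]
      · rw [if_pos]
        rw [← hσ, Equiv.apply_symm_apply]
      · intro j _ hj
        rw [if_neg, mul_zero]
        intro hi
        apply hj
        rw [hi, ← hσ, Equiv.symm_apply_apply]
      · intro h
        exact absurd (Finset.mem_univ _) h
    rw [h3] at h2
    show _ = if i ∈ c then -(v : GolayPt → ℤ) (σ.symm i) else (v : GolayPt → ℤ) (σ.symm i)
    by_cases hi : i ∈ c
    · rw [if_pos hi]
      have h4 : s (σ.symm i) = -8 := (Finset.mem_filter.1 hi).2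
      rw [h4] at h2
      linarith
    · rw [if_neg hi]
      have h4 : s (σ.symm i) = 8 := by
        rcases hs (σ.symm i) with h | h
        · exact h
        · have hmem : i ∈ c := Finset.mem_filter.2 ⟨Finset.mem_univ i, h⟩
          exact absurd hmem hi
      rw [h4] at h2
      linarith
  have hval : ∀ (v : leechLattice) (i : GolayPt), ((g • v : leechLattice) : GolayPt → ℤ) i =
      if i ∈ c then -(v : GolayPt → ℤ) (σ.symm i) else (v : GolayPt → ℤ) (σ.symm i) :=
    fun v i => congrFun (hform v) i
  refine ⟨σ, c, ?_, ?_, hform⟩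
  · rw [Cfsg.Agent.Helper3.mem_M24_iff]
    intro w hw
    have hx : twoLift w ∈ leechLattice :=
      (mem_leechLattice_iff _).2 ⟨0, LP_twoLift golayCode golayLike hw⟩
    obtain ⟨m, hm⟩ := (mem_leechLattice_iff _).1 (g • (⟨twoLift w, hx⟩ : leechLattice)).2
    have hvx : ∀ i, ((g • (⟨twoLift w, hx⟩ : leechLattice) : leechLattice) : GolayPt → ℤ) i =
        if i ∈ c then -twoLift w (σ.symm i) else twoLift w (σ.symm i) := fun i => hval _ i
    have hm0 : LP golayCode ((g • (⟨twoLift w, hx⟩ : leechLattice) : leechLattice) :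
        GolayPt → ℤ) 0 := by
      refine LP_congr golayCode one_mem_golay hm ?_
      have h1 := hm.1 none
      rw [hvx] at h1
      have h2 := twoLift_even w (σ.symm none)
      unfold Int.ModEq at h1 ⊢
      split_ifs at h1 <;> omega
    have e : halfWord ((g • (⟨twoLift w, hx⟩ : leechLattice) : leechLattice) : GolayPt → ℤ) 0 =
        fun p => w (σ⁻¹ p) := by
      funext i
      have e2 := congrFun (halfWord_twoLift w) (σ.symm i)
      simp only [halfWord, sub_zero] at e2 ⊢
      rw [hvx]
      show _ = w (σ.symm i)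
      by_cases hi : i ∈ c
      · rw [if_pos hi, halfcast_neg _ (twoLift_even w _)]
        exact e2
      · rw [if_neg hi]
        exact e2
    rw [← e]
    exact hm0.2.2
  · have hx : oddVec (none : GolayPt) ∈ leechLattice :=
      (mem_leechLattice_iff _).2 ⟨1, LP_oddVec golayCode golayLike.hcard none⟩
    obtain ⟨m, hm⟩ := (mem_leechLattice_iff _).1
      (g • (⟨oddVec (none : GolayPt), hx⟩ : leechLattice)).2
    have hvx : ∀ i, ((g • (⟨oddVec (none : GolayPt), hx⟩ : leechLattice) : leechLattice) :
        GolayPt → ℤ) i = if i ∈ c then -oddVec (none : GolayPt) (σ.symm i)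
          else oddVec (none : GolayPt) (σ.symm i) := fun i => hval _ i
    have hm1 : LP golayCode ((g • (⟨oddVec (none : GolayPt), hx⟩ : leechLattice) :
        leechLattice) : GolayPt → ℤ) 1 := by
      refine LP_congr golayCode one_mem_golay hm ?_
      have h1 := hm.1 none
      rw [hvx] at h1
      unfold Int.ModEq at h1 ⊢
      rcases oddVec_cases none (σ.symm none) with h2 | h2 <;> rw [h2] at h1 <;>
        split_ifs at h1 <;> omega
    refine ⟨_, hm1.2.2, ?_⟩
    ext i
    rw [mem_support₂]
    simp only [halfWord]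
    rw [Ne, intCast_zmod2_eq_zero, hvx]
    by_cases hi : i ∈ c
    · rw [if_pos hi]
      constructor
      · intro _
        exact hi
      · intro _
        rcases oddVec_cases none (σ.symm i) with h2 | h2 <;> rw [h2] <;> norm_num
    · rw [if_neg hi]
      constructor
      · intro h
        exfalso
        apply h
        rcases oddVec_cases none (σ.symm i) with h2 | h2 <;> rw [h2] <;> norm_num
      · intro h
        exact absurd h hi

/-- the monomial automorphism attached to a code word and a permutation -/
def monoCo0 (w : golayCode) (σ : M24) : Co0 :=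
  co0Sign (support₂ (w : GolayPt → ZMod 2)) ⟨w, w.2, rfl⟩ *
    co0Perm (σ : Equiv.Perm GolayPt)⁻¹ (inv_mem σ.2)

theorem monoCo0_apply (w : golayCode) (σ : M24) (v : leechLattice) :
    ((monoCo0 w σ • v : leechLattice) : GolayPt → ℤ) =
      signedPerm σ (support₂ (w : GolayPt → ZMod 2)) (v : GolayPt → ℤ) := rfl

theorem monoCo0_crossStab (w : golayCode) (σ : M24) : CrossStab (monoCo0 w σ) := by
  rintro v ⟨j, s0, hs0, hv⟩
  rw [monoCo0_apply, hv, signedPerm_single]
  refine ⟨_, _, ?_, rfl⟩
  split_ifs <;> rcases hs0 with h | h <;> rw [h] <;> norm_num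

/-- the parametrisation of the stabiliser -/
def crossFun (x : golayCode × M24) : {g : Co0 // CrossStab g} :=
  ⟨monoCo0 x.1 x.2, monoCo0_crossStab x.1 x.2⟩

theorem crossFun_bijective : Function.Bijective crossFun := by
  constructor
  · rintro ⟨w, σ⟩ ⟨w', σ'⟩ h
    have h0 : monoCo0 w σ = monoCo0 w' σ' := congrArg Subtype.val h
    have hj : ∀ j : GolayPt,
        (Pi.single ((σ : Equiv.Perm GolayPt) j)
          (if (σ : Equiv.Perm GolayPt) j ∈ support₂ (w : GolayPt → ZMod 2) then (-8 : ℤ) else 8) :
            GolayPt → ℤ) =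
        (Pi.single ((σ' : Equiv.Perm GolayPt) j)
          (if (σ' : Equiv.Perm GolayPt) j ∈ support₂ (w' : GolayPt → ZMod 2) then (-8 : ℤ) else 8) :
            GolayPt → ℤ) := by
      intro j
      have h1 : ((monoCo0 w σ • leechE j : leechLattice) : GolayPt → ℤ) =
          ((monoCo0 w' σ' • leechE j : leechLattice) : GolayPt → ℤ) := by rw [h0]
      rw [monoCo0_apply, monoCo0_apply, leechE_eq_single, signedPerm_single,
        signedPerm_single] at h1
      exact h1
    have hσ : ∀ j : GolayPt, (σ : Equiv.Perm GolayPt) j = (σ' : Equiv.Perm GolayPt) j := by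
      intro j
      have h1 := congrFun (hj j) ((σ : Equiv.Perm GolayPt) j)
      rw [Pi.single_eq_same, Pi.single_apply] at h1
      by_contra hne
      rw [if_neg hne] at h1
      split_ifs at h1
      all_goals norm_num at h1
    have hσ' : σ = σ' := Subtype.ext (Equiv.ext hσ)
    subst hσ'
    have hw : support₂ (w : GolayPt → ZMod 2) = support₂ (w' : GolayPt → ZMod 2) := by
      ext i
      have h1 := congrFun (hj ((σ : Equiv.Perm GolayPt).symm i)) i
      rw [Equiv.apply_symm_apply, Pi.single_eq_same, Pi.single_eq_same] at h1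
      constructor
      · intro hi
        rw [if_pos hi] at h1
        by_contra hi'
        rw [if_neg hi'] at h1
        norm_num at h1
      · intro hi
        rw [if_pos hi] at h1
        by_contra hi'
        rw [if_neg hi'] at h1
        norm_num at h1
    have hw' : w = w' := Subtype.ext (Cfsg.Agent.Helper3.support₂_inj hw)
    rw [hw']
  · rintro ⟨g, hg⟩
    obtain ⟨σ, c, hσ, ⟨w, hw, rfl⟩, hform⟩ := crossStab_monomial g hg
    refine ⟨(⟨w, hw⟩, ⟨σ, hσ⟩), ?_⟩
    apply Subtype.ext
    apply Subtype.ext
    apply Equiv.ext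
    intro v
    apply Subtype.ext
    exact (monoCo0_apply ⟨w, hw⟩ ⟨σ, hσ⟩ v).trans (hform v).symm

theorem card_crossStab : Nat.card {g : Co0 // CrossStab g} = 4096 * 244823040 := by
  rw [← Nat.card_congr (Equiv.ofBijective crossFun crossFun_bijective), Nat.card_prod,
    Cfsg.Agent.Helper3.golayCode_natCard, Cfsg.Agent.Helper3.M24_card]

theorem cross_stab_main :
    (∀ g : Co0, (∀ v : leechLattice, (v : GolayPt → ℤ) ∈ stdCross →
        ((g • v : leechLattice) : GolayPt → ℤ) ∈ stdCross) →
      ∃ f ∈ golayMonomialMaps, ∀ v : leechLattice,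
        ((g • v : leechLattice) : GolayPt → ℤ) = f (v : GolayPt → ℤ)) ∧
    Nat.card {g : Co0 // (∀ v : leechLattice, (v : GolayPt → ℤ) ∈ stdCross →
        ((g • v : leechLattice) : GolayPt → ℤ) ∈ stdCross)} = 4096 * 244823040 := by
  refine ⟨fun g hg => ?_, card_crossStab⟩
  obtain ⟨σ, c, hσ, hc, hform⟩ := crossStab_monomial g hg
  exact ⟨signedPerm σ c, ⟨σ, hσ, c, hc, rfl⟩, hform⟩

end Cfsg.Agent.Helper28
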