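import Cfsg.Agent.Helper28.LeechAbs

/-!
A signed coordinate permutation of the lattice of a Golay-like code whose square is negation
(abstract index type), and a group-theoretic lemma on complements of a central subgroup of
order two.
-/

set_option autoImplicit false
set_option linter.unusedSectionVars false

namespace Cfsg.Agent.Helper28

open Cfsg

theorem zmod2_neg (a : ZMod 2) : -a = a := by
  revert a
  decide

theorem zmod2_eq_one_of_ne (a : ZMod 2) (h : a ≠ 0) : a = 1 := by
  revert h
  revert a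
  decide

section Signed

variable {ι : Type*} [Fintype ι] [DecidableEq ι] (C : Submodule (ZMod 2) (ι → ZMod 2))

/-- the sign attached to a word -/
def sgn (s : ι → ZMod 2) (i : ι) : ℤ := if s i = 0 then 1 else -1

/-- the signed permutation -/
def sgnPerm (s : ι → ZMod 2) (π : Equiv.Perm ι) (x : ι → ℤ) : ι → ℤ :=
  fun i => sgn s i * x (π i)

theorem sgn_sq (s : ι → ZMod 2) (i : ι) : sgn s i * sgn s i = 1 := by
  unfold sgn
  split_ifs <;> norm_num

theorem sgn_swap (s : ι → ZMod 2) (π : Equiv.Perm ι) (hswap : ∀ i, s (π i) = s i + 1) (i : ι) :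
    sgn s (π i) = - sgn s i := by
  unfold sgn
  rw [hswap i]
  by_cases hi : s i = 0
  · rw [hi]
    simp
  · rw [zmod2_eq_one_of_ne _ hi]
    have h2 : (1 : ZMod 2) + 1 = 0 := by decide
    simp [h2]

theorem sgnPerm_sgnPerm (s : ι → ZMod 2) (π : Equiv.Perm ι) (hπ2 : ∀ i, π (π i) = i)
    (hswap : ∀ i, s (π i) = s i + 1) (x : ι → ℤ) :
    sgnPerm s π (sgnPerm s π x) = -x := by
  ext i
  simp only [sgnPerm, Pi.neg_apply]
  rw [hπ2, sgn_swap s π hswap i]
  linear_combination (-x i) * sgn_sq s i

theorem sgnPerm_add (s : ι → ZMod 2) (π : Equiv.Perm ι) (x y : ι → ℤ) :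
    sgnPerm s π (x + y) = sgnPerm s π x + sgnPerm s π y := by
  ext i
  simp only [sgnPerm, Pi.add_apply]
  ring

theorem sgnPerm_neg (s : ι → ZMod 2) (π : Equiv.Perm ι) (x : ι → ℤ) :
    sgnPerm s π (-x) = - sgnPerm s π x := by
  ext i
  simp only [sgnPerm, Pi.neg_apply]
  ring

theorem sgnPerm_norm (s : ι → ZMod 2) (π : Equiv.Perm ι) (x : ι → ℤ) :
    ∑ i, sgnPerm s π x i ^ 2 = ∑ i, x i ^ 2 := by
  rw [← Equiv.sum_comp π (fun j => x j ^ 2)]
  apply Finset.sum_congr rfl
  intro i _
  simp only [sgnPerm]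
  linear_combination (x (π i)) ^ 2 * sgn_sq s i

theorem LP_sgnPerm (h : GolayLike C) {s : ι → ZMod 2} (hs : s ∈ C) {π : Equiv.Perm ι}
    (hπ : ∀ w ∈ C, (fun p => w (π p)) ∈ C) (hπ2 : ∀ i, π (π i) = i)
    (hswap : ∀ i, s (π i) = s i + 1) {x : ι → ℤ} {m : ℤ} (hx : LP C x m) :
    LP C (sgnPerm s π x) m := by
  obtain ⟨hpar, hsum, ha⟩ := hx
  refine ⟨?_, ?_, ?_⟩
  · intro i
    have h1 := hpar (π i)
    simp only [sgnPerm, sgn]
    unfold Int.ModEq at *
    split_ifs <;> omega
  · -- the sum
    obtain ⟨a, ha'⟩ : ∃ a : ι → ℤ, ∀ i, x i = m + 2 * a i :=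
      ⟨fun i => (x i - m) / 2, fun i => by
        have := hpar i
        unfold Int.ModEq at this
        show x i = m + 2 * ((x i - m) / 2)
        omega⟩
    have haw : ∀ i, ((a i : ℤ) : ZMod 2) = halfWord x m i := by
      intro i
      simp only [halfWord]
      congr 1
      have := ha' i
      omega
    have e1 : ∑ i, sgnPerm s π x i = ∑ j, sgn s (π j) * x j := by
      rw [← Equiv.sum_comp π (fun j => sgn s (π j) * x j)]
      simp only [sgnPerm, hπ2]
    have e2 : ∀ j, sgn s (π j) * x j =
        - x j + 2 * (m * (if s j ≠ 0 then 1 else 0) + 2 * ((if s j ≠ 0 then 1 else 0) * a j)) := by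
      intro j
      rw [sgn_swap s π hswap j, ha' j]
      unfold sgn
      by_cases hj : s j = 0
      · simp [hj]
      · simp [hj]
        ring
    have e3 : ∑ j, sgn s (π j) * x j = - ∑ j, x j + 2 * (m * (hammingNorm s : ℤ) +
        2 * ∑ j, (if s j ≠ 0 then 1 else 0) * a j) := by
      rw [Finset.sum_congr rfl (fun j _ => e2 j), Finset.sum_add_distrib, Finset.sum_neg_distrib,
        ← Finset.mul_sum, Finset.sum_add_distrib, ← Finset.mul_sum, ← Finset.mul_sum,
        Finset.sum_boole]
      rfl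
    have e4 : (∑ j, (if s j ≠ 0 then 1 else 0) * a j) % 2 = 0 := by
      rw [← intCast_zmod2_eq_zero]
      have e5 : ((∑ j, (if s j ≠ 0 then 1 else 0) * a j : ℤ) : ZMod 2) =
          ∑ j, s j * halfWord x m j := by
        push_cast
        apply Finset.sum_congr rfl
        intro j _
        rw [haw j]
        by_cases hj : s j = 0
        · simp [hj]
        · simp [zmod2_eq_one_of_ne _ hj]
      rw [e5]
      exact h.horth s hs _ ha
    rw [e1, e3]
    unfold Int.ModEq at hsum ⊢
    rcases h.hwt s hs with hw | hw | hw | hw | hw <;> rw [hw] <;> push_cast <;> omega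
  · have e : halfWord (sgnPerm s π x) m =
        (fun p => halfWord x m (π p)) + ((m : ℤ) : ZMod 2) • s := by
      ext i
      have h1 := hpar (π i)
      unfold Int.ModEq at h1
      simp only [halfWord, sgnPerm, sgn, Pi.add_apply, Pi.smul_apply, smul_eq_mul]
      by_cases hi : s i = 0
      · simp [hi]
      · rw [if_neg hi, zmod2_eq_one_of_ne _ hi, mul_one]
        have e5 : (-1 * x (π i) - m) / 2 = -((x (π i) - m) / 2 + m) := by omega
        rw [e5]
        push_cast
        rw [zmod2_neg]
    rw [e]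
    exact C.add_mem (hπ _ ha) (C.smul_mem _ hs)

end Signed

/-- a central element of order two which is a square generates a subgroup without complement -/
theorem no_complement_of_sq {G : Type*} [Group G] (n g : G) (hn : n ≠ 1)
    (hc : ∀ x : G, n * x = x * n) (hn2 : n * n = 1) (hg : g * g = n) (K : Subgroup G) :
    ¬ (Subgroup.zpowers n).IsComplement' K := by
  intro hK
  have hdisj := hK.disjoint
  obtain ⟨⟨⟨h, hh⟩, ⟨k, hk⟩⟩, hhk⟩ := hK.2 g
  simp only at hhk
  have hcases : h = 1 ∨ h = n := by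
    obtain ⟨z, rfl⟩ := Subgroup.mem_zpowers_iff.1 hh
    rcases Int.even_or_odd z with ⟨t, rfl⟩ | ⟨t, rfl⟩
    · left
      rw [← two_mul, zpow_mul, zpow_two, hn2, one_zpow]
    · right
      rw [zpow_add, zpow_mul, zpow_two, hn2, one_zpow, one_mul, zpow_one]
  have hkk : k * k = n := by
    rcases hcases with rfl | rfl
    · rw [one_mul] at hhk
      rw [hhk]
      exact hg
    · have h1 : h * k * (h * k) = h := by
        rw [hhk]
        exact hg
      calc k * k = (h * h) * (k * k) := by rw [hn2, one_mul]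
        _ = h * k * (h * k) := Commute.mul_mul_mul_comm (hc k) h k
        _ = h := h1
  have hnK : n ∈ K := hkk ▸ K.mul_mem hk hk
  have hnH : n ∈ Subgroup.zpowers n := Subgroup.mem_zpowers n
  exact hn (Subgroup.disjoint_def.1 hdisj hnH hnK)

end Cfsg.Agent.Helper28
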