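import Cfsg.Agent.Helper28.Leech
import Cfsg.Agent.Helper28.SignedPerm
import Cfsg.Agent.Helper3.Golay.Perm
import Cfsg.Prelude.Def_Spor_Conway

/-!
Two explicit automorphisms of the lattice of the definitions: negation, and a signed
coordinate permutation whose square is negation.
-/

set_option autoImplicit false

namespace Cfsg.Agent.Helper28

open Cfsg

theorem qr_mem : qrWord 0 ∈ golayCode := Submodule.subset_span (Or.inl ⟨0, rfl⟩)

theorem projInv_code (w : GolayPt → ZMod 2) (hw : w ∈ golayCode) :
    (fun p => w (projInv p)) ∈ golayCode :=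
  (Cfsg.Agent.Helper3.mem_M24_iff projInv).1 Cfsg.Agent.Helper3.projInv_mem_M24 w hw

theorem projInv_invol (i : GolayPt) : projInv (projInv i) = i := projInv.symm_apply_apply i

theorem qr_swap : ∀ i : GolayPt, qrWord 0 (projInv i) = qrWord 0 i + 1 := by decide

/-- the signed permutation of the lattice -/
def leechG (x : GolayPt → ℤ) : GolayPt → ℤ := sgnPerm (qrWord 0) projInv x

theorem leechG_mem (x : GolayPt → ℤ) (hx : x ∈ leechLattice) : leechG x ∈ leechLattice := by
  rw [mem_leechLattice_iff] at hx ⊢
  obtain ⟨m, hm⟩ := hx
  exact ⟨m, LP_sgnPerm golayCode golayLike qr_mem projInv_code projInv_invol qr_swap hm⟩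

theorem leechG_leechG (x : GolayPt → ℤ) : leechG (leechG x) = -x :=
  sgnPerm_sgnPerm (qrWord 0) projInv projInv_invol qr_swap x

/-- negation as an automorphism of the lattice -/
def co0Neg : Co0 :=
  ⟨Equiv.neg leechLattice, by
    constructor
    · intro v w
      simp only [Equiv.neg_apply]
      exact neg_add v w
    · intro v
      simp only [Equiv.neg_apply, AddSubgroup.coe_neg, sqNorm, Pi.neg_apply, neg_sq]⟩

/-- the signed permutation as an automorphism of the lattice -/
def co0G : Co0 :=
  ⟨{ toFun := fun v => ⟨leechG v, leechG_mem v v.2⟩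
     invFun := fun v => ⟨-leechG v, leechLattice.neg_mem (leechG_mem v v.2)⟩
     left_inv := by
       intro v
       apply Subtype.ext
       show -leechG (leechG (v : GolayPt → ℤ)) = v
       rw [leechG_leechG, neg_neg]
     right_inv := by
       intro v
       apply Subtype.ext
       show leechG (-leechG (v : GolayPt → ℤ)) = v
       unfold leechG
       rw [sgnPerm_neg]
       exact (congrArg Neg.neg (leechG_leechG v)).trans (neg_neg _) }, by
    constructor
    · intro v w
      apply Subtype.ext
      exact sgnPerm_add (qrWord 0) projInv v w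
    · intro v
      exact sgnPerm_norm (qrWord 0) projInv v⟩

theorem co0Neg_apply (v : leechLattice) : ((co0Neg • v : leechLattice) : GolayPt → ℤ) = -v := rfl

theorem co0_map_neg (x : Co0) (v : leechLattice) : (x : Equiv.Perm leechLattice) (-v) =
    -(x : Equiv.Perm leechLattice) v := by
  have hadd := x.2.1
  have h0 : (x : Equiv.Perm leechLattice) 0 = 0 := by
    have := hadd 0 0
    rw [add_zero] at this
    exact left_eq_add.1 this
  have h1 := hadd v (-v)
  rw [add_neg_cancel, h0] at h1
  exact (neg_eq_of_add_eq_zero_right h1.symm).symm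

theorem co0Neg_central (x : Co0) : co0Neg * x = x * co0Neg := by
  apply Subtype.ext
  apply Equiv.ext
  intro v
  show -((x : Equiv.Perm leechLattice) v) = (x : Equiv.Perm leechLattice) (-v)
  rw [co0_map_neg]

theorem co0Neg_sq : co0Neg * co0Neg = 1 := by
  apply Subtype.ext
  apply Equiv.ext
  intro v
  show - -v = v
  exact neg_neg v

theorem co0G_sq : co0G * co0G = co0Neg := by
  apply Subtype.ext
  apply Equiv.ext
  intro v
  apply Subtype.ext
  show leechG (leechG (v : GolayPt → ℤ)) = -v
  exact leechG_leechG v

theorem co0Neg_ne_one : co0Neg ≠ 1 := by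
  intro h
  have h1 : ((co0Neg • Spor.leechU : leechLattice) : GolayPt → ℤ) = Spor.leechU := by
    rw [h, one_smul]
  rw [co0Neg_apply] at h1
  have h2 := congrFun h1 none
  revert h2
  show ¬ (-Spor.vecU none = Spor.vecU none)
  decide

end Cfsg.Agent.Helper28
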