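import Cfsg.Agent.Helper28.OctadAbs
import Cfsg.Agent.Helper3.Golay.Octads

/-!
The concrete length-24 code of the definitions satisfies the hypotheses of the abstract
development (`GolayLike`), using the verified weight enumeration of `Helper3`.
-/

set_option autoImplicit false

namespace Cfsg.Agent.Helper28

open Cfsg

theorem golayLike : GolayLike golayCode :=
  ⟨Cfsg.Agent.Helper3.card_golayPt, Cfsg.Agent.Helper3.golayCode_finrank,
    fun v hv w hw => Cfsg.Agent.Helper3.golay_orth v w hv hw,
    fun w hw => Cfsg.Agent.Helper3.golay_hammingNorm w hw⟩

theorem octads_eq_Oct : octads = Oct golayCode := rfl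

end Cfsg.Agent.Helper28
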