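import Cfsg.Agent.Helper28.LeechAbs
import Cfsg.Agent.Helper28.GolayConc

/-!
The concrete lattice of the definitions: it equals its defining set, and its non-zero vectors
have sum of squares at least 32.
-/

set_option autoImplicit false

namespace Cfsg.Agent.Helper28

open Cfsg

theorem one_mem_golay : (1 : GolayPt → ZMod 2) ∈ golayCode :=
  Submodule.subset_span (Or.inr rfl)

theorem leechSet_eq : leechSet = leechSetOf golayCode := rfl

theorem leechLattice_eq : leechLattice = leechSub golayCode one_mem_golay := by
  unfold leechLattice
  rw [leechSet_eq]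
  exact closure_leechSetOf golayCode one_mem_golay

theorem mem_leechLattice (x : GolayPt → ℤ) : x ∈ leechLattice ↔ x ∈ leechSet := by
  rw [leechLattice_eq]
  rfl

/-- the lattice condition with explicit parity representative -/
theorem mem_leechLattice_iff (x : GolayPt → ℤ) :
    x ∈ leechLattice ↔ ∃ m, LP golayCode x m := by
  rw [mem_leechLattice, leechSet_eq]
  exact leech_iff golayCode one_mem_golay x

theorem leech_min_norm (x : GolayPt → ℤ) (hx : x ∈ leechLattice) (h0 : x ≠ 0) :
    32 ≤ sqNorm x := by
  rw [mem_leechLattice, leechSet_eq] at hx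
  exact leech_min golayCode golayLike one_mem_golay x hx h0

theorem leech_min_sum (x : GolayPt → ℤ) (hx : x ∈ leechLattice) (h0 : x ≠ 0) :
    32 ≤ ∑ i, x i ^ 2 := leech_min_norm x hx h0

end Cfsg.Agent.Helper28
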