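import Cfsg.Agent.Helper28.Xi
import Cfsg.Agent.Helper28.Co0Center
import Cfsg.Agent.Helper28.Leech
import Cfsg.Agent.Helper28.GolayConc

/-!
The extra automorphism of the lattice of the definitions, and transitivity of the
automorphism group on the vectors of sum of squares 32.
-/

set_option autoImplicit false
set_option linter.unusedSectionVars false
set_option linter.unnecessarySeqFocus false

namespace Cfsg.Agent.Helper28

open Cfsg

theorem self_fib (v : GolayPt → ZMod 2) (hv : hammingNorm v = 4) : v ∈ fib golayCode v := by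
  rw [mem_fib, sub_self]
  exact ⟨golayCode.zero_mem, le_of_eq hv⟩

theorem xi_mem (v : GolayPt → ZMod 2) (hv : hammingNorm v = 4) (x : GolayPt → ℤ)
    (hx : x ∈ leechLattice) : xiMap (fib golayCode v) v x ∈ leechLattice := by
  rw [mem_leechLattice_iff] at hx ⊢
  obtain ⟨m, hm⟩ := hx
  exact (isSextet_fib golayCode golayLike v hv).LP_xiMap golayLike
    (self_fib v hv) hm

theorem xi_even (v : GolayPt → ZMod 2) (hv : hammingNorm v = 4) (x : GolayPt → ℤ)
    (hx : x ∈ leechLattice) : ∀ u ∈ fib golayCode v, su x u % 2 = 0 := by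
  rw [mem_leechLattice_iff] at hx
  obtain ⟨m, hm⟩ := hx
  exact fun u hu => (isSextet_fib golayCode golayLike v hv).su_even hm hu

/-- the extra automorphism attached to a word of weight 4 -/
noncomputable def co0Xi (v : GolayPt → ZMod 2) (hv : hammingNorm v = 4) : Co0 :=
  ⟨{ toFun := fun x => ⟨xiMap (fib golayCode v) v (x : GolayPt → ℤ), xi_mem v hv x x.2⟩
     invFun := fun x => ⟨xiMap (fib golayCode v) v (x : GolayPt → ℤ), xi_mem v hv x x.2⟩
     left_inv := by
       intro x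
       apply Subtype.ext
       exact (isSextet_fib golayCode golayLike v hv).xiMap_xiMap
         (self_fib v hv) _ (xi_even v hv x x.2)
     right_inv := by
       intro x
       apply Subtype.ext
       exact (isSextet_fib golayCode golayLike v hv).xiMap_xiMap
         (self_fib v hv) _ (xi_even v hv x x.2) }, by
    constructor
    · intro x y
      apply Subtype.ext
      exact (isSextet_fib golayCode golayLike v hv).xiMap_add
        (self_fib v hv) _ _ (xi_even v hv x x.2) (xi_even v hv y y.2)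
    · intro x
      exact (isSextet_fib golayCode golayLike v hv).xiMap_norm
        (self_fib v hv) _ (xi_even v hv x x.2)⟩

/-- two lattice vectors related by an automorphism -/
def CoRel (x y : GolayPt → ℤ) : Prop :=
  ∃ (hx : x ∈ leechLattice) (g : Co0),
    (((g : Equiv.Perm leechLattice) ⟨x, hx⟩ : leechLattice) : GolayPt → ℤ) = y

theorem CoRel.refl {x : GolayPt → ℤ} (hx : x ∈ leechLattice) : CoRel x x := ⟨hx, 1, rfl⟩

theorem CoRel.symm {x y : GolayPt → ℤ} (h : CoRel x y) : CoRel y x := by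
  obtain ⟨hx, g, rfl⟩ := h
  refine ⟨((g : Equiv.Perm leechLattice) ⟨x, hx⟩).2, g⁻¹, ?_⟩
  exact congrArg Subtype.val ((g : Equiv.Perm leechLattice).symm_apply_apply ⟨x, hx⟩)

theorem CoRel.trans {x y z : GolayPt → ℤ} (h1 : CoRel x y) (h2 : CoRel y z) : CoRel x z := by
  obtain ⟨hx, g, rfl⟩ := h1
  obtain ⟨hy, g', rfl⟩ := h2
  exact ⟨hx, g' * g, rfl⟩

theorem CoRel.mem {x y : GolayPt → ℤ} (h : CoRel x y) : y ∈ leechLattice := by
  obtain ⟨hx, g, rfl⟩ := h
  exact ((g : Equiv.Perm leechLattice) ⟨x, hx⟩).2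

theorem CoRel.norm {x y : GolayPt → ℤ} (h : CoRel x y) : ∑ i, y i ^ 2 = ∑ i, x i ^ 2 := by
  obtain ⟨hx, g, rfl⟩ := h
  exact g.2.2 ⟨x, hx⟩

theorem CoRel_perm {x : GolayPt → ℤ} (hx : x ∈ leechLattice) (σ : Equiv.Perm GolayPt)
    (hσ : σ ∈ M24) : CoRel x (fun i => x (σ i)) := ⟨hx, co0Perm σ hσ, rfl⟩

theorem CoRel_sign {x : GolayPt → ℤ} (hx : x ∈ leechLattice) (c : Finset GolayPt)
    (hc : c ∈ supports (golayCode : Set (GolayPt → ZMod 2))) :
    CoRel x (fun i => if i ∈ c then -x i else x i) := ⟨hx, co0Sign c hc, rfl⟩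

theorem CoRel_xi {x : GolayPt → ℤ} (hx : x ∈ leechLattice) (v : GolayPt → ZMod 2)
    (hv : hammingNorm v = 4) : CoRel x (xiMap (fib golayCode v) v x) := ⟨hx, co0Xi v hv, rfl⟩

theorem mem_leechSetOf {x : GolayPt → ℤ} : x ∈ leechLattice ↔ x ∈ leechSetOf golayCode := by
  rw [mem_leechLattice, leechSet_eq]

theorem mem_of_LP {x : GolayPt → ℤ} {m : ℤ} (h : LP golayCode x m) : x ∈ leechLattice :=
  (mem_leechLattice_iff x).2 ⟨m, h⟩

/-- the base vector -/
def baseVec : GolayPt → ℤ := sgnVec 4 {none, some 0} ∅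

section General

variable {ι : Type*} [Fintype ι] [DecidableEq ι]

theorem sgnVec_vals (a : ℤ) (U V : Finset ι) (i : ι) :
    sgnVec a U V i = 0 ∨ sgnVec a U V i = a ∨ sgnVec a U V i = -a := by
  unfold sgnVec
  split_ifs <;> simp

theorem oddMin_odd (p : ι) (c : ι → ZMod 2) (i : ι) : oddMin p c i % 2 = 1 := by
  unfold oddMin
  split_ifs <;> norm_num

theorem sgnVec_of_mem {a : ℤ} {U V : Finset ι} {i : ι} (h : i ∈ V) : sgnVec a U V i = -a := by
  unfold sgnVec
  rw [if_pos h]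

theorem sgnVec_of_mem_sdiff {a : ℤ} {U V : Finset ι} {i : ι} (h : i ∈ U \ V) :
    sgnVec a U V i = a := by
  unfold sgnVec
  rw [Finset.mem_sdiff] at h
  rw [if_neg h.2, if_pos h.1]

theorem exists_three (s : Finset ι) (h : 3 ≤ s.card) :
    ∃ p1 ∈ s, ∃ p2 ∈ s, ∃ p3 ∈ s, p1 ≠ p2 ∧ p1 ≠ p3 ∧ p2 ≠ p3 := by
  obtain ⟨t, hts, ht⟩ := Finset.exists_subset_card_eq h
  obtain ⟨a, b, c, hab, hac, hbc, rfl⟩ := Finset.card_eq_three.1 ht
  exact ⟨a, hts (by simp), b, hts (by simp), c, hts (by simp), hab, hac, hbc⟩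

theorem su_ind4 (x : ι → ℤ) (t1 t2 t3 t4 : ι) (h12 : t1 ≠ t2) (h13 : t1 ≠ t3) (h14 : t1 ≠ t4)
    (h23 : t2 ≠ t3) (h24 : t2 ≠ t4) (h34 : t3 ≠ t4) :
    su x (ind {t1, t2, t3, t4}) = x t1 + x t2 + x t3 + x t4 := by
  unfold su
  have hmem : ∀ j, ind ({t1, t2, t3, t4} : Finset ι) j ≠ 0 ↔ j ∈ ({t1, t2, t3, t4} : Finset ι) := by
    intro j
    rw [← mem_support₂, support₂_ind]
  rw [Finset.sum_congr rfl (fun j _ => if_congr (hmem j) rfl rfl), Finset.sum_ite_mem,
    Finset.univ_inter, Finset.sum_insert (by simp [h12, h13, h14]),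
    Finset.sum_insert (by simp [h23, h24]), Finset.sum_insert (by simp [h34]),
    Finset.sum_singleton]
  ring

theorem wt_ind4 (t1 t2 t3 t4 : ι) (h12 : t1 ≠ t2) (h13 : t1 ≠ t3) (h14 : t1 ≠ t4)
    (h23 : t2 ≠ t3) (h24 : t2 ≠ t4) (h34 : t3 ≠ t4) :
    hammingNorm (ind ({t1, t2, t3, t4} : Finset ι)) = 4 := by
  rw [wt_ind, Finset.card_insert_of_notMem (by simp [h12, h13, h14]),
    Finset.card_insert_of_notMem (by simp [h23, h24]), Finset.card_pair h34]

theorem sign_sgnVec (a : ℤ) (U V c : Finset ι) (hc : c ∩ U = V) :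
    (fun i => if i ∈ c then -sgnVec a U V i else sgnVec a U V i) = sgnVec a U ∅ := by
  funext i
  unfold sgnVec
  have hV : i ∈ V ↔ i ∈ c ∧ i ∈ U := by rw [← hc, Finset.mem_inter]
  by_cases h1 : i ∈ c
  · by_cases h2 : i ∈ U
    · have h3 : i ∈ V := hV.2 ⟨h1, h2⟩
      simp [h1, h2, h3]
    · have h3 : i ∉ V := fun h => h2 (hV.1 h).2
      simp [h1, h2, h3]
  · have h3 : i ∉ V := fun h => h1 (hV.1 h).1
    simp [h1, h3]

theorem perm_sgnVec (a : ℤ) (U V U' V' : Finset ι) (σ : Equiv.Perm ι)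
    (hU : ∀ i, σ i ∈ U ↔ i ∈ U') (hV : ∀ i, σ i ∈ V ↔ i ∈ V') :
    (fun i => sgnVec a U V (σ i)) = sgnVec a U' V' := by
  funext i
  unfold sgnVec
  rw [if_congr (hV i) rfl (if_congr (hU i) rfl rfl)]

theorem sign_oddMin (p : ι) (c : ι → ZMod 2) :
    (fun i => if i ∈ support₂ c then -oddMin p c i else oddMin p c i) = oddMin p 0 := by
  funext i
  unfold oddMin
  by_cases hi : i = p
  · subst hi
    by_cases hc : c i = 0
    · have h : i ∉ support₂ c := by
        rw [mem_support₂]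
        exact fun h => h hc
      simp [h, hc]
    · have h : i ∈ support₂ c := (mem_support₂ c i).2 hc
      simp [h, hc]
  · by_cases hc : c i = 0
    · have h : i ∉ support₂ c := by
        rw [mem_support₂]
        exact fun h => h hc
      simp [h, hc, hi]
    · have h : i ∈ support₂ c := (mem_support₂ c i).2 hc
      simp [h, hc, hi]

end General

theorem xi_val (w : GolayPt → ZMod 2) (hw : hammingNorm w = 4) (x : GolayPt → ℤ) (t : GolayPt)
    (ht : w t ≠ 0) : xiMap (fib golayCode w) w x t = -(x t - su x w / 2) := by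
  have hS := isSextet_fib golayCode golayLike w hw
  have hw1 := self_fib w hw
  rw [hS.xiMap_apply hw1 x hw1 ht, if_pos rfl]
  ring

theorem rel_four_of_mixed (x : GolayPt → ℤ) (hx : x ∈ leechLattice) (s : ℤ)
    (v p1 p2 p3 : GolayPt)
    (hd : v ≠ p1 ∧ v ≠ p2 ∧ v ≠ p3 ∧ p1 ≠ p2 ∧ p1 ≠ p3 ∧ p2 ≠ p3)
    (hv : x v = -(2 * s)) (h1 : x p1 = 2 * s) (h2 : x p2 = 2 * s) (h3 : x p3 = 2 * s) :
    ∃ y, CoRel x y ∧ y v = 4 * s := by
  obtain ⟨d1, d2, d3, d4, d5, d6⟩ := hd
  have hw := wt_ind4 v p1 p2 p3 d1 d2 d3 d4 d5 d6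
  refine ⟨_, CoRel_xi hx _ hw, ?_⟩
  rw [xi_val _ hw x v ((mem_support₂ _ _).1 (by rw [support₂_ind]; simp)),
    su_ind4 x v p1 p2 p3 d1 d2 d3 d4 d5 d6, hv, h1, h2, h3]
  omega

theorem rel_odd (x : GolayPt → ℤ) (hx : x ∈ leechLattice) (p1 p2 p3 q : GolayPt)
    (hd : p1 ≠ p2 ∧ p1 ≠ p3 ∧ p1 ≠ q ∧ p2 ≠ p3 ∧ p2 ≠ q ∧ p3 ≠ q)
    (h1 : x p1 = 2) (h2 : x p2 = 2) (h3 : x p3 = 2) (hq : x q = 0) :
    ∃ y, CoRel x y ∧ y p1 = 1 := by
  obtain ⟨d1, d2, d3, d4, d5, d6⟩ := hd
  have hw := wt_ind4 p1 p2 p3 q d1 d2 d3 d4 d5 d6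
  refine ⟨_, CoRel_xi hx _ hw, ?_⟩
  rw [xi_val _ hw x p1 ((mem_support₂ _ _).1 (by rw [support₂_ind]; simp)),
    su_ind4 x p1 p2 p3 q d1 d2 d3 d4 d5 d6, h1, h2, h3, hq]
  norm_num

theorem exists_code_inter (a b : GolayPt) (hab : a ≠ b) (V : Finset GolayPt)
    (hV : V ⊆ {a, b}) :
    ∃ c ∈ supports (golayCode : Set (GolayPt → ZMod 2)), c ∩ {a, b} = V := by
  by_cases ha : a ∈ V <;> by_cases hb : b ∈ V
  · refine ⟨support₂ 1, ⟨1, one_mem_golay, rfl⟩, ?_⟩
    ext i
    simp only [Finset.mem_inter, mem_support₂, Finset.mem_insert, Finset.mem_singleton]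
    constructor
    · rintro ⟨-, h | h⟩
      · rw [h]
        exact ha
      · rw [h]
        exact hb
    · intro hi
      have h2 := hV hi
      simp only [Finset.mem_insert, Finset.mem_singleton] at h2
      refine ⟨?_, h2⟩
      rw [Pi.one_apply]
      decide
  · obtain ⟨w, hw, hwa, hwb⟩ := code_sep b a (Ne.symm hab)
    refine ⟨support₂ w, ⟨w, hw, rfl⟩, ?_⟩
    ext i
    simp only [Finset.mem_inter, mem_support₂, Finset.mem_insert, Finset.mem_singleton]
    constructor
    · rintro ⟨hi, h | h⟩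
      · rw [h]
        exact ha
      · rw [h] at hi
        exact absurd hwb hi
    · intro hi
      have h2 := hV hi
      simp only [Finset.mem_insert, Finset.mem_singleton] at h2
      rcases h2 with h | h
      · rw [h]
        exact ⟨hwa, Or.inl rfl⟩
      · rw [h] at hi
        exact absurd hi hb
  · obtain ⟨w, hw, hwb, hwa⟩ := code_sep a b hab
    refine ⟨support₂ w, ⟨w, hw, rfl⟩, ?_⟩
    ext i
    simp only [Finset.mem_inter, mem_support₂, Finset.mem_insert, Finset.mem_singleton]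
    constructor
    · rintro ⟨hi, h | h⟩
      · rw [h] at hi
        exact absurd hwa hi
      · rw [h]
        exact hb
    · intro hi
      have h2 := hV hi
      simp only [Finset.mem_insert, Finset.mem_singleton] at h2
      rcases h2 with h | h
      · rw [h] at hi
        exact absurd hi ha
      · rw [h]
        exact ⟨hwb, Or.inr rfl⟩
  · refine ⟨support₂ 0, ⟨0, golayCode.zero_mem, rfl⟩, ?_⟩
    ext i
    simp only [Finset.mem_inter, mem_support₂, Finset.mem_insert, Finset.mem_singleton]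
    constructor
    · rintro ⟨hi, -⟩
      exact absurd rfl hi
    · intro hi
      have h2 := hV hi
      simp only [Finset.mem_insert, Finset.mem_singleton] at h2
      rcases h2 with h | h
      · rw [h] at hi
        exact absurd hi ha
      · rw [h] at hi
        exact absurd hi hb

theorem relA_sgn (U V : Finset GolayPt) (hVU : V ⊆ U) (hU : U.card = 2) :
    CoRel (sgnVec 4 U V) baseVec := by
  obtain ⟨a, b, hab, rfl⟩ := Finset.card_eq_two.1 hU
  have hmem : sgnVec 4 ({a, b} : Finset GolayPt) V ∈ leechLattice :=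
    mem_of_LP (LP_sgnVec4 golayCode hVU hU)
  obtain ⟨c, hc, hcV⟩ := exists_code_inter a b hab V hVU
  have h1 : CoRel (sgnVec 4 ({a, b} : Finset GolayPt) V) (sgnVec 4 {a, b} ∅) := by
    have h := CoRel_sign hmem c hc
    rwa [sign_sgnVec 4 {a, b} V c hcV] at h
  obtain ⟨g, hg, hga, hgb⟩ := Cfsg.Agent.Helper3.M24_trans2 none (some 0) a b (by decide) hab
  have e : (fun i => sgnVec 4 ({a, b} : Finset GolayPt) ∅ (g i)) = baseVec := by
    show (fun i => sgnVec 4 ({a, b} : Finset GolayPt) ∅ (g i)) = sgnVec 4 {none, some 0} ∅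
    apply perm_sgnVec
    · intro i
      simp only [Finset.mem_insert, Finset.mem_singleton]
      rw [← hga, ← hgb, g.injective.eq_iff, g.injective.eq_iff]
    · intro i
      simp
  have h2 := CoRel_perm h1.mem g hg
  rw [e] at h2
  exact h1.trans h2

theorem relA (x : GolayPt → ℤ) (hx : x ∈ leechLattice) (hn : ∑ i, x i ^ 2 = 32) (i₀ : GolayPt)
    (h4 : x i₀ = 4 ∨ x i₀ = -4) : CoRel x baseVec := by
  rcases classify golayCode golayLike one_mem_golay (mem_leechSetOf.1 hx) hn with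
    ⟨U, V, hVU, hU, rfl⟩ | ⟨c, hc, hc8, V, hV, hev, rfl⟩ | ⟨p, c, hc, rfl⟩
  · exact relA_sgn U V hVU hU
  · exfalso
    rcases sgnVec_vals 2 (support₂ c) V i₀ with h | h | h <;> rcases h4 with h' | h' <;> omega
  · exfalso
    have h := oddMin_odd p c i₀
    rcases h4 with h' | h' <;> omega

theorem mixed_rel (x : GolayPt → ℤ) (hx : x ∈ leechLattice) (hn : ∑ i, x i ^ 2 = 32)
    (i j : GolayPt) (hi : x i = 2) (hj : x j = -2) : CoRel x baseVec := by
  have key : ∃ y, CoRel x y ∧ ∃ k, (y k = 4 ∨ y k = -4) := by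
    rcases classify golayCode golayLike one_mem_golay (mem_leechSetOf.1 hx) hn with
      ⟨U, V, hVU, hU, rfl⟩ | ⟨c, hc, hc8, V, hV, hev, rfl⟩ | ⟨p, c, hc, rfl⟩
    · exfalso
      rcases sgnVec_vals 4 U V i with h | h | h <;> omega
    · have hjV : j ∈ V := (sgnVec_neg (a := 2) (by norm_num) (support₂ c) V j).1
        (by rw [hj]; norm_num)
      have hiV : i ∉ V := by
        intro h
        rw [sgnVec_of_mem h] at hi
        omega
      have hiO : i ∈ support₂ c := by
        by_contra h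
        have h0 : sgnVec 2 (support₂ c) V i = 0 := by
          unfold sgnVec
          rw [if_neg hiV, if_neg h]
        omega
      have hcard : (support₂ c \ V).card + V.card = 8 := by
        rw [Finset.card_sdiff_add_card_eq_card hV, ← hammingNorm_eq_card, hc8]
      by_cases h3 : 3 ≤ (support₂ c \ V).card
      · obtain ⟨p1, hp1, p2, hp2, p3, hp3, d1, d2, d3⟩ := exists_three _ h3
        have hne : ∀ p ∈ support₂ c \ V, j ≠ p := by
          intro p hp hjp
          rw [← hjp] at hp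
          exact (Finset.mem_sdiff.1 hp).2 hjV
        obtain ⟨y, hy, hyv⟩ := rel_four_of_mixed _ hx 1 j p1 p2 p3
          ⟨hne p1 hp1, hne p2 hp2, hne p3 hp3, d1, d2, d3⟩
          (by rw [sgnVec_of_mem hjV] <;> norm_num)
          (by rw [sgnVec_of_mem_sdiff hp1] <;> norm_num)
          (by rw [sgnVec_of_mem_sdiff hp2] <;> norm_num)
          (by rw [sgnVec_of_mem_sdiff hp3] <;> norm_num)
        exact ⟨y, hy, j, Or.inl (by rw [hyv] <;> norm_num)⟩
      · have h3' : 3 ≤ V.card := by omega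
        obtain ⟨p1, hp1, p2, hp2, p3, hp3, d1, d2, d3⟩ := exists_three _ h3'
        have hne : ∀ p ∈ V, i ≠ p := by
          intro p hp hip
          rw [← hip] at hp
          exact hiV hp
        obtain ⟨y, hy, hyv⟩ := rel_four_of_mixed _ hx (-1) i p1 p2 p3
          ⟨hne p1 hp1, hne p2 hp2, hne p3 hp3, d1, d2, d3⟩
          (by rw [hi] <;> norm_num)
          (by rw [sgnVec_of_mem hp1] <;> norm_num)
          (by rw [sgnVec_of_mem hp2] <;> norm_num)
          (by rw [sgnVec_of_mem hp3] <;> norm_num)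
        exact ⟨y, hy, i, Or.inr (by rw [hyv] <;> norm_num)⟩
    · exfalso
      have h := oddMin_odd p c i
      omega
  obtain ⟨y, hy, k, hk⟩ := key
  exact hy.trans (relA y hy.mem (by rw [hy.norm, hn]) k hk)

theorem relB (c : GolayPt → ZMod 2) (hc : c ∈ golayCode) (hc8 : hammingNorm c = 8)
    (V : Finset GolayPt) (hV : V ⊆ support₂ c) (hev : Even V.card) :
    CoRel (sgnVec 2 (support₂ c) V) baseVec := by
  have hx : sgnVec 2 (support₂ c) V ∈ leechLattice :=
    mem_of_LP (LP_sgnVec2 golayCode hc hc8 hV hev)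
  have hn : ∑ i, sgnVec 2 (support₂ c) V i ^ 2 = 32 := by
    rw [sgnVec_sq 2 hV, ← hammingNorm_eq_card, hc8]
    norm_num
  obtain ⟨a, ha, b, hb, hab⟩ := Finset.one_lt_card.1
    (by rw [← hammingNorm_eq_card, hc8]; norm_num : 1 < (support₂ c).card)
  have hva : sgnVec 2 (support₂ c) V a = 2 ∨ sgnVec 2 (support₂ c) V a = -2 := by
    rcases sgnVec_vals 2 (support₂ c) V a with h | h | h
    · exact absurd h ((sgnVec_ne_zero (a := 2) (by norm_num) hV a).2 ha)
    · exact Or.inl h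
    · exact Or.inr h
  have hvb : sgnVec 2 (support₂ c) V b = 2 ∨ sgnVec 2 (support₂ c) V b = -2 := by
    rcases sgnVec_vals 2 (support₂ c) V b with h | h | h
    · exact absurd h ((sgnVec_ne_zero (a := 2) (by norm_num) hV b).2 hb)
    · exact Or.inl h
    · exact Or.inr h
  by_cases hsame : sgnVec 2 (support₂ c) V a = sgnVec 2 (support₂ c) V b
  · obtain ⟨w, hw, hwa, hwb⟩ := code_sep b a (Ne.symm hab)
    obtain ⟨x', hx'⟩ : ∃ x' : GolayPt → ℤ, x' = fun i =>
        if i ∈ support₂ w then -sgnVec 2 (support₂ c) V i else sgnVec 2 (support₂ c) V i :=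
      ⟨_, rfl⟩
    have hrel : CoRel (sgnVec 2 (support₂ c) V) x' := by
      rw [hx']
      exact CoRel_sign hx (support₂ w) ⟨w, hw, rfl⟩
    have ha' : x' a = -sgnVec 2 (support₂ c) V a := by
      rw [hx']
      exact if_pos ((mem_support₂ w a).2 hwa)
    have hb' : x' b = sgnVec 2 (support₂ c) V b := by
      rw [hx']
      exact if_neg (by rw [mem_support₂]; exact fun h => h hwb)
    have hn' := hrel.norm
    rw [hn] at hn'
    rcases hva with h | h
    · exact hrel.trans (mixed_rel _ hrel.mem hn' b a (by rw [hb', ← hsame, h])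
        (by rw [ha', h]))
    · exact hrel.trans (mixed_rel _ hrel.mem hn' a b (by rw [ha', h] <;> norm_num)
        (by rw [hb', ← hsame, h]))
  · rcases hva with h | h <;> rcases hvb with h' | h'
    · exact absurd (h.trans h'.symm) hsame
    · exact mixed_rel _ hx hn a b h h'
    · exact mixed_rel _ hx hn b a h' h
    · exact absurd (h.trans h'.symm) hsame

theorem relC1 (p : GolayPt) (c : GolayPt → ZMod 2) (hc : c ∈ golayCode) :
    CoRel (oddMin p c) (oddMin p 0) := by
  have hmem : oddMin p c ∈ leechLattice := mem_of_LP (LP_oddMin golayCode golayLike hc p)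
  have h := CoRel_sign hmem (support₂ c) ⟨c, hc, rfl⟩
  rwa [sign_oddMin] at h

theorem relC2 (p p' : GolayPt) :
    CoRel (oddMin p (0 : GolayPt → ZMod 2)) (oddMin p' 0) := by
  have hmem : oddMin p (0 : GolayPt → ZMod 2) ∈ leechLattice :=
    mem_of_LP (LP_oddMin golayCode golayLike golayCode.zero_mem p)
  obtain ⟨g, hg, hgp⟩ := Cfsg.Agent.Helper3.M24_trans1 p' p
  have e : (fun i => oddMin p (0 : GolayPt → ZMod 2) (g i)) = oddMin p' 0 := by
    funext i
    have h : g i = p ↔ i = p' := by rw [← hgp, g.injective.eq_iff]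
    by_cases hi : i = p'
    · subst hi
      simp [oddMin, hgp]
    · have h' : g i ≠ p := fun h' => hi (h.1 h')
      simp [oddMin, h', hi]
  have h2 := CoRel_perm hmem g hg
  rwa [e] at h2

theorem exists_oddMin_rel : ∃ p₁ : GolayPt, ∃ c₁ ∈ golayCode, CoRel (oddMin p₁ c₁) baseVec := by
  obtain ⟨s, -, hs⟩ := Finset.exists_subset_card_eq (s := (Finset.univ : Finset GolayPt))
    (n := 5) (by rw [Finset.card_univ, golayLike.hcard]; norm_num)
  obtain ⟨c₀, hc₀, hw₀, -⟩ := exists_octad golayCode golayLike.hcard golayLike.hdim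
    golayLike.hmin s hs
  have hcard : (support₂ c₀).card = 8 := by rw [← hammingNorm_eq_card, hw₀]
  have hz : sgnVec 2 (support₂ c₀) ∅ ∈ leechLattice :=
    mem_of_LP (LP_sgnVec2 golayCode hc₀ hw₀ (Finset.empty_subset _) (by simp))
  have hzn : ∑ i, sgnVec 2 (support₂ c₀) ∅ i ^ 2 = 32 := by
    rw [sgnVec_sq 2 (Finset.empty_subset _), hcard]
    norm_num
  obtain ⟨p1, hp1, p2, hp2, p3, hp3, d1, d2, d3⟩ := exists_three (support₂ c₀)
    (by rw [hcard]; norm_num)
  obtain ⟨q, hq⟩ : ∃ q, q ∉ support₂ c₀ := by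
    by_contra h
    push Not at h
    have h2 : support₂ c₀ = Finset.univ := Finset.eq_univ_iff_forall.2 h
    rw [h2, Finset.card_univ, golayLike.hcard] at hcard
    omega
  have hq' : ∀ p ∈ support₂ c₀, p ≠ q := fun p hp hpq => hq (hpq ▸ hp)
  have hval : ∀ p ∈ support₂ c₀, sgnVec 2 (support₂ c₀) ∅ p = 2 := by
    intro p hp
    exact sgnVec_of_mem_sdiff (by simpa using hp)
  have vq : sgnVec 2 (support₂ c₀) ∅ q = 0 := by
    unfold sgnVec
    rw [if_neg (Finset.notMem_empty q), if_neg hq]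
  obtain ⟨y, hy, hy1⟩ := rel_odd _ hz p1 p2 p3 q
    ⟨d1, d2, hq' p1 hp1, d3, hq' p2 hp2, hq' p3 hp3⟩ (hval p1 hp1) (hval p2 hp2) (hval p3 hp3) vq
  have hyn : ∑ i, y i ^ 2 = 32 := by rw [hy.norm, hzn]
  rcases classify golayCode golayLike one_mem_golay (mem_leechSetOf.1 hy.mem) hyn with
    ⟨U, V, hVU, hU, rfl⟩ | ⟨c, hc, hc8, V, hV, hev, rfl⟩ | ⟨p, c, hc, rfl⟩
  · exfalso
    rcases sgnVec_vals 4 U V p1 with h | h | h <;> omega
  · exfalso
    rcases sgnVec_vals 2 (support₂ c) V p1 with h | h | h <;> omega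
  · exact ⟨p, c, hc, hy.symm.trans (relB c₀ hc₀ hw₀ ∅ (Finset.empty_subset _) (by simp))⟩

theorem relC (p : GolayPt) (c : GolayPt → ZMod 2) (hc : c ∈ golayCode) :
    CoRel (oddMin p c) baseVec := by
  obtain ⟨p₁, c₁, hc₁, h⟩ := exists_oddMin_rel
  exact (relC1 p c hc).trans ((relC2 p p₁).trans ((relC1 p₁ c₁ hc₁).symm.trans h))

theorem rel_base (x : GolayPt → ℤ) (hx : x ∈ leechLattice) (hn : ∑ i, x i ^ 2 = 32) :
    CoRel x baseVec := by
  rcases classify golayCode golayLike one_mem_golay (mem_leechSetOf.1 hx) hn with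
    ⟨U, V, hVU, hU, rfl⟩ | ⟨c, hc, hc8, V, hV, hev, rfl⟩ | ⟨p, c, hc, rfl⟩
  · exact relA_sgn U V hVU hU
  · exact relB c hc hc8 V hV hev
  · exact relC p c hc

/-- the automorphism group is transitive on the vectors of sum of squares 32 -/
theorem min_trans (x y : GolayPt → ℤ) (hx : x ∈ leechLattice) (hnx : ∑ i, x i ^ 2 = 32)
    (hy : y ∈ leechLattice) (hny : ∑ i, y i ^ 2 = 32) : CoRel x y :=
  (rel_base x hx hnx).trans (rel_base y hy hny).symm

end Cfsg.Agent.Helper28
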