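import Cfsg.Agent.Helper28.Co0Trans
import Cfsg.Agent.Helper3.Golay.Coatom

/-!
Transitivity of the automorphism group of the lattice of the definitions on the vectors of
sum of squares 48 and on those of sum of squares 64.
-/

set_option autoImplicit false
set_option linter.unusedSectionVars false
set_option linter.unnecessarySeqFocus false

namespace Cfsg.Agent.Helper28

open Cfsg

theorem lp_cases {x : GolayPt → ℤ} (hx : x ∈ leechLattice) :
    LP golayCode x 0 ∨ LP golayCode x 1 := by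
  obtain ⟨m, hm⟩ := (mem_leechLattice_iff x).1 hx
  have h := LP_mod golayCode one_mem_golay hm
  rcases Int.emod_two_eq_zero_or_one m with h2 | h2
  · rw [h2] at h
    exact Or.inl h
  · rw [h2] at h
    exact Or.inr h

theorem lp_odd {x : GolayPt → ℤ} (hx : x ∈ leechLattice) (a : GolayPt) (ha : x a % 2 = 1) :
    LP golayCode x 1 := by
  rcases lp_cases hx with h | h
  · exfalso
    have h1 := h.1 a
    unfold Int.ModEq at h1
    omega
  · exact h

theorem lp_even {x : GolayPt → ℤ} (hx : x ∈ leechLattice) (a : GolayPt) (ha : x a % 2 = 0) :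
    LP golayCode x 0 := by
  rcases lp_cases hx with h | h
  · exact h
  · exfalso
    have h1 := h.1 a
    unfold Int.ModEq at h1
    omega

/-- sign normalisation of an odd vector: all coordinates become `1` modulo `4` -/
theorem normalize_odd {x : GolayPt → ℤ} (hx : LP golayCode x 1) :
    ∃ y, CoRel x y ∧ (∀ i, y i % 4 = 1) ∧ ∀ i, (y i = x i ∨ y i = -x i) := by
  refine ⟨fun i => if i ∈ support₂ (halfWord x 1) then -x i else x i,
    CoRel_sign (mem_of_LP hx) _ ⟨halfWord x 1, hx.2.2, rfl⟩, ?_, ?_⟩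
  · intro i
    have h1 := hx.1 i
    unfold Int.ModEq at h1
    by_cases h : i ∈ support₂ (halfWord x 1)
    · have h2 := (mem_support₂ _ _).1 h
      have h3 : ¬ ((x i - 1) / 2 % 2 = 0) := fun h4 => h2 ((intCast_zmod2_eq_zero _).2 h4)
      show (if i ∈ support₂ (halfWord x 1) then -x i else x i) % 4 = 1
      rw [if_pos h]
      omega
    · have h2 : halfWord x 1 i = 0 := by
        by_contra h4
        exact h ((mem_support₂ _ _).2 h4)
      have h3 : (x i - 1) / 2 % 2 = 0 := (intCast_zmod2_eq_zero _).1 h2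
      show (if i ∈ support₂ (halfWord x 1) then -x i else x i) % 4 = 1
      rw [if_neg h]
      omega
  · intro i
    show (if i ∈ support₂ (halfWord x 1) then -x i else x i) = x i ∨
      (if i ∈ support₂ (halfWord x 1) then -x i else x i) = -x i
    split_ifs
    · exact Or.inr rfl
    · exact Or.inl rfl

theorem exists_three_of_norm (x : GolayPt → ℤ) (P : GolayPt → Prop) [DecidablePred P]
    (hP : ∀ i, ¬ P i → 4 ≤ x i ^ 2) (hn : ∑ i, x i ^ 2 ≤ 64) :
    ∃ p1 p2 p3, P p1 ∧ P p2 ∧ P p3 ∧ p1 ≠ p2 ∧ p1 ≠ p3 ∧ p2 ≠ p3 := by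
  have h1 : ∑ i, (if ¬ P i then (4 : ℤ) else 0) ≤ ∑ i, x i ^ 2 := by
    apply Finset.sum_le_sum
    intro i _
    by_cases h : P i
    · rw [if_neg (not_not.2 h)]
      positivity
    · rw [if_pos h]
      exact hP i h
  have h2 : ∑ i, (if ¬ P i then (4 : ℤ) else 0) =
      4 * ((Finset.univ.filter (fun i => ¬ P i)).card : ℤ) := by
    rw [← Finset.sum_filter, Finset.sum_const, nsmul_eq_mul, mul_comm]
  have h3 := Finset.card_filter_add_card_filter_not (s := (Finset.univ : Finset GolayPt)) P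
  rw [Finset.card_univ, golayLike.hcard] at h3
  have h4 : 3 ≤ (Finset.univ.filter P).card := by omega
  obtain ⟨p1, hp1, p2, hp2, p3, hp3, d⟩ := exists_three _ h4
  exact ⟨p1, p2, p3, (Finset.mem_filter.1 hp1).2, (Finset.mem_filter.1 hp2).2,
    (Finset.mem_filter.1 hp3).2, d⟩

theorem xi_rel4 (x : GolayPt → ℤ) (hx : x ∈ leechLattice) (t1 t2 t3 t4 : GolayPt)
    (hd : t1 ≠ t2 ∧ t1 ≠ t3 ∧ t1 ≠ t4 ∧ t2 ≠ t3 ∧ t2 ≠ t4 ∧ t3 ≠ t4) :
    ∃ z, CoRel x z ∧ (∀ t ∈ ({t1, t2, t3, t4} : Finset GolayPt),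
      z t = -(x t - (x t1 + x t2 + x t3 + x t4) / 2)) := by
  obtain ⟨d1, d2, d3, d4, d5, d6⟩ := hd
  have hw := wt_ind4 t1 t2 t3 t4 d1 d2 d3 d4 d5 d6
  refine ⟨_, CoRel_xi hx _ hw, ?_⟩
  intro t ht
  rw [xi_val _ hw x t ((mem_support₂ _ _).1 (by rw [support₂_ind]; exact ht)),
    su_ind4 x t1 t2 t3 t4 d1 d2 d3 d4 d5 d6]

theorem even_to_odd {x : GolayPt → ℤ} (hx : LP golayCode x 0) (hn : ∑ i, x i ^ 2 ≤ 64)
    (a : GolayPt) (ha : x a % 4 = 2) : ∃ z, CoRel x z ∧ LP golayCode z 1 := by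
  have hev : ∀ i, x i % 2 = 0 := by
    intro i
    have h := hx.1 i
    unfold Int.ModEq at h
    omega
  obtain ⟨b1, b2, b3, h1, h2, h3, d1, d2, d3⟩ :=
    exists_three_of_norm x (fun i => x i % 4 = 0) (by
      intro i hi
      have hi' : ¬ (x i % 4 = 0) := hi
      have h := hev i
      have h0 : 2 ≤ x i ∨ x i ≤ -2 := by omega
      rcases h0 with h | h <;> nlinarith) hn
  have h1' : x b1 % 4 = 0 := h1
  have h2' : x b2 % 4 = 0 := h2
  have h3' : x b3 % 4 = 0 := h3
  have hab : ∀ b, x b % 4 = 0 → a ≠ b := by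
    intro b hb hab
    rw [hab] at ha
    omega
  obtain ⟨z, hz, hzv⟩ := xi_rel4 x (mem_of_LP hx) a b1 b2 b3
    ⟨hab b1 h1', hab b2 h2', hab b3 h3', d1, d2, d3⟩
  refine ⟨z, hz, lp_odd hz.mem a ?_⟩
  rw [hzv a (by simp)]
  omega

theorem norm1_count (y : GolayPt → ℤ) (h4 : ∀ i, y i % 4 = 1) (N : ℤ)
    (hn : ∑ i, y i ^ 2 = N) (hN : N ≤ 64) :
    (∀ i, y i = 1 ∨ y i = -3 ∨ y i = 5 ∨ y i = -7) ∧
    N = 24 + 8 * ((Finset.univ.filter (fun i => y i = -3)).card : ℤ) +
      24 * ((Finset.univ.filter (fun i => y i = 5)).card : ℤ) +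
      48 * ((Finset.univ.filter (fun i => y i = -7)).card : ℤ) := by
  have hv : ∀ i, y i = 1 ∨ y i = -3 ∨ y i = 5 ∨ y i = -7 := by
    intro i
    have h1 := sq_le_of_sum hn i
    have h2 := h4 i
    have h3 : y i ≤ 8 := by nlinarith
    have h5 : -8 ≤ y i := by nlinarith
    omega
  refine ⟨hv, ?_⟩
  have e : ∀ i, y i ^ 2 = 1 + 8 * (if y i = -3 then 1 else 0) +
      24 * (if y i = 5 then 1 else 0) + 48 * (if y i = -7 then 1 else 0) := by
    intro i
    rcases hv i with h | h | h | h <;> rw [h] <;> norm_num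
  rw [← hn, Finset.sum_congr rfl (fun i _ => e i)]
  simp only [Finset.sum_add_distrib, ← Finset.mul_sum, Finset.sum_boole, Finset.sum_const,
    Finset.card_univ, golayLike.hcard]
  norm_num

theorem not_of_card_zero {P : GolayPt → Prop} [DecidablePred P]
    (h : (Finset.univ.filter P).card = 0) (i : GolayPt) : ¬ P i := by
  intro hi
  have h1 : i ∈ Finset.univ.filter P := Finset.mem_filter.2 ⟨Finset.mem_univ i, hi⟩
  rw [Finset.card_eq_zero.1 h] at h1
  exact absurd h1 (Finset.notMem_empty i)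

theorem filter_single {P : GolayPt → Prop} [DecidablePred P] {p : GolayPt}
    (hp : Finset.univ.filter P = {p}) (i : GolayPt) : P i ↔ i = p := by
  constructor
  · intro h
    have h1 : i ∈ Finset.univ.filter P := Finset.mem_filter.2 ⟨Finset.mem_univ i, h⟩
    rw [hp] at h1
    exact Finset.mem_singleton.1 h1
  · intro h
    have h1 : i ∈ Finset.univ.filter P := by
      rw [hp, h]
      exact Finset.mem_singleton_self p
    exact (Finset.mem_filter.1 h1).2

/-- the vector with one coordinate 5 and all others 1 -/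
def fiveVec (p : GolayPt) : GolayPt → ℤ := fun i => if i = p then 5 else 1

/-- the vector with coordinates -3 on a set and 1 elsewhere -/
def threeVec (P : Finset GolayPt) : GolayPt → ℤ := fun i => if i ∈ P then -3 else 1

/-- the vector with one coordinate 5, coordinates -3 on a set and 1 elsewhere -/
def mixVec (p : GolayPt) (Q : Finset GolayPt) : GolayPt → ℤ :=
  fun i => if i = p then 5 else if i ∈ Q then -3 else 1

theorem classify48 (y : GolayPt → ℤ) (h4 : ∀ i, y i % 4 = 1) (hn : ∑ i, y i ^ 2 = 48) :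
    (∃ p, y = fiveVec p) ∨ (∃ P : Finset GolayPt, P.card = 3 ∧ y = threeVec P) := by
  obtain ⟨hv, hc⟩ := norm1_count y h4 48 hn (by norm_num)
  have h7 : (Finset.univ.filter (fun i => y i = -7)).card = 0 := by omega
  have hn7 := not_of_card_zero h7
  have hc5 : ((Finset.univ.filter (fun i => y i = 5)).card = 1 ∧
      (Finset.univ.filter (fun i => y i = -3)).card = 0) ∨
      ((Finset.univ.filter (fun i => y i = 5)).card = 0 ∧
      (Finset.univ.filter (fun i => y i = -3)).card = 3) := by omega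
  rcases hc5 with ⟨h5, h3⟩ | ⟨h5, h3⟩
  · left
    obtain ⟨p, hp⟩ := Finset.card_eq_one.1 h5
    refine ⟨p, ?_⟩
    funext i
    unfold fiveVec
    have hn3 := not_of_card_zero h3 i
    have h5i : y i = 5 ↔ i = p := filter_single hp i
    by_cases hi : i = p
    · rw [if_pos hi]
      exact h5i.2 hi
    · rw [if_neg hi]
      have h1 := hv i
      have h5' : y i ≠ 5 := fun h => hi (h5i.1 h)
      have h2 := hn7 i
      omega
  · right
    refine ⟨Finset.univ.filter (fun i => y i = -3), h3, ?_⟩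
    funext i
    unfold threeVec
    have hn5 := not_of_card_zero h5 i
    by_cases hi : y i = -3
    · rw [if_pos (Finset.mem_filter.2 ⟨Finset.mem_univ i, hi⟩)]
      exact hi
    · have hmem : i ∉ Finset.univ.filter (fun i => y i = -3) :=
        fun h => hi (Finset.mem_filter.1 h).2
      rw [if_neg hmem]
      have h1 := hv i
      have h2 := hn7 i
      omega

theorem classify64 (y : GolayPt → ℤ) (h4 : ∀ i, y i % 4 = 1) (hn : ∑ i, y i ^ 2 = 64) :
    (∃ P : Finset GolayPt, P.card = 5 ∧ y = threeVec P) ∨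
    (∃ p, ∃ Q : Finset GolayPt, Q.card = 2 ∧ y = mixVec p Q) := by
  obtain ⟨hv, hc⟩ := norm1_count y h4 64 hn le_rfl
  have h7 : (Finset.univ.filter (fun i => y i = -7)).card = 0 := by omega
  have hn7 := not_of_card_zero h7
  have hc5 : ((Finset.univ.filter (fun i => y i = 5)).card = 0 ∧
      (Finset.univ.filter (fun i => y i = -3)).card = 5) ∨
      ((Finset.univ.filter (fun i => y i = 5)).card = 1 ∧
      (Finset.univ.filter (fun i => y i = -3)).card = 2) := by omega
  rcases hc5 with ⟨h5, h3⟩ | ⟨h5, h3⟩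
  · left
    refine ⟨Finset.univ.filter (fun i => y i = -3), h3, ?_⟩
    funext i
    unfold threeVec
    have hn5 := not_of_card_zero h5 i
    by_cases hi : y i = -3
    · rw [if_pos (Finset.mem_filter.2 ⟨Finset.mem_univ i, hi⟩)]
      exact hi
    · have hmem : i ∉ Finset.univ.filter (fun i => y i = -3) :=
        fun h => hi (Finset.mem_filter.1 h).2
      rw [if_neg hmem]
      have h1 := hv i
      have h2 := hn7 i
      omega
  · right
    obtain ⟨p, hp⟩ := Finset.card_eq_one.1 h5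
    refine ⟨p, Finset.univ.filter (fun i => y i = -3), h3, ?_⟩
    funext i
    unfold mixVec
    have h5i : y i = 5 ↔ i = p := filter_single hp i
    by_cases hi : i = p
    · rw [if_pos hi]
      exact h5i.2 hi
    · rw [if_neg hi]
      by_cases hi3 : y i = -3
      · rw [if_pos (Finset.mem_filter.2 ⟨Finset.mem_univ i, hi3⟩)]
        exact hi3
      · have hmem : i ∉ Finset.univ.filter (fun i => y i = -3) :=
          fun h => hi3 (Finset.mem_filter.1 h).2
        rw [if_neg hmem]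
        have h1 := hv i
        have h5' : y i ≠ 5 := fun h => hi (h5i.1 h)
        have h2 := hn7 i
        omega

theorem five_trans (p p' : GolayPt) (h : fiveVec p ∈ leechLattice) :
    CoRel (fiveVec p) (fiveVec p') := by
  obtain ⟨g, hg, hgp⟩ := Cfsg.Agent.Helper3.M24_trans1 p' p
  have e : (fun i => fiveVec p (g i)) = fiveVec p' := by
    funext i
    unfold fiveVec
    have h' : g i = p ↔ i = p' := by rw [← hgp, g.injective.eq_iff]
    rw [if_congr h' rfl rfl]
  have h2 := CoRel_perm h g hg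
  rwa [e] at h2

theorem odd48 {x : GolayPt → ℤ} (hx : LP golayCode x 1) (hn : ∑ i, x i ^ 2 = 48) :
    ∃ p, CoRel x (fiveVec p) := by
  obtain ⟨y, hxy, hy4, -⟩ := normalize_odd hx
  rcases classify48 y hy4 (by rw [hxy.norm, hn]) with ⟨p, rfl⟩ | ⟨P, hP, rfl⟩
  · exact ⟨p, hxy⟩
  · obtain ⟨p1, p2, p3, d12, d13, d23, rfl⟩ := Finset.card_eq_three.1 hP
    obtain ⟨d, hd⟩ : ∃ d, d ∉ ({p1, p2, p3} : Finset GolayPt) := by
      by_contra h
      push Not at h
      have h2 : ({p1, p2, p3} : Finset GolayPt) = Finset.univ := Finset.eq_univ_iff_forall.2 h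
      rw [h2, Finset.card_univ, golayLike.hcard] at hP
      omega
    have hd' : d ≠ p1 ∧ d ≠ p2 ∧ d ≠ p3 := by
      simp only [Finset.mem_insert, Finset.mem_singleton, not_or] at hd
      exact hd
    obtain ⟨z, hyz, hzv⟩ := xi_rel4 (threeVec {p1, p2, p3}) hxy.mem d p1 p2 p3
      ⟨hd'.1, hd'.2.1, hd'.2.2, d12, d13, d23⟩
    have hzd : z d = -5 := by
      rw [hzv d (by simp)]
      have e0 : threeVec {p1, p2, p3} d = 1 := by
        unfold threeVec
        rw [if_neg hd]
      have e1 : threeVec {p1, p2, p3} p1 = -3 := by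
        unfold threeVec
        rw [if_pos (by simp)]
      have e2 : threeVec {p1, p2, p3} p2 = -3 := by
        unfold threeVec
        rw [if_pos (by simp)]
      have e3 : threeVec {p1, p2, p3} p3 = -3 := by
        unfold threeVec
        rw [if_pos (by simp)]
      rw [e0, e1, e2, e3]
      norm_num
    have hzL : LP golayCode z 1 := lp_odd hyz.mem d (by rw [hzd] <;> norm_num)
    obtain ⟨y', hzy', hy'4, hy'x⟩ := normalize_odd hzL
    have hn' : ∑ i, y' i ^ 2 = 48 := by rw [hzy'.norm, hyz.norm, hxy.norm, hn]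
    rcases classify48 y' hy'4 hn' with ⟨p, rfl⟩ | ⟨P', hP', rfl⟩
    · exact ⟨p, hxy.trans (hyz.trans hzy')⟩
    · exfalso
      have h1 := hy'x d
      rw [hzd] at h1
      have h2 : threeVec P' d = -3 ∨ threeVec P' d = 1 := by
        unfold threeVec
        split_ifs
        · exact Or.inl rfl
        · exact Or.inr rfl
      rcases h1 with h1 | h1 <;> rcases h2 with h2 | h2 <;> omega

theorem rel_five (x : GolayPt → ℤ) (hx : x ∈ leechLattice) (hn : ∑ i, x i ^ 2 = 48) :
    ∃ p, CoRel x (fiveVec p) := by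
  rcases lp_cases hx with h0 | h1
  · have hev : ∀ i, x i % 2 = 0 := by
      intro i
      have h := h0.1 i
      unfold Int.ModEq at h
      omega
    have hex : ∃ a, x a % 4 = 2 := by
      by_contra hne
      push Not at hne
      have h40 : ∀ i, x i % 4 = 0 := by
        intro i
        have h1 := hev i
        have h2 := hne i
        omega
      have hdvd : (32 : ℤ) ∣ ∑ i, (x i ^ 2 - 4 * x i) := by
        apply Finset.dvd_sum
        intro i _
        obtain ⟨k, hk⟩ : ∃ k, x i = 4 * k := ⟨x i / 4, by have h := h40 i; omega⟩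
        obtain ⟨j, hj | hj⟩ := Int.even_or_odd' k
        · exact ⟨j * (2 * j - 1), by rw [hk, hj]; ring⟩
        · exact ⟨j * (2 * j + 1), by rw [hk, hj]; ring⟩
      rw [Finset.sum_sub_distrib, ← Finset.mul_sum, hn] at hdvd
      have hs := h0.2.1
      unfold Int.ModEq at hs
      omega
    obtain ⟨a, ha⟩ := hex
    obtain ⟨z, hxz, hz⟩ := even_to_odd h0 (by rw [hn]; norm_num) a ha
    obtain ⟨p, hp⟩ := odd48 hz (by rw [hxz.norm, hn])
    exact ⟨p, hxz.trans hp⟩
  · exact odd48 h1 hn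

/-- the automorphism group is transitive on the vectors of sum of squares 48 -/
theorem trans48 (x w : GolayPt → ℤ) (hx : x ∈ leechLattice) (hnx : ∑ i, x i ^ 2 = 48)
    (hw : w ∈ leechLattice) (hnw : ∑ i, w i ^ 2 = 48) : CoRel x w := by
  obtain ⟨p, hp⟩ := rel_five x hx hnx
  obtain ⟨p', hp'⟩ := rel_five w hw hnw
  exact hp.trans ((five_trans p p' hp.mem).trans hp'.symm)

theorem three_trans (P P' : Finset GolayPt) (hP : P.card = 5) (hP' : P'.card = 5)
    (h : threeVec P' ∈ leechLattice) : CoRel (threeVec P') (threeVec P) := by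
  obtain ⟨g, hg, hgl⟩ := Cfsg.Agent.Helper3.M24_trans_list P.toList P'.toList
    (Finset.nodup_toList P) (Finset.nodup_toList P')
    (by rw [Finset.length_toList, Finset.length_toList, hP, hP'])
    (by rw [Finset.length_toList, hP])
  have hmem : ∀ i, g i ∈ P' ↔ i ∈ P := by
    intro i
    rw [← Finset.mem_toList, ← hgl, List.mem_map]
    constructor
    · rintro ⟨j, hj, hji⟩
      rw [← g.injective hji]
      exact Finset.mem_toList.1 hj
    · intro hi
      exact ⟨i, Finset.mem_toList.2 hi, rfl⟩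
  have e : (fun i => threeVec P' (g i)) = threeVec P := by
    funext i
    unfold threeVec
    rw [if_congr (hmem i) rfl rfl]
  have h2 := CoRel_perm h g hg
  rwa [e] at h2

theorem mix_to_three (p : GolayPt) (Q : Finset GolayPt) (hQ : Q.card = 2)
    (h : mixVec p Q ∈ leechLattice) (hn : ∑ i, mixVec p Q i ^ 2 = 64) :
    ∃ P : Finset GolayPt, P.card = 5 ∧ CoRel (mixVec p Q) (threeVec P) := by
  obtain ⟨a, ha, b, hb, c, hc, dab, dac, dbc⟩ := exists_three (Finset.univ \ insert p Q) (by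
    have h1 := Finset.card_sdiff_add_card_eq_card (Finset.subset_univ (insert p Q))
    rw [Finset.card_univ, golayLike.hcard] at h1
    have h2 := Finset.card_insert_le p Q
    omega)
  have hmem : ∀ t ∈ Finset.univ \ insert p Q, t ≠ p ∧ t ∉ Q := by
    intro t ht
    rw [Finset.mem_sdiff, Finset.mem_insert, not_or] at ht
    exact ht.2
  have hval : ∀ t ∈ Finset.univ \ insert p Q, mixVec p Q t = 1 := by
    intro t ht
    unfold mixVec
    rw [if_neg (hmem t ht).1, if_neg (hmem t ht).2]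
  have hvp : mixVec p Q p = 5 := by
    unfold mixVec
    rw [if_pos rfl]
  obtain ⟨z, hxz, hzv⟩ := xi_rel4 (mixVec p Q) h p a b c
    ⟨Ne.symm (hmem a ha).1, Ne.symm (hmem b hb).1, Ne.symm (hmem c hc).1, dab, dac, dbc⟩
  have hz3 : ∀ t ∈ ({a, b, c} : Finset GolayPt), z t = 3 := by
    intro t ht
    have ht2 : t = a ∨ t = b ∨ t = c := by
      simp only [Finset.mem_insert, Finset.mem_singleton] at ht
      exact ht
    have ht' : t ∈ Finset.univ \ insert p Q := by
      rcases ht2 with h1 | h1 | h1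
      · rw [h1]
        exact ha
      · rw [h1]
        exact hb
      · rw [h1]
        exact hc
    have ht3 : t ∈ ({p, a, b, c} : Finset GolayPt) := by
      simp only [Finset.mem_insert, Finset.mem_singleton]
      exact Or.inr ht2
    rw [hzv t ht3, hval t ht', hvp, hval a ha, hval b hb, hval c hc]
    norm_num
  have hzL : LP golayCode z 1 := lp_odd hxz.mem a (by rw [hz3 a (by simp)] <;> norm_num)
  obtain ⟨y', hzy', hy'4, hy'x⟩ := normalize_odd hzL
  have hn' : ∑ i, y' i ^ 2 = 64 := by rw [hzy'.norm, hxz.norm, hn]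
  have hy3 : ∀ t ∈ ({a, b, c} : Finset GolayPt), y' t = -3 := by
    intro t ht
    have h1 := hy'x t
    rw [hz3 t ht] at h1
    have h2 := hy'4 t
    rcases h1 with h1 | h1 <;> omega
  rcases classify64 y' hy'4 hn' with ⟨P, hP, rfl⟩ | ⟨p', Q', hQ', rfl⟩
  · exact ⟨P, hP, hxz.trans hzy'⟩
  · exfalso
    have hQ3 : ({a, b, c} : Finset GolayPt) ⊆ Q' := by
      intro t ht
      have h1 := hy3 t ht
      unfold mixVec at h1
      by_contra hnot
      rw [if_neg hnot] at h1
      by_cases hp' : t = p'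
      · rw [if_pos hp'] at h1
        omega
      · rw [if_neg hp'] at h1
        omega
    have hcard := Finset.card_le_card hQ3
    rw [Finset.card_insert_of_notMem (by simp [dab, dac]), Finset.card_pair dbc, hQ'] at hcard
    omega

theorem odd64 {x : GolayPt → ℤ} (hx : LP golayCode x 1) (hn : ∑ i, x i ^ 2 = 64) :
    ∃ P : Finset GolayPt, P.card = 5 ∧ CoRel x (threeVec P) := by
  obtain ⟨y, hxy, hy4, -⟩ := normalize_odd hx
  have hny : ∑ i, y i ^ 2 = 64 := by rw [hxy.norm, hn]
  rcases classify64 y hy4 hny with ⟨P, hP, rfl⟩ | ⟨p, Q, hQ, rfl⟩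
  · exact ⟨P, hP, hxy⟩
  · obtain ⟨P, hP, h⟩ := mix_to_three p Q hQ hxy.mem hny
    exact ⟨P, hP, hxy.trans h⟩

theorem four_to_two {x : GolayPt → ℤ} (hx : LP golayCode x 0) (hn : ∑ i, x i ^ 2 = 64)
    (h4 : ∀ i, x i % 4 = 0) (s : GolayPt) (hs : x s = 4 ∨ x s = -4) :
    ∃ z, CoRel x z ∧ LP golayCode z 0 ∧ ∃ a, z a % 4 = 2 := by
  obtain ⟨b1, b2, b3, h1, h2, h3, d1, d2, d3⟩ :=
    exists_three_of_norm x (fun i => x i = 0) (by
      intro i hi
      have hi' : x i ≠ 0 := hi
      have h := h4 i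
      have h0 : 4 ≤ x i ∨ x i ≤ -4 := by omega
      rcases h0 with h | h <;> nlinarith) (le_of_eq hn)
  have h1' : x b1 = 0 := h1
  have h2' : x b2 = 0 := h2
  have h3' : x b3 = 0 := h3
  have hsb : ∀ b, x b = 0 → s ≠ b := by
    intro b hb hsb
    rw [hsb, hb] at hs
    omega
  obtain ⟨z, hxz, hzv⟩ := xi_rel4 x (mem_of_LP hx) s b1 b2 b3
    ⟨hsb b1 h1', hsb b2 h2', hsb b3 h3', d1, d2, d3⟩
  have hzs : z s % 4 = 2 := by
    rw [hzv s (by simp), h1', h2', h3']
    rcases hs with h | h <;> rw [h] <;> norm_num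
  exact ⟨z, hxz, lp_even hxz.mem s (by omega), s, hzs⟩

theorem eight_to_four {x : GolayPt → ℤ} (hx : x ∈ leechLattice) (hn : ∑ i, x i ^ 2 = 64)
    (i₀ : GolayPt) (h8 : x i₀ = 8 ∨ x i₀ = -8) :
    ∃ z, CoRel x z ∧ ∃ b, (z b = 4 ∨ z b = -4) := by
  have hz0 : ∀ b, b ≠ i₀ → x b = 0 := by
    intro b hb
    have h1 : ∑ i ∈ ({i₀, b} : Finset GolayPt), x i ^ 2 ≤ ∑ i, x i ^ 2 :=
      Finset.sum_le_sum_of_subset_of_nonneg (Finset.subset_univ _)
        (fun i _ _ => sq_nonneg (x i))
    rw [Finset.sum_pair (Ne.symm hb), hn] at h1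
    have h2 : x i₀ ^ 2 = 64 := by
      rcases h8 with h | h <;> rw [h] <;> norm_num
    have h3 : x b ^ 2 ≤ 0 := by linarith
    have h4 : x b ^ 2 = 0 := le_antisymm h3 (sq_nonneg _)
    exact (pow_eq_zero_iff two_ne_zero).1 h4
  obtain ⟨b1, hb1, b2, hb2, b3, hb3, d1, d2, d3⟩ := exists_three (Finset.univ.erase i₀) (by
    rw [Finset.card_erase_of_mem (Finset.mem_univ _), Finset.card_univ, golayLike.hcard]
    norm_num)
  have hne : ∀ b ∈ Finset.univ.erase i₀, i₀ ≠ b :=
    fun b hb => Ne.symm (Finset.ne_of_mem_erase hb)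
  obtain ⟨z, hxz, hzv⟩ := xi_rel4 x hx i₀ b1 b2 b3
    ⟨hne b1 hb1, hne b2 hb2, hne b3 hb3, d1, d2, d3⟩
  refine ⟨z, hxz, b1, ?_⟩
  rw [hzv b1 (by simp), hz0 b1 (Ne.symm (hne b1 hb1)), hz0 b2 (Ne.symm (hne b2 hb2)),
    hz0 b3 (Ne.symm (hne b3 hb3))]
  rcases h8 with h | h <;> rw [h] <;> norm_num

theorem rel_three_of_no8 (x : GolayPt → ℤ) (hx : x ∈ leechLattice) (hn : ∑ i, x i ^ 2 = 64)
    (h8 : ∀ i, x i ≠ 8 ∧ x i ≠ -8) :
    ∃ P : Finset GolayPt, P.card = 5 ∧ CoRel x (threeVec P) := by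
  rcases lp_cases hx with h0 | h1
  · have hev : ∀ i, x i % 2 = 0 := by
      intro i
      have h := h0.1 i
      unfold Int.ModEq at h
      omega
    have key : ∀ x' : GolayPt → ℤ, LP golayCode x' 0 → ∑ i, x' i ^ 2 = 64 →
        (∃ a, x' a % 4 = 2) → ∃ P : Finset GolayPt, P.card = 5 ∧ CoRel x' (threeVec P) := by
      intro x' hx' hn' ⟨a, ha⟩
      obtain ⟨z, hxz, hz⟩ := even_to_odd hx' (le_of_eq hn') a ha
      obtain ⟨P, hP, h⟩ := odd64 hz (by rw [hxz.norm, hn'])
      exact ⟨P, hP, hxz.trans h⟩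
    by_cases hex : ∃ a, x a % 4 = 2
    · exact key x h0 hn hex
    · have h40 : ∀ i, x i % 4 = 0 := by
        intro i
        have h1 := hev i
        have h2 : ¬ (x i % 4 = 2) := fun h => hex ⟨i, h⟩
        omega
      have hne : ∃ s, x s ≠ 0 := by
        by_contra hall
        have hall' : ∀ s, x s = 0 := fun s => by
          by_contra h
          exact hall ⟨s, h⟩
        have h0' : ∑ i, x i ^ 2 = 0 :=
          Finset.sum_eq_zero (fun i _ => by rw [hall' i]; norm_num)
        rw [hn] at h0'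
        norm_num at h0'
      obtain ⟨s, hs⟩ := hne
      have hs4 : x s = 4 ∨ x s = -4 := by
        have h1 := sq_le_of_sum hn s
        have h2 := h40 s
        have h3 := h8 s
        have h5 : x s ≤ 8 := by nlinarith
        have h6 : -8 ≤ x s := by nlinarith
        omega
      obtain ⟨z, hxz, hz0, hza⟩ := four_to_two h0 hn h40 s hs4
      obtain ⟨P, hP, h⟩ := key z hz0 (by rw [hxz.norm, hn]) hza
      exact ⟨P, hP, hxz.trans h⟩
  · exact odd64 h1 hn

theorem rel_three (x : GolayPt → ℤ) (hx : x ∈ leechLattice) (hn : ∑ i, x i ^ 2 = 64) :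
    ∃ P : Finset GolayPt, P.card = 5 ∧ CoRel x (threeVec P) := by
  by_cases h8 : ∃ i, x i = 8 ∨ x i = -8
  · obtain ⟨i₀, h8'⟩ := h8
    obtain ⟨z, hxz, b, hb⟩ := eight_to_four hx hn i₀ h8'
    have hnz : ∑ i, z i ^ 2 = 64 := by rw [hxz.norm, hn]
    have hsq : ∀ i, (z i = 8 ∨ z i = -8) → False := by
      intro i hi
      have hib : i ≠ b := by
        intro h
        rw [h] at hi
        rcases hi with h1 | h1 <;> rcases hb with h2 | h2 <;> omega
      have h1 : ∑ j ∈ ({i, b} : Finset GolayPt), z j ^ 2 ≤ ∑ j, z j ^ 2 :=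
        Finset.sum_le_sum_of_subset_of_nonneg (Finset.subset_univ _)
          (fun j _ _ => sq_nonneg (z j))
      rw [Finset.sum_pair hib, hnz] at h1
      have h2 : z i ^ 2 = 64 := by
        rcases hi with h | h <;> rw [h] <;> norm_num
      have h3 : z b ^ 2 = 16 := by
        rcases hb with h | h <;> rw [h] <;> norm_num
      linarith
    obtain ⟨P, hP, h⟩ := rel_three_of_no8 z hxz.mem hnz
      (fun i => ⟨fun h => hsq i (Or.inl h), fun h => hsq i (Or.inr h)⟩)
    exact ⟨P, hP, hxz.trans h⟩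
  · exact rel_three_of_no8 x hx hn
      (fun i => ⟨fun h => h8 ⟨i, Or.inl h⟩, fun h => h8 ⟨i, Or.inr h⟩⟩)

/-- the automorphism group is transitive on the vectors of sum of squares 64 -/
theorem trans64 (x w : GolayPt → ℤ) (hx : x ∈ leechLattice) (hnx : ∑ i, x i ^ 2 = 64)
    (hw : w ∈ leechLattice) (hnw : ∑ i, w i ^ 2 = 64) : CoRel x w := by
  obtain ⟨P, hP, h⟩ := rel_three x hx hnx
  obtain ⟨P', hP', h'⟩ := rel_three w hw hnw
  exact h.trans ((three_trans P' P hP' hP h.mem).trans h'.symm)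

end Cfsg.Agent.Helper28
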