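import Cfsg.Agent.Helper28.Co2Simple
import Cfsg.Agent.Helper28.Co0Center

/-!
The automorphism group of the lattice modulo its centre: order and simplicity.

A normal subgroup `N` of the automorphism group containing the negation is considered in its
action on the 196560 minimal vectors; the stabiliser `M` of a minimal vector `x` is simple.
If `M ≤ N`, then `N` contains the stabiliser of every minimal vector, so the orbit of `x` under
`N` contains all minimal vectors of inner product `-8` or `0` with `x`, more than half of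
the minimal vectors, and `N` is the whole group.  If `N` meets `M` trivially, then `N` acts
freely, its order divides 196560, and, if `N` is not generated by the negation, the orbit of
`x` contains a whole class of vectors of inner product `0`, `-8` or `∓16` with `x`, so that the
order of `N` is at least 9200 and is divisible by three of the primes 3, 5, 7, 13; but two
elements of `N` moving `x` to vectors of the same inner product with `x` are conjugate, which
leaves room for two odd prime orders at most.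
-/

set_option autoImplicit false
set_option linter.style.haveILetI false

namespace Cfsg.Agent.Helper28

open Cfsg Equiv Cfsg.Agent.Helper3

/-- negation as a permutation of the lattice -/
def negP : Perm leechLattice := (co0Neg : Perm leechLattice)

theorem negP_apply (a : leechLattice) : negP a = -a := rfl

theorem negP_mem : negP ∈ Co0 := co0Neg.2

theorem negP_sq : negP * negP = 1 := by
  have h := congrArg Subtype.val co0Neg_sq
  exact h

theorem negP_comm (k : Perm leechLattice) (hk : k ∈ Co0) : negP * k = k * negP := by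
  have h := congrArg Subtype.val (co0Neg_central ⟨k, hk⟩)
  exact h

theorem negP_ne_one : negP ≠ 1 := fun h => co0Neg_ne_one (Subtype.ext h)

theorem negP_pow_odd (k : ℕ) (hk : k % 2 = 1) : negP ^ k = negP := by
  obtain ⟨j, hj⟩ : ∃ j, k = 2 * j + 1 := ⟨k / 2, by omega⟩
  rw [hj, pow_succ, pow_mul, pow_two, negP_sq, one_pow, one_mul]

/-- the inner products of two minimal vectors -/
theorem min_dot_cases (a b : leechLattice) (ha : sqNorm (a : GolayPt → ℤ) = 32)
    (hb : sqNorm (b : GolayPt → ℤ) = 32) (h1 : b ≠ a) (h2 : b ≠ -a) :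
    dotInt (a : GolayPt → ℤ) (b : GolayPt → ℤ) = 16 ∨
    dotInt (a : GolayPt → ℤ) (b : GolayPt → ℤ) = 8 ∨
    dotInt (a : GolayPt → ℤ) (b : GolayPt → ℤ) = 0 ∨
    dotInt (a : GolayPt → ℤ) (b : GolayPt → ℤ) = -8 ∨
    dotInt (a : GolayPt → ℤ) (b : GolayPt → ℤ) = -16 := by
  have e1 := dot_min_le a b ha hb (Ne.symm h1)
  have hnb : sqNorm ((-b : leechLattice) : GolayPt → ℤ) = 32 := by
    rw [AddSubgroup.coe_neg, sqNorm_neg']
    exact hb
  have e2 := dot_min_le a (-b) ha hnb (fun h => h2 (by rw [h, neg_neg]))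
  rw [AddSubgroup.coe_neg, dot_neg_right] at e2
  obtain ⟨c, hc⟩ := leech_dot_dvd _ _ a.2 b.2
  omega

/-- the stabiliser of a minimal vector is transitive on the minimal vectors of a given inner
product with it -/
theorem stab_trans_any (v w w' : leechLattice) (hv : sqNorm (v : GolayPt → ℤ) = 32)
    (hw : sqNorm (w : GolayPt → ℤ) = 32) (hw' : sqNorm (w' : GolayPt → ℤ) = 32)
    (h1 : w ≠ v) (h2 : w ≠ -v)
    (hd : dotInt (v : GolayPt → ℤ) (w' : GolayPt → ℤ) =
      dotInt (v : GolayPt → ℤ) (w : GolayPt → ℤ)) :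
    ∃ g : Co0, (g : Perm leechLattice) v = v ∧ (g : Perm leechLattice) w = w' := by
  have hnw : sqNorm ((-w : leechLattice) : GolayPt → ℤ) = 32 := by
    rw [AddSubgroup.coe_neg, sqNorm_neg']
    exact hw
  have hnw' : sqNorm ((-w' : leechLattice) : GolayPt → ℤ) = 32 := by
    rw [AddSubgroup.coe_neg, sqNorm_neg']
    exact hw'
  have hneg : ∀ t : ℤ, dotInt (v : GolayPt → ℤ) (w : GolayPt → ℤ) = t →
      dotInt (v : GolayPt → ℤ) ((-w : leechLattice) : GolayPt → ℤ) = -t ∧
      dotInt (v : GolayPt → ℤ) ((-w' : leechLattice) : GolayPt → ℤ) = -t := by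
    intro t ht
    constructor
    · rw [AddSubgroup.coe_neg, dot_neg_right, ht]
    · rw [AddSubgroup.coe_neg, dot_neg_right, hd, ht]
  have hfin : ∀ g : Co0, (g : Perm leechLattice) v = v →
      (g : Perm leechLattice) (-w) = -w' →
      ∃ g : Co0, (g : Perm leechLattice) v = v ∧ (g : Perm leechLattice) w = w' := by
    intro g hg1 hg2
    refine ⟨g, hg1, ?_⟩
    rw [co0_map_neg] at hg2
    exact neg_injective hg2
  rcases min_dot_cases v w hv hw h1 h2 with h | h | h | h | h
  · obtain ⟨e1, e2⟩ := hneg 16 h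
    obtain ⟨g, hg1, hg2⟩ := stab_trans_two v (-w) (-w') hv hnw hnw' e1 e2
    exact hfin g hg1 hg2
  · obtain ⟨e1, e2⟩ := hneg 8 h
    obtain ⟨g, hg1, hg2⟩ := stab_trans_one v (-w) (-w') hv hnw hnw' e1 e2
    exact hfin g hg1 hg2
  · obtain ⟨g, hg1, hg2⟩ := stab_trans_orth v w w' hv hw hw' h (hd.trans h)
    exact ⟨g, hg1, hg2⟩
  · obtain ⟨g, hg1, hg2⟩ := stab_trans_one v w w' hv hw hw' h (hd.trans h)
    exact ⟨g, hg1, hg2⟩
  · obtain ⟨g, hg1, hg2⟩ := stab_trans_two v w w' hv hw hw' h (hd.trans h)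
    exact ⟨g, hg1, hg2⟩

/-- a large divisor of 196560 is divisible by three of the primes 3, 5, 7, 13 -/
theorem three_primes (d : ℕ) (hd : d ∣ 196560) (hbig : 5617 ≤ d) :
    (d % 3 = 0 ∧ d % 5 = 0 ∧ d % 7 = 0) ∨ (d % 3 = 0 ∧ d % 5 = 0 ∧ d % 13 = 0) ∨
    (d % 3 = 0 ∧ d % 7 = 0 ∧ d % 13 = 0) ∨ (d % 5 = 0 ∧ d % 7 = 0 ∧ d % 13 = 0) := by
  obtain ⟨e, he⟩ := hd
  have he1 : 1 ≤ e := by
    rcases Nat.eq_zero_or_pos e with h | h
    · rw [h] at he
      omega
    · exact h
  have he2 : e ≤ 34 := by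
    by_contra hc
    have hc' : 35 ≤ e := by omega
    have h := Nat.mul_le_mul hbig hc'
    omega
  interval_cases e <;> omega

theorem co1_three (t1 t2 t3 : ℤ)
    (h1 : t1 = 16 ∨ t1 = 8 ∨ t1 = 0 ∨ t1 = -8 ∨ t1 = -16)
    (h2 : t2 = 16 ∨ t2 = 8 ∨ t2 = 0 ∨ t2 = -8 ∨ t2 = -16)
    (h3 : t3 = 16 ∨ t3 = 8 ∨ t3 = 0 ∨ t3 = -8 ∨ t3 = -16)
    (n1 : t1 ≠ -t1) (n2 : t2 ≠ -t2) (n3 : t3 ≠ -t3)
    (d12 : t2 ≠ t1) (d13 : t3 ≠ t1) (d23 : t3 ≠ t2)
    (e12 : t2 ≠ -t1) (e13 : t3 ≠ -t1) (e23 : t3 ≠ -t2) : False := by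
  omega

/-- the vector `(0, 0, 4, -4, 0, …)` -/
def co1W : leechLattice :=
  ⟨sgnVec 4 {some 1, some 2} {some 2},
    (sgn4_min (some 1) (some 2) (by decide) {some 2} (by simp)).1⟩

theorem co1W_norm : sqNorm (co1W : GolayPt → ℤ) = 32 :=
  (sgn4_min (some 1) (some 2) (by decide) {some 2} (by simp)).2

theorem co1W_none : (co1W : GolayPt → ℤ) none = 0 := by
  show sgnVec 4 ({some 1, some 2} : Finset GolayPt) {some 2} none = 0
  decide

theorem co1W_zero : (co1W : GolayPt → ℤ) (some 0) = 0 := by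
  show sgnVec 4 ({some 1, some 2} : Finset GolayPt) {some 2} (some 0) = 0
  decide

theorem co1W_sum : ∑ i, (co1W : GolayPt → ℤ) i = 0 := by
  show ∑ i, sgnVec 4 ({some 1, some 2} : Finset GolayPt) {some 2} i = 0
  rw [sgnVec_sum 4 (by simp : ({some 2} : Finset GolayPt) ⊆ {some 1, some 2})]
  have h : ({some 1, some 2} : Finset GolayPt).card = 2 := by decide
  rw [h, Finset.card_singleton]
  norm_num

theorem co1W_V : dotInt (co1W : GolayPt → ℤ) (mclV : GolayPt → ℤ) = 0 := by
  rw [dot_comm']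
  have h := base_dot (co1W : GolayPt → ℤ)
  rw [co1W_none, co1W_zero] at h
  exact h.trans (by norm_num)

theorem co1W_W : dotInt (co1W : GolayPt → ℤ) (mclW : GolayPt → ℤ) = 0 := by
  rw [dot_comm', dot_mclW, co1W_sum, co1W_none]
  norm_num

theorem co1W_X : dotInt (co1W : GolayPt → ℤ) (stdX : GolayPt → ℤ) = 0 := by
  rw [dot_comm']
  have h := dot_stdX (co1W : GolayPt → ℤ)
  rw [co1W_none, co1W_zero] at h
  exact h.trans (by norm_num)

theorem mclV_X : dotInt (mclV : GolayPt → ℤ) (stdX : GolayPt → ℤ) = 0 := by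
  have h := base_dot (stdX : GolayPt → ℤ)
  have h1 : (stdX : GolayPt → ℤ) none = -4 := by
    show sgnVec 4 ({none, some 0} : Finset GolayPt) {none} none = -4
    decide
  have h2 : (stdX : GolayPt → ℤ) (some 0) = 4 := by
    show sgnVec 4 ({none, some 0} : Finset GolayPt) {none} (some 0) = 4
    decide
  rw [h1, h2] at h
  exact h.trans (by norm_num)

/-- a normal subgroup of the automorphism group containing the negation is generated by the
negation or is the whole group -/
theorem co1_core (N : Subgroup (Perm leechLattice)) (hNK : N ≤ Co0)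
    (hinv : ∀ k ∈ Co0, ∀ n ∈ N, k * n * k⁻¹ ∈ N) (hz : negP ∈ N) :
    (∀ n ∈ N, n = 1 ∨ n = negP) ∨ N = Co0 := by
  classical
  have h32 : {x : leechLattice | sqNorm (x : GolayPt → ℤ) = 32}.ncard = 196560 := by
    rw [← count32, ← Set.ncard_image_of_injective _ Subtype.val_injective]
    congr 1
    ext x
    constructor
    · rintro ⟨y, hy, rfl⟩
      exact ⟨y.2, hy⟩
    · rintro ⟨hx, hn⟩
      exact ⟨⟨x, hx⟩, hn, rfl⟩
  have hfin : {x : leechLattice | sqNorm (x : GolayPt → ℤ) = 32}.Finite :=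
    Set.finite_of_ncard_ne_zero (by rw [h32]; norm_num)
  have hScard : hfin.toFinset.card = 196560 := by
    rw [← Set.ncard_eq_toFinset_card _ hfin]
    exact h32
  have hmemS : ∀ a, a ∈ hfin.toFinset ↔ sqNorm (a : GolayPt → ℤ) = 32 :=
    fun a => Set.Finite.mem_toFinset hfin
  have hxS : mclV ∈ hfin.toFinset := (hmemS _).2 mclV_norm
  have hSinv : ∀ k ∈ Co0, ∀ a ∈ hfin.toFinset, k a ∈ hfin.toFinset := by
    intro k hk a ha
    exact (hmemS _).2 ((hk.2 a).trans ((hmemS a).1 ha))
  have htr : ∀ a ∈ hfin.toFinset, ∃ k ∈ Co0, k mclV = a := by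
    intro a ha
    obtain ⟨_, g, hg⟩ := min_trans (mclV : GolayPt → ℤ) (a : GolayPt → ℤ) mclV.2 mclV_norm a.2
      ((hmemS a).1 ha)
    exact ⟨(g : Perm leechLattice), g.2, Subtype.ext hg⟩
  have hstab : SimpleIn (Co0 ⊓ MulAction.stabilizer (Perm leechLattice) mclV) :=
    co2_simpleIn mclV mclV_norm
  have hcn16 : (dotSet mclV 32 (-16)).ncard = 4600 := by
    rw [dotSet_ncard_eq]
    exact (census (mclV : GolayPt → ℤ) mclV.2 mclV_norm).1
  have hcn8 : (dotSet mclV 32 (-8)).ncard = 47104 := by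
    rw [dotSet_ncard_eq]
    exact (census (mclV : GolayPt → ℤ) mclV.2 mclV_norm).2.1
  have hcn0 : (dotSet mclV 32 0).ncard = 93150 := by
    rw [dotSet_ncard_eq]
    exact (census (mclV : GolayPt → ℤ) mclV.2 mclV_norm).2.2
  have hclass : ∀ s : ℤ, ∃ F : Finset leechLattice,
      (∀ a, a ∈ F ↔ sqNorm (a : GolayPt → ℤ) = 32 ∧
        dotInt (mclV : GolayPt → ℤ) (a : GolayPt → ℤ) = s) ∧
      F.card = (dotSet mclV 32 s).ncard := by
    intro s
    have hmf : ∀ a, a ∈ hfin.toFinset.filter (fun a : leechLattice =>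
        dotInt (mclV : GolayPt → ℤ) (a : GolayPt → ℤ) = s) ↔
        sqNorm (a : GolayPt → ℤ) = 32 ∧
          dotInt (mclV : GolayPt → ℤ) (a : GolayPt → ℤ) = s := by
      intro a
      rw [Finset.mem_filter, hmemS]
    refine ⟨hfin.toFinset.filter (fun a : leechLattice =>
      dotInt (mclV : GolayPt → ℤ) (a : GolayPt → ℤ) = s), hmf, ?_⟩
    have e : (↑(hfin.toFinset.filter (fun a : leechLattice =>
        dotInt (mclV : GolayPt → ℤ) (a : GolayPt → ℤ) = s)) : Set leechLattice) =
        dotSet mclV 32 s := by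
      ext a
      rw [Finset.mem_coe, hmf]
      exact Iff.rfl
    rw [← Set.ncard_coe_finset, e]
  have hNM := hstab.2 (N ⊓ (Co0 ⊓ MulAction.stabilizer (Perm leechLattice) mclV)) inf_le_right
    (by
      intro k hk n hn
      rw [Subgroup.mem_inf] at hn ⊢
      exact ⟨hinv k (Subgroup.mem_inf.1 hk).1 n hn.1,
        Subgroup.mul_mem _ (Subgroup.mul_mem _ hk hn.2) (Subgroup.inv_mem _ hk)⟩)
  rcases hNM with hbot | htop
  · left
    have hfree : ∀ n ∈ N, n mclV = mclV → n = 1 := by
      intro n hn hnx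
      have h1 : n ∈ N ⊓ (Co0 ⊓ MulAction.stabilizer (Perm leechLattice) mclV) :=
        Subgroup.mem_inf.2 ⟨hn, Subgroup.mem_inf.2 ⟨hNK hn, by
          rw [MulAction.mem_stabilizer_iff, Perm.smul_def]
          exact hnx⟩⟩
      rw [hbot] at h1
      exact Subgroup.mem_bot.1 h1
    by_contra hcon
    push Not at hcon
    obtain ⟨n0, hn0, hn01, hn0z⟩ := hcon
    have hNS : ∀ n ∈ N, ∀ a ∈ hfin.toFinset, n a ∈ hfin.toFinset :=
      fun n hn a ha => hSinv n (hNK hn) a ha
    obtain ⟨hNfin, hNcard⟩ := card_of_free N hfin.toFinset mclV hxS hNS hfree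
    have hdvd := orbFin_card_dvd Co0 N hfin.toFinset mclV hinv hSinv htr
    rw [hScard] at hdvd
    have hnorm : ∀ a ∈ N, sqNorm ((a mclV : leechLattice) : GolayPt → ℤ) = 32 :=
      fun a ha => ((hNK ha).2 mclV).trans mclV_norm
    -- the orbit is invariant under the point stabiliser and under negation
    have hBM : ∀ b ∈ orbFin N hfin.toFinset mclV, ∀ m ∈ Co0, m mclV = mclV →
        m b ∈ orbFin N hfin.toFinset mclV := by
      intro b hb m hm hmx
      obtain ⟨hbS, n, hn, hnb⟩ := (mem_orbFin N hfin.toFinset mclV b).1 hb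
      refine (mem_orbFin N hfin.toFinset mclV (m b)).2
        ⟨hSinv m hm b hbS, m * n * m⁻¹, hinv m hm n hn, ?_⟩
      have hminv : m⁻¹ mclV = mclV := by
        calc m⁻¹ mclV = m⁻¹ (m mclV) := by rw [hmx]
          _ = mclV := pinv_apply _ _
      rw [Perm.mul_apply, Perm.mul_apply, hminv, hnb]
    have hBneg : ∀ b ∈ orbFin N hfin.toFinset mclV, -b ∈ orbFin N hfin.toFinset mclV := by
      intro b hb
      obtain ⟨hbS, n, hn, hnb⟩ := (mem_orbFin N hfin.toFinset mclV b).1 hb
      refine (mem_orbFin N hfin.toFinset mclV (-b)).2 ⟨?_, negP * n, N.mul_mem hz hn, ?_⟩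
      · have h := hSinv negP negP_mem b hbS
        rwa [negP_apply] at h
      · rw [Perm.mul_apply, hnb, negP_apply]
    have hy0B : n0 mclV ∈ orbFin N hfin.toFinset mclV :=
      (mem_orbFin N hfin.toFinset mclV (n0 mclV)).2
        ⟨hSinv n0 (hNK hn0) mclV hxS, n0, hn0, rfl⟩
    have hy0n := hnorm n0 hn0
    have hy0a : n0 mclV ≠ mclV := fun h => hn01 (hfree n0 hn0 h)
    have hy0b : n0 mclV ≠ -mclV := by
      intro h
      have h1 : (negP * n0) mclV = mclV := by
        rw [Perm.mul_apply, h, negP_apply, neg_neg]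
      have h2 := hfree _ (N.mul_mem hz hn0) h1
      apply hn0z
      calc n0 = negP * (negP * n0) := by rw [← mul_assoc, negP_sq, one_mul]
        _ = negP := by rw [h2, mul_one]
    have c0 := min_dot_cases mclV (n0 mclV) mclV_norm hy0n hy0a hy0b
    obtain ⟨y1, hy1B, hy1n, hy1d⟩ : ∃ y1 ∈ orbFin N hfin.toFinset mclV,
        sqNorm (y1 : GolayPt → ℤ) = 32 ∧
        (dotInt (mclV : GolayPt → ℤ) (y1 : GolayPt → ℤ) = 0 ∨
         dotInt (mclV : GolayPt → ℤ) (y1 : GolayPt → ℤ) = -8 ∨
         dotInt (mclV : GolayPt → ℤ) (y1 : GolayPt → ℤ) = -16) := by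
      have hneg16 : ∀ t : ℤ,
          dotInt (mclV : GolayPt → ℤ) ((n0 mclV : leechLattice) : GolayPt → ℤ) = t →
          dotInt (mclV : GolayPt → ℤ) ((-(n0 mclV) : leechLattice) : GolayPt → ℤ) = -t := by
        intro t ht
        rw [AddSubgroup.coe_neg, dot_neg_right, ht]
      have hnn : sqNorm ((-(n0 mclV) : leechLattice) : GolayPt → ℤ) = 32 := by
        rw [AddSubgroup.coe_neg, sqNorm_neg']
        exact hy0n
      rcases c0 with h | h | h | h | h
      · exact ⟨-(n0 mclV), hBneg _ hy0B, hnn, Or.inr (Or.inr (hneg16 16 h))⟩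
      · exact ⟨-(n0 mclV), hBneg _ hy0B, hnn, Or.inr (Or.inl (hneg16 8 h))⟩
      · exact ⟨n0 mclV, hy0B, hy0n, Or.inl h⟩
      · exact ⟨n0 mclV, hy0B, hy0n, Or.inr (Or.inl h)⟩
      · exact ⟨n0 mclV, hy0B, hy0n, Or.inr (Or.inr h)⟩
    have hFsub : ∀ (s : ℤ) (F : Finset leechLattice),
        (∀ a, a ∈ F → sqNorm (a : GolayPt → ℤ) = 32 ∧
          dotInt (mclV : GolayPt → ℤ) (a : GolayPt → ℤ) = s) →
        dotInt (mclV : GolayPt → ℤ) (y1 : GolayPt → ℤ) = s → (s = 0 ∨ s = -8 ∨ s = -16) →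
        F ⊆ orbFin N hfin.toFinset mclV := by
      intro s F hF hs hcase a ha
      obtain ⟨han, had⟩ := hF a ha
      have hex : ∃ g : Co0, (g : Perm leechLattice) mclV = mclV ∧
          (g : Perm leechLattice) y1 = a := by
        rcases hcase with h | h | h
        · rw [h] at hs had
          obtain ⟨g, hg1, hg2⟩ := stab_trans_orth mclV y1 a mclV_norm hy1n han hs had
          exact ⟨g, hg1, hg2⟩
        · rw [h] at hs had
          obtain ⟨g, hg1, hg2⟩ := stab_trans_one mclV y1 a mclV_norm hy1n han hs had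
          exact ⟨g, hg1, hg2⟩
        · rw [h] at hs had
          obtain ⟨g, hg1, hg2⟩ := stab_trans_two mclV y1 a mclV_norm hy1n han hs had
          exact ⟨g, hg1, hg2⟩
      obtain ⟨g, hg1, hg2⟩ := hex
      have h := hBM y1 hy1B (g : Perm leechLattice) g.2 hg1
      rwa [hg2] at h
    have hBbig : 5617 ≤ (orbFin N hfin.toFinset mclV).card := by
      rcases hy1d with h | h | h
      · obtain ⟨F, hF, hFc⟩ := hclass 0
        have h1 := Finset.card_le_card
          (hFsub 0 F (fun a ha => (hF a).1 ha) h (Or.inl rfl))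
        rw [hFc, hcn0] at h1
        omega
      · obtain ⟨F, hF, hFc⟩ := hclass (-8)
        have h1 := Finset.card_le_card
          (hFsub (-8) F (fun a ha => (hF a).1 ha) h (Or.inr (Or.inl rfl)))
        rw [hFc, hcn8] at h1
        omega
      · obtain ⟨F, hF, hFc⟩ := hclass (-16)
        have hsub := hFsub (-16) F (fun a ha => (hF a).1 ha) h (Or.inr (Or.inr rfl))
        have hsub2 : F ∪ F.image (fun a : leechLattice => -a) ⊆
            orbFin N hfin.toFinset mclV := by
          intro a ha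
          rw [Finset.mem_union, Finset.mem_image] at ha
          rcases ha with ha | ⟨b, hb, rfl⟩
          · exact hsub ha
          · exact hBneg b (hsub hb)
        have hdisj : Disjoint F (F.image (fun a : leechLattice => -a)) := by
          rw [Finset.disjoint_left]
          intro a ha ha'
          rw [Finset.mem_image] at ha'
          obtain ⟨b, hb, rfl⟩ := ha'
          have e1 := ((hF b).1 hb).2
          have e2 := ((hF (-b)).1 ha).2
          rw [AddSubgroup.coe_neg, dot_neg_right, e1] at e2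
          norm_num at e2
        have h1 := Finset.card_le_card hsub2
        rw [Finset.card_union_of_disjoint hdisj,
          Finset.card_image_of_injective F neg_injective, hFc, hcn16] at h1
        omega
    -- elements of odd prime order
    have hel : ∀ p : ℕ, p.Prime → p ∣ Nat.card ↥N → ∃ a ∈ N, a ≠ 1 ∧ a ^ p = 1 := by
      intro p hp hpd
      haveI := hNfin
      haveI : Fact p.Prime := ⟨hp⟩
      obtain ⟨a, ha⟩ := exists_prime_orderOf_dvd_card' (G := ↥N) p hpd
      refine ⟨a.1, a.2, ?_, ?_⟩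
      · intro h1
        have h2 : a = 1 := Subtype.ext h1
        rw [h2, orderOf_one] at ha
        exact hp.one_lt.ne ha
      · have h3 := pow_orderOf_eq_one a
        rw [ha] at h3
        have h4 := congrArg Subtype.val h3
        rw [Subgroup.coe_pow] at h4
        exact h4
    have hkey : ∀ a ∈ N, a ≠ 1 → ∀ p : ℕ, p % 2 = 1 → a ^ p = 1 →
        a mclV ≠ mclV ∧ a mclV ≠ -mclV := by
      intro a ha ha1 p hp hap
      refine ⟨fun h => ha1 (hfree a ha h), fun h => ?_⟩
      have h1 : (negP * a) mclV = mclV := by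
        rw [Perm.mul_apply, h, negP_apply, neg_neg]
      have h2 := hfree _ (N.mul_mem hz ha) h1
      have h3 : a = negP := by
        calc a = negP * (negP * a) := by rw [← mul_assoc, negP_sq, one_mul]
          _ = negP := by rw [h2, mul_one]
      rw [h3, negP_pow_odd p hp] at hap
      exact negP_ne_one hap
    have hconj : ∀ a ∈ N, ∀ b ∈ N, a mclV ≠ mclV → a mclV ≠ -mclV →
        dotInt (mclV : GolayPt → ℤ) ((b mclV : leechLattice) : GolayPt → ℤ) =
          dotInt (mclV : GolayPt → ℤ) ((a mclV : leechLattice) : GolayPt → ℤ) →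
        ∃ m ∈ Co0, m * a * m⁻¹ = b := by
      intro a ha b hb h1 h2 hd
      obtain ⟨g, hg1, hg2⟩ := stab_trans_any mclV (a mclV) (b mclV) mclV_norm (hnorm a ha)
        (hnorm b hb) h1 h2 hd
      refine ⟨(g : Perm leechLattice), g.2, ?_⟩
      have hginv : (g : Perm leechLattice)⁻¹ mclV = mclV := by
        calc (g : Perm leechLattice)⁻¹ mclV
            = (g : Perm leechLattice)⁻¹ ((g : Perm leechLattice) mclV) := by rw [hg1]
          _ = mclV := pinv_apply _ _
      have h3 : (b⁻¹ * ((g : Perm leechLattice) * a * (g : Perm leechLattice)⁻¹)) mclV =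
          mclV := by
        rw [Perm.mul_apply, Perm.mul_apply, Perm.mul_apply, hginv, hg2, pinv_apply]
      have h4 := hfree _ (N.mul_mem (N.inv_mem hb) (hinv _ g.2 a ha)) h3
      have e : (g : Perm leechLattice) * a * (g : Perm leechLattice)⁻¹ =
          b * (b⁻¹ * ((g : Perm leechLattice) * a * (g : Perm leechLattice)⁻¹)) := by group
      rw [e, h4, mul_one]
    have hA : ∀ a ∈ N, ∀ b ∈ N, ∀ p q : ℕ, Nat.Coprime p q → a ^ p = 1 → b ^ q = 1 →
        a mclV ≠ mclV → a mclV ≠ -mclV →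
        dotInt (mclV : GolayPt → ℤ) ((b mclV : leechLattice) : GolayPt → ℤ) =
          dotInt (mclV : GolayPt → ℤ) ((a mclV : leechLattice) : GolayPt → ℤ) → b = 1 := by
      intro a ha b hb p q hpq hap hbq h1 h2 hd
      obtain ⟨m, hm, hmab⟩ := hconj a ha b hb h1 h2 hd
      have hbp : b ^ p = 1 := by
        rw [← hmab, conj_pow, hap, mul_one, mul_inv_cancel]
      exact (pow_eq_one_iff_of_coprime hpq).1 ⟨hbp, hbq⟩
    have hB : ∀ a ∈ N, ∀ b ∈ N, ∀ p q : ℕ, p % 2 = 1 → q % 2 = 1 → a ^ p = 1 → b ^ q = 1 →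
        a mclV ≠ mclV → a mclV ≠ -mclV →
        dotInt (mclV : GolayPt → ℤ) ((b mclV : leechLattice) : GolayPt → ℤ) =
          -dotInt (mclV : GolayPt → ℤ) ((a mclV : leechLattice) : GolayPt → ℤ) → False := by
      intro a ha b hb p q hp hq hap hbq h1 h2 hd
      have hd' : dotInt (mclV : GolayPt → ℤ)
          (((negP * b) mclV : leechLattice) : GolayPt → ℤ) =
          dotInt (mclV : GolayPt → ℤ) ((a mclV : leechLattice) : GolayPt → ℤ) := by
        rw [Perm.mul_apply, negP_apply, AddSubgroup.coe_neg, dot_neg_right, hd, neg_neg]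
      obtain ⟨m, hm, hmab⟩ := hconj a ha (negP * b) (N.mul_mem hz hb) h1 h2 hd'
      have h3 : (negP * b) ^ p = 1 := by
        rw [← hmab, conj_pow, hap, mul_one, mul_inv_cancel]
      have hcomm : Commute negP b := negP_comm b (hNK hb)
      have h4 : (negP * b) ^ (p * q) = 1 := by
        rw [pow_mul, h3, one_pow]
      have hodd : p * q % 2 = 1 := by
        have h5 := Nat.mul_mod p q 2
        rw [hp, hq] at h5
        omega
      rw [hcomm.mul_pow, negP_pow_odd (p * q) hodd, mul_comm p q, pow_mul, hbq, one_pow,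
        mul_one] at h4
      exact negP_ne_one h4
    have hfin3 : ∀ p q r : ℕ, p.Prime → q.Prime → r.Prime → p ≠ q → p ≠ r → q ≠ r →
        p % 2 = 1 → q % 2 = 1 → r % 2 = 1 → p ∣ Nat.card ↥N → q ∣ Nat.card ↥N →
        r ∣ Nat.card ↥N → False := by
      intro p q r hp hq hr hpq hpr hqr hp2 hq2 hr2 hpd hqd hrd
      obtain ⟨a1, ha1, ha1n, ha1p⟩ := hel p hp hpd
      obtain ⟨a2, ha2, ha2n, ha2p⟩ := hel q hq hqd
      obtain ⟨a3, ha3, ha3n, ha3p⟩ := hel r hr hrd
      obtain ⟨k1, k1'⟩ := hkey a1 ha1 ha1n p hp2 ha1p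
      obtain ⟨k2, k2'⟩ := hkey a2 ha2 ha2n q hq2 ha2p
      obtain ⟨k3, k3'⟩ := hkey a3 ha3 ha3n r hr2 ha3p
      have c1 := min_dot_cases mclV (a1 mclV) mclV_norm (hnorm a1 ha1) k1 k1'
      have c2 := min_dot_cases mclV (a2 mclV) mclV_norm (hnorm a2 ha2) k2 k2'
      have c3 := min_dot_cases mclV (a3 mclV) mclV_norm (hnorm a3 ha3) k3 k3'
      exact co1_three _ _ _ c1 c2 c3
        (fun h => hB a1 ha1 a1 ha1 p p hp2 hp2 ha1p ha1p k1 k1' h)
        (fun h => hB a2 ha2 a2 ha2 q q hq2 hq2 ha2p ha2p k2 k2' h)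
        (fun h => hB a3 ha3 a3 ha3 r r hr2 hr2 ha3p ha3p k3 k3' h)
        (fun h => ha2n (hA a1 ha1 a2 ha2 p q ((Nat.coprime_primes hp hq).2 hpq) ha1p ha2p
          k1 k1' h))
        (fun h => ha3n (hA a1 ha1 a3 ha3 p r ((Nat.coprime_primes hp hr).2 hpr) ha1p ha3p
          k1 k1' h))
        (fun h => ha3n (hA a2 ha2 a3 ha3 q r ((Nat.coprime_primes hq hr).2 hqr) ha2p ha3p
          k2 k2' h))
        (fun h => hB a1 ha1 a2 ha2 p q hp2 hq2 ha1p ha2p k1 k1' h)
        (fun h => hB a1 ha1 a3 ha3 p r hp2 hr2 ha1p ha3p k1 k1' h)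
        (fun h => hB a2 ha2 a3 ha3 q r hq2 hr2 ha2p ha3p k2 k2' h)
    rw [← hNcard] at hdvd hBbig
    rcases three_primes (Nat.card ↥N) hdvd hBbig with
      ⟨h3, h5, h7⟩ | ⟨h3, h5, h13⟩ | ⟨h3, h7, h13⟩ | ⟨h5, h7, h13⟩
    · exact hfin3 3 5 7 (by norm_num) (by norm_num) (by norm_num) (by norm_num) (by norm_num)
        (by norm_num) (by norm_num) (by norm_num) (by norm_num) (Nat.dvd_of_mod_eq_zero h3)
        (Nat.dvd_of_mod_eq_zero h5) (Nat.dvd_of_mod_eq_zero h7)
    · exact hfin3 3 5 13 (by norm_num) (by norm_num) (by norm_num) (by norm_num) (by norm_num)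
        (by norm_num) (by norm_num) (by norm_num) (by norm_num) (Nat.dvd_of_mod_eq_zero h3)
        (Nat.dvd_of_mod_eq_zero h5) (Nat.dvd_of_mod_eq_zero h13)
    · exact hfin3 3 7 13 (by norm_num) (by norm_num) (by norm_num) (by norm_num) (by norm_num)
        (by norm_num) (by norm_num) (by norm_num) (by norm_num) (Nat.dvd_of_mod_eq_zero h3)
        (Nat.dvd_of_mod_eq_zero h7) (Nat.dvd_of_mod_eq_zero h13)
    · exact hfin3 5 7 13 (by norm_num) (by norm_num) (by norm_num) (by norm_num) (by norm_num)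
        (by norm_num) (by norm_num) (by norm_num) (by norm_num) (Nat.dvd_of_mod_eq_zero h5)
        (Nat.dvd_of_mod_eq_zero h7) (Nat.dvd_of_mod_eq_zero h13)
  · right
    have hMN : Co0 ⊓ MulAction.stabilizer (Perm leechLattice) mclV ≤ N := by
      rw [← htop]
      exact inf_le_left
    -- `N` contains the stabiliser of every minimal vector
    have hNy : ∀ y : leechLattice, sqNorm (y : GolayPt → ℤ) = 32 → ∀ m ∈ Co0, m y = y →
        m ∈ N := by
      intro y hy m hmC hmy
      obtain ⟨k, hk, hky⟩ := htr y ((hmemS y).2 hy)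
      have h1 : k⁻¹ * m * k ∈ Co0 ⊓ MulAction.stabilizer (Perm leechLattice) mclV := by
        refine Subgroup.mem_inf.2 ⟨Co0.mul_mem (Co0.mul_mem (Co0.inv_mem hk) hmC) hk, ?_⟩
        rw [MulAction.mem_stabilizer_iff, Perm.smul_def, Perm.mul_apply, Perm.mul_apply, hky,
          hmy, ← hky, pinv_apply]
      have h2 := hinv k hk _ (hMN h1)
      have e : k * (k⁻¹ * m * k) * k⁻¹ = m := by group
      rwa [e] at h2
    obtain ⟨g1, hg1a, hg1b⟩ := stab_trans_orth co1W mclV mclW co1W_norm mclV_norm mclW_norm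
      co1W_V co1W_W
    have hg1N : (g1 : Perm leechLattice) ∈ N := hNy co1W co1W_norm _ g1.2 hg1a
    have hg1b' : (g1 : Perm leechLattice) mclV = mclW := hg1b
    obtain ⟨g2, hg2a, hg2b⟩ := stab_trans_orth co1W mclV stdX co1W_norm mclV_norm stdX_norm
      co1W_V co1W_X
    have hg2N : (g2 : Perm leechLattice) ∈ N := hNy co1W co1W_norm _ g2.2 hg2a
    have hg2b' : (g2 : Perm leechLattice) mclV = stdX := hg2b
    have horb8 : ∀ z : leechLattice, sqNorm (z : GolayPt → ℤ) = 32 →
        dotInt (mclV : GolayPt → ℤ) (z : GolayPt → ℤ) = -8 →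
        z ∈ orbFin N hfin.toFinset mclV := by
      intro z hzn hzd
      obtain ⟨m, hm1, hm2⟩ := stab_trans_one mclV mclW z mclV_norm mclW_norm hzn mclVW hzd
      have hmN : (m : Perm leechLattice) ∈ N := hNy mclV mclV_norm _ m.2 hm1
      have hm2' : (m : Perm leechLattice) mclW = z := hm2
      exact (mem_orbFin N hfin.toFinset mclV z).2
        ⟨(hmemS z).2 hzn, (m : Perm leechLattice) * (g1 : Perm leechLattice),
          N.mul_mem hmN hg1N, by rw [Perm.mul_apply, hg1b', hm2']⟩
    have horb0 : ∀ z : leechLattice, sqNorm (z : GolayPt → ℤ) = 32 →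
        dotInt (mclV : GolayPt → ℤ) (z : GolayPt → ℤ) = 0 →
        z ∈ orbFin N hfin.toFinset mclV := by
      intro z hzn hzd
      obtain ⟨m, hm1, hm2⟩ := stab_trans_orth mclV stdX z mclV_norm stdX_norm hzn mclV_X hzd
      have hmN : (m : Perm leechLattice) ∈ N := hNy mclV mclV_norm _ m.2 hm1
      have hm2' : (m : Perm leechLattice) stdX = z := hm2
      exact (mem_orbFin N hfin.toFinset mclV z).2
        ⟨(hmemS z).2 hzn, (m : Perm leechLattice) * (g2 : Perm leechLattice),
          N.mul_mem hmN hg2N, by rw [Perm.mul_apply, hg2b', hm2']⟩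
    obtain ⟨F0, hF0, hF0c⟩ := hclass 0
    obtain ⟨F8, hF8, hF8c⟩ := hclass (-8)
    have hdisj : Disjoint F0 F8 := by
      rw [Finset.disjoint_left]
      intro a ha hb
      have h1 := ((hF0 a).1 ha).2
      have h2 := ((hF8 a).1 hb).2
      rw [h1] at h2
      norm_num at h2
    have hsub : F0 ∪ F8 ⊆ orbFin N hfin.toFinset mclV := by
      intro a ha
      rw [Finset.mem_union] at ha
      rcases ha with ha | ha
      · exact horb0 a ((hF0 a).1 ha).1 ((hF0 a).1 ha).2
      · exact horb8 a ((hF8 a).1 ha).1 ((hF8 a).1 ha).2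
    have h1 := Finset.card_le_card hsub
    rw [Finset.card_union_of_disjoint hdisj, hF0c, hF8c, hcn0, hcn8] at h1
    refine normal_ge_stab Co0 N hfin.toFinset mclV hxS hSinv htr hNK hinv hMN ?_
    rw [hScard]
    omega

/-- the order of the automorphism group modulo its centre -/
theorem co1_card : Nat.card (Co0 ⧸ Subgroup.center Co0) = 4157776806543360000 := by
  have h := Subgroup.card_eq_card_quotient_mul_card_subgroup (Subgroup.center Co0)
  rw [co0_card, card_center_co0] at h
  omega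

/-- the automorphism group modulo its centre is simple -/
theorem co1_isSimple : IsSimpleGroup (Co0 ⧸ Subgroup.center Co0) := by
  haveI : Finite ↥Co0 := co0_finite
  haveI : Nontrivial (Co0 ⧸ Subgroup.center Co0) := by
    apply Finite.one_lt_card_iff_nontrivial.1
    rw [co1_card]
    norm_num
  apply IsSimpleGroup.mk
  intro H hH
  have hpre : ∀ k : Perm leechLattice, ∀ hk : k ∈ Co0,
      (k ∈ (H.comap (QuotientGroup.mk' (Subgroup.center Co0))).map Co0.subtype ↔
        (QuotientGroup.mk' (Subgroup.center Co0)) ⟨k, hk⟩ ∈ H) := by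
    intro k hk
    constructor
    · rintro ⟨n, hn, hnk⟩
      have e : n = ⟨k, hk⟩ := Subtype.ext hnk
      rw [← e]
      exact hn
    · intro h
      exact ⟨⟨k, hk⟩, h, rfl⟩
  have hle : (H.comap (QuotientGroup.mk' (Subgroup.center Co0))).map Co0.subtype ≤ Co0 :=
    Subgroup.map_subtype_le _
  have hinv : ∀ k ∈ Co0,
      ∀ n ∈ (H.comap (QuotientGroup.mk' (Subgroup.center Co0))).map Co0.subtype,
      k * n * k⁻¹ ∈ (H.comap (QuotientGroup.mk' (Subgroup.center Co0))).map Co0.subtype := by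
    rintro k hk _ ⟨n, hn, rfl⟩
    exact ⟨⟨k, hk⟩ * n * ⟨k, hk⟩⁻¹, (hH.comap _).conj_mem n hn ⟨k, hk⟩, rfl⟩
  have hcen : co0Neg ∈ Subgroup.center Co0 :=
    Subgroup.mem_center_iff.2 (fun g => (co0Neg_central g).symm)
  have hz : negP ∈ (H.comap (QuotientGroup.mk' (Subgroup.center Co0))).map Co0.subtype := by
    refine ⟨co0Neg, ?_, rfl⟩
    show (QuotientGroup.mk' (Subgroup.center Co0)) co0Neg ∈ H
    have e : (QuotientGroup.mk' (Subgroup.center Co0)) co0Neg = 1 := by
      rw [QuotientGroup.mk'_apply, QuotientGroup.eq_one_iff]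
      exact hcen
    rw [e]
    exact H.one_mem
  rcases co1_core _ hle hinv hz with h | h
  · left
    rw [Subgroup.eq_bot_iff_forall]
    intro q hq
    obtain ⟨g, rfl⟩ := QuotientGroup.mk'_surjective (Subgroup.center Co0) q
    have hg : (g : Perm leechLattice) ∈
        (H.comap (QuotientGroup.mk' (Subgroup.center Co0))).map Co0.subtype :=
      (hpre g.1 g.2).2 hq
    rw [QuotientGroup.mk'_apply, QuotientGroup.eq_one_iff]
    rcases h _ hg with h1 | h1
    · have e : g = 1 := Subtype.ext h1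
      rw [e]
      exact (Subgroup.center Co0).one_mem
    · have e : g = co0Neg := Subtype.ext h1
      rw [e]
      exact hcen
  · right
    rw [eq_top_iff]
    intro q _
    obtain ⟨g, rfl⟩ := QuotientGroup.mk'_surjective (Subgroup.center Co0) q
    have hg : (g : Perm leechLattice) ∈
        (H.comap (QuotientGroup.mk' (Subgroup.center Co0))).map Co0.subtype := by
      rw [h]
      exact g.2
    exact (hpre g.1 g.2).1 hg

end Cfsg.Agent.Helper28
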