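import Mathlib
import Cfsg.Agent.Helper3.Simple.Abs

/-!
A simplicity criterion for transitive permutation groups of degree 100 in which a point
stabiliser is simple and has exactly two further orbits, of lengths 22 and 77.
-/

set_option autoImplicit false
set_option linter.unusedSectionVars false
set_option linter.style.haveILetI false

namespace Cfsg.Agent.Helper28

open Equiv Cfsg.Agent.Helper3

section Rank3

variable {α : Type*} [DecidableEq α]

/-- the sets invariant under the point stabiliser -/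
theorem r3_card (K : Subgroup (Perm α)) (S Δ Γ R : Finset α) (x : α)
    (hsplit : S = insert x (Δ ∪ Γ)) (hxΔ : x ∉ Δ) (hxΓ : x ∉ Γ) (hdisj : Disjoint Δ Γ)
    (hΔ : Δ.card = 22) (hΓ : Γ.card = 77)
    (hΔtr : ∀ a ∈ Δ, ∀ b ∈ Δ, ∃ k ∈ K, k x = x ∧ k a = b)
    (hΓtr : ∀ a ∈ Γ, ∀ b ∈ Γ, ∃ k ∈ K, k x = x ∧ k a = b)
    (hRS : R ⊆ S) (hxR : x ∈ R) (hRinv : ∀ k ∈ K, k x = x → ∀ a ∈ R, k a ∈ R) :
    R.card = 1 ∨ R.card = 23 ∨ R.card = 78 ∨ R.card = 100 := by
  have hΔR : (R ∩ Δ).card = 0 ∨ (R ∩ Δ).card = 22 := by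
    by_cases h : (R ∩ Δ).Nonempty
    · right
      obtain ⟨a, ha⟩ := h
      rw [Finset.mem_inter] at ha
      have hsub : Δ ⊆ R := by
        intro b hb
        obtain ⟨k, hk, hkx, hkab⟩ := hΔtr a ha.2 b hb
        rw [← hkab]
        exact hRinv k hk hkx a ha.1
      rw [Finset.inter_eq_right.2 hsub, hΔ]
    · left
      rw [Finset.not_nonempty_iff_eq_empty] at h
      rw [h, Finset.card_empty]
  have hΓR : (R ∩ Γ).card = 0 ∨ (R ∩ Γ).card = 77 := by
    by_cases h : (R ∩ Γ).Nonempty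
    · right
      obtain ⟨a, ha⟩ := h
      rw [Finset.mem_inter] at ha
      have hsub : Γ ⊆ R := by
        intro b hb
        obtain ⟨k, hk, hkx, hkab⟩ := hΓtr a ha.2 b hb
        rw [← hkab]
        exact hRinv k hk hkx a ha.1
      rw [Finset.inter_eq_right.2 hsub, hΓ]
    · left
      rw [Finset.not_nonempty_iff_eq_empty] at h
      rw [h, Finset.card_empty]
  have hR : R = insert x ((R ∩ Δ) ∪ (R ∩ Γ)) := by
    ext a
    simp only [Finset.mem_insert, Finset.mem_union, Finset.mem_inter]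
    constructor
    · intro ha
      have haS := hRS ha
      rw [hsplit, Finset.mem_insert, Finset.mem_union] at haS
      rcases haS with h | h | h
      · exact Or.inl h
      · exact Or.inr (Or.inl ⟨ha, h⟩)
      · exact Or.inr (Or.inr ⟨ha, h⟩)
    · rintro (h | h | h)
      · rw [h]
        exact hxR
      · exact h.1
      · exact h.1
  have hcard : R.card = 1 + ((R ∩ Δ).card + (R ∩ Γ).card) := by
    have hd : Disjoint (R ∩ Δ) (R ∩ Γ) := by
      rw [Finset.disjoint_left]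
      intro a ha hb
      exact (Finset.disjoint_left.1 hdisj) (Finset.mem_inter.1 ha).2 (Finset.mem_inter.1 hb).2
    have hx : x ∉ (R ∩ Δ) ∪ (R ∩ Γ) := by
      intro h
      rw [Finset.mem_union, Finset.mem_inter, Finset.mem_inter] at h
      rcases h with h | h
      · exact hxΔ h.2
      · exact hxΓ h.2
    have h1 := Finset.card_insert_of_notMem hx
    rw [← hR, Finset.card_union_of_disjoint hd] at h1
    omega
  omega

open Classical in
/-- the orbit of a point under a subgroup, inside a finite invariant set -/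
noncomputable def orbFin (N : Subgroup (Perm α)) (S : Finset α) (a : α) : Finset α :=
  S.filter (fun b => ∃ n ∈ N, n a = b)

open Classical in
theorem mem_orbFin (N : Subgroup (Perm α)) (S : Finset α) (a b : α) :
    b ∈ orbFin N S a ↔ b ∈ S ∧ ∃ n ∈ N, n a = b := by
  unfold orbFin
  exact Finset.mem_filter

/-- the orbits of a normal subgroup of a transitive group have a common size dividing the
degree -/
theorem orbFin_card_dvd (K N : Subgroup (Perm α)) (S : Finset α) (x : α)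
    (hinv : ∀ k ∈ K, ∀ n ∈ N, k * n * k⁻¹ ∈ N)
    (hSinv : ∀ k ∈ K, ∀ a ∈ S, k a ∈ S)
    (htr : ∀ a ∈ S, ∃ k ∈ K, k x = a) :
    (orbFin N S x).card ∣ S.card := by
  have hsize : ∀ a ∈ S, (orbFin N S a).card = (orbFin N S x).card := by
    intro a ha
    obtain ⟨k, hk, hka⟩ := htr a ha
    have himg : orbFin N S a = (orbFin N S x).image (fun b => k b) := by
      ext b
      rw [mem_orbFin, Finset.mem_image]
      constructor
      · rintro ⟨hb, n, hn, hnab⟩
        refine ⟨k⁻¹ b, ?_, papply_inv k b⟩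
        rw [mem_orbFin]
        refine ⟨hSinv k⁻¹ (K.inv_mem hk) b hb, k⁻¹ * n * k, ?_, ?_⟩
        · have h := hinv k⁻¹ (K.inv_mem hk) n hn
          rwa [inv_inv] at h
        · rw [Perm.mul_apply, Perm.mul_apply, hka, hnab]
      · rintro ⟨c, hc, rfl⟩
        rw [mem_orbFin] at hc
        obtain ⟨hcS, n, hn, hnxc⟩ := hc
        refine ⟨hSinv k hk c hcS, k * n * k⁻¹, hinv k hk n hn, ?_⟩
        rw [Perm.mul_apply, Perm.mul_apply, ← hka, pinv_apply, hnxc]
    rw [himg, Finset.card_image_of_injective _ k.injective]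
  have hiff : ∀ a ∈ S, ∀ b ∈ S, b ∈ orbFin N S a → orbFin N S b = orbFin N S a := by
    intro a _ b _ hba
    rw [mem_orbFin] at hba
    obtain ⟨-, n, hn, hnab⟩ := hba
    ext c
    rw [mem_orbFin, mem_orbFin]
    constructor
    · rintro ⟨hc, m, hm, hmbc⟩
      exact ⟨hc, m * n, N.mul_mem hm hn, by rw [Perm.mul_apply, hnab, hmbc]⟩
    · rintro ⟨hc, m, hm, hmac⟩
      exact ⟨hc, m * n⁻¹, N.mul_mem hm (N.inv_mem hn), by
        rw [Perm.mul_apply, ← hnab, pinv_apply, hmac]⟩
  have hself : ∀ a ∈ S, a ∈ orbFin N S a :=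
    fun a ha => (mem_orbFin N S a a).2 ⟨ha, 1, N.one_mem, rfl⟩
  have hcount := Finset.card_eq_sum_card_fiberwise (f := orbFin N S) (s := S)
    (t := S.image (orbFin N S)) (fun a ha => Finset.mem_image_of_mem _ ha)
  have hfib : ∀ T ∈ S.image (orbFin N S),
      (S.filter (fun a => orbFin N S a = T)).card = (orbFin N S x).card := by
    intro T hT
    rw [Finset.mem_image] at hT
    obtain ⟨a₀, ha₀, rfl⟩ := hT
    have e : S.filter (fun a => orbFin N S a = orbFin N S a₀) = orbFin N S a₀ := by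
      ext b
      rw [Finset.mem_filter]
      constructor
      · rintro ⟨hb, hbe⟩
        rw [← hbe]
        exact hself b hb
      · intro hb
        have hbS : b ∈ S := ((mem_orbFin N S a₀ b).1 hb).1
        exact ⟨hbS, hiff a₀ ha₀ b hbS hb⟩
    rw [e, hsize a₀ ha₀]
  have h2 := hcount.trans (Finset.sum_congr rfl hfib)
  rw [Finset.sum_const, smul_eq_mul] at h2
  exact Dvd.intro_left _ h2.symm

/-- conjugation by a normalising permutation, as an automorphism of the subgroup -/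
def conjAut (N : Subgroup (Perm α)) (k : Perm α) (h1 : ∀ n ∈ N, k * n * k⁻¹ ∈ N)
    (h2 : ∀ n ∈ N, k⁻¹ * n * k ∈ N) : ↥N ≃* ↥N where
  toFun n := ⟨k * n.1 * k⁻¹, h1 n.1 n.2⟩
  invFun n := ⟨k⁻¹ * n.1 * k, h2 n.1 n.2⟩
  left_inv n := by
    apply Subtype.ext
    show k⁻¹ * (k * n.1 * k⁻¹) * k = n.1
    group
  right_inv n := by
    apply Subtype.ext
    show k * (k⁻¹ * n.1 * k) * k⁻¹ = n.1
    group
  map_mul' a b := by
    apply Subtype.ext
    show k * (a.1 * b.1) * k⁻¹ = (k * a.1 * k⁻¹) * (k * b.1 * k⁻¹)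
    group

/-- no regular normal subgroup -/
theorem r3_noreg (K N : Subgroup (Perm α)) (S Δ Γ : Finset α) (x : α)
    (hsplit : S = insert x (Δ ∪ Γ)) (hxΔ : x ∉ Δ) (hxΓ : x ∉ Γ) (hdisj : Disjoint Δ Γ)
    (hΔ : Δ.card = 22) (hΓ : Γ.card = 77)
    (hΔtr : ∀ a ∈ Δ, ∀ b ∈ Δ, ∃ k ∈ K, k x = x ∧ k a = b)
    (hΓtr : ∀ a ∈ Γ, ∀ b ∈ Γ, ∃ k ∈ K, k x = x ∧ k a = b)
    (hSinv : ∀ k ∈ K, ∀ a ∈ S, k a ∈ S) (hxS : x ∈ S)
    (hNK : N ≤ K) (hinv : ∀ k ∈ K, ∀ n ∈ N, k * n * k⁻¹ ∈ N)
    (hfree : ∀ n ∈ N, n x = x → n = 1) (hfin : Finite ↥N) (hcard : Nat.card ↥N = 100) :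
    False := by
  classical
  haveI := hfin
  haveI : Fact (Nat.Prime 5) := ⟨by norm_num⟩
  obtain ⟨P⟩ := (inferInstance : Nonempty (Sylow 5 ↥N))
  obtain ⟨n, hn⟩ := IsPGroup.iff_card.1 P.isPGroup'
  have hmul := Subgroup.index_mul_card (P : Subgroup ↥N)
  rw [hcard] at hmul
  have hnd := P.not_dvd_index
  have hidx : (P : Subgroup ↥N).index = 4 ∧ Nat.card (P : Subgroup ↥N) = 25 := by
    have hle : n < 3 := by
      by_contra hge
      push Not at hge
      have h1 : 5 ^ 3 ≤ 5 ^ n := Nat.pow_le_pow_right (by norm_num) hge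
      have h2 : Nat.card (P : Subgroup ↥N) ∣ 100 := Dvd.intro_left _ hmul
      have h3 := Nat.le_of_dvd (by norm_num) h2
      rw [hn] at h3
      norm_num at h1
      omega
    interval_cases n
    · exfalso
      rw [hn] at hmul
      norm_num at hmul
      rw [hmul] at hnd
      exact hnd (by norm_num)
    · exfalso
      rw [hn] at hmul
      norm_num at hmul
      have h4 : (P : Subgroup ↥N).index = 20 := by omega
      rw [h4] at hnd
      exact hnd (by norm_num)
    · rw [hn] at hmul ⊢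
      norm_num at hmul
      constructor
      · omega
      · norm_num
  obtain ⟨hidx4, hP25⟩ := hidx
  have hsyl1 : Nat.card (Sylow 5 ↥N) = 1 := by
    have h1 : Nat.card (Sylow 5 ↥N) % 5 = 1 := card_sylow_modEq_one 5 ↥N
    have h2 := P.card_dvd_index
    rw [hidx4] at h2
    have h3 := Nat.le_of_dvd (by norm_num) h2
    omega
  haveI : Subsingleton (Sylow 5 ↥N) := (Nat.card_eq_one_iff_unique.1 hsyl1).1
  have hchar : (P : Subgroup ↥N).Characteristic := Sylow.characteristic_of_subsingleton P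
  haveI : Fintype ↥N := Fintype.ofFinite ↥N
  have hφinj : Function.Injective (fun p : ↥N => p.1 x) := by
    intro a b hab
    have h1 : a.1 x = b.1 x := hab
    have h2 : (b.1⁻¹ * a.1) x = x := by
      rw [Perm.mul_apply, h1, pinv_apply]
    have h3 := hfree _ (N.mul_mem (N.inv_mem b.2) a.2) h2
    apply Subtype.ext
    have e : a.1 = b.1 * (b.1⁻¹ * a.1) := by group
    rw [e, h3, mul_one]
  have hRcard : ((Finset.univ.filter (fun p : ↥N => p ∈ (P : Subgroup ↥N))).image
      (fun p : ↥N => p.1 x)).card = 25 := by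
    rw [Finset.card_image_of_injective _ hφinj, ← Fintype.card_subtype,
      ← Nat.card_eq_fintype_card]
    exact hP25
  have hxR : x ∈ (Finset.univ.filter (fun p : ↥N => p ∈ (P : Subgroup ↥N))).image
      (fun p : ↥N => p.1 x) :=
    Finset.mem_image.2 ⟨1, Finset.mem_filter.2 ⟨Finset.mem_univ _,
      (P : Subgroup ↥N).one_mem⟩, rfl⟩
  have hRS : (Finset.univ.filter (fun p : ↥N => p ∈ (P : Subgroup ↥N))).image
      (fun p : ↥N => p.1 x) ⊆ S := by
    intro a ha
    obtain ⟨p, -, rfl⟩ := Finset.mem_image.1 ha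
    exact hSinv p.1 (hNK p.2) x hxS
  have hRinv : ∀ k ∈ K, k x = x →
      ∀ a ∈ (Finset.univ.filter (fun p : ↥N => p ∈ (P : Subgroup ↥N))).image
        (fun p : ↥N => p.1 x),
      k a ∈ (Finset.univ.filter (fun p : ↥N => p ∈ (P : Subgroup ↥N))).image
        (fun p : ↥N => p.1 x) := by
    intro k hk hkx a ha
    obtain ⟨p, hp, rfl⟩ := Finset.mem_image.1 ha
    rw [Finset.mem_filter] at hp
    have h2 : ∀ m ∈ N, k⁻¹ * m * k ∈ N := by
      intro m hm
      have h := hinv k⁻¹ (K.inv_mem hk) m hm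
      rwa [inv_inv] at h
    have hθ := hchar.fixed (conjAut N k (hinv k hk) h2)
    have hp' : p ∈ (P : Subgroup ↥N).comap (conjAut N k (hinv k hk) h2).toMonoidHom := by
      rw [hθ]
      exact hp.2
    rw [Subgroup.mem_comap] at hp'
    have hp'' : conjAut N k (hinv k hk) h2 p ∈ (P : Subgroup ↥N) := hp'
    refine Finset.mem_image.2 ⟨conjAut N k (hinv k hk) h2 p,
      Finset.mem_filter.2 ⟨Finset.mem_univ _, hp''⟩, ?_⟩
    show (k * p.1 * k⁻¹) x = k (p.1 x)
    have e : k⁻¹ x = x := by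
      conv_lhs => rw [← hkx]
      exact pinv_apply k x
    rw [Perm.mul_apply, Perm.mul_apply, e]
  have h := r3_card K S Δ Γ _ x hsplit hxΔ hxΓ hdisj hΔ hΓ hΔtr hΓtr hRS hxR hRinv
  omega

/-- the simplicity criterion -/
theorem simpleIn_rank3 (K : Subgroup (Perm α)) (S Δ Γ : Finset α) (x : α)
    (hSinv : ∀ k ∈ K, ∀ a ∈ S, k a ∈ S)
    (htr : ∀ a ∈ S, ∃ k ∈ K, k x = a)
    (hfaith : ∀ k ∈ K, (∀ a ∈ S, k a = a) → k = 1)
    (hsplit : S = insert x (Δ ∪ Γ)) (hxΔ : x ∉ Δ) (hxΓ : x ∉ Γ) (hdisj : Disjoint Δ Γ)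
    (hΔ : Δ.card = 22) (hΓ : Γ.card = 77)
    (hΔtr : ∀ a ∈ Δ, ∀ b ∈ Δ, ∃ k ∈ K, k x = x ∧ k a = b)
    (hΓtr : ∀ a ∈ Γ, ∀ b ∈ Γ, ∃ k ∈ K, k x = x ∧ k a = b)
    (hstab : SimpleIn (K ⊓ MulAction.stabilizer (Perm α) x)) : SimpleIn K := by
  have hxS : x ∈ S := by
    rw [hsplit]
    exact Finset.mem_insert_self _ _
  have hScard : S.card = 100 := by
    have hx : x ∉ Δ ∪ Γ := by
      rw [Finset.mem_union]
      tauto
    rw [hsplit, Finset.card_insert_of_notMem hx, Finset.card_union_of_disjoint hdisj, hΔ, hΓ]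
  refine ⟨?_, ?_⟩
  · intro hK
    apply hstab.1
    rw [hK, bot_inf_eq]
  · intro N hNK hinv
    by_contra hcon
    push Not at hcon
    obtain ⟨hN1, hN2⟩ := hcon
    have hmove : ∃ n ∈ N, n x ≠ x := by
      obtain ⟨n0, hn0, hn01⟩ : ∃ n ∈ N, n ≠ 1 := by
        by_contra h
        push Not at h
        exact hN1 ((Subgroup.eq_bot_iff_forall N).2 h)
      obtain ⟨a0, ha0, hna0⟩ : ∃ a ∈ S, n0 a ≠ a := by
        by_contra h
        push Not at h
        exact hn01 (hfaith n0 (hNK hn0) h)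
      obtain ⟨k, hk, hka⟩ := htr a0 ha0
      refine ⟨k⁻¹ * n0 * k, ?_, ?_⟩
      · have h := hinv k⁻¹ (K.inv_mem hk) n0 hn0
        rwa [inv_inv] at h
      · rw [Perm.mul_apply, Perm.mul_apply, hka]
        intro h
        apply hna0
        have h2 : k (k⁻¹ (n0 a0)) = k x := congrArg (fun y => k y) h
        rw [papply_inv, hka] at h2
        exact h2
    have hBinv : ∀ k ∈ K, k x = x → ∀ a ∈ orbFin N S x, k a ∈ orbFin N S x := by
      intro k hk hkx a ha
      rw [mem_orbFin] at ha ⊢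
      obtain ⟨haS, n, hn, hnxa⟩ := ha
      refine ⟨hSinv k hk a haS, k * n * k⁻¹, hinv k hk n hn, ?_⟩
      have e : k⁻¹ x = x := by
        conv_lhs => rw [← hkx]
        exact pinv_apply k x
      rw [Perm.mul_apply, Perm.mul_apply, e, hnxa]
    have hxB : x ∈ orbFin N S x := (mem_orbFin N S x x).2 ⟨hxS, 1, N.one_mem, rfl⟩
    have hBS : orbFin N S x ⊆ S := fun a ha => ((mem_orbFin N S x a).1 ha).1
    have hBcard := r3_card K S Δ Γ (orbFin N S x) x hsplit hxΔ hxΓ hdisj hΔ hΓ hΔtr hΓtr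
      hBS hxB hBinv
    have hdvd := orbFin_card_dvd K N S x hinv hSinv htr
    rw [hScard] at hdvd
    have hB1 : (orbFin N S x).card ≠ 1 := by
      intro h1
      obtain ⟨n, hn, hnx⟩ := hmove
      have hmem : n x ∈ orbFin N S x :=
        (mem_orbFin N S x (n x)).2 ⟨hSinv n (hNK hn) x hxS, n, hn, rfl⟩
      obtain ⟨c, hc⟩ := Finset.card_eq_one.1 h1
      rw [hc, Finset.mem_singleton] at hmem hxB
      exact hnx (hmem.trans hxB.symm)
    have hB100 : (orbFin N S x).card = 100 := by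
      rcases hBcard with h | h | h | h
      · exact absurd h hB1
      · rw [h] at hdvd
        norm_num at hdvd
      · rw [h] at hdvd
        norm_num at hdvd
      · exact h
    have hBeq : orbFin N S x = S :=
      Finset.eq_of_subset_of_card_le hBS (by rw [hB100, hScard])
    have hNtr : ∀ a ∈ S, ∃ n ∈ N, n x = a := by
      intro a ha
      rw [← hBeq, mem_orbFin] at ha
      exact ha.2
    rcases hstab.2 (N ⊓ (K ⊓ MulAction.stabilizer (Perm α) x)) inf_le_right (by
      intro k hk n hn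
      rw [Subgroup.mem_inf] at hn
      refine Subgroup.mem_inf.2 ⟨hinv k (Subgroup.mem_inf.1 hk).1 n hn.1, ?_⟩
      exact Subgroup.mul_mem _ (Subgroup.mul_mem _ hk hn.2) (Subgroup.inv_mem _ hk))
      with hbot | htop
    · have hfree : ∀ n ∈ N, n x = x → n = 1 := by
        intro n hn hnx
        have hmem : n ∈ N ⊓ (K ⊓ MulAction.stabilizer (Perm α) x) :=
          Subgroup.mem_inf.2 ⟨hn, Subgroup.mem_inf.2 ⟨hNK hn,
            MulAction.mem_stabilizer_iff.2 hnx⟩⟩
        rw [hbot] at hmem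
        exact Subgroup.mem_bot.1 hmem
      have htr2 : ∀ a ∈ S, ∀ b ∈ S, ∃ n ∈ N, n a = b := by
        intro a ha b hb
        obtain ⟨n1, hn1, h1⟩ := hNtr a ha
        obtain ⟨n2, hn2, h2⟩ := hNtr b hb
        exact ⟨n2 * n1⁻¹, N.mul_mem hn2 (N.inv_mem hn1), by
          rw [Perm.mul_apply, ← h1, pinv_apply, h2]⟩
      obtain ⟨hfin, hcard⟩ := card_of_regular K N S x hxS hSinv hNK htr2 hfree
      rw [hScard] at hcard
      exact r3_noreg K N S Δ Γ x hsplit hxΔ hxΓ hdisj hΔ hΓ hΔtr hΓtr hSinv hxS hNK hinv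
        hfree hfin hcard
    · apply hN2
      apply le_antisymm hNK
      intro k hk
      obtain ⟨n, hn, hnx⟩ := hNtr (k x) (hSinv k hk x hxS)
      have hmem : n⁻¹ * k ∈ K ⊓ MulAction.stabilizer (Perm α) x := by
        refine Subgroup.mem_inf.2 ⟨K.mul_mem (K.inv_mem (hNK hn)) hk, ?_⟩
        rw [MulAction.mem_stabilizer_iff, Perm.smul_def, Perm.mul_apply, ← hnx, pinv_apply]
      rw [← htop] at hmem
      have h3 : n * (n⁻¹ * k) ∈ N := N.mul_mem hn (Subgroup.mem_inf.1 hmem).1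
      rwa [mul_inv_cancel_left] at h3

end Rank3

end Cfsg.Agent.Helper28
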