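import Mathlib
import Cfsg.Agent.Helper28.Rank3Simple

/-!
A simplicity criterion for transitive permutation groups in which a point stabiliser is simple
and has exactly two further orbits: a normal subgroup is transitive (its orbits are invariant
under the point stabiliser and of a size dividing the degree), and it cannot be regular, since
a characteristic Sylow subgroup would have an orbit invariant under the point stabiliser.
-/

set_option autoImplicit false
set_option linter.unusedSectionVars false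
set_option linter.style.haveILetI false

namespace Cfsg.Agent.Helper28

open Equiv Cfsg.Agent.Helper3

section Rank3Gen

variable {α : Type*} [DecidableEq α]

/-- the sets invariant under the point stabiliser -/
theorem r3g_card (K : Subgroup (Perm α)) (S Δ Γ R : Finset α) (x : α)
    (hsplit : S = insert x (Δ ∪ Γ)) (hxΔ : x ∉ Δ) (hxΓ : x ∉ Γ) (hdisj : Disjoint Δ Γ)
    (hΔtr : ∀ a ∈ Δ, ∀ b ∈ Δ, ∃ k ∈ K, k x = x ∧ k a = b)
    (hΓtr : ∀ a ∈ Γ, ∀ b ∈ Γ, ∃ k ∈ K, k x = x ∧ k a = b)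
    (hRS : R ⊆ S) (hxR : x ∈ R) (hRinv : ∀ k ∈ K, k x = x → ∀ a ∈ R, k a ∈ R) :
    R.card = 1 ∨ R.card = 1 + Δ.card ∨ R.card = 1 + Γ.card ∨
      R.card = 1 + Δ.card + Γ.card := by
  have hΔR : (R ∩ Δ).card = 0 ∨ (R ∩ Δ).card = Δ.card := by
    by_cases h : (R ∩ Δ).Nonempty
    · right
      obtain ⟨a, ha⟩ := h
      rw [Finset.mem_inter] at ha
      have hsub : Δ ⊆ R := by
        intro b hb
        obtain ⟨k, hk, hkx, hkab⟩ := hΔtr a ha.2 b hb
        rw [← hkab]
        exact hRinv k hk hkx a ha.1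
      rw [Finset.inter_eq_right.2 hsub]
    · left
      rw [Finset.not_nonempty_iff_eq_empty] at h
      rw [h, Finset.card_empty]
  have hΓR : (R ∩ Γ).card = 0 ∨ (R ∩ Γ).card = Γ.card := by
    by_cases h : (R ∩ Γ).Nonempty
    · right
      obtain ⟨a, ha⟩ := h
      rw [Finset.mem_inter] at ha
      have hsub : Γ ⊆ R := by
        intro b hb
        obtain ⟨k, hk, hkx, hkab⟩ := hΓtr a ha.2 b hb
        rw [← hkab]
        exact hRinv k hk hkx a ha.1
      rw [Finset.inter_eq_right.2 hsub]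
    · left
      rw [Finset.not_nonempty_iff_eq_empty] at h
      rw [h, Finset.card_empty]
  have hR : R = insert x ((R ∩ Δ) ∪ (R ∩ Γ)) := by
    ext a
    simp only [Finset.mem_insert, Finset.mem_union, Finset.mem_inter]
    constructor
    · intro ha
      have haS := hRS ha
      rw [hsplit, Finset.mem_insert, Finset.mem_union] at haS
      rcases haS with h | h | h
      · exact Or.inl h
      · exact Or.inr (Or.inl ⟨ha, h⟩)
      · exact Or.inr (Or.inr ⟨ha, h⟩)
    · rintro (h | h | h)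
      · rw [h]
        exact hxR
      · exact h.1
      · exact h.1
  have hcard : R.card = 1 + ((R ∩ Δ).card + (R ∩ Γ).card) := by
    have hd : Disjoint (R ∩ Δ) (R ∩ Γ) := by
      rw [Finset.disjoint_left]
      intro a ha hb
      exact (Finset.disjoint_left.1 hdisj) (Finset.mem_inter.1 ha).2 (Finset.mem_inter.1 hb).2
    have hx : x ∉ (R ∩ Δ) ∪ (R ∩ Γ) := by
      intro h
      rw [Finset.mem_union, Finset.mem_inter, Finset.mem_inter] at h
      rcases h with h | h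
      · exact hxΔ h.2
      · exact hxΓ h.2
    have h1 := Finset.card_insert_of_notMem hx
    rw [← hR, Finset.card_union_of_disjoint hd] at h1
    omega
  omega

/-- no regular normal subgroup -/
theorem r3g_noreg (K N : Subgroup (Perm α)) (S Δ Γ : Finset α) (x : α)
    (hsplit : S = insert x (Δ ∪ Γ)) (hxΔ : x ∉ Δ) (hxΓ : x ∉ Γ) (hdisj : Disjoint Δ Γ)
    (hΔtr : ∀ a ∈ Δ, ∀ b ∈ Δ, ∃ k ∈ K, k x = x ∧ k a = b)
    (hΓtr : ∀ a ∈ Γ, ∀ b ∈ Γ, ∃ k ∈ K, k x = x ∧ k a = b)
    (hSinv : ∀ k ∈ K, ∀ a ∈ S, k a ∈ S) (hxS : x ∈ S)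
    (hNK : N ≤ K) (hinv : ∀ k ∈ K, ∀ n ∈ N, k * n * k⁻¹ ∈ N)
    (hfree : ∀ n ∈ N, n x = x → n = 1) (hfin : Finite ↥N)
    (p e m : ℕ) (hp : p.Prime) (hcard : Nat.card ↥N = p ^ e * m) (hpm : ¬ p ∣ m)
    (hsyl : ∀ d, d ∣ m → Nat.ModEq p d 1 → d = 1)
    (hne1 : p ^ e ≠ 1) (hne2 : p ^ e ≠ 1 + Δ.card) (hne3 : p ^ e ≠ 1 + Γ.card)
    (hne4 : p ^ e ≠ 1 + Δ.card + Γ.card) :
    False := by
  classical
  haveI := hfin
  haveI : Fact (Nat.Prime p) := ⟨hp⟩
  obtain ⟨P⟩ := (inferInstance : Nonempty (Sylow p ↥N))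
  obtain ⟨n, hn⟩ := IsPGroup.iff_card.1 P.isPGroup'
  have hmul := Subgroup.index_mul_card (P : Subgroup ↥N)
  rw [hcard, hn] at hmul
  have hnd := P.not_dvd_index
  have hcop1 : Nat.Coprime (p ^ n) m :=
    Nat.Coprime.pow_left n ((Nat.Prime.coprime_iff_not_dvd hp).2 hpm)
  have hcop2 : Nat.Coprime (p ^ e) (P : Subgroup ↥N).index :=
    Nat.Coprime.pow_left e ((Nat.Prime.coprime_iff_not_dvd hp).2 hnd)
  have hd1 : p ^ n ∣ p ^ e := hcop1.dvd_of_dvd_mul_right (Dvd.intro_left _ hmul)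
  have hd2 : p ^ e ∣ p ^ n := hcop2.dvd_of_dvd_mul_left (Dvd.intro _ hmul.symm)
  have hpe : p ^ n = p ^ e := Nat.dvd_antisymm hd1 hd2
  have hPcard : Nat.card (P : Subgroup ↥N) = p ^ e := hn.trans hpe
  have hidx : (P : Subgroup ↥N).index = m := by
    rw [hpe] at hmul
    have hpos : 0 < p ^ e := Nat.pos_of_ne_zero (pow_ne_zero e hp.ne_zero)
    exact Nat.eq_of_mul_eq_mul_right hpos (hmul.trans (mul_comm _ _))
  have hsyl1 : Nat.card (Sylow p ↥N) = 1 := by
    have h1 : Nat.ModEq p (Nat.card (Sylow p ↥N)) 1 := card_sylow_modEq_one p ↥N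
    have h2 := P.card_dvd_index
    rw [hidx] at h2
    exact hsyl _ h2 h1
  haveI : Subsingleton (Sylow p ↥N) := (Nat.card_eq_one_iff_unique.1 hsyl1).1
  have hchar : (P : Subgroup ↥N).Characteristic := Sylow.characteristic_of_subsingleton P
  haveI : Fintype ↥N := Fintype.ofFinite ↥N
  have hφinj : Function.Injective (fun q : ↥N => q.1 x) := by
    intro a b hab
    have h1 : a.1 x = b.1 x := hab
    have h2 : (b.1⁻¹ * a.1) x = x := by
      rw [Perm.mul_apply, h1, pinv_apply]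
    have h3 := hfree _ (N.mul_mem (N.inv_mem b.2) a.2) h2
    apply Subtype.ext
    have e' : a.1 = b.1 * (b.1⁻¹ * a.1) := by group
    rw [e', h3, mul_one]
  have hRcard : ((Finset.univ.filter (fun q : ↥N => q ∈ (P : Subgroup ↥N))).image
      (fun q : ↥N => q.1 x)).card = p ^ e := by
    rw [Finset.card_image_of_injective _ hφinj, ← Fintype.card_subtype,
      ← Nat.card_eq_fintype_card]
    exact hPcard
  have hxR : x ∈ (Finset.univ.filter (fun q : ↥N => q ∈ (P : Subgroup ↥N))).image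
      (fun q : ↥N => q.1 x) :=
    Finset.mem_image.2 ⟨1, Finset.mem_filter.2 ⟨Finset.mem_univ _,
      (P : Subgroup ↥N).one_mem⟩, rfl⟩
  have hRS : (Finset.univ.filter (fun q : ↥N => q ∈ (P : Subgroup ↥N))).image
      (fun q : ↥N => q.1 x) ⊆ S := by
    intro a ha
    obtain ⟨q, -, rfl⟩ := Finset.mem_image.1 ha
    exact hSinv q.1 (hNK q.2) x hxS
  have hRinv : ∀ k ∈ K, k x = x →
      ∀ a ∈ (Finset.univ.filter (fun q : ↥N => q ∈ (P : Subgroup ↥N))).image
        (fun q : ↥N => q.1 x),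
      k a ∈ (Finset.univ.filter (fun q : ↥N => q ∈ (P : Subgroup ↥N))).image
        (fun q : ↥N => q.1 x) := by
    intro k hk hkx a ha
    obtain ⟨q, hq, rfl⟩ := Finset.mem_image.1 ha
    rw [Finset.mem_filter] at hq
    have h2 : ∀ t ∈ N, k⁻¹ * t * k ∈ N := by
      intro t ht
      have h := hinv k⁻¹ (K.inv_mem hk) t ht
      rwa [inv_inv] at h
    have hθ := hchar.fixed (conjAut N k (hinv k hk) h2)
    have hq' : q ∈ (P : Subgroup ↥N).comap (conjAut N k (hinv k hk) h2).toMonoidHom := by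
      rw [hθ]
      exact hq.2
    rw [Subgroup.mem_comap] at hq'
    have hq'' : conjAut N k (hinv k hk) h2 q ∈ (P : Subgroup ↥N) := hq'
    refine Finset.mem_image.2 ⟨conjAut N k (hinv k hk) h2 q,
      Finset.mem_filter.2 ⟨Finset.mem_univ _, hq''⟩, ?_⟩
    show (k * q.1 * k⁻¹) x = k (q.1 x)
    have e' : k⁻¹ x = x := by
      conv_lhs => rw [← hkx]
      exact pinv_apply k x
    rw [Perm.mul_apply, Perm.mul_apply, e']
  have h := r3g_card K S Δ Γ _ x hsplit hxΔ hxΓ hdisj hΔtr hΓtr hRS hxR hRinv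
  rw [hRcard] at h
  rcases h with h | h | h | h
  · exact hne1 h
  · exact hne2 h
  · exact hne3 h
  · exact hne4 h

/-- the simplicity criterion -/
theorem simpleIn_rank3g (K : Subgroup (Perm α)) (S Δ Γ : Finset α) (x : α)
    (hSinv : ∀ k ∈ K, ∀ a ∈ S, k a ∈ S)
    (htr : ∀ a ∈ S, ∃ k ∈ K, k x = a)
    (hsplit : S = insert x (Δ ∪ Γ)) (hxΔ : x ∉ Δ) (hxΓ : x ∉ Γ) (hdisj : Disjoint Δ Γ)
    (hΔtr : ∀ a ∈ Δ, ∀ b ∈ Δ, ∃ k ∈ K, k x = x ∧ k a = b)
    (hΓtr : ∀ a ∈ Γ, ∀ b ∈ Γ, ∃ k ∈ K, k x = x ∧ k a = b)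
    (hΔ1 : 1 < Δ.card)
    (hnd1 : ¬ (1 + Δ.card ∣ S.card)) (hnd2 : ¬ (1 + Γ.card ∣ S.card))
    (p e m : ℕ) (hp : p.Prime) (hn : S.card = p ^ e * m) (hpm : ¬ p ∣ m)
    (hsyl : ∀ d, d ∣ m → Nat.ModEq p d 1 → d = 1)
    (hne1 : p ^ e ≠ 1) (hne2 : p ^ e ≠ 1 + Δ.card) (hne3 : p ^ e ≠ 1 + Γ.card)
    (hne4 : p ^ e ≠ S.card)
    (hstab : SimpleIn (K ⊓ MulAction.stabilizer (Perm α) x)) : SimpleIn K := by
  have hxS : x ∈ S := by
    rw [hsplit]
    exact Finset.mem_insert_self _ _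
  have hScard : S.card = 1 + Δ.card + Γ.card := by
    have hx : x ∉ Δ ∪ Γ := by
      rw [Finset.mem_union]
      tauto
    rw [hsplit, Finset.card_insert_of_notMem hx, Finset.card_union_of_disjoint hdisj]
    omega
  refine ⟨?_, ?_⟩
  · intro hK
    apply hstab.1
    rw [hK, bot_inf_eq]
  · intro N hNK hinv
    by_contra hcon
    push Not at hcon
    obtain ⟨hN1, hN2⟩ := hcon
    have hmove0 : ∃ n ∈ N, ∃ a ∈ S, n a ≠ a := by
      by_contra hno
      push Not at hno
      have hle : N ≤ K ⊓ MulAction.stabilizer (Perm α) x := by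
        intro n hn'
        exact Subgroup.mem_inf.2 ⟨hNK hn', MulAction.mem_stabilizer_iff.2 (hno n hn' x hxS)⟩
      rcases hstab.2 N hle (fun k hk n hn' => hinv k (Subgroup.mem_inf.1 hk).1 n hn') with
        hbot | htop
      · exact hN1 hbot
      · obtain ⟨a, ha, b, hb, hab⟩ := Finset.one_lt_card.1 hΔ1
        obtain ⟨k, hk, hkx, hkab⟩ := hΔtr a ha b hb
        have hkN : k ∈ N := by
          rw [htop]
          exact Subgroup.mem_inf.2 ⟨hk, MulAction.mem_stabilizer_iff.2 hkx⟩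
        have haS : a ∈ S := by
          rw [hsplit]
          exact Finset.mem_insert_of_mem (Finset.mem_union_left _ ha)
        have h1 := hno k hkN a haS
        rw [hkab] at h1
        exact hab h1.symm
    have hmove : ∃ n ∈ N, n x ≠ x := by
      obtain ⟨n0, hn0, a0, ha0, hna0⟩ := hmove0
      obtain ⟨k, hk, hka⟩ := htr a0 ha0
      refine ⟨k⁻¹ * n0 * k, ?_, ?_⟩
      · have h := hinv k⁻¹ (K.inv_mem hk) n0 hn0
        rwa [inv_inv] at h
      · rw [Perm.mul_apply, Perm.mul_apply, hka]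
        intro h
        apply hna0
        have h2 : k (k⁻¹ (n0 a0)) = k x := congrArg (fun y => k y) h
        rw [papply_inv, hka] at h2
        exact h2
    have hBinv : ∀ k ∈ K, k x = x → ∀ a ∈ orbFin N S x, k a ∈ orbFin N S x := by
      intro k hk hkx a ha
      rw [mem_orbFin] at ha ⊢
      obtain ⟨haS, n, hn', hnxa⟩ := ha
      refine ⟨hSinv k hk a haS, k * n * k⁻¹, hinv k hk n hn', ?_⟩
      have e' : k⁻¹ x = x := by
        conv_lhs => rw [← hkx]
        exact pinv_apply k x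
      rw [Perm.mul_apply, Perm.mul_apply, e', hnxa]
    have hxB : x ∈ orbFin N S x := (mem_orbFin N S x x).2 ⟨hxS, 1, N.one_mem, rfl⟩
    have hBS : orbFin N S x ⊆ S := fun a ha => ((mem_orbFin N S x a).1 ha).1
    have hBcard := r3g_card K S Δ Γ (orbFin N S x) x hsplit hxΔ hxΓ hdisj hΔtr hΓtr
      hBS hxB hBinv
    have hdvd := orbFin_card_dvd K N S x hinv hSinv htr
    have hB1 : (orbFin N S x).card ≠ 1 := by
      intro h1
      obtain ⟨n, hn', hnx⟩ := hmove
      have hmem : n x ∈ orbFin N S x :=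
        (mem_orbFin N S x (n x)).2 ⟨hSinv n (hNK hn') x hxS, n, hn', rfl⟩
      obtain ⟨c, hc⟩ := Finset.card_eq_one.1 h1
      rw [hc, Finset.mem_singleton] at hmem hxB
      exact hnx (hmem.trans hxB.symm)
    have hBfull : (orbFin N S x).card = S.card := by
      rcases hBcard with h | h | h | h
      · exact absurd h hB1
      · rw [h] at hdvd
        exact absurd hdvd hnd1
      · rw [h] at hdvd
        exact absurd hdvd hnd2
      · rw [h, hScard]
    have hBeq : orbFin N S x = S :=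
      Finset.eq_of_subset_of_card_le hBS (le_of_eq hBfull.symm)
    have hNtr : ∀ a ∈ S, ∃ n ∈ N, n x = a := by
      intro a ha
      rw [← hBeq, mem_orbFin] at ha
      exact ha.2
    rcases hstab.2 (N ⊓ (K ⊓ MulAction.stabilizer (Perm α) x)) inf_le_right (by
      intro k hk n hn'
      rw [Subgroup.mem_inf] at hn'
      refine Subgroup.mem_inf.2 ⟨hinv k (Subgroup.mem_inf.1 hk).1 n hn'.1, ?_⟩
      exact Subgroup.mul_mem _ (Subgroup.mul_mem _ hk hn'.2) (Subgroup.inv_mem _ hk))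
      with hbot | htop
    · have hfree : ∀ n ∈ N, n x = x → n = 1 := by
        intro n hn' hnx
        have hmem : n ∈ N ⊓ (K ⊓ MulAction.stabilizer (Perm α) x) :=
          Subgroup.mem_inf.2 ⟨hn', Subgroup.mem_inf.2 ⟨hNK hn',
            MulAction.mem_stabilizer_iff.2 hnx⟩⟩
        rw [hbot] at hmem
        exact Subgroup.mem_bot.1 hmem
      have htr2 : ∀ a ∈ S, ∀ b ∈ S, ∃ n ∈ N, n a = b := by
        intro a ha b hb
        obtain ⟨n1, hn1, h1⟩ := hNtr a ha
        obtain ⟨n2, hn2, h2⟩ := hNtr b hb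
        exact ⟨n2 * n1⁻¹, N.mul_mem hn2 (N.inv_mem hn1), by
          rw [Perm.mul_apply, ← h1, pinv_apply, h2]⟩
      obtain ⟨hfin, hcard⟩ := card_of_regular K N S x hxS hSinv hNK htr2 hfree
      rw [hn] at hcard
      exact r3g_noreg K N S Δ Γ x hsplit hxΔ hxΓ hdisj hΔtr hΓtr hSinv hxS hNK hinv
        hfree hfin p e m hp hcard hpm hsyl hne1 hne2 hne3 (by rw [← hScard]; exact hne4)
    · apply hN2
      apply le_antisymm hNK
      intro k hk
      obtain ⟨n, hn', hnx⟩ := hNtr (k x) (hSinv k hk x hxS)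
      have hmem : n⁻¹ * k ∈ K ⊓ MulAction.stabilizer (Perm α) x := by
        refine Subgroup.mem_inf.2 ⟨K.mul_mem (K.inv_mem (hNK hn')) hk, ?_⟩
        rw [MulAction.mem_stabilizer_iff, Perm.smul_def, Perm.mul_apply, ← hnx, pinv_apply]
      rw [← htop] at hmem
      have h3 : n * (n⁻¹ * k) ∈ N := N.mul_mem hn' (Subgroup.mem_inf.1 hmem).1
      rwa [mul_inv_cancel_left] at h3

end Rank3Gen

end Cfsg.Agent.Helper28
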