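import Mathlib
import Cfsg.Agent.Helper28.Rank3Gen

/-!
A simplicity criterion for transitive permutation groups in which a point stabiliser is simple
and has exactly three further orbits, of sizes `1`, `d` and `d` with `d` odd.  The orbits of a
normal subgroup are invariant under the point stabiliser; a normal subgroup meeting the point
stabiliser trivially is excluded by counting its elements of two odd prime orders (the points
they reach form invariant sets of odd size), except when it has order 2, which is excluded by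
hypothesis; a normal subgroup containing the point stabiliser is excluded by the hypothesis
that neither of the two large orbits together with the base point is a block.
-/

set_option autoImplicit false
set_option linter.unusedSectionVars false
set_option linter.style.haveILetI false

namespace Cfsg.Agent.Helper28

open Equiv Cfsg.Agent.Helper3

section Rank4

variable {α : Type*} [DecidableEq α]

/-- the orbit of a translated point is the translate of the orbit -/
theorem orbFin_image (K N : Subgroup (Perm α)) (S : Finset α) (x a : α) (k : Perm α)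
    (hk : k ∈ K) (hka : k x = a)
    (hinv : ∀ k ∈ K, ∀ n ∈ N, k * n * k⁻¹ ∈ N)
    (hSinv : ∀ k ∈ K, ∀ a ∈ S, k a ∈ S) :
    orbFin N S a = (orbFin N S x).image (fun b => k b) := by
  ext b
  rw [mem_orbFin, Finset.mem_image]
  constructor
  · rintro ⟨hb, n, hn, hnab⟩
    refine ⟨k⁻¹ b, ?_, papply_inv k b⟩
    rw [mem_orbFin]
    refine ⟨hSinv k⁻¹ (K.inv_mem hk) b hb, k⁻¹ * n * k, ?_, ?_⟩
    · have h := hinv k⁻¹ (K.inv_mem hk) n hn
      rwa [inv_inv] at h
    · rw [Perm.mul_apply, Perm.mul_apply, hka, hnab]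
  · rintro ⟨c, hc, rfl⟩
    rw [mem_orbFin] at hc
    obtain ⟨hcS, n, hn, hnxc⟩ := hc
    refine ⟨hSinv k hk c hcS, k * n * k⁻¹, hinv k hk n hn, ?_⟩
    rw [Perm.mul_apply, Perm.mul_apply, ← hka, pinv_apply, hnxc]

theorem orbFin_eq_of_mem (N : Subgroup (Perm α)) (S : Finset α) (a b : α)
    (hba : b ∈ orbFin N S a) : orbFin N S b = orbFin N S a := by
  rw [mem_orbFin] at hba
  obtain ⟨-, n, hn, hnab⟩ := hba
  ext c
  rw [mem_orbFin, mem_orbFin]
  constructor
  · rintro ⟨hc, m, hm, hmbc⟩
    exact ⟨hc, m * n, N.mul_mem hm hn, by rw [Perm.mul_apply, hnab, hmbc]⟩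
  · rintro ⟨hc, m, hm, hmac⟩
    exact ⟨hc, m * n⁻¹, N.mul_mem hm (N.inv_mem hn), by
      rw [Perm.mul_apply, ← hnab, pinv_apply, hmac]⟩

/-- a subgroup acting freely has as many elements as an orbit has points -/
theorem card_of_free (N : Subgroup (Perm α)) (S : Finset α) (x : α) (hxS : x ∈ S)
    (hNS : ∀ n ∈ N, ∀ a ∈ S, n a ∈ S) (hfree : ∀ n ∈ N, n x = x → n = 1) :
    Finite ↥N ∧ Nat.card ↥N = (orbFin N S x).card := by
  have hbij : Function.Bijective
      (fun n : ↥N => (⟨n.1 x, (mem_orbFin N S x (n.1 x)).2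
        ⟨hNS n.1 n.2 x hxS, n.1, n.2, rfl⟩⟩ : ↥(orbFin N S x))) := by
    constructor
    · intro n m hnm
      have h1 : n.1 x = m.1 x := congrArg Subtype.val hnm
      have h2 : (m.1⁻¹ * n.1) x = x := by
        rw [Perm.mul_apply, h1, pinv_apply]
      have h3 := hfree _ (N.mul_mem (N.inv_mem m.2) n.2) h2
      apply Subtype.ext
      have e : n.1 = m.1 * (m.1⁻¹ * n.1) := by group
      rw [e, h3, mul_one]
    · rintro ⟨b, hb⟩
      obtain ⟨-, n, hn, hnb⟩ := (mem_orbFin N S x b).1 hb
      exact ⟨⟨n, hn⟩, Subtype.ext hnb⟩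
  refine ⟨Finite.of_injective _ hbij.1, ?_⟩
  rw [Nat.card_congr (Equiv.ofBijective _ hbij), Nat.card_eq_fintype_card, Fintype.card_coe]

/-- the sets invariant under the point stabiliser -/
theorem r4_card (K : Subgroup (Perm α)) (S Δ Γ R : Finset α) (x x' : α) (d : ℕ)
    (hsplit : S = insert x (insert x' (Δ ∪ Γ))) (hxx' : x ≠ x') (hxΔ : x ∉ Δ) (hxΓ : x ∉ Γ)
    (hx'Δ : x' ∉ Δ) (hx'Γ : x' ∉ Γ) (hdisj : Disjoint Δ Γ)
    (hΔc : Δ.card = d) (hΓc : Γ.card = d)
    (hΔtr : ∀ a ∈ Δ, ∀ b ∈ Δ, ∃ k ∈ K, k x = x ∧ k a = b)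
    (hΓtr : ∀ a ∈ Γ, ∀ b ∈ Γ, ∃ k ∈ K, k x = x ∧ k a = b)
    (hRS : R ⊆ S) (hxR : x ∈ R) (hRinv : ∀ k ∈ K, k x = x → ∀ a ∈ R, k a ∈ R) :
    R.card = 1 + (if x' ∈ R then 1 else 0) + (if Δ ⊆ R then d else 0) +
        (if Γ ⊆ R then d else 0) ∧
      (¬ Δ ⊆ R → ∀ y ∈ Δ, y ∉ R) ∧ (¬ Γ ⊆ R → ∀ y ∈ Γ, y ∉ R) := by
  have hΔR : ¬ Δ ⊆ R → ∀ y ∈ Δ, y ∉ R := by
    intro hns y hy hyR
    apply hns
    intro b hb
    obtain ⟨k, hk, hkx, hkab⟩ := hΔtr y hy b hb
    rw [← hkab]
    exact hRinv k hk hkx y hyR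
  have hΓR : ¬ Γ ⊆ R → ∀ y ∈ Γ, y ∉ R := by
    intro hns y hy hyR
    apply hns
    intro b hb
    obtain ⟨k, hk, hkx, hkab⟩ := hΓtr y hy b hb
    rw [← hkab]
    exact hRinv k hk hkx y hyR
  refine ⟨?_, hΔR, hΓR⟩
  have h1 : (R ∩ Δ).card = if Δ ⊆ R then d else 0 := by
    by_cases h : Δ ⊆ R
    · rw [if_pos h, Finset.inter_eq_right.2 h, hΔc]
    · rw [if_neg h, Finset.card_eq_zero, Finset.eq_empty_iff_forall_notMem]
      intro y hy
      exact hΔR h y (Finset.mem_inter.1 hy).2 (Finset.mem_inter.1 hy).1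
  have h2 : ((R \ Δ) ∩ Γ).card = if Γ ⊆ R then d else 0 := by
    have e : (R \ Δ) ∩ Γ = R ∩ Γ := by
      ext y
      rw [Finset.mem_inter, Finset.mem_sdiff, Finset.mem_inter]
      constructor
      · rintro ⟨⟨h1, -⟩, h3⟩
        exact ⟨h1, h3⟩
      · rintro ⟨h1, h3⟩
        exact ⟨⟨h1, fun h => (Finset.disjoint_left.1 hdisj) h h3⟩, h3⟩
    rw [e]
    by_cases h : Γ ⊆ R
    · rw [if_pos h, Finset.inter_eq_right.2 h, hΓc]
    · rw [if_neg h, Finset.card_eq_zero, Finset.eq_empty_iff_forall_notMem]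
      intro y hy
      exact hΓR h y (Finset.mem_inter.1 hy).2 (Finset.mem_inter.1 hy).1
  have h3 : ((R \ Δ) \ Γ).card = 1 + (if x' ∈ R then 1 else 0) := by
    by_cases h : x' ∈ R
    · have e : (R \ Δ) \ Γ = {x, x'} := by
        ext y
        rw [Finset.mem_sdiff, Finset.mem_sdiff, Finset.mem_insert, Finset.mem_singleton]
        constructor
        · rintro ⟨⟨hy, hyΔ⟩, hyΓ⟩
          have hyS := hRS hy
          rw [hsplit, Finset.mem_insert, Finset.mem_insert, Finset.mem_union] at hyS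
          rcases hyS with h' | h' | h' | h'
          · exact Or.inl h'
          · exact Or.inr h'
          · exact absurd h' hyΔ
          · exact absurd h' hyΓ
        · rintro (h' | h')
          · rw [h']
            exact ⟨⟨hxR, hxΔ⟩, hxΓ⟩
          · rw [h']
            exact ⟨⟨h, hx'Δ⟩, hx'Γ⟩
      rw [e, if_pos h, Finset.card_pair hxx']
    · have e : (R \ Δ) \ Γ = {x} := by
        ext y
        rw [Finset.mem_sdiff, Finset.mem_sdiff, Finset.mem_singleton]
        constructor
        · rintro ⟨⟨hy, hyΔ⟩, hyΓ⟩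
          have hyS := hRS hy
          rw [hsplit, Finset.mem_insert, Finset.mem_insert, Finset.mem_union] at hyS
          rcases hyS with h' | h' | h' | h'
          · exact h'
          · rw [h'] at hy
            exact absurd hy h
          · exact absurd h' hyΔ
          · exact absurd h' hyΓ
        · intro h'
          rw [h']
          exact ⟨⟨hxR, hxΔ⟩, hxΓ⟩
      rw [e, if_neg h, Finset.card_singleton]
  have e1 := Finset.card_inter_add_card_sdiff R Δ
  have e2 := Finset.card_inter_add_card_sdiff (R \ Δ) Γ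
  rw [h1] at e1
  rw [h2, h3] at e2
  omega

/-- in a normal subgroup acting freely, the points reached from the base point by the
elements of a given odd prime order form, with the base point, an invariant set of odd size at
least 3 -/
theorem r4_prime_set (K N : Subgroup (Perm α)) (S : Finset α) (x : α) (hxS : x ∈ S)
    (hSinv : ∀ k ∈ K, ∀ a ∈ S, k a ∈ S) (hNK : N ≤ K)
    (hinv : ∀ k ∈ K, ∀ n ∈ N, k * n * k⁻¹ ∈ N)
    (hfree : ∀ n ∈ N, n x = x → n = 1) (hfin : Finite ↥N) (q : ℕ) (hq : q.Prime)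
    (hq2 : q ≠ 2) (hqN : q ∣ Nat.card ↥N) :
    ∃ R : Finset α, R ⊆ S ∧ x ∈ R ∧ (∀ k ∈ K, k x = x → ∀ a ∈ R, k a ∈ R) ∧
      R.card % 2 = 1 ∧ 3 ≤ R.card ∧
      (∀ a ∈ R, a ≠ x → ∃ n ∈ N, orderOf n = q ∧ n x = a) := by
  classical
  haveI := hfin
  haveI : Fintype ↥N := Fintype.ofFinite ↥N
  haveI : Fact q.Prime := ⟨hq⟩
  have hφinj : Function.Injective (fun n : ↥N => n.1 x) := by
    intro a b hab
    have h1 : a.1 x = b.1 x := hab
    have h2 : (b.1⁻¹ * a.1) x = x := by
      rw [Perm.mul_apply, h1, pinv_apply]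
    have h3 := hfree _ (N.mul_mem (N.inv_mem b.2) a.2) h2
    apply Subtype.ext
    have e' : a.1 = b.1 * (b.1⁻¹ * a.1) := by group
    rw [e', h3, mul_one]
  obtain ⟨E, hE⟩ : ∃ E : Finset ↥N, ∀ n, n ∈ E ↔ orderOf n.1 = q :=
    ⟨Finset.univ.filter (fun n : ↥N => orderOf n.1 = q), fun n => by simp⟩
  have hEne : E.Nonempty := by
    obtain ⟨g, hg⟩ := exists_prime_orderOf_dvd_card' q hqN
    exact ⟨g, (hE g).2 ((Subgroup.orderOf_coe g).trans hg)⟩
  have hEeven : Even E.card := by
    rw [← ZMod.natCast_eq_zero_iff_even]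
    have h := Finset.sum_involution (s := E) (f := fun _ => (1 : ZMod 2)) (fun n _ => n⁻¹)
      (by
        intro a ha
        show (1 : ZMod 2) + 1 = 0
        decide)
      (by
        intro a ha _ hinv'
        have h2 : a * a = 1 := by
          calc a * a = a⁻¹ * a := by rw [hinv']
            _ = 1 := inv_mul_cancel a
        have h3 : a.1 * a.1 = 1 := congrArg Subtype.val h2
        have h4 : a.1 ^ 2 = 1 := by
          rw [pow_two]
          exact h3
        have h5 := orderOf_dvd_of_pow_eq_one h4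
        rw [(hE a).1 ha] at h5
        exact hq2 ((Nat.prime_dvd_prime_iff_eq hq Nat.prime_two).1 h5))
      (by
        intro a ha
        rw [hE] at ha ⊢
        have e' : (a⁻¹ : ↥N).1 = (a.1)⁻¹ := rfl
        rw [e', orderOf_inv]
        exact ha)
      (by
        intro a ha
        exact inv_inv a)
    rw [Finset.sum_const, nsmul_eq_mul, mul_one] at h
    exact h
  have hnotin : x ∉ E.image (fun n : ↥N => n.1 x) := by
    intro h
    obtain ⟨n, hn, hnx⟩ := Finset.mem_image.1 h
    have h1 := hfree n.1 n.2 hnx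
    have h2 := (hE n).1 hn
    rw [h1, orderOf_one] at h2
    exact hq.one_lt.ne h2
  refine ⟨insert x (E.image (fun n : ↥N => n.1 x)), ?_, Finset.mem_insert_self _ _, ?_, ?_,
    ?_, ?_⟩
  · intro a ha
    rw [Finset.mem_insert] at ha
    rcases ha with h | h
    · rw [h]
      exact hxS
    · obtain ⟨n, -, rfl⟩ := Finset.mem_image.1 h
      exact hSinv n.1 (hNK n.2) x hxS
  · intro k hk hkx a ha
    rw [Finset.mem_insert] at ha
    rcases ha with h | h
    · rw [h, hkx]
      exact Finset.mem_insert_self _ _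
    · obtain ⟨n, hn, rfl⟩ := Finset.mem_image.1 h
      apply Finset.mem_insert_of_mem
      have hmem : k * n.1 * k⁻¹ ∈ N := hinv k hk n.1 n.2
      have ho : orderOf (k * n.1 * k⁻¹) = orderOf n.1 :=
        MulEquiv.orderOf_eq (MulAut.conj k) n.1
      refine Finset.mem_image.2 ⟨⟨k * n.1 * k⁻¹, hmem⟩, (hE _).2 (ho.trans ((hE n).1 hn)), ?_⟩
      show (k * n.1 * k⁻¹) x = k (n.1 x)
      have e' : k⁻¹ x = x := by
        conv_lhs => rw [← hkx]
        exact pinv_apply k x
      rw [Perm.mul_apply, Perm.mul_apply, e']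
  · rw [Finset.card_insert_of_notMem hnotin, Finset.card_image_of_injective _ hφinj]
    obtain ⟨t, ht⟩ := hEeven
    omega
  · rw [Finset.card_insert_of_notMem hnotin, Finset.card_image_of_injective _ hφinj]
    obtain ⟨t, ht⟩ := hEeven
    have hpos := Finset.card_pos.2 hEne
    omega
  · intro a ha hax
    rw [Finset.mem_insert] at ha
    rcases ha with h | h
    · exact absurd h hax
    · obtain ⟨n, hn, rfl⟩ := Finset.mem_image.1 h
      exact ⟨n.1, n.2, (hE n).1 hn, rfl⟩

/-- the simplicity criterion -/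
theorem simpleIn_rank4 (K : Subgroup (Perm α)) (S Δ Γ : Finset α) (x x' : α) (d : ℕ)
    (hSinv : ∀ k ∈ K, ∀ a ∈ S, k a ∈ S)
    (htr : ∀ a ∈ S, ∃ k ∈ K, k x = a)
    (hsplit : S = insert x (insert x' (Δ ∪ Γ))) (hxx' : x ≠ x') (hxΔ : x ∉ Δ) (hxΓ : x ∉ Γ)
    (hx'Δ : x' ∉ Δ) (hx'Γ : x' ∉ Γ) (hdisj : Disjoint Δ Γ)
    (hΔc : Δ.card = d) (hΓc : Γ.card = d) (hdodd : d % 2 = 1) (hd1 : 1 < d)
    (hΔtr : ∀ a ∈ Δ, ∀ b ∈ Δ, ∃ k ∈ K, k x = x ∧ k a = b)
    (hΓtr : ∀ a ∈ Γ, ∀ b ∈ Γ, ∃ k ∈ K, k x = x ∧ k a = b)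
    (hnd1 : ¬ (2 + d ∣ 2 + 2 * d)) (hnd2 : ¬ (1 + 2 * d ∣ 2 + 2 * d))
    (q₁ q₂ : ℕ) (hq₁ : q₁.Prime) (hq₂ : q₂.Prime) (hq12 : q₁ ≠ q₂) (hq₁2 : q₁ ≠ 2)
    (hq₂2 : q₂ ≠ 2) (hq₁d : q₁ ∣ 1 + d) (hq₂d : q₂ ∣ 1 + d)
    (hcent : ∀ n ∈ K, n x = x' → (∀ g ∈ K, n (g x) = g x') → False)
    (hΔblock : ∃ g ∈ K, g x ∈ Δ ∧ ∃ b ∈ Δ, g b ∉ insert x Δ)
    (hΓblock : ∃ g ∈ K, g x ∈ Γ ∧ ∃ b ∈ Γ, g b ∉ insert x Γ)
    (hstab : SimpleIn (K ⊓ MulAction.stabilizer (Perm α) x)) : SimpleIn K := by
  have hxS : x ∈ S := by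
    rw [hsplit]
    exact Finset.mem_insert_self _ _
  have hΔS : Δ ⊆ S := by
    intro a ha
    rw [hsplit]
    exact Finset.mem_insert_of_mem (Finset.mem_insert_of_mem (Finset.mem_union_left _ ha))
  have hScard : S.card = 2 + 2 * d := by
    have h1 : x' ∉ Δ ∪ Γ := by
      rw [Finset.mem_union]
      tauto
    have h2 : x ∉ insert x' (Δ ∪ Γ) := by
      rw [Finset.mem_insert, Finset.mem_union]
      tauto
    rw [hsplit, Finset.card_insert_of_notMem h2, Finset.card_insert_of_notMem h1,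
      Finset.card_union_of_disjoint hdisj, hΔc, hΓc]
    omega
  have hSmem : ∀ y ∈ S, y = x ∨ y = x' ∨ y ∈ Δ ∨ y ∈ Γ := by
    intro y hy
    rw [hsplit, Finset.mem_insert, Finset.mem_insert, Finset.mem_union] at hy
    exact hy
  refine ⟨?_, ?_⟩
  · intro hK
    apply hstab.1
    rw [hK, bot_inf_eq]
  · intro N hNK hinv
    by_contra hcon
    push Not at hcon
    obtain ⟨hN1, hN2⟩ := hcon
    have hNS : ∀ n ∈ N, ∀ a ∈ S, n a ∈ S := fun n hn a ha => hSinv n (hNK hn) a ha
    have hBinv : ∀ k ∈ K, k x = x → ∀ a ∈ orbFin N S x, k a ∈ orbFin N S x := by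
      intro k hk hkx a ha
      rw [mem_orbFin] at ha ⊢
      obtain ⟨haS, n, hn', hnxa⟩ := ha
      refine ⟨hSinv k hk a haS, k * n * k⁻¹, hinv k hk n hn', ?_⟩
      have e' : k⁻¹ x = x := by
        conv_lhs => rw [← hkx]
        exact pinv_apply k x
      rw [Perm.mul_apply, Perm.mul_apply, e', hnxa]
    have hxB : x ∈ orbFin N S x := (mem_orbFin N S x x).2 ⟨hxS, 1, N.one_mem, rfl⟩
    have hBS : orbFin N S x ⊆ S := fun a ha => ((mem_orbFin N S x a).1 ha).1
    obtain ⟨hBc, hBΔ, hBΓ⟩ := r4_card K S Δ Γ (orbFin N S x) x x' d hsplit hxx' hxΔ hxΓ hx'Δ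
      hx'Γ hdisj hΔc hΓc hΔtr hΓtr hBS hxB hBinv
    have hdvd := orbFin_card_dvd K N S x hinv hSinv htr
    rw [hScard] at hdvd
    have h2d : (orbFin N S x).card ≠ 2 + d := by
      intro h
      rw [h] at hdvd
      exact hnd1 hdvd
    have h12d : (orbFin N S x).card ≠ 1 + 2 * d := by
      intro h
      rw [h] at hdvd
      exact hnd2 hdvd
    have hsmall : ¬ Δ ⊆ orbFin N S x → ¬ Γ ⊆ orbFin N S x → (orbFin N S x).card ≤ 2 := by
      intro h2 h3
      rw [if_neg h2, if_neg h3] at hBc
      split_ifs at hBc <;> omega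
    have hbigc : (Δ ⊆ orbFin N S x ∨ Γ ⊆ orbFin N S x) →
        (orbFin N S x).card = 1 + d ∨ (orbFin N S x).card = 2 + 2 * d := by
      intro h
      rcases h with h | h
      · rw [if_pos h] at hBc
        split_ifs at hBc <;> omega
      · rw [if_pos h] at hBc
        split_ifs at hBc <;> omega
    have hmid : (orbFin N S x).card = 1 + d →
        x' ∉ orbFin N S x ∧ ((Δ ⊆ orbFin N S x ∧ ¬ Γ ⊆ orbFin N S x) ∨
          (Γ ⊆ orbFin N S x ∧ ¬ Δ ⊆ orbFin N S x)) := by
      intro hc
      rw [hc] at hBc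
      by_cases h1 : x' ∈ orbFin N S x
      · exfalso
        rw [if_pos h1] at hBc
        split_ifs at hBc <;> omega
      · refine ⟨h1, ?_⟩
        rw [if_neg h1] at hBc
        by_cases h2 : Δ ⊆ orbFin N S x
        · left
          refine ⟨h2, ?_⟩
          intro h3
          rw [if_pos h2, if_pos h3] at hBc
          omega
        · right
          rw [if_neg h2] at hBc
          by_cases h3 : Γ ⊆ orbFin N S x
          · exact ⟨h3, h2⟩
          · rw [if_neg h3] at hBc
            omega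
    rcases hstab.2 (N ⊓ (K ⊓ MulAction.stabilizer (Perm α) x)) inf_le_right (by
      intro k hk n hn'
      rw [Subgroup.mem_inf] at hn'
      refine Subgroup.mem_inf.2 ⟨hinv k (Subgroup.mem_inf.1 hk).1 n hn'.1, ?_⟩
      exact Subgroup.mul_mem _ (Subgroup.mul_mem _ hk hn'.2) (Subgroup.inv_mem _ hk))
      with hbot | htop
    · -- the normal subgroup meets the point stabiliser trivially
      have hfree : ∀ n ∈ N, n x = x → n = 1 := by
        intro n hn' hnx
        have hmem : n ∈ N ⊓ (K ⊓ MulAction.stabilizer (Perm α) x) :=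
          Subgroup.mem_inf.2 ⟨hn', Subgroup.mem_inf.2 ⟨hNK hn',
            MulAction.mem_stabilizer_iff.2 hnx⟩⟩
        rw [hbot] at hmem
        exact Subgroup.mem_bot.1 hmem
      obtain ⟨hfin, hcard⟩ := card_of_free N S x hxS hNS hfree
      by_cases hbig : Δ ⊆ orbFin N S x ∨ Γ ⊆ orbFin N S x
      · have hc := hbigc hbig
        have hq : ∀ q : ℕ, q ∣ 1 + d → q ∣ Nat.card ↥N := by
          intro q hqd
          rw [hcard]
          rcases hc with h | h
          · rw [h]
            exact hqd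
          · rw [h]
            have e2 : 2 + 2 * d = 2 * (1 + d) := by ring
            rw [e2]
            exact Dvd.dvd.mul_left hqd 2
        obtain ⟨R₁, hR₁S, hxR₁, hR₁inv, hR₁odd, hR₁3, hR₁el⟩ := r4_prime_set K N S x hxS hSinv
          hNK hinv hfree hfin q₁ hq₁ hq₁2 (hq q₁ hq₁d)
        obtain ⟨R₂, hR₂S, hxR₂, hR₂inv, hR₂odd, hR₂3, hR₂el⟩ := r4_prime_set K N S x hxS hSinv
          hNK hinv hfree hfin q₂ hq₂ hq₂2 (hq q₂ hq₂d)
        obtain ⟨hc₁, -, -⟩ := r4_card K S Δ Γ R₁ x x' d hsplit hxx' hxΔ hxΓ hx'Δ hx'Γ hdisj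
          hΔc hΓc hΔtr hΓtr hR₁S hxR₁ hR₁inv
        obtain ⟨hc₂, -, -⟩ := r4_card K S Δ Γ R₂ x x' d hsplit hxx' hxΔ hxΓ hx'Δ hx'Γ hdisj
          hΔc hΓc hΔtr hΓtr hR₂S hxR₂ hR₂inv
        have hb₁ : 2 + d ≤ R₁.card := by
          split_ifs at hc₁ <;> omega
        have hb₂ : 2 + d ≤ R₂.card := by
          split_ifs at hc₂ <;> omega
        have hinter : R₁ ∩ R₂ = {x} := by
          ext a
          rw [Finset.mem_inter, Finset.mem_singleton]
          constructor
          · rintro ⟨h1, h2⟩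
            by_contra hax
            obtain ⟨n₁, hn₁, ho₁, e₁⟩ := hR₁el a h1 hax
            obtain ⟨n₂, hn₂, ho₂, e₂⟩ := hR₂el a h2 hax
            have h3 : (n₂⁻¹ * n₁) x = x := by
              rw [Perm.mul_apply, e₁, ← e₂, pinv_apply]
            have h4 := hfree _ (N.mul_mem (N.inv_mem hn₂) hn₁) h3
            have h5 : n₁ = n₂ := by
              have e' : n₁ = n₂ * (n₂⁻¹ * n₁) := by group
              rw [e', h4, mul_one]
            rw [h5, ho₂] at ho₁
            exact hq12 ho₁.symm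
          · intro h
            rw [h]
            exact ⟨hxR₁, hxR₂⟩
        have hun := Finset.card_union_add_card_inter R₁ R₂
        rw [hinter, Finset.card_singleton] at hun
        have hle : (R₁ ∪ R₂).card ≤ S.card :=
          Finset.card_le_card (Finset.union_subset hR₁S hR₂S)
        rw [hScard] at hle
        omega
      · have h2 : ¬ Δ ⊆ orbFin N S x := fun h => hbig (Or.inl h)
        have h3 : ¬ Γ ⊆ orbFin N S x := fun h => hbig (Or.inr h)
        have hBsub : ∀ y ∈ orbFin N S x, y = x ∨ y = x' := by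
          intro y hy
          rcases hSmem y (hBS hy) with h | h | h | h
          · exact Or.inl h
          · exact Or.inr h
          · exact absurd hy (hBΔ h2 y h)
          · exact absurd hy (hBΓ h3 y h)
        obtain ⟨n0, hn0, hn01⟩ : ∃ n ∈ N, n ≠ 1 := by
          by_contra h
          push Not at h
          exact hN1 ((Subgroup.eq_bot_iff_forall N).2 h)
        have hn0x : n0 x = x' := by
          have hmem : n0 x ∈ orbFin N S x :=
            (mem_orbFin N S x (n0 x)).2 ⟨hNS n0 hn0 x hxS, n0, hn0, rfl⟩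
          rcases hBsub _ hmem with h | h
          · exact absurd (hfree n0 hn0 h) hn01
          · exact h
        apply hcent n0 (hNK hn0) hn0x
        intro g hg
        have hN' : g⁻¹ * n0 * g ∈ N := by
          have h' := hinv g⁻¹ (K.inv_mem hg) n0 hn0
          rwa [inv_inv] at h'
        have hmem : (g⁻¹ * n0 * g) x ∈ orbFin N S x :=
          (mem_orbFin N S x _).2 ⟨hNS _ hN' x hxS, g⁻¹ * n0 * g, hN', rfl⟩
        rcases hBsub _ hmem with h | h
        · exfalso
          have h1 := hfree _ hN' h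
          apply hn01
          have e' : n0 = g * (g⁻¹ * n0 * g) * g⁻¹ := by group
          rw [e', h1]
          group
        · rw [Perm.mul_apply, Perm.mul_apply] at h
          have h' : g (g⁻¹ (n0 (g x))) = g x' := congrArg (fun y => g y) h
          rw [papply_inv] at h'
          exact h'
    · -- the normal subgroup contains the point stabiliser
      have hKx : ∀ k ∈ K, k x = x → k ∈ N := by
        intro k hk hkx
        have hmem : k ∈ K ⊓ MulAction.stabilizer (Perm α) x :=
          Subgroup.mem_inf.2 ⟨hk, MulAction.mem_stabilizer_iff.2 hkx⟩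
        rw [← htop] at hmem
        exact (Subgroup.mem_inf.1 hmem).1
      by_cases hbig : Δ ⊆ orbFin N S x ∨ Γ ⊆ orbFin N S x
      · rcases hbigc hbig with hc | hc
        · obtain ⟨hx'B, hcase⟩ := hmid hc
          have hblock : ∀ (Θ : Finset α), Θ ⊆ orbFin N S x →
              (∀ y ∈ orbFin N S x, y ∈ insert x Θ) →
              (∃ g ∈ K, g x ∈ Θ ∧ ∃ b ∈ Θ, g b ∉ insert x Θ) → False := by
            intro Θ hΘB hBΘ hex
            obtain ⟨g, hg, hgx, b, hb, hgb⟩ := hex
            have e1 := orbFin_image K N S x (g x) g hg rfl hinv hSinv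
            have e2 := orbFin_eq_of_mem N S x (g x) (hΘB hgx)
            rw [e2] at e1
            apply hgb
            apply hBΘ
            rw [e1]
            exact Finset.mem_image_of_mem _ (hΘB hb)
          rcases hcase with ⟨h2, h3⟩ | ⟨h3, h2⟩
          · apply hblock Δ h2 ?_ hΔblock
            intro y hy
            rcases hSmem y (hBS hy) with h | h | h | h
            · rw [h]
              exact Finset.mem_insert_self _ _
            · rw [h] at hy
              exact absurd hy hx'B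
            · exact Finset.mem_insert_of_mem h
            · exact absurd hy (hBΓ h3 y h)
          · apply hblock Γ h3 ?_ hΓblock
            intro y hy
            rcases hSmem y (hBS hy) with h | h | h | h
            · rw [h]
              exact Finset.mem_insert_self _ _
            · rw [h] at hy
              exact absurd hy hx'B
            · exact absurd hy (hBΔ h2 y h)
            · exact Finset.mem_insert_of_mem h
        · have hBeq : orbFin N S x = S :=
            Finset.eq_of_subset_of_card_le hBS (le_of_eq (hScard.trans hc.symm))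
          have hNtr : ∀ a ∈ S, ∃ n ∈ N, n x = a := by
            intro a ha
            rw [← hBeq, mem_orbFin] at ha
            exact ha.2
          apply hN2
          apply le_antisymm hNK
          intro k hk
          obtain ⟨n, hn', hnx⟩ := hNtr (k x) (hSinv k hk x hxS)
          have hmem : n⁻¹ * k ∈ N := by
            apply hKx _ (K.mul_mem (K.inv_mem (hNK hn')) hk)
            rw [Perm.mul_apply, ← hnx, pinv_apply]
          have h3 : n * (n⁻¹ * k) ∈ N := N.mul_mem hn' hmem
          rwa [mul_inv_cancel_left] at h3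
      · have h2 : ¬ Δ ⊆ orbFin N S x := fun h => hbig (Or.inl h)
        have h3 : ¬ Γ ⊆ orbFin N S x := fun h => hbig (Or.inr h)
        have hle := hsmall h2 h3
        obtain ⟨a, ha⟩ : Δ.Nonempty := Finset.card_pos.1 (by rw [hΔc]; omega)
        obtain ⟨k, hk, hka⟩ := htr a (hΔS ha)
        have e1 := orbFin_image K N S x a k hk hka hinv hSinv
        have hcard_a : (orbFin N S a).card = (orbFin N S x).card := by
          rw [e1, Finset.card_image_of_injective _ k.injective]
        have hsub : Δ ⊆ orbFin N S a := by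
          intro b hb
          obtain ⟨k', hk', hk'x, hk'ab⟩ := hΔtr a ha b hb
          exact (mem_orbFin N S a b).2 ⟨hΔS hb, k', hKx k' hk' hk'x, hk'ab⟩
        have h4 := Finset.card_le_card hsub
        rw [hΔc, hcard_a] at h4
        omega

end Rank4

end Cfsg.Agent.Helper28
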