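import Mathlib
import Cfsg.Agent.Helper28.Rank4Pair
import Cfsg.Agent.Helper3.Golay.Orbit

/-!
A simplicity criterion for a transitive permutation group with a simple point stabiliser `M`.
A normal subgroup containing `M` is the whole group as soon as its orbits are large; a normal
subgroup meeting `M` trivially acts freely, so its order divides the degree, and it meets two
further simple subgroups trivially, which bounds its order by a power of two; an element of
order 11 of `M` then centralises it, so all of `M` does, and its orbit at the base point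
consists of fixed points of `M`.
-/

set_option autoImplicit false
set_option linter.unusedSectionVars false
set_option linter.style.haveILetI false

namespace Cfsg.Agent.Helper28

open Equiv Cfsg.Agent.Helper3

section Co2Crit

variable {α : Type*} [DecidableEq α]

/-- a normal subgroup containing a point stabiliser with an orbit of more than half of the
points is the whole group -/
theorem normal_ge_stab (K N : Subgroup (Perm α)) (S : Finset α) (x : α) (hxS : x ∈ S)
    (hSinv : ∀ k ∈ K, ∀ a ∈ S, k a ∈ S) (htr : ∀ a ∈ S, ∃ k ∈ K, k x = a)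
    (hNK : N ≤ K) (hinv : ∀ k ∈ K, ∀ n ∈ N, k * n * k⁻¹ ∈ N)
    (hMN : K ⊓ MulAction.stabilizer (Perm α) x ≤ N)
    (hbig : S.card < 2 * (orbFin N S x).card) : N = K := by
  have hdvd := orbFin_card_dvd K N S x hinv hSinv htr
  have hBS : orbFin N S x ⊆ S := fun a ha => ((mem_orbFin N S x a).1 ha).1
  have hBfull : (orbFin N S x).card = S.card := by
    obtain ⟨q, hq⟩ := hdvd
    have hpos : 0 < S.card := Finset.card_pos.2 ⟨x, hxS⟩
    have hq1 : q = 1 := by
      rcases Nat.lt_or_ge q 2 with h | h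
      · rcases Nat.eq_zero_or_pos q with h0 | h0
        · rw [h0, mul_zero] at hq
          omega
        · omega
      · have h2 : (orbFin N S x).card * 2 ≤ (orbFin N S x).card * q :=
          Nat.mul_le_mul_left _ h
        omega
    rw [hq, hq1, mul_one]
  have hBeq : orbFin N S x = S :=
    Finset.eq_of_subset_of_card_le hBS (le_of_eq hBfull.symm)
  apply le_antisymm hNK
  intro k hk
  have hkx : k x ∈ orbFin N S x := by
    rw [hBeq]
    exact hSinv k hk x hxS
  obtain ⟨-, n, hn, hnx⟩ := (mem_orbFin N S x (k x)).1 hkx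
  have hmem : n⁻¹ * k ∈ K ⊓ MulAction.stabilizer (Perm α) x := by
    refine Subgroup.mem_inf.2 ⟨K.mul_mem (K.inv_mem (hNK hn)) hk, ?_⟩
    rw [MulAction.mem_stabilizer_iff, Perm.smul_def, Perm.mul_apply, ← hnx, pinv_apply]
  have h3 : n * (n⁻¹ * k) ∈ N := N.mul_mem hn (hMN hmem)
  rwa [mul_inv_cancel_left] at h3

/-- if a nontrivial element of the simple point stabiliser centralises a normal subgroup acting
freely at the base point, and the base point is the only fixed point of the stabiliser, then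
that subgroup is trivial -/
theorem normal_centralized (K R : Subgroup (Perm α)) (S : Finset α) (x : α) (hxS : x ∈ S)
    (hSinv : ∀ k ∈ K, ∀ a ∈ S, k a ∈ S)
    (hstab : SimpleIn (K ⊓ MulAction.stabilizer (Perm α) x))
    (hfix : ∀ y ∈ S, (∀ m ∈ K ⊓ MulAction.stabilizer (Perm α) x, m y = y) → y = x)
    (hRK : R ≤ K) (hRinv : ∀ k ∈ K, ∀ n ∈ R, k * n * k⁻¹ ∈ R)
    (hfree : ∀ n ∈ R, n x = x → n = 1)
    (m : Perm α) (hm : m ∈ K ⊓ MulAction.stabilizer (Perm α) x) (hm1 : m ≠ 1)
    (hcomm : ∀ r ∈ R, m * r = r * m) : R = ⊥ := by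
  have hCinv : ∀ k ∈ K, ∀ c ∈ K ⊓ Subgroup.centralizer (R : Set (Perm α)),
      k * c * k⁻¹ ∈ K ⊓ Subgroup.centralizer (R : Set (Perm α)) := by
    intro k hk c hc
    rw [Subgroup.mem_inf] at hc ⊢
    refine ⟨K.mul_mem (K.mul_mem hk hc.1) (K.inv_mem hk), ?_⟩
    rw [Subgroup.mem_centralizer_iff]
    intro r hr
    have hr' : k⁻¹ * r * k ∈ R := by
      have h := hRinv k⁻¹ (K.inv_mem hk) r (SetLike.mem_coe.1 hr)
      rwa [inv_inv] at h
    have hc2 := (Subgroup.mem_centralizer_iff.1 hc.2) (k⁻¹ * r * k) (SetLike.mem_coe.2 hr')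
    have e1 : r * (k * c * k⁻¹) = k * ((k⁻¹ * r * k) * c) * k⁻¹ := by group
    have e2 : k * c * k⁻¹ * r = k * (c * (k⁻¹ * r * k)) * k⁻¹ := by group
    rw [e1, e2, hc2]
  have hmC : m ∈ K ⊓ Subgroup.centralizer (R : Set (Perm α)) := by
    refine Subgroup.mem_inf.2 ⟨(Subgroup.mem_inf.1 hm).1, ?_⟩
    rw [Subgroup.mem_centralizer_iff]
    intro r hr
    exact (hcomm r (SetLike.mem_coe.1 hr)).symm
  have hMC : K ⊓ MulAction.stabilizer (Perm α) x ≤
      K ⊓ Subgroup.centralizer (R : Set (Perm α)) := by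
    rcases hstab.2 ((K ⊓ Subgroup.centralizer (R : Set (Perm α))) ⊓
        (K ⊓ MulAction.stabilizer (Perm α) x)) inf_le_right (by
      intro k hk n hn
      rw [Subgroup.mem_inf] at hn ⊢
      exact ⟨hCinv k (Subgroup.mem_inf.1 hk).1 n hn.1,
        Subgroup.mul_mem _ (Subgroup.mul_mem _ hk hn.2) (Subgroup.inv_mem _ hk)⟩) with
      hbot | htop
    · exfalso
      have h1 : m ∈ (K ⊓ Subgroup.centralizer (R : Set (Perm α))) ⊓
          (K ⊓ MulAction.stabilizer (Perm α) x) := Subgroup.mem_inf.2 ⟨hmC, hm⟩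
      rw [hbot] at h1
      exact hm1 (Subgroup.mem_bot.1 h1)
    · rw [← htop]
      exact inf_le_left
  rw [Subgroup.eq_bot_iff_forall]
  intro r hr
  apply hfree r hr
  apply hfix (r x) (hSinv r (hRK hr) x hxS)
  intro m' hm'
  have hc := (Subgroup.mem_centralizer_iff.1 (Subgroup.mem_inf.1 (hMC hm')).2) r
    (SetLike.mem_coe.2 hr)
  have hm'x : m' x = x := by
    have h := (Subgroup.mem_inf.1 hm').2
    rwa [MulAction.mem_stabilizer_iff, Perm.smul_def] at h
  calc m' (r x) = (m' * r) x := rfl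
    _ = (r * m') x := by rw [hc]
    _ = r (m' x) := rfl
    _ = r x := by rw [hm'x]

/-- the fixed points of an element of prime order acting by conjugation on a normal subgroup -/
theorem conj_fixed (K R : Subgroup (Perm α)) (hRinv : ∀ k ∈ K, ∀ n ∈ R, k * n * k⁻¹ ∈ R)
    (hfin : Finite ↥R) (g : Perm α) (hg : g ∈ K) (p : ℕ) (hp : p.Prime) (hgp : g ^ p = 1)
    (hg1 : g ≠ 1) :
    ∃ c : ℕ, c ∣ Nat.card ↥R ∧ Nat.ModEq p (Nat.card ↥R) c ∧
      (c = Nat.card ↥R → ∀ r ∈ R, g * r = r * g) := by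
  classical
  haveI := hfin
  haveI : Fact p.Prime := ⟨hp⟩
  letI act : MulAction ↥K ↥R :=
    { smul := fun k r => ⟨k.1 * r.1 * k.1⁻¹, hRinv k.1 k.2 r.1 r.2⟩
      one_smul := fun r => by
        apply Subtype.ext
        show (1 : Perm α) * r.1 * (1 : Perm α)⁻¹ = r.1
        group
      mul_smul := fun a b r => by
        apply Subtype.ext
        show (a.1 * b.1) * r.1 * (a.1 * b.1)⁻¹ = a.1 * (b.1 * r.1 * b.1⁻¹) * a.1⁻¹
        group }
  have hord : orderOf (⟨g, hg⟩ : ↥K) = p :=
    orderOf_eq_prime (Subtype.ext (by rw [Subgroup.coe_pow]; exact hgp))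
      (fun h => hg1 (congrArg Subtype.val h))
  have hZcard : Nat.card ↥(Subgroup.zpowers (⟨g, hg⟩ : ↥K)) = p ^ 1 := by
    rw [Nat.card_zpowers, hord, pow_one]
  have hZp : IsPGroup p ↥(Subgroup.zpowers (⟨g, hg⟩ : ↥K)) := IsPGroup.of_card hZcard
  have hmod := IsPGroup.card_modEq_card_fixedPoints hZp ↥R
  let C : Subgroup ↥R :=
    { carrier := MulAction.fixedPoints ↥(Subgroup.zpowers (⟨g, hg⟩ : ↥K)) ↥R
      mul_mem' := by
        intro a b ha hb
        show ∀ z : ↥(Subgroup.zpowers (⟨g, hg⟩ : ↥K)), z • (a * b) = a * b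
        intro z
        have ha' : z • a = a := ha z
        have hb' : z • b = b := hb z
        apply Subtype.ext
        have e1 : ((z • (a * b) : ↥R) : Perm α) =
            ((z • a : ↥R) : Perm α) * ((z • b : ↥R) : Perm α) := by
          show z.1.1 * (a.1 * b.1) * z.1.1⁻¹ =
            (z.1.1 * a.1 * z.1.1⁻¹) * (z.1.1 * b.1 * z.1.1⁻¹)
          group
        calc ((z • (a * b) : ↥R) : Perm α)
            = ((z • a : ↥R) : Perm α) * ((z • b : ↥R) : Perm α) := e1
          _ = (a : Perm α) * (b : Perm α) := by rw [ha', hb']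
          _ = ((a * b : ↥R) : Perm α) := rfl
      one_mem' := by
        show ∀ z : ↥(Subgroup.zpowers (⟨g, hg⟩ : ↥K)), z • (1 : ↥R) = 1
        intro z
        apply Subtype.ext
        show z.1.1 * (1 : Perm α) * z.1.1⁻¹ = 1
        group
      inv_mem' := by
        intro a ha
        show ∀ z : ↥(Subgroup.zpowers (⟨g, hg⟩ : ↥K)), z • a⁻¹ = a⁻¹
        intro z
        have ha' : z • a = a := ha z
        apply Subtype.ext
        have e1 : ((z • a⁻¹ : ↥R) : Perm α) = ((z • a : ↥R) : Perm α)⁻¹ := by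
          show z.1.1 * a.1⁻¹ * z.1.1⁻¹ = (z.1.1 * a.1 * z.1.1⁻¹)⁻¹
          group
        calc ((z • a⁻¹ : ↥R) : Perm α) = ((z • a : ↥R) : Perm α)⁻¹ := e1
          _ = (a : Perm α)⁻¹ := by rw [ha']
          _ = ((a⁻¹ : ↥R) : Perm α) := rfl }
  have hCdvd : Nat.card ↥C ∣ Nat.card ↥R := Subgroup.card_subgroup_dvd_card C
  refine ⟨Nat.card ↥C, hCdvd, hmod, ?_⟩
  intro hc r hr
  have hCtop : C = ⊤ := Subgroup.eq_top_of_card_eq C hc
  have hrC : (⟨r, hr⟩ : ↥R) ∈ C := by
    rw [hCtop]
    exact Subgroup.mem_top _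
  have hfixr : (⟨⟨g, hg⟩, Subgroup.mem_zpowers _⟩ : ↥(Subgroup.zpowers (⟨g, hg⟩ : ↥K))) •
      (⟨r, hr⟩ : ↥R) = ⟨r, hr⟩ := hrC _
  have hval : g * r * g⁻¹ = r := congrArg Subtype.val hfixr
  calc g * r = (g * r * g⁻¹) * g := by group
    _ = r * g := by rw [hval]

/-- a normal subgroup meeting another subgroup trivially -/
theorem card_mul_dvd (K N H : Subgroup (Perm α)) (hNK : N ≤ K) (hHK : H ≤ K)
    (hinv : ∀ k ∈ K, ∀ n ∈ N, k * n * k⁻¹ ∈ N) (hdisj : N ⊓ H = ⊥) :
    Nat.card ↥H * Nat.card ↥N ∣ Nat.card ↥K := by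
  haveI hn : (N.subgroupOf K).Normal := by
    constructor
    intro n hn k
    rw [Subgroup.mem_subgroupOf] at hn ⊢
    exact hinv k.1 k.2 n.1 hn
  have h1 := Subgroup.relIndex_dvd_index_of_normal (N.subgroupOf K) (H.subgroupOf K)
  have hd : Disjoint (N.subgroupOf K) (H.subgroupOf K) := by
    rw [Subgroup.disjoint_def]
    intro y hy1 hy2
    rw [Subgroup.mem_subgroupOf] at hy1 hy2
    have hy : y.1 ∈ N ⊓ H := Subgroup.mem_inf.2 ⟨hy1, hy2⟩
    rw [hdisj] at hy
    exact Subtype.ext (Subgroup.mem_bot.1 hy)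
  have h2 : (N.subgroupOf K).relIndex (H.subgroupOf K) = Nat.card ↥H := by
    unfold Subgroup.relIndex
    rw [Subgroup.subgroupOf_eq_bot.2 hd, Subgroup.index_bot]
    exact Nat.card_congr (Subgroup.subgroupOfEquivOfLe hHK).toEquiv
  have h3 := Subgroup.index_mul_card (N.subgroupOf K)
  have h4 : Nat.card ↥(N.subgroupOf K) = Nat.card ↥N :=
    Nat.card_congr (Subgroup.subgroupOfEquivOfLe hNK).toEquiv
  rw [h2] at h1
  rw [h4] at h3
  rw [← h3]
  exact mul_dvd_mul_right h1 _

/-- the simplicity criterion -/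
theorem simpleIn_semireg (K : Subgroup (Perm α)) (S : Finset α) (x : α) (hxS : x ∈ S)
    (hSinv : ∀ k ∈ K, ∀ a ∈ S, k a ∈ S) (htr : ∀ a ∈ S, ∃ k ∈ K, k x = a)
    (hstab : SimpleIn (K ⊓ MulAction.stabilizer (Perm α) x))
    (hbig : ∀ N : Subgroup (Perm α), N ≤ K → (∀ k ∈ K, ∀ n ∈ N, k * n * k⁻¹ ∈ N) →
      K ⊓ MulAction.stabilizer (Perm α) x ≤ N → S.card < 2 * (orbFin N S x).card)
    (hfix : ∀ y ∈ S, (∀ m ∈ K ⊓ MulAction.stabilizer (Perm α) x, m y = y) → y = x)
    (H₁ H₂ : Subgroup (Perm α)) (hH₁K : H₁ ≤ K) (hH₂K : H₂ ≤ K) (hH₁ : SimpleIn H₁)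
    (hH₂ : SimpleIn H₂)
    (hS : S.card = 47104) (hK : Nat.card ↥K = 42305421312000)
    (hc₁ : Nat.card ↥H₁ = 44352000) (hc₂ : Nat.card ↥H₂ = 10200960) : SimpleIn K := by
  classical
  have hMcard : Nat.card ↥(K ⊓ MulAction.stabilizer (Perm α) x) = 898128000 := by
    have e := card_eq_orbit_mul_stab (G := Perm α) K x S (fun g hg => hSinv g hg x hxS)
      (fun a ha => htr a ha)
    rw [hS, hK] at e
    omega
  refine ⟨?_, ?_⟩
  · intro hK0
    apply hstab.1
    rw [hK0, bot_inf_eq]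
  · intro N hNK hinv
    by_contra hcon
    push Not at hcon
    obtain ⟨hN1, hN2⟩ := hcon
    rcases hstab.2 (N ⊓ (K ⊓ MulAction.stabilizer (Perm α) x)) inf_le_right (by
      intro k hk n hn'
      rw [Subgroup.mem_inf] at hn'
      refine Subgroup.mem_inf.2 ⟨hinv k (Subgroup.mem_inf.1 hk).1 n hn'.1, ?_⟩
      exact Subgroup.mul_mem _ (Subgroup.mul_mem _ hk hn'.2) (Subgroup.inv_mem _ hk))
      with hbot | htop
    · have hfree : ∀ n ∈ N, n x = x → n = 1 := by
        intro n hn' hnx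
        have hmem : n ∈ N ⊓ (K ⊓ MulAction.stabilizer (Perm α) x) :=
          Subgroup.mem_inf.2 ⟨hn', Subgroup.mem_inf.2 ⟨hNK hn',
            MulAction.mem_stabilizer_iff.2 hnx⟩⟩
        rw [hbot] at hmem
        exact Subgroup.mem_bot.1 hmem
      obtain ⟨hfinN, hcardN⟩ := card_of_free N S x hxS
        (fun n hn a ha => hSinv n (hNK hn) a ha) hfree
      have hd1 : Nat.card ↥N ∣ 47104 := by
        rw [hcardN, ← hS]
        exact orbFin_card_dvd K N S x hinv hSinv htr
      have hsub : ∀ H : Subgroup (Perm α), H ≤ K → SimpleIn H → 47104 < Nat.card ↥H →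
          Nat.card ↥H * Nat.card ↥N ∣ Nat.card ↥K := by
        intro H hHK hH hlt
        rcases hH.2 (N ⊓ H) inf_le_right (by
          intro k hk n hn'
          rw [Subgroup.mem_inf] at hn'
          exact Subgroup.mem_inf.2 ⟨hinv k (hHK hk) n hn'.1,
            H.mul_mem (H.mul_mem hk hn'.2) (H.inv_mem hk)⟩) with hb | ht
        · exact card_mul_dvd K N H hNK hHK hinv hb
        · exfalso
          have hle : H ≤ N := by
            rw [← ht]
            exact inf_le_left
          have h1 := Subgroup.card_dvd_of_le hle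
          have h2 := Nat.le_of_dvd (by norm_num) (h1.trans hd1)
          omega
      have hd2 := hsub H₁ hH₁K hH₁ (by rw [hc₁]; norm_num)
      have hd3 := hsub H₂ hH₂K hH₂ (by rw [hc₂]; norm_num)
      rw [hc₁, hK] at hd2
      rw [hc₂, hK] at hd3
      have e2 : Nat.card ↥N ∣ 953856 := by
        have e : (42305421312000 : ℕ) = 44352000 * 953856 := by norm_num
        rw [e] at hd2
        exact Nat.dvd_of_mul_dvd_mul_left (by norm_num) hd2
      have e3 : Nat.card ↥N ∣ 4147200 := by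
        have e : (42305421312000 : ℕ) = 10200960 * 4147200 := by norm_num
        rw [e] at hd3
        exact Nat.dvd_of_mul_dvd_mul_left (by norm_num) hd3
      have hd512 : Nat.card ↥N ∣ 2 ^ 9 := by
        have h := Nat.dvd_gcd (Nat.dvd_gcd hd1 e2) e3
        have hg : Nat.gcd (Nat.gcd 47104 953856) 4147200 = 2 ^ 9 := by norm_num
        rwa [hg] at h
      haveI hfinM : Finite ↥(K ⊓ MulAction.stabilizer (Perm α) x) :=
        Nat.finite_of_card_ne_zero (by rw [hMcard]; norm_num)
      haveI : Fact (Nat.Prime 11) := ⟨by norm_num⟩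
      obtain ⟨g, hg⟩ := exists_prime_orderOf_dvd_card'
        (G := ↥(K ⊓ MulAction.stabilizer (Perm α) x)) 11 (by rw [hMcard]; norm_num)
      have hg1 : g.1 ≠ 1 := by
        intro h
        have h' : g = 1 := Subtype.ext h
        rw [h', orderOf_one] at hg
        norm_num at hg
      have hgp : g.1 ^ 11 = 1 := by
        have h := pow_orderOf_eq_one g
        rw [hg] at h
        exact congrArg Subtype.val h
      obtain ⟨c, hc1, hc2, hc3⟩ := conj_fixed K N hinv hfinN g.1 (Subgroup.mem_inf.1 g.2).1 11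
        (by norm_num) hgp hg1
      have hcN : c = Nat.card ↥N := by
        obtain ⟨j, hj, hjN⟩ := (Nat.dvd_prime_pow Nat.prime_two).1 hd512
        rw [hjN] at hc1 hc2 ⊢
        obtain ⟨i, hi, hic⟩ := (Nat.dvd_prime_pow Nat.prime_two).1 hc1
        rw [hic] at hc2 ⊢
        have hmod : 2 ^ j % 11 = 2 ^ i % 11 := hc2
        interval_cases j <;> interval_cases i <;> first | rfl | (norm_num at hmod)
      apply hN1
      exact normal_centralized K N S x hxS hSinv hstab hfix hNK hinv hfree g.1 g.2 hg1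
        (fun r hr => hc3 hcN r hr)
    · apply hN2
      have hMN : K ⊓ MulAction.stabilizer (Perm α) x ≤ N := by
        rw [← htop]
        exact inf_le_left
      exact normal_ge_stab K N S x hxS hSinv htr hNK hinv hMN (hbig N hNK hinv hMN)

end Co2Crit

end Cfsg.Agent.Helper28
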