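import Cfsg.Agent.Helper28.Co0Center
import Cfsg.Prelude.Def_Spor_Conway

/-!
A faithful representation of degree 23 modulo 13 of the stabiliser of the vector
(4, 4, 0, ..., 0) in the automorphism group of the lattice of the definitions.
-/

set_option autoImplicit false

namespace Cfsg.Agent.Helper28

open Cfsg

/-- the integer matrix of a lattice permutation: columns are the images of the `leechE j` -/
def coMat (f : Equiv.Perm leechLattice) : Matrix GolayPt GolayPt ℤ :=
  fun i j => ((f (leechE j) : leechLattice) : GolayPt → ℤ) i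

theorem coMat_apply (f : Equiv.Perm leechLattice) (i j : GolayPt) :
    coMat f i j = ((f (leechE j) : leechLattice) : GolayPt → ℤ) i := rfl

theorem coMat_mulVec (f : Equiv.Perm leechLattice) (hf : f ∈ Co0) (v : leechLattice)
    (i : GolayPt) :
    8 * ((f v : leechLattice) : GolayPt → ℤ) i = ∑ j, coMat f i j * (v : GolayPt → ℤ) j := by
  let φ : leechLattice →+ leechLattice := AddMonoidHom.mk' f hf.1
  have hφ : ∀ w, φ w = f w := fun w => rfl
  have h1 : φ ((8 : ℤ) • v) = ∑ j, ((v : GolayPt → ℤ) j) • f (leechE j) := by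
    rw [eight_smul_eq v, map_sum]
    apply Finset.sum_congr rfl
    intro j _
    rw [map_zsmul, hφ]
  rw [map_zsmul, hφ] at h1
  have h2 := congrArg (fun w : leechLattice => (w : GolayPt → ℤ) i) h1
  simp only [AddSubgroup.coe_zsmul, Pi.smul_apply, smul_eq_mul, AddSubgroup.val_finsetSum,
    Finset.sum_apply] at h2
  rw [h2]
  apply Finset.sum_congr rfl
  intro j _
  rw [coMat_apply, mul_comm]

theorem coMat_mul (f g : Equiv.Perm leechLattice) (hf : f ∈ Co0) (i j : GolayPt) :
    8 * coMat (f * g) i j = ∑ k, coMat f i k * coMat g k j :=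
  coMat_mulVec f hf (g (leechE j)) i

theorem coMat_one (i j : GolayPt) : coMat 1 i j = if i = j then 8 else 0 := leechE_apply j i

/-- the matrix modulo 13, rescaled by the inverse of 8 -/
def coMatP (f : Equiv.Perm leechLattice) : Matrix GolayPt GolayPt (ZMod 13) :=
  fun i j => 5 * ((coMat f i j : ℤ) : ZMod 13)

theorem coMatP_apply (f : Equiv.Perm leechLattice) (i j : GolayPt) :
    coMatP f i j = 5 * ((coMat f i j : ℤ) : ZMod 13) := rfl

theorem coMatP_mul (f g : Equiv.Perm leechLattice) (hf : f ∈ Co0) :
    coMatP (f * g) = coMatP f * coMatP g := by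
  ext i j
  have h2 := congrArg (Int.cast : ℤ → ZMod 13) (coMat_mul f g hf i j)
  push_cast at h2
  rw [Matrix.mul_apply]
  simp only [coMatP_apply]
  have e : ∀ k, (5 : ZMod 13) * ((coMat f i k : ℤ) : ZMod 13) *
      (5 * ((coMat g k j : ℤ) : ZMod 13)) =
      25 * (((coMat f i k : ℤ) : ZMod 13) * ((coMat g k j : ℤ) : ZMod 13)) := fun k => by ring
  rw [Finset.sum_congr rfl (fun k _ => e k), ← Finset.mul_sum, ← h2, ← mul_assoc]
  have e2 : (25 : ZMod 13) * 8 = 5 := by decide
  rw [e2]

theorem coMatP_one : coMatP 1 = 1 := by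
  ext i j
  rw [coMatP_apply, coMat_one, Matrix.one_apply]
  by_cases hij : i = j
  · rw [if_pos hij, if_pos hij]
    simp only [Int.cast_ofNat]
    decide
  · rw [if_neg hij, if_neg hij]
    simp

theorem sqNorm_add (x y : GolayPt → ℤ) :
    sqNorm (x + y) = sqNorm x + sqNorm y + 2 * dotInt x y := by
  unfold sqNorm dotInt
  rw [Finset.mul_sum, ← Finset.sum_add_distrib, ← Finset.sum_add_distrib]
  apply Finset.sum_congr rfl
  intro i _
  simp only [Pi.add_apply]
  ring

theorem co0_dot (f : Equiv.Perm leechLattice) (hf : f ∈ Co0) (x y : leechLattice) :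
    dotInt ((f x : leechLattice) : GolayPt → ℤ) ((f y : leechLattice) : GolayPt → ℤ) =
      dotInt (x : GolayPt → ℤ) (y : GolayPt → ℤ) := by
  have h1 := hf.2 (x + y)
  rw [hf.1 x y] at h1
  rw [AddSubgroup.coe_add, AddSubgroup.coe_add, sqNorm_add, sqNorm_add, hf.2 x, hf.2 y] at h1
  linarith

theorem vecU_none : Spor.vecU none = 4 := by
  simp [Spor.vecU]

theorem vecU_some (a : ZMod 23) : Spor.vecU (some a) = if a = 0 then 4 else 0 := by
  simp [Spor.vecU]

theorem sum_mul_vecU (F : GolayPt → ℤ) :
    ∑ j, F j * Spor.vecU j = 4 * (F none + F (some 0)) := by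
  rw [Fintype.sum_option, vecU_none]
  have e : ∀ a : ZMod 23, F (some a) * Spor.vecU (some a) =
      if a = 0 then F (some 0) * 4 else 0 := by
    intro a
    rw [vecU_some]
    by_cases ha : a = 0
    · rw [if_pos ha, if_pos ha, ha]
    · rw [if_neg ha, if_neg ha, mul_zero]
  rw [Finset.sum_congr rfl (fun a _ => e a),
    Finset.sum_ite_eq' Finset.univ (0 : ZMod 23) (fun _ => F (some 0) * 4),
    if_pos (Finset.mem_univ _)]
  ring

theorem coMat_fixU (g : Equiv.Perm leechLattice) (hg : g ∈ Spor.Co2) (i : GolayPt) :
    coMat g i none + coMat g i (some 0) = 2 * Spor.vecU i := by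
  have hg' : g ∈ Co0 ⊓ MulAction.stabilizer (Equiv.Perm leechLattice) Spor.leechU := hg
  obtain ⟨hg0, hgu⟩ := Subgroup.mem_inf.1 hg'
  have hgu' : g Spor.leechU = Spor.leechU := hgu
  have h := coMat_mulVec g hg0 Spor.leechU i
  rw [hgu'] at h
  have h2 : ∑ j, coMat g i j * (Spor.leechU : GolayPt → ℤ) j =
      4 * (coMat g i none + coMat g i (some 0)) := sum_mul_vecU (fun j => coMat g i j)
  rw [h2] at h
  have h3 : (Spor.leechU : GolayPt → ℤ) i = Spor.vecU i := rfl
  rw [h3] at h
  linarith

theorem coMat_fixU' (g : Equiv.Perm leechLattice) (hg : g ∈ Spor.Co2) (j : GolayPt) :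
    coMat g none j + coMat g (some 0) j = 2 * Spor.vecU j := by
  have hg' : g ∈ Co0 ⊓ MulAction.stabilizer (Equiv.Perm leechLattice) Spor.leechU := hg
  obtain ⟨hg0, hgu⟩ := Subgroup.mem_inf.1 hg'
  have hgu' : g Spor.leechU = Spor.leechU := hgu
  have h := co0_dot g hg0 (leechE j) Spor.leechU
  rw [hgu'] at h
  unfold dotInt at h
  have e1 : ∑ i, ((g (leechE j) : leechLattice) : GolayPt → ℤ) i *
      (Spor.leechU : GolayPt → ℤ) i =
      4 * (((g (leechE j) : leechLattice) : GolayPt → ℤ) none +
        ((g (leechE j) : leechLattice) : GolayPt → ℤ) (some 0)) :=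
    sum_mul_vecU (fun i => ((g (leechE j) : leechLattice) : GolayPt → ℤ) i)
  have e2 : ∑ i, (leechE j : GolayPt → ℤ) i * (Spor.leechU : GolayPt → ℤ) i =
      4 * ((leechE j : GolayPt → ℤ) none + (leechE j : GolayPt → ℤ) (some 0)) :=
    sum_mul_vecU (fun i => (leechE j : GolayPt → ℤ) i)
  rw [e1, e2] at h
  have e3 : (leechE j : GolayPt → ℤ) none + (leechE j : GolayPt → ℤ) (some 0) =
      2 * Spor.vecU j := by
    rw [leechE_apply, leechE_apply]
    rcases j with _ | a
    · rw [vecU_none]
      simp
    · rw [vecU_some]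
      by_cases ha : a = 0
      · simp [ha]
      · have ha' : ¬ (0 : ZMod 23) = a := fun h' => ha h'.symm
        simp [ha, ha']
  show ((g (leechE j) : leechLattice) : GolayPt → ℤ) none +
    ((g (leechE j) : leechLattice) : GolayPt → ℤ) (some 0) = _
  linarith

/-- the matrix fixes the vector with ones at the two distinguished points -/
def FixU (M : Matrix GolayPt GolayPt (ZMod 13)) : Prop :=
  ∀ i, M i none + M i (some 0) = if i = none ∨ i = some (0 : ZMod 23) then 1 else 0

/-- the transposed condition -/
def FixU' (M : Matrix GolayPt GolayPt (ZMod 13)) : Prop :=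
  ∀ j, M none j + M (some 0) j = if j = none ∨ j = some (0 : ZMod 23) then 1 else 0

theorem cast_two_vecU (i : GolayPt) :
    (5 : ZMod 13) * (2 * ((Spor.vecU i : ℤ) : ZMod 13)) =
      if i = none ∨ i = some (0 : ZMod 23) then 1 else 0 := by
  by_cases hi : i = none ∨ i = some (0 : ZMod 23)
  · have h4 : Spor.vecU i = 4 := if_pos hi
    rw [h4, if_pos hi]
    simp only [Int.cast_ofNat]
    decide
  · have h0 : Spor.vecU i = 0 := if_neg hi
    rw [h0, if_neg hi]
    simp

theorem coMatP_fixU (g : Equiv.Perm leechLattice) (hg : g ∈ Spor.Co2) : FixU (coMatP g) := by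
  intro i
  have h := congrArg (Int.cast : ℤ → ZMod 13) (coMat_fixU g hg i)
  push_cast at h
  simp only [coMatP_apply]
  rw [← mul_add, h]
  exact cast_two_vecU i

theorem coMatP_fixU' (g : Equiv.Perm leechLattice) (hg : g ∈ Spor.Co2) : FixU' (coMatP g) := by
  intro j
  have h := congrArg (Int.cast : ℤ → ZMod 13) (coMat_fixU' g hg j)
  push_cast at h
  simp only [coMatP_apply]
  rw [← mul_add, h]
  exact cast_two_vecU j

/-- the matrix induced on the quotient by the fixed vector, in the basis of residues -/
def redMat (M : Matrix GolayPt GolayPt (ZMod 13)) : Matrix (ZMod 23) (ZMod 23) (ZMod 13) :=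
  fun k l => M (some k) (some l) - (if k = 0 then M none (some l) else 0)

theorem redMat_one : redMat 1 = 1 := by
  ext k l
  simp only [redMat, Matrix.one_apply]
  simp

theorem redMat_mul (A B : Matrix GolayPt GolayPt (ZMod 13)) (hA : FixU A) :
    redMat (A * B) = redMat A * redMat B := by
  have hn : A none none + A none (some 0) = 1 := by
    have := hA none
    simpa using this
  have hs : ∀ k : ZMod 23, A (some k) none + A (some k) (some 0) = if k = 0 then 1 else 0 := by
    intro k
    have := hA (some k)
    simpa using this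
  ext k l
  rw [Matrix.mul_apply]
  have key : ∀ (r : GolayPt → ZMod 13), r none + r (some 0) = 0 →
      ∑ i, r i * B i (some l) = ∑ m : ZMod 23, r (some m) *
        (B (some m) (some l) - (if m = 0 then B none (some l) else 0)) := by
    intro r hr
    rw [Fintype.sum_option]
    have e : ∀ m : ZMod 23, r (some m) *
        (B (some m) (some l) - (if m = 0 then B none (some l) else 0)) =
        r (some m) * B (some m) (some l) -
          (if m = 0 then r (some 0) * B none (some l) else 0) := by
      intro m
      by_cases hm : m = 0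
      · rw [if_pos hm, if_pos hm, hm]
        ring
      · rw [if_neg hm, if_neg hm]
        ring
    rw [Finset.sum_congr rfl (fun m _ => e m), Finset.sum_sub_distrib,
      Finset.sum_ite_eq' Finset.univ (0 : ZMod 23) (fun _ => r (some 0) * B none (some l)),
      if_pos (Finset.mem_univ _)]
    linear_combination (B none (some l)) * hr
  have hr : (A (some k) none - (if k = 0 then A none none else 0)) +
      (A (some k) (some 0) - (if k = 0 then A none (some 0) else 0)) = 0 := by
    have h1 := hs k
    by_cases hk0 : k = 0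
    · rw [if_pos hk0] at h1
      rw [if_pos hk0, if_pos hk0]
      linear_combination h1 - hn
    · rw [if_neg hk0] at h1
      rw [if_neg hk0, if_neg hk0]
      linear_combination h1
  have h2 := key (fun i => A (some k) i - (if k = 0 then A none i else 0)) hr
  show (A * B) (some k) (some l) - (if k = 0 then (A * B) none (some l) else 0) =
    ∑ m, redMat A k m * redMat B m l
  rw [Matrix.mul_apply, Matrix.mul_apply]
  have h3 : ∑ i, A (some k) i * B i (some l) -
      (if k = 0 then ∑ i, A none i * B i (some l) else 0) =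
      ∑ i, (A (some k) i - (if k = 0 then A none i else 0)) * B i (some l) := by
    by_cases hk0 : k = 0
    · simp only [if_pos hk0]
      rw [← Finset.sum_sub_distrib]
      apply Finset.sum_congr rfl
      intro i _
      ring
    · simp only [if_neg hk0, sub_zero]
  rw [h3, h2]
  rfl

theorem eq_one_of_redMat (M : Matrix GolayPt GolayPt (ZMod 13)) (h1 : FixU M) (h2 : FixU' M)
    (hN : redMat M = 1) : M = 1 := by
  have hN' : ∀ k l : ZMod 23, M (some k) (some l) - (if k = 0 then M none (some l) else 0) =
      if k = l then 1 else 0 := by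
    intro k l
    have := congrFun (congrFun hN k) l
    rw [Matrix.one_apply] at this
    exact this
  have hn : M none none + M none (some 0) = 1 := by
    have := h1 none
    simpa using this
  have hs : ∀ k : ZMod 23, M (some k) none + M (some k) (some 0) = if k = 0 then 1 else 0 := by
    intro k
    have := h1 (some k)
    simpa using this
  have hs' : ∀ l : ZMod 23, M none (some l) + M (some 0) (some l) = if l = 0 then 1 else 0 := by
    intro l
    have := h2 (some l)
    simpa using this
  have two_ne : ∀ a : ZMod 13, 2 * a = 0 → a = 0 := by decide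
  have a1 : ∀ l : ZMod 23, M none (some l) = 0 := by
    intro l
    have e1 := hN' 0 l
    rw [if_pos rfl] at e1
    have e2 := hs' l
    apply two_ne
    by_cases hl : l = 0
    · rw [if_pos hl] at e2
      rw [if_pos hl.symm] at e1
      linear_combination e2 - e1
    · rw [if_neg hl] at e2
      rw [if_neg (Ne.symm hl)] at e1
      linear_combination e2 - e1
  have a2 : ∀ k l : ZMod 23, M (some k) (some l) = if k = l then 1 else 0 := by
    intro k l
    have e1 := hN' k l
    rw [a1 l] at e1
    simpa using e1
  have a3 : ∀ k : ZMod 23, M (some k) none = 0 := by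
    intro k
    have e1 := hs k
    rw [a2 k 0] at e1
    linear_combination e1
  have a4 : M none none = 1 := by
    rw [a1 0] at hn
    simpa using hn
  ext i j
  rw [Matrix.one_apply]
  rcases i with _ | k <;> rcases j with _ | l
  · rw [a4, if_pos rfl]
  · rw [a1 l]
    simp
  · rw [a3 k]
    simp
  · rw [a2 k l]
    simp

theorem E_fixed_of_coMatP (g : Equiv.Perm leechLattice) (hg : g ∈ Co0) (h : coMatP g = 1)
    (j : GolayPt) : g (leechE j) = leechE j := by
  have hmod : ∀ i, ((coMat g i j : ℤ) : ZMod 13) = if i = j then 8 else 0 := by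
    intro i
    have h1 := congrFun (congrFun h i) j
    rw [coMatP_apply, Matrix.one_apply] at h1
    have h2 : ((coMat g i j : ℤ) : ZMod 13) = 8 * (5 * ((coMat g i j : ℤ) : ZMod 13)) := by
      have e : (8 : ZMod 13) * 5 = 1 := by decide
      rw [← mul_assoc, e, one_mul]
    rw [h2, h1]
    split_ifs <;> simp
  have hnorm : sqNorm ((g (leechE j) : leechLattice) : GolayPt → ℤ) = 64 := by
    rw [hg.2 (leechE j), sqNorm_leechE]
  have hle : ∀ i, coMat g i j ^ 2 ≤ 64 := by
    intro i
    rw [← hnorm]
    unfold sqNorm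
    exact Finset.single_le_sum
      (f := fun i => ((g (leechE j) : leechLattice) : GolayPt → ℤ) i ^ 2)
      (fun i _ => sq_nonneg _) (Finset.mem_univ i)
  have h0 : ∀ i, i ≠ j → coMat g i j = 0 := by
    intro i hi
    have h1 := hmod i
    rw [if_neg hi, ZMod.intCast_zmod_eq_zero_iff_dvd] at h1
    have h2 := hle i
    obtain ⟨t, ht⟩ := h1
    push_cast at ht
    have h3 : -9 < coMat g i j ∧ coMat g i j < 9 := by
      constructor <;> nlinarith
    omega
  have hj : coMat g j j = 8 := by
    have h1 := hmod j
    rw [if_pos rfl] at h1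
    have h2 : sqNorm ((g (leechE j) : leechLattice) : GolayPt → ℤ) = coMat g j j ^ 2 := by
      unfold sqNorm
      rw [Finset.sum_eq_single j]
      · rfl
      · intro i _ hi
        have h5 := h0 i hi
        rw [coMat_apply] at h5
        rw [h5]
        norm_num
      · intro h'
        exact absurd (Finset.mem_univ j) h'
    rw [hnorm] at h2
    have h3 : coMat g j j = 8 ∨ coMat g j j = -8 := by
      have h' : (coMat g j j - 8) * (coMat g j j + 8) = 0 := by linear_combination -h2
      rcases mul_eq_zero.1 h' with h4 | h4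
      · left
        linarith
      · right
        linarith
    rcases h3 with h3 | h3
    · exact h3
    · exfalso
      rw [h3] at h1
      revert h1
      simp only [Int.cast_neg, Int.cast_ofNat]
      decide
  apply Subtype.ext
  funext i
  rw [leechE_apply]
  by_cases hi : i = j
  · rw [if_pos hi, hi]
    exact hj
  · rw [if_neg hi]
    exact h0 i hi

theorem perm_eq_one_of_E (g : Equiv.Perm leechLattice) (hg : g ∈ Co0)
    (hE : ∀ k, g (leechE k) = leechE k) : g = 1 := by
  apply Equiv.ext
  intro v
  show g v = v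
  apply Subtype.ext
  funext i
  have h := coMat_mulVec g hg v i
  have e : ∀ j, coMat g i j * (v : GolayPt → ℤ) j =
      if i = j then 8 * (v : GolayPt → ℤ) j else 0 := by
    intro j
    rw [coMat_apply, hE j, leechE_apply]
    split_ifs <;> simp
  rw [Finset.sum_congr rfl (fun j _ => e j),
    Finset.sum_ite_eq Finset.univ i (fun j => 8 * (v : GolayPt → ℤ) j),
    if_pos (Finset.mem_univ i)] at h
  omega

/-- the representation on matrices indexed by residues -/
noncomputable def co2Hom : Spor.Co2 →* Matrix (ZMod 23) (ZMod 23) (ZMod 13) where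
  toFun g := redMat (coMatP (g : Equiv.Perm leechLattice))
  map_one' := by
    show redMat (coMatP 1) = 1
    rw [coMatP_one, redMat_one]
  map_mul' := by
    intro g h
    have hg' : (g : Equiv.Perm leechLattice) ∈
        Co0 ⊓ MulAction.stabilizer (Equiv.Perm leechLattice) Spor.leechU := g.2
    show redMat (coMatP ((g : Equiv.Perm leechLattice) * (h : Equiv.Perm leechLattice))) = _
    rw [coMatP_mul _ _ (Subgroup.mem_inf.1 hg').1, redMat_mul _ _ (coMatP_fixU _ g.2)]

theorem co2Hom_injective : Function.Injective co2Hom.toHomUnits := by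
  rw [injective_iff_map_eq_one]
  intro g hg
  have h1 : redMat (coMatP (g : Equiv.Perm leechLattice)) = 1 := congrArg Units.val hg
  have hg' : (g : Equiv.Perm leechLattice) ∈
      Co0 ⊓ MulAction.stabilizer (Equiv.Perm leechLattice) Spor.leechU := g.2
  have hg0 := (Subgroup.mem_inf.1 hg').1
  have h2 := eq_one_of_redMat _ (coMatP_fixU _ g.2) (coMatP_fixU' _ g.2) h1
  have h3 := perm_eq_one_of_E _ hg0 (fun k => E_fixed_of_coMatP _ hg0 h2 k)
  exact Subtype.ext h3

theorem co2_embeds :
    ∃ f : Spor.Co2 →* Matrix.GeneralLinearGroup (Fin 23) (ZMod 13), Function.Injective f := by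
  let e : ZMod 23 ≃ Fin 23 := Equiv.refl (Fin 23)
  let E : (Matrix (ZMod 23) (ZMod 23) (ZMod 13))ˣ ≃* (Matrix (Fin 23) (Fin 23) (ZMod 13))ˣ :=
    Units.mapEquiv (Matrix.reindexAlgEquiv (ZMod 13) (ZMod 13) e).toMulEquiv
  exact ⟨E.toMonoidHom.comp co2Hom.toHomUnits, E.injective.comp co2Hom_injective⟩

end Cfsg.Agent.Helper28
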