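import Cfsg.Agent.Helper28.HSRank
import Cfsg.Agent.Helper28.Rank3Simple
import Cfsg.Agent.Helper28.Co0Card
import Cfsg.Agent.Helper3.Simple.Steiner
import Cfsg.Agent.Helper3.Golay.Orbit
import Cfsg.Agent.Helper3.Golay.M24Trans

/-!
The joint stabiliser in the automorphism group of the lattice of two vectors of sum of squares
48 and inner product `-32`: its order, and its simplicity (through its action of rank three
on 100 minimal vectors, with a point stabiliser consisting of coordinate permutations).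
-/

set_option autoImplicit false
set_option linter.style.haveILetI false

namespace Cfsg.Agent.Helper28

open Cfsg Equiv Cfsg.Agent.Helper3

/-- the joint stabiliser, as a group of permutations of the lattice -/
def hsK (v w : leechLattice) : Subgroup (Perm leechLattice) :=
  Co0 ⊓ MulAction.stabilizer (Perm leechLattice) v ⊓ MulAction.stabilizer (Perm leechLattice) w

theorem mem_hsK (v w : leechLattice) (k : Perm leechLattice) :
    k ∈ hsK v w ↔ k ∈ Co0 ∧ k v = v ∧ k w = w := by
  simp only [hsK, Subgroup.mem_inf, MulAction.mem_stabilizer_iff, Perm.smul_def, and_assoc]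

theorem co0_finite : Finite ↥Co0 :=
  Nat.finite_of_card_ne_zero (by rw [co0_card]; norm_num)

theorem hsK_inv (v w : leechLattice) (k : Perm leechLattice) (hk : k ∈ hsK v w)
    (a : leechLattice) (ha : a ∈ hsSet v w) : k a ∈ hsSet v w := by
  obtain ⟨hkC, hkv, hkw⟩ := (mem_hsK v w k).1 hk
  refine ⟨(hkC.2 a).trans ha.1, ?_, ?_⟩
  · have hd := co0_dot k hkC v a
    rw [hkv] at hd
    exact hd.trans ha.2.1
  · have hd := co0_dot k hkC w a
    rw [hkw] at hd
    exact hd.trans ha.2.2

theorem hsK_trans (v w : leechLattice) (hv : sqNorm (v : GolayPt → ℤ) = 48)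
    (hw : sqNorm (w : GolayPt → ℤ) = 48)
    (hvw : dotInt (v : GolayPt → ℤ) (w : GolayPt → ℤ) = -32) (x a : leechLattice)
    (hx : x ∈ hsSet v w) (ha : a ∈ hsSet v w) : ∃ k ∈ hsK v w, k x = a := by
  obtain ⟨g, e1, e2, e3⟩ := hs_trans100 v w x a hv hw hvw hx ha
  exact ⟨(g : Perm leechLattice), (mem_hsK v w _).2 ⟨g.2, e1, e2⟩, e3⟩

/-- the order of the joint stabiliser -/
theorem hsK_card (v w : leechLattice) (hv : sqNorm (v : GolayPt → ℤ) = 48)
    (hw : sqNorm (w : GolayPt → ℤ) = 48)
    (hvw : dotInt (v : GolayPt → ℤ) (w : GolayPt → ℤ) = -32) :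
    Nat.card ↥(hsK v w) = 44352000 := by
  obtain ⟨hy32, hvy, -⟩ := hs_aux v w hv hw hvw
  have h48 : {x : leechLattice | sqNorm (x : GolayPt → ℤ) = 48}.ncard = 16773120 := by
    rw [← count48, ← Set.ncard_image_of_injective _ Subtype.val_injective]
    congr 1
    ext x
    constructor
    · rintro ⟨y, hy, rfl⟩
      exact ⟨y.2, hy⟩
    · rintro ⟨hx, hn⟩
      exact ⟨⟨x, hx⟩, hn, rfl⟩
  have hfin48 : {x : leechLattice | sqNorm (x : GolayPt → ℤ) = 48}.Finite :=
    Set.finite_of_ncard_ne_zero (by rw [h48]; norm_num)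
  have hc48 : hfin48.toFinset.card = 16773120 := by
    rw [← Set.ncard_eq_toFinset_card _ hfin48]
    exact h48
  have e1 := card_eq_orbit_mul_stab (G := Perm leechLattice) Co0 v hfin48.toFinset
    (by
      intro g hg
      rw [Set.Finite.mem_toFinset]
      exact (hg.2 v).trans hv)
    (by
      intro δ hδ
      rw [Set.Finite.mem_toFinset] at hδ
      obtain ⟨_, g, hg⟩ := trans48 (v : GolayPt → ℤ) (δ : GolayPt → ℤ) v.2 hv δ.2 hδ
      exact ⟨(g : Perm leechLattice), g.2, Subtype.ext hg⟩)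
  have h11 := count11178 v hv
  have hfin11 : (dotSet v 32 (-16)).Finite :=
    Set.finite_of_ncard_ne_zero (by rw [h11]; norm_num)
  have hc11 : hfin11.toFinset.card = 11178 := by
    rw [← Set.ncard_eq_toFinset_card _ hfin11]
    exact h11
  have e2 := card_eq_orbit_mul_stab (G := Perm leechLattice)
    (Co0 ⊓ MulAction.stabilizer (Perm leechLattice) v) (-(v + w)) hfin11.toFinset
    (by
      intro g hg
      rw [Set.Finite.mem_toFinset]
      obtain ⟨hgC, hgv⟩ := Subgroup.mem_inf.1 hg
      have hgv' : g v = v := hgv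
      refine ⟨(hgC.2 _).trans hy32, ?_⟩
      have hd := co0_dot g hgC v (-(v + w))
      rw [hgv'] at hd
      exact hd.trans hvy)
    (by
      intro δ hδ
      rw [Set.Finite.mem_toFinset] at hδ
      obtain ⟨g, hg1, hg2⟩ := co3_trans16 v (-(v + w)) δ hv hy32 hδ.1 hvy hδ.2
      exact ⟨(g : Perm leechLattice), Subgroup.mem_inf.2 ⟨g.2, hg1⟩, hg2⟩)
  have e3 : Co0 ⊓ MulAction.stabilizer (Perm leechLattice) v ⊓
      MulAction.stabilizer (Perm leechLattice) (-(v + w)) = hsK v w := by
    ext k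
    rw [mem_hsK, Subgroup.mem_inf, Subgroup.mem_inf, MulAction.mem_stabilizer_iff,
      MulAction.mem_stabilizer_iff, Perm.smul_def, Perm.smul_def]
    constructor
    · rintro ⟨⟨hkC, hkv⟩, hky⟩
      refine ⟨hkC, hkv, ?_⟩
      have h1 := co0_map_neg ⟨k, hkC⟩ (v + w)
      have h2 : k (-(v + w)) = -(k v + k w) := by
        rw [← hkC.1 v w]
        exact h1
      rw [hky, hkv] at h2
      exact (add_left_cancel (neg_injective h2)).symm
    · rintro ⟨hkC, hkv, hkw⟩
      refine ⟨⟨hkC, hkv⟩, ?_⟩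
      have h1 := co0_map_neg ⟨k, hkC⟩ (v + w)
      have h2 : k (-(v + w)) = -(k v + k w) := by
        rw [← hkC.1 v w]
        exact h1
      rw [h2, hkv, hkw]
  rw [e3] at e2
  rw [e2, hc48, hc11, co0_card] at e1
  omega

/-! ### the standard frame -/

theorem oddMin_mem_hsSet (p : GolayPt) (hp1 : p ≠ none) (hp2 : p ≠ some 0)
    (hm : oddMin p (0 : GolayPt → ZMod 2) ∈ leechLattice) :
    (⟨oddMin p 0, hm⟩ : leechLattice) ∈ hsSet stdU stdW := by
  refine (std_mem_iff _).2 ⟨oddMin_sq Cfsg.Agent.Helper3.card_golayPt p 0, ?_, ?_⟩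
  · show dotInt (fiveVec none) (oddMin p (0 : GolayPt → ZMod 2)) = 24
    rw [dot_five, oddMin_zero, if_neg (Ne.symm hp1),
      oddMin_sum Cfsg.Agent.Helper3.card_golayPt]
    have h0 : hammingNorm (0 : GolayPt → ZMod 2) = 0 := by simp
    rw [h0]
    simp
  · show dotInt (sgnVec 4 {none, some 0} {none}) (oddMin p (0 : GolayPt → ZMod 2)) = 0
    rw [dot_stdX, oddMin_zero, oddMin_zero, if_neg (Ne.symm hp1), if_neg (Ne.symm hp2)]
    norm_num

theorem leechE_none_eq : leechE none = mclV - stdX := by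
  apply Subtype.ext
  funext i
  rw [AddSubgroup.coe_sub]
  show (if i = none then (8 : ℤ) else 0) =
    sgnVec 4 {none, some 0} ∅ i - sgnVec 4 {none, some 0} {none} i
  revert i
  decide +kernel

theorem leechE_zero_eq : leechE (some 0) = mclV + stdX := by
  apply Subtype.ext
  funext i
  rw [AddSubgroup.coe_add]
  show (if i = some 0 then (8 : ℤ) else 0) =
    sgnVec 4 {none, some 0} ∅ i + sgnVec 4 {none, some 0} {none} i
  revert i
  decide +kernel

theorem leechE_other_eq (j : GolayPt) (hj1 : j ≠ none)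
    (hm : oddMin j (0 : GolayPt → ZMod 2) ∈ leechLattice) :
    leechE j = (stdU - ⟨oddMin j 0, hm⟩) + (stdU - ⟨oddMin j 0, hm⟩) - leechE none := by
  apply Subtype.ext
  funext i
  rw [AddSubgroup.coe_sub, AddSubgroup.coe_add, AddSubgroup.coe_sub]
  show (if i = j then (8 : ℤ) else 0) =
    ((if i = none then (5 : ℤ) else 1) - oddMin j (0 : GolayPt → ZMod 2) i) +
      ((if i = none then (5 : ℤ) else 1) - oddMin j (0 : GolayPt → ZMod 2) i) -
      (if i = none then (8 : ℤ) else 0)
  rw [oddMin_zero]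
  by_cases h1 : i = none
  · subst h1
    have h2 : ¬ (none : GolayPt) = j := fun h => hj1 h.symm
    simp [h2]
  · by_cases h2 : i = j
    · subst h2
      simp [h1]
    · simp [h1, h2]

/-- the joint stabiliser acts faithfully on the 100 vectors -/
theorem hs_faith (k : Perm leechLattice) (hk : k ∈ hsK stdU stdW)
    (hfix : ∀ a ∈ hsSet stdU stdW, k a = a) : k = 1 := by
  obtain ⟨hkC, hkU, hkW⟩ := (mem_hsK _ _ _).1 hk
  have gU : ((⟨k, hkC⟩ : Co0) : Perm leechLattice) stdU = stdU := hkU
  have gW : ((⟨k, hkC⟩ : Co0) : Perm leechLattice) stdW = stdW := hkW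
  have gX : ((⟨k, hkC⟩ : Co0) : Perm leechLattice) stdX = stdX := by
    have e : stdX = -(stdU + stdW) := by
      show stdX = -(stdU + -(stdU + stdX))
      abel
    have h1 : ((⟨k, hkC⟩ : Co0) : Perm leechLattice) (-(stdU + stdW)) = -(stdU + stdW) := by
      rw [co0_map_neg, (⟨k, hkC⟩ : Co0).2.1, gU, gW]
    rw [← e] at h1
    exact h1
  have gV : ((⟨k, hkC⟩ : Co0) : Perm leechLattice) mclV = mclV := hfix mclV mclV_mem
  have hE0 : ((⟨k, hkC⟩ : Co0) : Perm leechLattice) (leechE none) = leechE none := by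
    rw [leechE_none_eq, co0_map_sub, gV, gX]
  have hE : ∀ j : GolayPt, ((⟨k, hkC⟩ : Co0) : Perm leechLattice) (leechE j) = leechE j := by
    intro j
    by_cases hj1 : j = none
    · rw [hj1]
      exact hE0
    · by_cases hj0 : j = some 0
      · rw [hj0, leechE_zero_eq, (⟨k, hkC⟩ : Co0).2.1, gV, gX]
      · have hm : oddMin j (0 : GolayPt → ZMod 2) ∈ leechLattice :=
          mem_of_LP (LP_oddMin golayCode golayLike golayCode.zero_mem j)
        have gw : ((⟨k, hkC⟩ : Co0) : Perm leechLattice) ⟨oddMin j 0, hm⟩ =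
            ⟨oddMin j 0, hm⟩ := hfix _ (oddMin_mem_hsSet j hj1 hj0 hm)
        have h1 : ((⟨k, hkC⟩ : Co0) : Perm leechLattice)
            ((stdU - ⟨oddMin j 0, hm⟩) + (stdU - ⟨oddMin j 0, hm⟩) - leechE none) =
            (stdU - ⟨oddMin j 0, hm⟩) + (stdU - ⟨oddMin j 0, hm⟩) - leechE none := by
          rw [co0_map_sub, (⟨k, hkC⟩ : Co0).2.1, co0_map_sub, gU, gw, hE0]
        rw [← leechE_other_eq j hj1 hm] at h1
        exact h1
  apply Equiv.ext
  intro y
  apply Subtype.ext
  funext i
  have hd := co0_dot k hkC y (leechE i)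
  have hEi : k (leechE i) = leechE i := hE i
  rw [hEi] at hd
  have hdot : ∀ z : leechLattice, dotInt (z : GolayPt → ℤ) (leechE i : GolayPt → ℤ) =
      8 * (z : GolayPt → ℤ) i := by
    intro z
    unfold dotInt
    rw [Finset.sum_eq_single i]
    · rw [leechE_apply, if_pos rfl]
      ring
    · intro b _ hb
      rw [leechE_apply, if_neg hb]
      ring
    · intro h
      exact absurd (Finset.mem_univ i) h
  rw [hdot, hdot] at hd
  show ((k y : leechLattice) : GolayPt → ℤ) i = (y : GolayPt → ℤ) i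
  omega

/-! ### the point stabiliser -/

/-- the coordinate permutations, as a homomorphism into the permutations of the lattice -/
def permHom : ↥M24 →* Perm leechLattice where
  toFun σ := ((co0Perm σ.1⁻¹ (M24.inv_mem σ.2) : Co0) : Perm leechLattice)
  map_one' := by
    apply Equiv.ext
    intro v
    apply Subtype.ext
    funext i
    show (v : GolayPt → ℤ) ((1 : Perm GolayPt)⁻¹ i) = (v : GolayPt → ℤ) i
    rw [inv_one]
    rfl
  map_mul' σ τ := by
    apply Equiv.ext
    intro v
    apply Subtype.ext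
    funext i
    show (v : GolayPt → ℤ) ((σ.1 * τ.1)⁻¹ i) = (v : GolayPt → ℤ) (τ.1⁻¹ (σ.1⁻¹ i))
    rw [mul_inv_rev]
    rfl

theorem permHom_apply (σ : ↥M24) (v : leechLattice) (i : GolayPt) :
    ((permHom σ v : leechLattice) : GolayPt → ℤ) i = (v : GolayPt → ℤ) (σ.1⁻¹ i) := rfl

theorem permHom_injective : Function.Injective permHom := by
  intro σ τ h
  apply Subtype.ext
  apply Equiv.ext
  intro j
  have h1 : ((permHom σ (leechE j) : leechLattice) : GolayPt → ℤ) (σ.1 j) =
      ((permHom τ (leechE j) : leechLattice) : GolayPt → ℤ) (σ.1 j) := by rw [h]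
  rw [permHom_apply, permHom_apply, leechE_apply, leechE_apply] at h1
  have e1 : σ.1⁻¹ (σ.1 j) = j := pinv_apply σ.1 j
  rw [e1, if_pos rfl] at h1
  by_cases e2 : τ.1⁻¹ (σ.1 j) = j
  · exact (τ.1.apply_symm_apply (σ.1 j)).symm.trans (congrArg τ.1 e2)
  · rw [if_neg e2] at h1
    norm_num at h1

/-- the permutations of the code fixing the two base points -/
def m22P : Subgroup (Perm GolayPt) :=
  M24 ⊓ MulAction.stabilizer (Perm GolayPt) (none : GolayPt) ⊓
    MulAction.stabilizer (Perm GolayPt) (some 0 : GolayPt)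

theorem m22P_le : m22P ≤ M24 := fun _ h => h.1.1

theorem m22P_card : Nat.card ↥m22P = 443520 := by
  have h := M24_stab2_card none (some 0) (by decide)
  rw [← h]
  have hmap := map_subtype_stabilizer2 M24 (none : GolayPt) (some 0 : GolayPt)
  unfold m22P
  rw [← hmap]
  exact (Nat.card_congr
    (Subgroup.equivMapOfInjective _ M24.subtype M24.subtype_injective).toEquiv).symm

theorem m22Hom_injective :
    Function.Injective (permHom.comp (Subgroup.inclusion m22P_le)) :=
  permHom_injective.comp (Subgroup.inclusion_injective m22P_le)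

theorem hs_stab_card :
    Nat.card ↥(hsK stdU stdW ⊓ MulAction.stabilizer (Perm leechLattice) mclV) = 443520 := by
  have h100 : (hsSet stdU stdW).ncard = 100 := hs_count stdU stdW stdU_norm stdW_norm stdUW
  have hfin : (hsSet stdU stdW).Finite :=
    Set.finite_of_ncard_ne_zero (by rw [h100]; norm_num)
  have hc : hfin.toFinset.card = 100 := by
    rw [← Set.ncard_eq_toFinset_card _ hfin]
    exact h100
  have e := card_eq_orbit_mul_stab (G := Perm leechLattice) (hsK stdU stdW) mclV hfin.toFinset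
    (by
      intro g hg
      rw [Set.Finite.mem_toFinset]
      exact hsK_inv stdU stdW g hg mclV mclV_mem)
    (by
      intro δ hδ
      rw [Set.Finite.mem_toFinset] at hδ
      exact hsK_trans stdU stdW stdU_norm stdW_norm stdUW mclV δ mclV_mem hδ)
  rw [hc, hsK_card stdU stdW stdU_norm stdW_norm stdUW] at e
  omega

theorem hs_stab_eq :
    hsK stdU stdW ⊓ MulAction.stabilizer (Perm leechLattice) mclV =
      (permHom.comp (Subgroup.inclusion m22P_le)).range := by
  symm
  haveI := co0_finite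
  haveI : Finite ↥(hsK stdU stdW ⊓ MulAction.stabilizer (Perm leechLattice) mclV) :=
    Finite.of_injective
      (Subgroup.inclusion (show hsK stdU stdW ⊓
        MulAction.stabilizer (Perm leechLattice) mclV ≤ Co0 from fun k hk => hk.1.1.1))
      (Subgroup.inclusion_injective _)
  apply Subgroup.eq_of_le_of_card_ge
  · rintro _ ⟨σ, rfl⟩
    have hσ := σ.2
    have hσ1 : σ.1 none = none := hσ.1.2
    have hσ2 : σ.1 (some 0) = some 0 := hσ.2
    have e1 : σ.1⁻¹ none = none := by
      rw [Perm.inv_eq_iff_eq, hσ1]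
    have e2 : σ.1⁻¹ (some 0) = some 0 := by
      rw [Perm.inv_eq_iff_eq, hσ2]
    show ((co0Perm σ.1⁻¹ (M24.inv_mem (m22P_le σ.2)) : Co0) : Perm leechLattice) ∈
      hsK stdU stdW ⊓ MulAction.stabilizer (Perm leechLattice) mclV
    exact Subgroup.mem_inf.2 ⟨(mem_hsK _ _ _).2 ⟨(co0Perm _ _).2, perm_fix_stdU _ _ e1,
      perm_fix_stdW _ _ e1 e2⟩, MulAction.mem_stabilizer_iff.2 (perm_fix_mclV _ _ e1 e2)⟩
  · rw [hs_stab_card, ← Nat.card_congr (MonoidHom.ofInjective m22Hom_injective).toEquiv,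
      m22P_card]

theorem hs_stab_simple :
    SimpleIn (hsK stdU stdW ⊓ MulAction.stabilizer (Perm leechLattice) mclV) := by
  rw [hs_stab_eq]
  haveI : IsSimpleGroup ↥m22P :=
    isSimpleGroup_of_simpleIn m22P (M22_simpleIn none (some 0) (by decide))
  haveI : IsSimpleGroup ↥(permHom.comp (Subgroup.inclusion m22P_le)).range :=
    (MonoidHom.ofInjective m22Hom_injective).symm.isSimpleGroup
  exact simpleIn_of_isSimpleGroup _

/-- simplicity in the standard frame -/
theorem hs_std_simple : SimpleIn (hsK stdU stdW) := by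
  classical
  have h100 : (hsSet stdU stdW).ncard = 100 := hs_count stdU stdW stdU_norm stdW_norm stdUW
  have hfin : (hsSet stdU stdW).Finite :=
    Set.finite_of_ncard_ne_zero (by rw [h100]; norm_num)
  have hmemS : ∀ a, a ∈ hfin.toFinset ↔ a ∈ hsSet stdU stdW :=
    fun a => Set.Finite.mem_toFinset hfin
  have hself : dotInt (mclV : GolayPt → ℤ) (mclV : GolayPt → ℤ) = 32 := by
    rw [dot_self]
    exact mclV_norm
  have hΔ : (hfin.toFinset.filter
      (fun y : leechLattice => dotInt (mclV : GolayPt → ℤ) (y : GolayPt → ℤ) = 8)).card = 22 := by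
    rw [← Set.ncard_coe_finset]
    have hset : ((hfin.toFinset.filter
        (fun y : leechLattice => dotInt (mclV : GolayPt → ℤ) (y : GolayPt → ℤ) = 8) :
          Finset leechLattice) : Set leechLattice) =
        {y : leechLattice | y ∈ hsSet stdU stdW ∧
          dotInt (mclV : GolayPt → ℤ) (y : GolayPt → ℤ) = 8} := by
      ext y
      exact ⟨fun h => ⟨(hmemS y).1 (Finset.mem_filter.1 (Finset.mem_coe.1 h)).1,
        (Finset.mem_filter.1 (Finset.mem_coe.1 h)).2⟩,
        fun h => Finset.mem_coe.2 (Finset.mem_filter.2 ⟨(hmemS y).2 h.1, h.2⟩)⟩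
    rw [hset]
    exact std_sub_ncard
  have hΓ : (hfin.toFinset.filter
      (fun y : leechLattice => y ≠ mclV ∧
        dotInt (mclV : GolayPt → ℤ) (y : GolayPt → ℤ) ≠ 8)).card = 77 := by
    rw [← Set.ncard_coe_finset]
    have hset : ((hfin.toFinset.filter
        (fun y : leechLattice => y ≠ mclV ∧
          dotInt (mclV : GolayPt → ℤ) (y : GolayPt → ℤ) ≠ 8) :
          Finset leechLattice) : Set leechLattice) =
        {y : leechLattice | y ∈ hsSet stdU stdW ∧ y ≠ mclV ∧
          dotInt (mclV : GolayPt → ℤ) (y : GolayPt → ℤ) ≠ 8} := by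
      ext y
      exact ⟨fun h => ⟨(hmemS y).1 (Finset.mem_filter.1 (Finset.mem_coe.1 h)).1,
        (Finset.mem_filter.1 (Finset.mem_coe.1 h)).2⟩,
        fun h => Finset.mem_coe.2 (Finset.mem_filter.2 ⟨(hmemS y).2 h.1, h.2⟩)⟩
    rw [hset]
    exact hs_rest_ncard stdU stdW mclV stdU_norm stdW_norm stdUW mclV_mem
  refine simpleIn_rank3 (hsK stdU stdW) hfin.toFinset
    (hfin.toFinset.filter
      (fun y : leechLattice => dotInt (mclV : GolayPt → ℤ) (y : GolayPt → ℤ) = 8))
    (hfin.toFinset.filter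
      (fun y : leechLattice => y ≠ mclV ∧
        dotInt (mclV : GolayPt → ℤ) (y : GolayPt → ℤ) ≠ 8)) mclV
    ?_ ?_ ?_ ?_ ?_ ?_ ?_ hΔ hΓ ?_ ?_ hs_stab_simple
  · intro k hk a ha
    exact (hmemS _).2 (hsK_inv stdU stdW k hk a ((hmemS a).1 ha))
  · intro a ha
    exact hsK_trans stdU stdW stdU_norm stdW_norm stdUW mclV a mclV_mem ((hmemS a).1 ha)
  · intro k hk h
    exact hs_faith k hk (fun a ha => h a ((hmemS a).2 ha))
  · ext y
    simp only [Finset.mem_insert, Finset.mem_union, Finset.mem_filter]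
    constructor
    · intro hy
      by_cases h1 : y = mclV
      · exact Or.inl h1
      · by_cases h2 : dotInt (mclV : GolayPt → ℤ) (y : GolayPt → ℤ) = 8
        · exact Or.inr (Or.inl ⟨hy, h2⟩)
        · exact Or.inr (Or.inr ⟨hy, h1, h2⟩)
    · rintro (h | h | h)
      · rw [h]
        exact (hmemS _).2 mclV_mem
      · exact h.1
      · exact h.1
  · intro h
    have h8 := (Finset.mem_filter.1 h).2
    rw [hself] at h8
    norm_num at h8
  · intro h
    exact (Finset.mem_filter.1 h).2.1 rfl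
  · rw [Finset.disjoint_left]
    intro y h1 h2
    exact (Finset.mem_filter.1 h2).2.2 (Finset.mem_filter.1 h1).2
  · intro a ha b hb
    rw [Finset.mem_filter] at ha hb
    have hane : a ≠ mclV := by
      intro h
      have h8 := ha.2
      rw [h, hself] at h8
      norm_num at h8
    have hbne : b ≠ mclV := by
      intro h
      have h8 := hb.2
      rw [h, hself] at h8
      norm_num at h8
    obtain ⟨g, e1, e2, e3, e4⟩ := hs_rank_trans stdU stdW mclV a b stdU_norm stdW_norm stdUW
      mclV_mem ((hmemS a).1 ha.1) ((hmemS b).1 hb.1) hane hbne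
      ⟨fun _ => hb.2, fun _ => ha.2⟩
    exact ⟨(g : Perm leechLattice), (mem_hsK _ _ _).2 ⟨g.2, e1, e2⟩, e3, e4⟩
  · intro a ha b hb
    rw [Finset.mem_filter] at ha hb
    obtain ⟨g, e1, e2, e3, e4⟩ := hs_rank_trans stdU stdW mclV a b stdU_norm stdW_norm stdUW
      mclV_mem ((hmemS a).1 ha.1) ((hmemS b).1 hb.1) ha.2.1 hb.2.1
      ⟨fun h => absurd h ha.2.2, fun h => absurd h hb.2.2⟩
    exact ⟨(g : Perm leechLattice), (mem_hsK _ _ _).2 ⟨g.2, e1, e2⟩, e3, e4⟩

/-- simplicity of the joint stabiliser -/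
theorem hs_simpleIn (v w : leechLattice) (hv : sqNorm (v : GolayPt → ℤ) = 48)
    (hw : sqNorm (w : GolayPt → ℤ) = 48)
    (hvw : dotInt (v : GolayPt → ℤ) (w : GolayPt → ℤ) = -32) : SimpleIn (hsK v w) := by
  have h100 : (hsSet v w).ncard = 100 := hs_count v w hv hw hvw
  obtain ⟨x, hx⟩ := Set.nonempty_of_ncard_ne_zero (s := hsSet v w) (by rw [h100]; norm_num)
  obtain ⟨g, e1, e2, -⟩ := hs_conj stdU stdW mclV v w x stdU_norm stdW_norm stdUW mclV_mem
    hv hw hvw hx
  refine hs_std_simple.conj (g : Perm leechLattice) ?_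
  intro k
  simp only [hsK, Subgroup.mem_inf]
  rw [conj_mem_iff Co0 g.2, conj_mem_stab_iff, conj_mem_stab_iff, Perm.smul_def,
    Perm.smul_def, e1, e2]

end Cfsg.Agent.Helper28
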