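import Cfsg.Agent.Helper28.McLRank
import Cfsg.Agent.Helper28.Rank3Gen
import Cfsg.Agent.Helper28.HSSimple

/-!
The joint stabiliser in the automorphism group of the lattice of two minimal vectors of inner
product `-8`: its order, and its simplicity.  The group acts with rank three on 275 minimal
vectors; the stabiliser of one of them acts with rank three on the 162 vectors of inner product
16 with it, and the stabiliser of one of these consists of the coordinate permutations fixing
three points, a simple group.  The rank three criterion is applied twice.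
-/

set_option autoImplicit false
set_option linter.style.haveILetI false

namespace Cfsg.Agent.Helper28

open Cfsg Equiv Cfsg.Agent.Helper3
open scoped Pointwise

/-! ### the order -/

/-- the order of the joint stabiliser of two minimal vectors of inner product `-8` -/
theorem mclK_card (v w : leechLattice) (hv : sqNorm (v : GolayPt → ℤ) = 32)
    (hw : sqNorm (w : GolayPt → ℤ) = 32)
    (hvw : dotInt (v : GolayPt → ℤ) (w : GolayPt → ℤ) = -8) :
    Nat.card ↥(hsK v w) = 898128000 := by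
  have h32 : {x : leechLattice | sqNorm (x : GolayPt → ℤ) = 32}.ncard = 196560 := by
    rw [← count32, ← Set.ncard_image_of_injective _ Subtype.val_injective]
    congr 1
    ext x
    constructor
    · rintro ⟨y, hy, rfl⟩
      exact ⟨y.2, hy⟩
    · rintro ⟨hx, hn⟩
      exact ⟨⟨x, hx⟩, hn, rfl⟩
  have hfin32 : {x : leechLattice | sqNorm (x : GolayPt → ℤ) = 32}.Finite :=
    Set.finite_of_ncard_ne_zero (by rw [h32]; norm_num)
  have hc32 : hfin32.toFinset.card = 196560 := by
    rw [← Set.ncard_eq_toFinset_card _ hfin32]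
    exact h32
  have e1 := card_eq_orbit_mul_stab (G := Perm leechLattice) Co0 v hfin32.toFinset
    (by
      intro g hg
      rw [Set.Finite.mem_toFinset]
      exact (hg.2 v).trans hv)
    (by
      intro δ hδ
      rw [Set.Finite.mem_toFinset] at hδ
      obtain ⟨_, g, hg⟩ := min_trans (v : GolayPt → ℤ) (δ : GolayPt → ℤ) v.2 hv δ.2 hδ
      exact ⟨(g : Perm leechLattice), g.2, Subtype.ext hg⟩)
  have h8 : (dotSet v 32 (-8)).ncard = 47104 := by
    rw [dotSet_ncard_eq]
    exact (census (v : GolayPt → ℤ) v.2 hv).2.1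
  have hfin8 : (dotSet v 32 (-8)).Finite :=
    Set.finite_of_ncard_ne_zero (by rw [h8]; norm_num)
  have hc8 : hfin8.toFinset.card = 47104 := by
    rw [← Set.ncard_eq_toFinset_card _ hfin8]
    exact h8
  have e2 := card_eq_orbit_mul_stab (G := Perm leechLattice)
    (Co0 ⊓ MulAction.stabilizer (Perm leechLattice) v) w hfin8.toFinset
    (by
      intro g hg
      rw [Set.Finite.mem_toFinset]
      obtain ⟨hgC, hgv⟩ := Subgroup.mem_inf.1 hg
      have hgv' : g v = v := hgv
      refine ⟨(hgC.2 _).trans hw, ?_⟩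
      have hd := co0_dot g hgC v w
      rw [hgv'] at hd
      exact hd.trans hvw)
    (by
      intro δ hδ
      rw [Set.Finite.mem_toFinset] at hδ
      obtain ⟨g, hg1, hg2⟩ := stab_trans_one v w δ hv hw hδ.1 hvw hδ.2
      exact ⟨(g : Perm leechLattice), Subgroup.mem_inf.2 ⟨g.2, hg1⟩, hg2⟩)
  have e3 : Co0 ⊓ MulAction.stabilizer (Perm leechLattice) v ⊓
      MulAction.stabilizer (Perm leechLattice) w = hsK v w := rfl
  rw [e3] at e2
  rw [e2, hc32, hc8, co0_card] at e1
  omega

/-! ### the standard frame -/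

/-- the vector of sum of squares 48 of the standard frame -/
def mclU1 : leechLattice := mclV + mclW1

theorem mclW1_norm : sqNorm (mclW1 : GolayPt → ℤ) = 32 := by
  show sqNorm (-(oddMin (some 1) (0 : GolayPt → ZMod 2))) = 32
  rw [sqNorm_neg']
  exact oddMin_sq Cfsg.Agent.Helper3.card_golayPt (some 1) 0

theorem mclW1_none : (mclW1 : GolayPt → ℤ) none = -1 := by
  have hne : (none : GolayPt) ≠ some 1 := by decide
  rw [mclW1_apply, oddMin_zero, if_neg hne]

theorem mclW1_zero : (mclW1 : GolayPt → ℤ) (some 0) = -1 := by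
  have hne : (some 0 : GolayPt) ≠ some 1 := by decide
  rw [mclW1_apply, oddMin_zero, if_neg hne]

theorem mclVW1 : dotInt (mclV : GolayPt → ℤ) (mclW1 : GolayPt → ℤ) = -8 := by
  have h := base_dot (mclW1 : GolayPt → ℤ)
  rw [mclW1_none, mclW1_zero] at h
  exact h.trans (by norm_num)

theorem mclU1_norm : sqNorm (mclU1 : GolayPt → ℤ) = 48 := by
  show sqNorm ((mclV : GolayPt → ℤ) + (mclW1 : GolayPt → ℤ)) = 48
  rw [sqNorm_add, mclV_norm, mclW1_norm, mclVW1]
  norm_num

theorem mclU1_sub : mclU1 - mclV = mclW1 := by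
  unfold mclU1
  abel

theorem mclV_ok : sqNorm (mclV : GolayPt → ℤ) = 32 ∧
    sqNorm ((mclU1 : GolayPt → ℤ) - (mclV : GolayPt → ℤ)) = 32 := by
  refine ⟨mclV_norm, ?_⟩
  have e : (mclU1 : GolayPt → ℤ) - (mclV : GolayPt → ℤ) = (mclW1 : GolayPt → ℤ) := by
    rw [← AddSubgroup.coe_sub, mclU1_sub]
  rw [e]
  exact mclW1_norm

theorem mclX_norm : sqNorm (mclX : GolayPt → ℤ) = 32 :=
  (sgn4_min (some 0) (some 1) (by decide) ∅ (Finset.empty_subset _)).2

theorem dot_X (x : GolayPt → ℤ) :
    dotInt (mclX : GolayPt → ℤ) x = 4 * x (some 0) + 4 * x (some 1) := dot_X_raw x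

theorem mclX1_none : (mclX1 : GolayPt → ℤ) none = 4 := by
  show sgnVec 4 ({none, some 1} : Finset GolayPt) ∅ none = 4
  decide

theorem mclX1_zero : (mclX1 : GolayPt → ℤ) (some 0) = 0 := by
  show sgnVec 4 ({none, some 1} : Finset GolayPt) ∅ (some 0) = 0
  decide

theorem mclX1_one : (mclX1 : GolayPt → ℤ) (some 1) = 4 := by
  show sgnVec 4 ({none, some 1} : Finset GolayPt) ∅ (some 1) = 4
  decide

theorem mclX1_sum : ∑ i, (mclX1 : GolayPt → ℤ) i = 8 := by
  show ∑ i, sgnVec 4 ({none, some 1} : Finset GolayPt) ∅ i = 8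
  rw [sgnVec_sum 4 (Finset.empty_subset _)]
  have h : ({none, some 1} : Finset GolayPt).card = 2 := by decide
  rw [h, Finset.card_empty]
  norm_num

theorem mclX_none : (mclX : GolayPt → ℤ) none = 0 := by
  show sgnVec 4 ({some 0, some 1} : Finset GolayPt) ∅ none = 0
  decide

theorem mclX_zero : (mclX : GolayPt → ℤ) (some 0) = 4 := by
  show sgnVec 4 ({some 0, some 1} : Finset GolayPt) ∅ (some 0) = 4
  decide

theorem mclX_one : (mclX : GolayPt → ℤ) (some 1) = 4 := by
  show sgnVec 4 ({some 0, some 1} : Finset GolayPt) ∅ (some 1) = 4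
  decide

theorem mclX_sum : ∑ i, (mclX : GolayPt → ℤ) i = 8 := by
  show ∑ i, sgnVec 4 ({some 0, some 1} : Finset GolayPt) ∅ i = 8
  rw [sgnVec_sum 4 (Finset.empty_subset _)]
  have h : ({some 0, some 1} : Finset GolayPt).card = 2 := by decide
  rw [h, Finset.card_empty]
  norm_num

theorem mclX1_mem : mclX1 ∈ mclSet mclU1 mclV 16 := by
  refine mem_mcl_of mclU1 mclV mclX1 mclU1_norm mclX1_norm ?_ ?_
  · have h := base_dot (mclX1 : GolayPt → ℤ)
    rw [mclX1_none, mclX1_zero] at h
    exact h.trans (by norm_num)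
  · rw [mclU1_sub, dot_W1, mclX1_sum, mclX1_one] <;> norm_num

theorem mclX_mem : mclX ∈ mclSet mclU1 mclV 16 := by
  refine mem_mcl_of mclU1 mclV mclX mclU1_norm mclX_norm ?_ ?_
  · have h := base_dot (mclX : GolayPt → ℤ)
    rw [mclX_none, mclX_zero] at h
    exact h.trans (by norm_num)
  · rw [mclU1_sub, dot_W1, mclX_sum, mclX_one] <;> norm_num

theorem mclX1X : dotInt (mclX1 : GolayPt → ℤ) (mclX : GolayPt → ℤ) = 16 := by
  rw [dot_X1, mclX_none, mclX_one] <;> norm_num

theorem mclX_ne : mclX ≠ mclX1 := by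
  intro h
  have h1 := mclX_none
  rw [h, mclX1_none] at h1
  norm_num at h1

/-- the 162 vectors of inner product 16 with the third standard vector -/
def mclN : Set leechLattice :=
  {y | y ∈ mclSet mclU1 mclV 16 ∧ y ≠ mclX1 ∧
    dotInt (mclX1 : GolayPt → ℤ) (y : GolayPt → ℤ) = 16}

theorem mclN_ncard : mclN.ncard = 162 :=
  mcl_sub16 mclU1 mclV mclX1 mclU1_norm mclV_ok mclX1_mem

theorem mclX_memN : mclX ∈ mclN := ⟨mclX_mem, mclX_ne, mclX1X⟩

theorem mclN_coords (y : leechLattice) (hy : y ∈ mclN) :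
    (y : GolayPt → ℤ) none + (y : GolayPt → ℤ) (some 0) = 4 ∧
    (y : GolayPt → ℤ) none + (y : GolayPt → ℤ) (some 1) = 4 ∧
    ∑ i, (y : GolayPt → ℤ) i = 4 * (y : GolayPt → ℤ) (some 1) - 8 := by
  obtain ⟨hm, -, h3⟩ := hy
  have h1 : dotInt (sgnVec 4 {none, some 0} ∅) (y : GolayPt → ℤ) = 16 := hm.2.2
  have h2 := mcl_gram mclU1 mclV y mclU1_norm hm
  rw [mclU1_sub, dot_W1] at h2
  rw [base_dot] at h1
  rw [dot_X1] at h3
  refine ⟨by omega, by omega, by omega⟩

theorem mem_mclN_of (y : leechLattice) (hn : sqNorm (y : GolayPt → ℤ) = 32)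
    (h1 : (y : GolayPt → ℤ) none + (y : GolayPt → ℤ) (some 0) = 4)
    (h2 : (y : GolayPt → ℤ) none + (y : GolayPt → ℤ) (some 1) = 4)
    (h3 : ∑ i, (y : GolayPt → ℤ) i = 4 * (y : GolayPt → ℤ) (some 1) - 8)
    (h4 : (y : GolayPt → ℤ) none ≠ 4) : y ∈ mclN := by
  refine ⟨mem_mcl_of mclU1 mclV y mclU1_norm hn ?_ ?_, ?_, ?_⟩
  · show dotInt (sgnVec 4 {none, some 0} ∅) (y : GolayPt → ℤ) = 16
    rw [base_dot]
    omega
  · rw [mclU1_sub, dot_W1]
    omega
  · intro h
    apply h4
    rw [h]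
    exact mclX1_none
  · rw [dot_X1]
    omega

/-! ### the vectors of inner product 8 with the fourth standard vector -/

/-- the masks of the words of weight 16 through the first base point and not the other two -/
def bitD (m : ℕ) : Bool :=
  decide (Cfsg.Agent.Helper3.gPopc m = 16 ∧ m.testBit 23 = true ∧ m.testBit 0 = false ∧
    m.testBit 1 = false)

theorem bitD_num : Cfsg.Agent.Helper3.gCountLt 4096
    (fun n => bitD (Cfsg.Agent.Helper3.gCw n)) = 56 := by decide +kernel

/-- the words of weight 16 through the first base point and not the other two -/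
noncomputable def idxD : Finset (GolayPt → ZMod 2) :=
  codeFin.filter (fun c => hammingNorm c = 16 ∧ c none ≠ 0 ∧ c (some 0) = 0 ∧ c (some 1) = 0)

theorem idxD_card : idxD.card = 56 := by
  have hPQ : ∀ m, (hammingNorm (Cfsg.Agent.Helper3.gDec m) = 16 ∧
      Cfsg.Agent.Helper3.gDec m none ≠ 0 ∧ Cfsg.Agent.Helper3.gDec m (some 0) = 0 ∧
      Cfsg.Agent.Helper3.gDec m (some 1) = 0) ↔ bitD m = true := by
    intro m
    rw [Cfsg.Agent.Helper3.hammingNorm_gDec, Cfsg.Agent.Helper3.gDec_ne_zero_iff,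
      gDec_eq_zero_iff, gDec_eq_zero_iff, gIdx_none, gIdx_zero, gIdx_one]
    unfold bitD
    rw [decide_eq_true_iff]
  exact (code_count bitD (fun c => hammingNorm c = 16 ∧ c none ≠ 0 ∧ c (some 0) = 0 ∧
    c (some 1) = 0) hPQ).trans bitD_num

/-- the vectors of odd type among the 162, in coordinates -/
def stdD : Set (GolayPt → ℤ) :=
  {y | y ∈ leechLattice ∧ sqNorm y = 32 ∧ y none = 3 ∧ y (some 0) = 1 ∧ y (some 1) = 1 ∧
    ∑ i, y i = -4}

theorem oddD_class (z : GolayPt → ℤ) (hz : z ∈ leechLattice) (hn : sqNorm z = 32)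
    (h1 : z none = 3) (h2 : z (some 0) = 1) (h3 : z (some 1) = 1) (h4 : ∑ i, z i = -4) :
    ∃ c ∈ golayCode, hammingNorm c = 16 ∧ c none ≠ 0 ∧ c (some 0) = 0 ∧ c (some 1) = 0 ∧
      z = oddMin none c := by
  rcases classify golayCode golayLike one_mem_golay (mem_leechSetOf.1 hz) hn with
    ⟨U, V, hVU, hU, rfl⟩ | ⟨c, hc, hc8, V, hV, hVe, rfl⟩ | ⟨p, c, hc, rfl⟩
  · exfalso
    rcases sgnVec_vals 4 U V none with h | h | h <;> rw [h] at h1 <;> norm_num at h1
  · exfalso
    rcases sgnVec_vals 2 (support₂ c) V none with h | h | h <;> rw [h] at h1 <;>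
      norm_num at h1
  · have hp : p = none := by
      by_contra hp
      rw [oddMin_at p c none (Ne.symm hp)] at h1
      split_ifs at h1 <;> norm_num at h1
    subst hp
    rw [oddMin_self] at h1
    rw [oddMin_at none c (some 0) (by decide)] at h2
    rw [oddMin_at none c (some 1) (by decide)] at h3
    have hcn : c none ≠ 0 := by
      intro h
      rw [if_pos h] at h1
      norm_num at h1
    have hc0 : c (some 0) = 0 := by
      by_contra h
      rw [if_neg h] at h2
      norm_num at h2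
    have hc1 : c (some 1) = 0 := by
      by_contra h
      rw [if_neg h] at h3
      norm_num at h3
    rw [oddMin_sum', if_neg hcn] at h4
    exact ⟨c, hc, by omega, hcn, hc0, hc1, rfl⟩

theorem stdD_eq : stdD =
    (fun c : GolayPt → ZMod 2 => oddMin none c) '' (↑idxD : Set (GolayPt → ZMod 2)) := by
  ext y
  constructor
  · rintro ⟨hy, hn, h1, h2, h3, h4⟩
    obtain ⟨c, hc, h16, hcn, hc0, hc1, rfl⟩ := oddD_class y hy hn h1 h2 h3 h4
    refine ⟨c, ?_, rfl⟩
    rw [Finset.mem_coe]
    unfold idxD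
    rw [Finset.mem_filter, mem_codeFin]
    exact ⟨hc, h16, hcn, hc0, hc1⟩
  · rintro ⟨c, hc, rfl⟩
    rw [Finset.mem_coe] at hc
    unfold idxD at hc
    rw [Finset.mem_filter, mem_codeFin] at hc
    obtain ⟨hc, h16, hcn, hc0, hc1⟩ := hc
    refine ⟨mem_of_LP (LP_oddMin golayCode golayLike hc none),
      oddMin_sq Cfsg.Agent.Helper3.card_golayPt none c, ?_, ?_, ?_, ?_⟩
    · show oddMin none c none = 3
      rw [oddMin_self, if_neg hcn]
    · show oddMin none c (some 0) = 1
      rw [oddMin_at none c (some 0) (by decide), if_pos hc0]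
    · show oddMin none c (some 1) = 1
      rw [oddMin_at none c (some 1) (by decide), if_pos hc1]
    · show ∑ i, oddMin none c i = -4
      rw [oddMin_sum', if_neg hcn, h16]
      norm_num

theorem stdD_ncard : stdD.ncard = 56 := by
  have hinj : Function.Injective (fun c : GolayPt → ZMod 2 => oddMin none c) :=
    fun c c' h => (oddMin_inj h).2
  rw [stdD_eq, Set.ncard_image_of_injective _ hinj, Set.ncard_coe_finset, idxD_card]

theorem mclN_stdD (y : leechLattice) (hy : y ∈ mclN)
    (h8 : dotInt (mclX : GolayPt → ℤ) (y : GolayPt → ℤ) = 8) : (y : GolayPt → ℤ) ∈ stdD := by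
  obtain ⟨c1, c2, c3⟩ := mclN_coords y hy
  rw [dot_X] at h8
  exact ⟨y.2, hy.1.1, by omega, by omega, by omega, by omega⟩

/-- the vectors of even type among the 162, in coordinates -/
def stdG : Set (GolayPt → ℤ) :=
  {y | y ∈ leechLattice ∧ sqNorm y = 32 ∧ y none = 2 ∧ y (some 0) = 2 ∧ y (some 1) = 2 ∧
    ∑ i, y i = 0}

theorem mclN_stdG (y : leechLattice) (hy : y ∈ mclN)
    (h16 : dotInt (mclX : GolayPt → ℤ) (y : GolayPt → ℤ) = 16) :
    (y : GolayPt → ℤ) ∈ stdG := by
  obtain ⟨c1, c2, c3⟩ := mclN_coords y hy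
  rw [dot_X] at h16
  exact ⟨y.2, hy.1.1, by omega, by omega, by omega, by omega⟩

/-- the 56 vectors of inner product 8 with the fourth standard vector -/
theorem mclN_sub8 : {y : leechLattice | y ∈ mclN ∧
    dotInt (mclX : GolayPt → ℤ) (y : GolayPt → ℤ) = 8}.ncard = 56 := by
  rw [← Set.ncard_image_of_injective _ Subtype.val_injective]
  have e : Subtype.val '' {y : leechLattice | y ∈ mclN ∧
      dotInt (mclX : GolayPt → ℤ) (y : GolayPt → ℤ) = 8} = stdD := by
    ext y
    constructor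
    · rintro ⟨t, ⟨ht, t4⟩, rfl⟩
      exact mclN_stdD t ht t4
    · rintro ⟨hy, hn, c1, c2, c3, c4⟩
      have hm : (⟨y, hy⟩ : leechLattice) ∈ mclN :=
        mem_mclN_of ⟨y, hy⟩ hn (by show y none + y (some 0) = 4; omega)
          (by show y none + y (some 1) = 4; omega)
          (by show ∑ i, y i = 4 * y (some 1) - 8; omega) (by show y none ≠ 4; omega)
      refine ⟨⟨y, hy⟩, ⟨hm, ?_⟩, rfl⟩
      show dotInt (sgnVec 4 {some 0, some 1} ∅) y = 8
      rw [dot_X_raw]
      omega
  rw [e]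
  exact stdD_ncard

/-! ### permutations fixing the three base points -/

/-- the permutations of the code fixing three points are transitive on the octads through two
of them and not the third -/
theorem m24_fix3_gen (a b d : GolayPt) (hab : a ≠ b) (O O' : Finset GolayPt)
    (hO : O ∈ octads) (hO' : O' ∈ octads) (ha : a ∈ O) (hb : b ∈ O) (hd : d ∉ O)
    (ha' : a ∈ O') (hb' : b ∈ O') (hd' : d ∉ O') :
    ∃ σ ∈ M24, σ a = a ∧ σ b = b ∧ σ d = d ∧ σ • O' = O := by
  obtain ⟨x, hx0, hx1, hxm, hxi⟩ := five_with_pair O a b hab ha hb hO.2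
  obtain ⟨y, hy0, hy1, hym, hyi⟩ := five_with_pair O' a b hab ha' hb' hO'.2
  obtain ⟨g, hg, hgx⟩ := M24_trans 5 le_rfl x hxi
  obtain ⟨g', hg', hgy⟩ := M24_trans 5 le_rfl y hyi
  have hmem : g * g'⁻¹ ∈ M24 := M24.mul_mem hg (M24.inv_mem hg')
  have hmap : ∀ i < 5, (g * g'⁻¹) (y i) = x i := by
    intro i hi
    rw [Equiv.Perm.mul_apply, ← hgy i hi, perm_inv_apply, hgx i hi]
  have t1 : (g * g'⁻¹) a = a := by
    have h := hmap 0 (by norm_num)
    rw [hy0, hx0] at h
    exact h
  have t2 : (g * g'⁻¹) b = b := by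
    have h := hmap 1 (by norm_num)
    rw [hy1, hx1] at h
    exact h
  have t3 : (g * g'⁻¹) • O' = O := by
    apply octad_eq_of_inter (smul_mem_octads hmem hO') hO
    have hsub : Finset.image x (Finset.range 5) ⊆ (g * g'⁻¹) • O' ∩ O := by
      intro p hp
      obtain ⟨i, hi, rfl⟩ := Finset.mem_image.1 hp
      rw [Finset.mem_range] at hi
      rw [Finset.mem_inter]
      refine ⟨?_, hxm i hi⟩
      have hxe : x i = (g * g'⁻¹) • y i := (hmap i hi).symm
      rw [hxe]
      exact (Finset.smul_mem_smul_finset_iff _).2 (hym i hi)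
    have hcard : (Finset.image x (Finset.range 5)).card = 5 := by
      rw [Finset.card_image_of_injOn, Finset.card_range]
      intro i hi j hj h
      exact hxi i (Finset.mem_range.1 hi) j (Finset.mem_range.1 hj) h
    rw [← hcard]
    exact Finset.card_le_card hsub
  have hq : (g * g'⁻¹) d ∉ O := by
    intro hin
    rw [← t3] at hin
    have hsm : (g * g'⁻¹) d = (g * g'⁻¹) • d := rfl
    rw [hsm] at hin
    exact hd' ((Finset.smul_mem_smul_finset_iff (g * g'⁻¹)).1 hin)
  obtain ⟨s, hs, hsfix, hsq⟩ := octFix_trans O hO _ d hq hd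
  refine ⟨s * (g * g'⁻¹), M24.mul_mem hs hmem, ?_, ?_, ?_, ?_⟩
  · rw [Equiv.Perm.mul_apply, t1]
    exact hsfix a ha
  · rw [Equiv.Perm.mul_apply, t2]
    exact hsfix b hb
  · rw [Equiv.Perm.mul_apply]
    exact hsq
  · rw [mul_smul, t3]
    ext p
    constructor
    · intro hp
      obtain ⟨q, hq', hqp⟩ := Finset.mem_smul_finset.1 hp
      have e : s • q = q := hsfix q hq'
      rw [← hqp, e]
      exact hq'
    · intro hp
      exact Finset.mem_smul_finset.2 ⟨p, hp, hsfix p hp⟩

/-- transitivity on the vectors of odd type, in the standard frame -/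
theorem stdD_move (z z' : leechLattice) (hz : (z : GolayPt → ℤ) ∈ stdD)
    (hz' : (z' : GolayPt → ℤ) ∈ stdD) :
    ∃ σ : Equiv.Perm GolayPt, ∃ hσ : σ ∈ M24, σ none = none ∧ σ (some 0) = some 0 ∧
      σ (some 1) = some 1 ∧ (co0Perm σ hσ : Equiv.Perm leechLattice) z = z' := by
  obtain ⟨-, hn, k1, k2, k3, k4⟩ := hz
  obtain ⟨-, hn', k1', k2', k3', k4'⟩ := hz'
  obtain ⟨c, hc, h16, hcn, hc0, hc1, ez⟩ := oddD_class _ z.2 hn k1 k2 k3 k4
  obtain ⟨c', hc', h16', hcn', hc0', hc1', ez'⟩ := oddD_class _ z'.2 hn' k1' k2' k3' k4'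
  have m1 : some 0 ∈ (support₂ c)ᶜ := by
    rw [Finset.mem_compl, mem_support₂]
    exact not_not.2 hc0
  have m2 : some 1 ∈ (support₂ c)ᶜ := by
    rw [Finset.mem_compl, mem_support₂]
    exact not_not.2 hc1
  have m3 : none ∉ (support₂ c)ᶜ := by
    rw [Finset.mem_compl, mem_support₂]
    exact not_not.2 hcn
  have m1' : some 0 ∈ (support₂ c')ᶜ := by
    rw [Finset.mem_compl, mem_support₂]
    exact not_not.2 hc0'
  have m2' : some 1 ∈ (support₂ c')ᶜ := by
    rw [Finset.mem_compl, mem_support₂]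
    exact not_not.2 hc1'
  have m3' : none ∉ (support₂ c')ᶜ := by
    rw [Finset.mem_compl, mem_support₂]
    exact not_not.2 hcn'
  have hne01 : (some 0 : GolayPt) ≠ some 1 := by decide
  obtain ⟨σ, hσ, s2, s3, s1, s4⟩ := m24_fix3_gen (some 0) (some 1) none hne01 _ _
    (oct_compl c hc h16) (oct_compl c' hc' h16') m1 m2 m3 m1' m2' m3'
  refine ⟨σ, hσ, s1, s2, s3, ?_⟩
  apply Subtype.ext
  funext i
  rw [co0Perm_apply, ez, ez']
  by_cases hi : i = none
  · rw [hi, s1, oddMin_self, oddMin_self, if_neg hcn, if_neg hcn']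
  · have hσi : σ i ≠ none := fun h => hi (σ.injective (h.trans s1.symm))
    rw [oddMin_at none c (σ i) hσi, oddMin_at none c' i hi]
    have hiff : σ i ∈ support₂ c ↔ i ∈ support₂ c' := by
      have hcompl : σ i ∈ (support₂ c)ᶜ ↔ i ∈ (support₂ c')ᶜ := by
        rw [← s4]
        have hsm : σ i = σ • i := rfl
        rw [hsm]
        exact Finset.smul_mem_smul_finset_iff σ
      rw [Finset.mem_compl, Finset.mem_compl] at hcompl
      exact not_iff_not.1 hcompl
    rw [mem_support₂, mem_support₂] at hiff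
    by_cases hci : c (σ i) = 0
    · have hci' : c' i = 0 := by
        by_contra h
        exact (hiff.2 h) hci
      rw [if_pos hci, if_pos hci']
    · rw [if_neg hci, if_neg (hiff.1 hci)]

theorem octG_class (z : GolayPt → ℤ) (hz : z ∈ leechLattice) (hn : sqNorm z = 32)
    (h1 : z none = 2) (h2 : z (some 0) = 2) (h3 : z (some 1) = 2) (h4 : ∑ i, z i = 0) :
    ∃ O ∈ octads, ∃ V : Finset GolayPt, V ⊆ O ∧ V.card = 4 ∧ none ∈ O \ V ∧
      some 0 ∈ O \ V ∧ some 1 ∈ O \ V ∧ z = sgnVec 2 O V := by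
  rcases classify golayCode golayLike one_mem_golay (mem_leechSetOf.1 hz) hn with
    ⟨U, V, hVU, hU, rfl⟩ | ⟨c, hc, hc8, V, hV, hVe, rfl⟩ | ⟨p, c, hc, rfl⟩
  · exfalso
    rcases sgnVec_vals 4 U V none with h | h | h <;> rw [h] at h1 <;> norm_num at h1
  · have hcard : (support₂ c).card = 8 := by rw [← hammingNorm_eq_card, hc8]
    have hoct : support₂ c ∈ octads := ⟨⟨c, hc, rfl⟩, hcard⟩
    have hs := sgnVec_sum 2 hV
    rw [hs, hcard] at h4
    have hV4 : V.card = 4 := by
      push_cast at h4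
      omega
    have key : ∀ i : GolayPt, sgnVec 2 (support₂ c) V i = 2 → i ∈ support₂ c \ V := by
      intro i hi
      unfold sgnVec at hi
      rw [Finset.mem_sdiff]
      by_cases hiV : i ∈ V
      · rw [if_pos hiV] at hi
        norm_num at hi
      · rw [if_neg hiV] at hi
        by_cases hiU : i ∈ support₂ c
        · exact ⟨hiU, hiV⟩
        · rw [if_neg hiU] at hi
          norm_num at hi
    exact ⟨support₂ c, hoct, V, hV, hV4, key none h1, key (some 0) h2, key (some 1) h3, rfl⟩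
  · exfalso
    have hodd := oddMin_odd p c none
    rw [h1] at hodd
    norm_num at hodd

theorem plus_set (O V : Finset GolayPt) (hO : O.card = 8) (hVO : V ⊆ O) (hV4 : V.card = 4)
    (mn : none ∈ O \ V) (m0 : some 0 ∈ O \ V) (m1 : some 1 ∈ O \ V) :
    ∃ q r : GolayPt, r ∈ V ∧ q ≠ none ∧ q ≠ some 0 ∧ q ≠ some 1 ∧ q ∈ O ∧ q ∉ V ∧
      ∀ i, i ∈ O → i ∉ V → (i = none ∨ i = some 0 ∨ i = some 1 ∨ i = q) := by
  have hP : (O \ V).card = 4 := by
    rw [Finset.card_sdiff_of_subset hVO, hO, hV4]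
  have hsub : ({none, some 0, some 1} : Finset GolayPt) ⊆ O \ V := by
    intro i hi
    rw [Finset.mem_insert, Finset.mem_insert, Finset.mem_singleton] at hi
    rcases hi with rfl | rfl | rfl
    · exact mn
    · exact m0
    · exact m1
  have h3 : ({none, some 0, some 1} : Finset GolayPt).card = 3 := by decide
  have h1 : ((O \ V) \ {none, some 0, some 1}).card = 1 := by
    rw [Finset.card_sdiff_of_subset hsub, hP, h3]
  obtain ⟨q, hq⟩ := Finset.card_eq_one.1 h1
  have hqm : q ∈ (O \ V) \ {none, some 0, some 1} := by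
    rw [hq]
    exact Finset.mem_singleton_self q
  rw [Finset.mem_sdiff, Finset.mem_sdiff, Finset.mem_insert, Finset.mem_insert,
    Finset.mem_singleton] at hqm
  obtain ⟨⟨hqO, hqV⟩, hq3⟩ := hqm
  have hVne : V.Nonempty := Finset.card_pos.1 (by rw [hV4]; norm_num)
  obtain ⟨r, hr⟩ := hVne
  refine ⟨q, r, hr, fun h => hq3 (Or.inl h), fun h => hq3 (Or.inr (Or.inl h)),
    fun h => hq3 (Or.inr (Or.inr h)), hqO, hqV, ?_⟩
  intro i hiO hiV
  by_contra hcon
  have him : i ∈ (O \ V) \ {none, some 0, some 1} := by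
    rw [Finset.mem_sdiff, Finset.mem_sdiff, Finset.mem_insert, Finset.mem_insert,
      Finset.mem_singleton]
    refine ⟨⟨hiO, hiV⟩, ?_⟩
    rintro (h | h | h)
    · exact hcon (Or.inl h)
    · exact hcon (Or.inr (Or.inl h))
    · exact hcon (Or.inr (Or.inr (Or.inl h)))
  rw [hq, Finset.mem_singleton] at him
  exact hcon (Or.inr (Or.inr (Or.inr him)))

theorem three_fn (a b c : GolayPt) (hab : a ≠ b) (hac : a ≠ c) (hbc : b ≠ c) (i : ℕ)
    (hi : i < 3) (j : ℕ) (hj : j < 3)
    (hij : (if i = 0 then a else if i = 1 then b else c) =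
      (if j = 0 then a else if j = 1 then b else c)) : i = j := by
  interval_cases i <;> interval_cases j <;> simp_all

theorem five_fn (a b c d e : GolayPt) (hab : a ≠ b) (hac : a ≠ c) (had : a ≠ d) (hae : a ≠ e)
    (hbc : b ≠ c) (hbd : b ≠ d) (hbe : b ≠ e) (hcd : c ≠ d) (hce : c ≠ e) (hde : d ≠ e)
    (i : ℕ) (hi : i < 5) (j : ℕ) (hj : j < 5)
    (hij : (if i = 0 then a else if i = 1 then b else if i = 2 then c
        else if i = 3 then d else e) =
      (if j = 0 then a else if j = 1 then b else if j = 2 then c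
        else if j = 3 then d else e)) : i = j := by
  interval_cases i <;> interval_cases j <;> simp_all

/-- five-fold transitivity, for explicit points -/
theorem m24_five (a b c d e a' b' c' d' e' : GolayPt)
    (hab : a ≠ b) (hac : a ≠ c) (had : a ≠ d) (hae : a ≠ e)
    (hbc : b ≠ c) (hbd : b ≠ d) (hbe : b ≠ e) (hcd : c ≠ d) (hce : c ≠ e) (hde : d ≠ e)
    (hab' : a' ≠ b') (hac' : a' ≠ c') (had' : a' ≠ d') (hae' : a' ≠ e')
    (hbc' : b' ≠ c') (hbd' : b' ≠ d') (hbe' : b' ≠ e') (hcd' : c' ≠ d') (hce' : c' ≠ e')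
    (hde' : d' ≠ e') :
    ∃ σ ∈ M24, σ a = a' ∧ σ b = b' ∧ σ c = c' ∧ σ d = d' ∧ σ e = e' := by
  obtain ⟨g, hg, h⟩ := M24_trans' 5 le_rfl
    (fun i : ℕ => if i = 0 then a else if i = 1 then b else if i = 2 then c
      else if i = 3 then d else e)
    (fun i : ℕ => if i = 0 then a' else if i = 1 then b' else if i = 2 then c'
      else if i = 3 then d' else e')
    (five_fn a b c d e hab hac had hae hbc hbd hbe hcd hce hde)
    (five_fn a' b' c' d' e' hab' hac' had' hae' hbc' hbd' hbe' hcd' hce' hde')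
  exact ⟨g, hg, by simpa using h 0 (by norm_num), by simpa using h 1 (by norm_num),
    by simpa using h 2 (by norm_num), by simpa using h 3 (by norm_num),
    by simpa using h 4 (by norm_num)⟩

theorem card_five (a b c d e : GolayPt) (hab : a ≠ b) (hac : a ≠ c) (had : a ≠ d)
    (hae : a ≠ e) (hbc : b ≠ c) (hbd : b ≠ d) (hbe : b ≠ e) (hcd : c ≠ d) (hce : c ≠ e)
    (hde : d ≠ e) : ({a, b, c, d, e} : Finset GolayPt).card = 5 := by
  have h1 : a ∉ ({b, c, d, e} : Finset GolayPt) := by
    simp only [Finset.mem_insert, Finset.mem_singleton]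
    tauto
  have h2 : b ∉ ({c, d, e} : Finset GolayPt) := by
    simp only [Finset.mem_insert, Finset.mem_singleton]
    tauto
  have h3 : c ∉ ({d, e} : Finset GolayPt) := by
    simp only [Finset.mem_insert, Finset.mem_singleton]
    tauto
  rw [Finset.card_insert_of_notMem h1, Finset.card_insert_of_notMem h2,
    Finset.card_insert_of_notMem h3, Finset.card_pair hde]

/-- transitivity on the vectors of even type, in the standard frame -/
theorem stdG_move (z z' : leechLattice) (hz : (z : GolayPt → ℤ) ∈ stdG)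
    (hz' : (z' : GolayPt → ℤ) ∈ stdG) :
    ∃ σ : Equiv.Perm GolayPt, ∃ hσ : σ ∈ M24, σ none = none ∧ σ (some 0) = some 0 ∧
      σ (some 1) = some 1 ∧ (co0Perm σ hσ : Equiv.Perm leechLattice) z = z' := by
  obtain ⟨-, hn, k1, k2, k3, k4⟩ := hz
  obtain ⟨-, hn', k1', k2', k3', k4'⟩ := hz'
  obtain ⟨O, hO, V, hVO, hV4, mn, m0, m1, ez⟩ := octG_class _ z.2 hn k1 k2 k3 k4
  obtain ⟨O', hO', V', hVO', hV4', mn', m0', m1', ez'⟩ :=
    octG_class _ z'.2 hn' k1' k2' k3' k4'
  obtain ⟨q, r, hrV, hq1, hq2, hq3, hqO, hqV, hall⟩ := plus_set O V hO.2 hVO hV4 mn m0 m1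
  obtain ⟨q', r', hrV', hq1', hq2', hq3', hqO', hqV', hall'⟩ :=
    plus_set O' V' hO'.2 hVO' hV4' mn' m0' m1'
  have hrO : r ∈ O := hVO hrV
  have hrO' : r' ∈ O' := hVO' hrV'
  have hrq : q ≠ r := fun h => hqV (h ▸ hrV)
  have hr1 : none ≠ r := fun h => (Finset.mem_sdiff.1 mn).2 (h ▸ hrV)
  have hr2 : some 0 ≠ r := fun h => (Finset.mem_sdiff.1 m0).2 (h ▸ hrV)
  have hr3 : some 1 ≠ r := fun h => (Finset.mem_sdiff.1 m1).2 (h ▸ hrV)
  have hrq' : q' ≠ r' := fun h => hqV' (h ▸ hrV')
  have hr1' : none ≠ r' := fun h => (Finset.mem_sdiff.1 mn').2 (h ▸ hrV')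
  have hr2' : some 0 ≠ r' := fun h => (Finset.mem_sdiff.1 m0').2 (h ▸ hrV')
  have hr3' : some 1 ≠ r' := fun h => (Finset.mem_sdiff.1 m1').2 (h ▸ hrV')
  have hn0 : (none : GolayPt) ≠ some 0 := by decide
  have hn1 : (none : GolayPt) ≠ some 1 := by decide
  have h01 : (some 0 : GolayPt) ≠ some 1 := by decide
  obtain ⟨σ, hσ, s1, s2, s3, s4, s5⟩ := m24_five none (some 0) (some 1) q' r'
    none (some 0) (some 1) q r
    hn0 hn1 hq1'.symm hr1' h01 hq2'.symm hr2' hq3'.symm hr3' hrq'
    hn0 hn1 hq1.symm hr1 h01 hq2.symm hr2 hq3.symm hr3 hrq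
  have hin : ∀ p p' : GolayPt, σ p' = p → p' ∈ O' → p ∈ σ • O' := by
    intro p p' hpp hp'
    rw [← hpp]
    have hsm : σ p' = σ • p' := rfl
    rw [hsm]
    exact (Finset.smul_mem_smul_finset_iff σ).2 hp'
  have t3 : σ • O' = O := by
    apply octad_eq_of_inter (smul_mem_octads hσ hO') hO
    have hsub : ({none, some 0, some 1, q, r} : Finset GolayPt) ⊆ σ • O' ∩ O := by
      intro p hp
      rw [Finset.mem_insert, Finset.mem_insert, Finset.mem_insert, Finset.mem_insert,
        Finset.mem_singleton] at hp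
      rw [Finset.mem_inter]
      rcases hp with h | h | h | h | h
      · rw [h]
        exact ⟨hin _ _ s1 (Finset.mem_sdiff.1 mn').1, (Finset.mem_sdiff.1 mn).1⟩
      · rw [h]
        exact ⟨hin _ _ s2 (Finset.mem_sdiff.1 m0').1, (Finset.mem_sdiff.1 m0).1⟩
      · rw [h]
        exact ⟨hin _ _ s3 (Finset.mem_sdiff.1 m1').1, (Finset.mem_sdiff.1 m1).1⟩
      · rw [h]
        exact ⟨hin _ _ s4 hqO', hqO⟩
      · rw [h]
        exact ⟨hin _ _ s5 hrO', hrO⟩
    rw [← card_five none (some 0) (some 1) q r hn0 hn1 hq1.symm hr1 h01 hq2.symm hr2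
      hq3.symm hr3 hrq]
    exact Finset.card_le_card hsub
  refine ⟨σ, hσ, s1, s2, s3, ?_⟩
  apply Subtype.ext
  funext i
  rw [co0Perm_apply, ez, ez']
  have hO_iff : σ i ∈ O ↔ i ∈ O' := by
    rw [← t3]
    have hsm : σ i = σ • i := rfl
    rw [hsm]
    exact Finset.smul_mem_smul_finset_iff σ
  have hV_iff : σ i ∈ V ↔ i ∈ V' := by
    constructor
    · intro h
      by_contra hiV'
      have hiO' : i ∈ O' := hO_iff.1 (hVO h)
      rcases hall' i hiO' hiV' with e | e | e | e
      · rw [e, s1] at h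
        exact (Finset.mem_sdiff.1 mn).2 h
      · rw [e, s2] at h
        exact (Finset.mem_sdiff.1 m0).2 h
      · rw [e, s3] at h
        exact (Finset.mem_sdiff.1 m1).2 h
      · rw [e, s4] at h
        exact hqV h
    · intro h
      by_contra hiV
      have hiO : σ i ∈ O := hO_iff.2 (hVO' h)
      rcases hall (σ i) hiO hiV with e | e | e | e
      · have e' : i = none := σ.injective (e.trans s1.symm)
        rw [e'] at h
        exact (Finset.mem_sdiff.1 mn').2 h
      · have e' : i = some 0 := σ.injective (e.trans s2.symm)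
        rw [e'] at h
        exact (Finset.mem_sdiff.1 m0').2 h
      · have e' : i = some 1 := σ.injective (e.trans s3.symm)
        rw [e'] at h
        exact (Finset.mem_sdiff.1 m1').2 h
      · have e' : i = q' := σ.injective (e.trans s4.symm)
        rw [e'] at h
        exact hqV' h
  unfold sgnVec
  by_cases hiV : i ∈ V'
  · rw [if_pos (hV_iff.2 hiV), if_pos hiV]
  · rw [if_neg (fun h => hiV (hV_iff.1 h)), if_neg hiV]
    by_cases hiO : i ∈ O'
    · rw [if_pos (hO_iff.2 hiO), if_pos hiO]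
    · rw [if_neg (fun h => hiO (hO_iff.1 h)), if_neg hiO]

theorem perm_fix_X (σ : Equiv.Perm GolayPt) (hσ : σ ∈ M24) (e1 : σ (some 0) = some 0)
    (e2 : σ (some 1) = some 1) :
    (co0Perm σ hσ : Equiv.Perm leechLattice) mclX = mclX := by
  apply Subtype.ext
  funext i
  rw [co0Perm_apply]
  show sgnVec 4 {some 0, some 1} ∅ (σ i) = sgnVec 4 {some 0, some 1} ∅ i
  have hiff : σ i ∈ ({some 0, some 1} : Finset GolayPt) ↔
      i ∈ ({some 0, some 1} : Finset GolayPt) := by
    rw [Finset.mem_insert, Finset.mem_singleton, Finset.mem_insert, Finset.mem_singleton]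
    constructor
    · rintro (h | h)
      · exact Or.inl (σ.injective (h.trans e1.symm))
      · exact Or.inr (σ.injective (h.trans e2.symm))
    · rintro (h | h)
      · rw [h]
        exact Or.inl e1
      · rw [h]
        exact Or.inr e2
  unfold sgnVec
  by_cases hi : i ∈ ({some 0, some 1} : Finset GolayPt)
  · rw [if_neg (Finset.notMem_empty (σ i)), if_pos (hiff.2 hi),
      if_neg (Finset.notMem_empty i), if_pos hi]
  · rw [if_neg (Finset.notMem_empty (σ i)), if_neg (fun h => hi (hiff.1 h)),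
      if_neg (Finset.notMem_empty i), if_neg hi]

/-! ### the groups -/

theorem mem_frame_of (g : Co0) (hu : g • mclU1 = mclU1) (hv : g • mclV = mclV) :
    (g : Perm leechLattice) ∈ hsK mclV mclW1 := by
  have hu' : (g : Perm leechLattice) mclU1 = mclU1 := hu
  have hv' : (g : Perm leechLattice) mclV = mclV := hv
  refine (mem_hsK _ _ _).2 ⟨g.2, hv', ?_⟩
  have h := co0_map_sub g mclU1 mclV
  rw [hu', hv', mclU1_sub] at h
  exact h

theorem mclG_inv (k : Perm leechLattice) (hk : k ∈ hsK mclV mclW1) (a : leechLattice)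
    (ha : a ∈ mclSet mclU1 mclV 16) : k a ∈ mclSet mclU1 mclV 16 := by
  obtain ⟨hkC, hkv, hkw⟩ := (mem_hsK _ _ _).1 hk
  refine mem_mcl_of mclU1 mclV _ mclU1_norm ((hkC.2 a).trans ha.1) ?_ ?_
  · have hd := co0_dot k hkC mclV a
    rw [hkv] at hd
    exact hd.trans ha.2.2
  · rw [mclU1_sub]
    have hd := co0_dot k hkC mclW1 a
    rw [hkw] at hd
    have hg := mcl_gram mclU1 mclV a mclU1_norm ha
    rw [mclU1_sub] at hg
    exact hd.trans hg

theorem mclH_inv (k : Perm leechLattice)
    (hk : k ∈ hsK mclV mclW1 ⊓ MulAction.stabilizer (Perm leechLattice) mclX1)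
    (a : leechLattice) (ha : a ∈ mclN) : k a ∈ mclN := by
  obtain ⟨hk1, hk2⟩ := Subgroup.mem_inf.1 hk
  have hkx : k mclX1 = mclX1 := hk2
  have hkC : k ∈ Co0 := ((mem_hsK _ _ _).1 hk1).1
  refine ⟨mclG_inv k hk1 a ha.1, ?_, ?_⟩
  · intro h
    apply ha.2.1
    apply k.injective
    rw [h, hkx]
  · have hd := co0_dot k hkC mclX1 a
    rw [hkx] at hd
    exact hd.trans ha.2.2

theorem mclG_trans (a b : leechLattice) (ha : a ∈ mclSet mclU1 mclV 16)
    (hb : b ∈ mclSet mclU1 mclV 16) : ∃ k ∈ hsK mclV mclW1, k a = b := by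
  obtain ⟨g, e1, e2, e3⟩ := mcl_trans mclU1 mclV a b mclU1_norm mclV_ok ha hb
  exact ⟨(g : Perm leechLattice), mem_frame_of g e1 e2, e3⟩

theorem mclG_rank (x a b : leechLattice) (hx : x ∈ mclSet mclU1 mclV 16)
    (ha : a ∈ mclSet mclU1 mclV 16) (hb : b ∈ mclSet mclU1 mclV 16) (hax : a ≠ x)
    (hbx : b ≠ x)
    (heq : dotInt (x : GolayPt → ℤ) (a : GolayPt → ℤ) =
      dotInt (x : GolayPt → ℤ) (b : GolayPt → ℤ)) :
    ∃ k ∈ hsK mclV mclW1, k x = x ∧ k a = b := by
  obtain ⟨g, e1, e2, e3, e4⟩ := mcl_rank_trans mclU1 mclV x a b mclU1_norm mclV_ok hx ha hb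
    hax hbx heq
  exact ⟨(g : Perm leechLattice), mem_frame_of g e1 e2, e3, e4⟩

theorem mclH_trans (a : leechLattice) (ha : a ∈ mclN) :
    ∃ k ∈ hsK mclV mclW1 ⊓ MulAction.stabilizer (Perm leechLattice) mclX1, k mclX = a := by
  obtain ⟨k, hk, e1, e2⟩ := mclG_rank mclX1 mclX a mclX1_mem mclX_mem ha.1 mclX_ne ha.2.1
    (mclX1X.trans ha.2.2.symm)
  exact ⟨k, Subgroup.mem_inf.2 ⟨hk, MulAction.mem_stabilizer_iff.2 e1⟩, e2⟩

theorem mclH_rank (a b : leechLattice) (ha : a ∈ mclN) (hb : b ∈ mclN) (hax : a ≠ mclX)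
    (hbx : b ≠ mclX)
    (heq : dotInt (mclX : GolayPt → ℤ) (a : GolayPt → ℤ) =
      dotInt (mclX : GolayPt → ℤ) (b : GolayPt → ℤ)) :
    ∃ k ∈ hsK mclV mclW1 ⊓ MulAction.stabilizer (Perm leechLattice) mclX1,
      k mclX = mclX ∧ k a = b := by
  have key : ∀ (σ : Equiv.Perm GolayPt) (hσ : σ ∈ M24), σ none = none → σ (some 0) = some 0 →
      σ (some 1) = some 1 → (co0Perm σ hσ : Perm leechLattice) a = b →
      ∃ k ∈ hsK mclV mclW1 ⊓ MulAction.stabilizer (Perm leechLattice) mclX1,
        k mclX = mclX ∧ k a = b := by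
    intro σ hσ s1 s2 s3 hab
    exact ⟨(co0Perm σ hσ : Perm leechLattice),
      Subgroup.mem_inf.2 ⟨(mem_hsK _ _ _).2 ⟨(co0Perm σ hσ).2, perm_fix_mclV σ hσ s1 s2,
        perm_fix_W1 σ hσ s3⟩, MulAction.mem_stabilizer_iff.2 (perm_fix_X1 σ hσ s1 s3)⟩,
      perm_fix_X σ hσ s2 s3, hab⟩
  rcases mcl_dich mclU1 mclV mclX a mclU1_norm mclV_ok mclX_mem ha.1 hax with h8 | h16
  · have h8' : dotInt (mclX : GolayPt → ℤ) (b : GolayPt → ℤ) = 8 := by
      rw [← heq]
      exact h8
    obtain ⟨σ, hσ, s1, s2, s3, hab⟩ := stdD_move a b (mclN_stdD a ha h8) (mclN_stdD b hb h8')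
    exact key σ hσ s1 s2 s3 hab
  · have h16' : dotInt (mclX : GolayPt → ℤ) (b : GolayPt → ℤ) = 16 := by
      rw [← heq]
      exact h16
    obtain ⟨σ, hσ, s1, s2, s3, hab⟩ :=
      stdG_move a b (mclN_stdG a ha h16) (mclN_stdG b hb h16')
    exact key σ hσ s1 s2 s3 hab

theorem mclH_card :
    Nat.card ↥(hsK mclV mclW1 ⊓ MulAction.stabilizer (Perm leechLattice) mclX1) =
      3265920 := by
  have h275 := mcl_count mclU1 mclV mclU1_norm mclV_ok
  have hfin : (mclSet mclU1 mclV 16).Finite :=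
    Set.finite_of_ncard_ne_zero (by rw [h275]; norm_num)
  have hc : hfin.toFinset.card = 275 := by
    rw [← Set.ncard_eq_toFinset_card _ hfin]
    exact h275
  have e := card_eq_orbit_mul_stab (G := Perm leechLattice) (hsK mclV mclW1) mclX1
    hfin.toFinset
    (by
      intro g hg
      rw [Set.Finite.mem_toFinset]
      exact mclG_inv g hg mclX1 mclX1_mem)
    (by
      intro δ hδ
      rw [Set.Finite.mem_toFinset] at hδ
      exact mclG_trans mclX1 δ mclX1_mem hδ)
  rw [hc, mclK_card mclV mclW1 mclV_norm mclW1_norm mclVW1] at e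
  omega

theorem mclL_card :
    Nat.card ↥(hsK mclV mclW1 ⊓ MulAction.stabilizer (Perm leechLattice) mclX1 ⊓
      MulAction.stabilizer (Perm leechLattice) mclX) = 20160 := by
  have h162 := mclN_ncard
  have hfin : mclN.Finite := Set.finite_of_ncard_ne_zero (by rw [h162]; norm_num)
  have hc : hfin.toFinset.card = 162 := by
    rw [← Set.ncard_eq_toFinset_card _ hfin]
    exact h162
  have e := card_eq_orbit_mul_stab (G := Perm leechLattice)
    (hsK mclV mclW1 ⊓ MulAction.stabilizer (Perm leechLattice) mclX1) mclX hfin.toFinset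
    (by
      intro g hg
      rw [Set.Finite.mem_toFinset]
      exact mclH_inv g hg mclX mclX_memN)
    (by
      intro δ hδ
      rw [Set.Finite.mem_toFinset] at hδ
      exact mclH_trans δ hδ)
  rw [hc, mclH_card] at e
  omega

/-! ### the stabiliser of the fourth vector -/

/-- the permutations of the code fixing the three base points -/
def m21P : Subgroup (Perm GolayPt) :=
  m22P ⊓ MulAction.stabilizer (Perm GolayPt) (some 1 : GolayPt)

theorem m21P_le : m21P ≤ M24 := fun _ h => m22P_le h.1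

theorem m21P_card : Nat.card ↥m21P = 20160 := by
  have hne1 : (some 1 : GolayPt) ≠ none := by decide
  have hne2 : (some 1 : GolayPt) ≠ some 0 := by decide
  have e := card_eq_orbit_mul_stab (G := Perm GolayPt) m22P (some 1 : GolayPt)
    (Finset.univ.filter (fun p : GolayPt => p ≠ none ∧ p ≠ some 0))
    (by
      intro g hg
      rw [Finset.mem_filter]
      refine ⟨Finset.mem_univ _, ?_, ?_⟩
      · intro h
        have h1 : g none = none := hg.1.2
        have h2 : g (some 1) = none := h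
        exact hne1 (g.injective (h2.trans h1.symm))
      · intro h
        have h1 : g (some 0) = some 0 := hg.2
        have h2 : g (some 1) = some 0 := h
        exact hne2 (g.injective (h2.trans h1.symm)))
    (by
      intro δ hδ
      rw [Finset.mem_filter] at hδ
      obtain ⟨σ, hσ, s1, s2, s3⟩ := m24_fix2 δ (some 1) hδ.2.1 hδ.2.2 hne1 hne2
      exact ⟨σ, Subgroup.mem_inf.2 ⟨Subgroup.mem_inf.2 ⟨hσ, s1⟩, s2⟩, s3⟩)
  rw [pts22, m22P_card] at e
  unfold m21P
  omega

theorem m21P_simple : SimpleIn m21P := by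
  have hn0 : (none : GolayPt) ≠ some 0 := by decide
  have hn1 : (none : GolayPt) ≠ some 1 := by decide
  have h01 : (some 0 : GolayPt) ≠ some 1 := by decide
  obtain ⟨c, hc, hcx⟩ := M24_trans 3 (by norm_num)
    (fun i : ℕ => if i = 0 then (none : GolayPt) else if i = 1 then some 0 else some 1)
    (three_fn none (some 0) (some 1) hn0 hn1 h01)
  have h0 : c (gPt 0) = none := by simpa using hcx 0 (by norm_num)
  have h1 : c (gPt 1) = some 0 := by simpa using hcx 1 (by norm_num)
  have h2 : c (gPt 2) = some 1 := by simpa using hcx 2 (by norm_num)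
  have e7 : gSub [] 7 = M24 ⊓ MulAction.stabilizer (Perm GolayPt) (gPt 0) ⊓
      MulAction.stabilizer (Perm GolayPt) (gPt 1) ⊓
      MulAction.stabilizer (Perm GolayPt) (gPt 2) := by
    have h := gSub_inf_stab [] 3 2 (by norm_num)
    rw [show Nat.lor 3 (Nat.shiftLeft 1 2) = 7 from by decide, gSub_nil_3] at h
    exact h.symm
  refine M21_simpleIn.conj c ?_
  intro k
  rw [e7]
  unfold m21P m22P
  simp only [Subgroup.mem_inf]
  rw [conj_mem_iff M24 hc, conj_mem_stab_iff, conj_mem_stab_iff, conj_mem_stab_iff,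
    Perm.smul_def, Perm.smul_def, Perm.smul_def, h0, h1, h2]

theorem m21Hom_injective :
    Function.Injective (permHom.comp (Subgroup.inclusion m21P_le)) :=
  permHom_injective.comp (Subgroup.inclusion_injective m21P_le)

theorem mclL_eq :
    hsK mclV mclW1 ⊓ MulAction.stabilizer (Perm leechLattice) mclX1 ⊓
      MulAction.stabilizer (Perm leechLattice) mclX =
      (permHom.comp (Subgroup.inclusion m21P_le)).range := by
  symm
  haveI := co0_finite
  haveI : Finite ↥(hsK mclV mclW1 ⊓ MulAction.stabilizer (Perm leechLattice) mclX1 ⊓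
      MulAction.stabilizer (Perm leechLattice) mclX) :=
    Finite.of_injective
      (Subgroup.inclusion (show hsK mclV mclW1 ⊓
        MulAction.stabilizer (Perm leechLattice) mclX1 ⊓
        MulAction.stabilizer (Perm leechLattice) mclX ≤ Co0 from fun k hk => hk.1.1.1.1))
      (Subgroup.inclusion_injective _)
  apply Subgroup.eq_of_le_of_card_ge
  · rintro _ ⟨σ, rfl⟩
    have hσ := σ.2
    have hσ1 : σ.1 none = none := hσ.1.1.2
    have hσ2 : σ.1 (some 0) = some 0 := hσ.1.2
    have hσ3 : σ.1 (some 1) = some 1 := hσ.2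
    have e1 : σ.1⁻¹ none = none := by
      rw [Perm.inv_eq_iff_eq, hσ1]
    have e2 : σ.1⁻¹ (some 0) = some 0 := by
      rw [Perm.inv_eq_iff_eq, hσ2]
    have e3 : σ.1⁻¹ (some 1) = some 1 := by
      rw [Perm.inv_eq_iff_eq, hσ3]
    show ((co0Perm σ.1⁻¹ (M24.inv_mem (m21P_le σ.2)) : Co0) : Perm leechLattice) ∈
      hsK mclV mclW1 ⊓ MulAction.stabilizer (Perm leechLattice) mclX1 ⊓
        MulAction.stabilizer (Perm leechLattice) mclX
    exact Subgroup.mem_inf.2 ⟨Subgroup.mem_inf.2 ⟨(mem_hsK _ _ _).2 ⟨(co0Perm _ _).2,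
      perm_fix_mclV _ _ e1 e2, perm_fix_W1 _ _ e3⟩,
      MulAction.mem_stabilizer_iff.2 (perm_fix_X1 _ _ e1 e3)⟩,
      MulAction.mem_stabilizer_iff.2 (perm_fix_X _ _ e2 e3)⟩
  · rw [mclL_card, ← Nat.card_congr (MonoidHom.ofInjective m21Hom_injective).toEquiv,
      m21P_card]

theorem mclL_simple :
    SimpleIn (hsK mclV mclW1 ⊓ MulAction.stabilizer (Perm leechLattice) mclX1 ⊓
      MulAction.stabilizer (Perm leechLattice) mclX) := by
  rw [mclL_eq]
  haveI : IsSimpleGroup ↥m21P := isSimpleGroup_of_simpleIn m21P m21P_simple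
  haveI : IsSimpleGroup ↥(permHom.comp (Subgroup.inclusion m21P_le)).range :=
    (MonoidHom.ofInjective m21Hom_injective).symm.isSimpleGroup
  exact simpleIn_of_isSimpleGroup _

/-! ### the two applications of the criterion -/

/-- the rank three criterion for a set of minimal vectors, the two orbits of the point
stabiliser being told apart by the inner product with the base vector -/
theorem simpleIn_dots (K : Subgroup (Perm leechLattice)) (S : Set leechLattice)
    (x : leechLattice) (n d : ℕ) (hS : S.ncard = n) (hn0 : n ≠ 0) (hxS : x ∈ S)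
    (hxn : sqNorm (x : GolayPt → ℤ) = 32)
    (hSinv : ∀ k ∈ K, ∀ a ∈ S, k a ∈ S)
    (htr : ∀ a ∈ S, ∃ k ∈ K, k x = a)
    (hdich : ∀ a ∈ S, a ≠ x → dotInt (x : GolayPt → ℤ) (a : GolayPt → ℤ) = 8 ∨
      dotInt (x : GolayPt → ℤ) (a : GolayPt → ℤ) = 16)
    (hd : {y : leechLattice | y ∈ S ∧
      dotInt (x : GolayPt → ℤ) (y : GolayPt → ℤ) = 8}.ncard = d)
    (hrank : ∀ a ∈ S, ∀ b ∈ S, a ≠ x → b ≠ x →
      dotInt (x : GolayPt → ℤ) (a : GolayPt → ℤ) =
        dotInt (x : GolayPt → ℤ) (b : GolayPt → ℤ) → ∃ k ∈ K, k x = x ∧ k a = b)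
    (hd1 : 1 < d) (hnd1 : ¬ (1 + d ∣ n)) (hnd2 : ¬ (n - d ∣ n))
    (p e m : ℕ) (hp : p.Prime) (hn : n = p ^ e * m) (hpm : ¬ p ∣ m)
    (hsyl : ∀ t, t ∣ m → Nat.ModEq p t 1 → t = 1)
    (hne1 : p ^ e ≠ 1) (hne2 : p ^ e ≠ 1 + d) (hne3 : p ^ e ≠ n - d) (hne4 : p ^ e ≠ n)
    (hstab : SimpleIn (K ⊓ MulAction.stabilizer (Perm leechLattice) x)) : SimpleIn K := by
  classical
  have hfin : S.Finite := Set.finite_of_ncard_ne_zero (by rw [hS]; exact hn0)
  have hmemS : ∀ a, a ∈ hfin.toFinset ↔ a ∈ S := fun a => Set.Finite.mem_toFinset hfin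
  have hScard : hfin.toFinset.card = n := by
    rw [← Set.ncard_eq_toFinset_card _ hfin]
    exact hS
  have hself : dotInt (x : GolayPt → ℤ) (x : GolayPt → ℤ) = 32 := by
    rw [dot_self]
    exact hxn
  have hΔ : (hfin.toFinset.filter
      (fun y : leechLattice => dotInt (x : GolayPt → ℤ) (y : GolayPt → ℤ) = 8)).card = d := by
    rw [← Set.ncard_coe_finset]
    have hset : ((hfin.toFinset.filter
        (fun y : leechLattice => dotInt (x : GolayPt → ℤ) (y : GolayPt → ℤ) = 8) :
          Finset leechLattice) : Set leechLattice) =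
        {y : leechLattice | y ∈ S ∧
          dotInt (x : GolayPt → ℤ) (y : GolayPt → ℤ) = 8} := by
      ext y
      exact ⟨fun h => ⟨(hmemS y).1 (Finset.mem_filter.1 (Finset.mem_coe.1 h)).1,
        (Finset.mem_filter.1 (Finset.mem_coe.1 h)).2⟩,
        fun h => Finset.mem_coe.2 (Finset.mem_filter.2 ⟨(hmemS y).2 h.1, h.2⟩)⟩
    rw [hset]
    exact hd
  have hsplit : hfin.toFinset = insert x
      (hfin.toFinset.filter
        (fun y : leechLattice => dotInt (x : GolayPt → ℤ) (y : GolayPt → ℤ) = 8) ∪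
      hfin.toFinset.filter
        (fun y : leechLattice => y ≠ x ∧
          dotInt (x : GolayPt → ℤ) (y : GolayPt → ℤ) ≠ 8)) := by
    ext y
    simp only [Finset.mem_insert, Finset.mem_union, Finset.mem_filter]
    constructor
    · intro hy
      by_cases h1 : y = x
      · exact Or.inl h1
      · by_cases h2 : dotInt (x : GolayPt → ℤ) (y : GolayPt → ℤ) = 8
        · exact Or.inr (Or.inl ⟨hy, h2⟩)
        · exact Or.inr (Or.inr ⟨hy, h1, h2⟩)
    · rintro (h | h | h)
      · rw [h]
        exact (hmemS _).2 hxS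
      · exact h.1
      · exact h.1
  have hxΔ : x ∉ hfin.toFinset.filter
      (fun y : leechLattice => dotInt (x : GolayPt → ℤ) (y : GolayPt → ℤ) = 8) := by
    intro h
    have h8 := (Finset.mem_filter.1 h).2
    rw [hself] at h8
    norm_num at h8
  have hxΓ : x ∉ hfin.toFinset.filter
      (fun y : leechLattice => y ≠ x ∧
        dotInt (x : GolayPt → ℤ) (y : GolayPt → ℤ) ≠ 8) := by
    intro h
    exact (Finset.mem_filter.1 h).2.1 rfl
  have hdisj : Disjoint (hfin.toFinset.filter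
      (fun y : leechLattice => dotInt (x : GolayPt → ℤ) (y : GolayPt → ℤ) = 8))
      (hfin.toFinset.filter
        (fun y : leechLattice => y ≠ x ∧
          dotInt (x : GolayPt → ℤ) (y : GolayPt → ℤ) ≠ 8)) := by
    rw [Finset.disjoint_left]
    intro y h1 h2
    exact (Finset.mem_filter.1 h2).2.2 (Finset.mem_filter.1 h1).2
  have hΓ : (hfin.toFinset.filter
      (fun y : leechLattice => y ≠ x ∧
        dotInt (x : GolayPt → ℤ) (y : GolayPt → ℤ) ≠ 8)).card = n - 1 - d ∧ d + 1 ≤ n := by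
    have hx : x ∉ hfin.toFinset.filter
        (fun y : leechLattice => dotInt (x : GolayPt → ℤ) (y : GolayPt → ℤ) = 8) ∪
        hfin.toFinset.filter
          (fun y : leechLattice => y ≠ x ∧
            dotInt (x : GolayPt → ℤ) (y : GolayPt → ℤ) ≠ 8) := by
      rw [Finset.mem_union]
      tauto
    have h := congrArg Finset.card hsplit
    rw [Finset.card_insert_of_notMem hx, Finset.card_union_of_disjoint hdisj, hΔ, hScard] at h
    constructor <;> omega
  obtain ⟨hΓ, hdn⟩ := hΓ
  have earith : 1 + (n - 1 - d) = n - d := by omega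
  refine simpleIn_rank3g K hfin.toFinset
    (hfin.toFinset.filter
      (fun y : leechLattice => dotInt (x : GolayPt → ℤ) (y : GolayPt → ℤ) = 8))
    (hfin.toFinset.filter
      (fun y : leechLattice => y ≠ x ∧
        dotInt (x : GolayPt → ℤ) (y : GolayPt → ℤ) ≠ 8)) x
    ?_ ?_ hsplit hxΔ hxΓ hdisj ?_ ?_ (by rw [hΔ]; exact hd1) (by rw [hΔ, hScard]; exact hnd1)
    (by rw [hΓ, hScard, earith]; exact hnd2) p e m hp (by rw [hScard]; exact hn) hpm hsyl hne1
    (by rw [hΔ]; exact hne2) (by rw [hΓ, earith]; exact hne3) (by rw [hScard]; exact hne4)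
    hstab
  · intro k hk a ha
    exact (hmemS _).2 (hSinv k hk a ((hmemS a).1 ha))
  · intro a ha
    exact htr a ((hmemS a).1 ha)
  · intro a ha b hb
    rw [Finset.mem_filter] at ha hb
    have hane : a ≠ x := by
      intro h
      have h8 := ha.2
      rw [h, hself] at h8
      norm_num at h8
    have hbne : b ≠ x := by
      intro h
      have h8 := hb.2
      rw [h, hself] at h8
      norm_num at h8
    exact hrank a ((hmemS a).1 ha.1) b ((hmemS b).1 hb.1) hane hbne (ha.2.trans hb.2.symm)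
  · intro a ha b hb
    rw [Finset.mem_filter] at ha hb
    have ha16 : dotInt (x : GolayPt → ℤ) (a : GolayPt → ℤ) = 16 := by
      rcases hdich a ((hmemS a).1 ha.1) ha.2.1 with h | h
      · exact absurd h ha.2.2
      · exact h
    have hb16 : dotInt (x : GolayPt → ℤ) (b : GolayPt → ℤ) = 16 := by
      rcases hdich b ((hmemS b).1 hb.1) hb.2.1 with h | h
      · exact absurd h hb.2.2
      · exact h
    exact hrank a ((hmemS a).1 ha.1) b ((hmemS b).1 hb.1) ha.2.1 hb.2.1
      (ha16.trans hb16.symm)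

/-- the stabiliser of the third standard vector is simple -/
theorem mclH_simple :
    SimpleIn (hsK mclV mclW1 ⊓ MulAction.stabilizer (Perm leechLattice) mclX1) := by
  refine simpleIn_dots (hsK mclV mclW1 ⊓ MulAction.stabilizer (Perm leechLattice) mclX1)
    mclN mclX 162 56 mclN_ncard (by norm_num) mclX_memN mclX_norm mclH_inv mclH_trans ?_
    mclN_sub8 ?_ (by norm_num) (by norm_num) (by norm_num) 3 4 2 (by norm_num) (by norm_num)
    (by norm_num) ?_ (by norm_num) (by norm_num) (by norm_num) (by norm_num) mclL_simple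
  · intro a ha hax
    exact mcl_dich mclU1 mclV mclX a mclU1_norm mclV_ok mclX_mem ha.1 hax
  · intro a ha b hb hax hbx heq
    exact mclH_rank a b ha hb hax hbx heq
  · intro t ht hmod
    have hmod' : t % 3 = 1 % 3 := hmod
    have hle := Nat.le_of_dvd (by norm_num) ht
    interval_cases t <;> omega

/-- simplicity in the standard frame -/
theorem mclG_simple : SimpleIn (hsK mclV mclW1) := by
  refine simpleIn_dots (hsK mclV mclW1) (mclSet mclU1 mclV 16) mclX1 275 112
    (mcl_count mclU1 mclV mclU1_norm mclV_ok) (by norm_num) mclX1_mem mclX1_norm mclG_inv ?_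
    ?_ (mcl_sub8 mclU1 mclV mclX1 mclU1_norm mclV_ok mclX1_mem) ?_ (by norm_num)
    (by norm_num) (by norm_num) 11 1 25 (by norm_num) (by norm_num) (by norm_num) ?_
    (by norm_num) (by norm_num) (by norm_num) (by norm_num) mclH_simple
  · intro a ha
    exact mclG_trans mclX1 a mclX1_mem ha
  · intro a ha hax
    exact mcl_dich mclU1 mclV mclX1 a mclU1_norm mclV_ok mclX1_mem ha hax
  · intro a ha b hb hax hbx heq
    exact mclG_rank mclX1 a b mclX1_mem ha hb hax hbx heq
  · intro t ht hmod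
    have hmod' : t % 11 = 1 % 11 := hmod
    have hle := Nat.le_of_dvd (by norm_num) ht
    interval_cases t <;> omega

/-- simplicity of the joint stabiliser -/
theorem mcl_simpleIn (v w : leechLattice) (hv : sqNorm (v : GolayPt → ℤ) = 32)
    (hw : sqNorm (w : GolayPt → ℤ) = 32)
    (hvw : dotInt (v : GolayPt → ℤ) (w : GolayPt → ℤ) = -8) : SimpleIn (hsK v w) := by
  obtain ⟨g, e1, e2⟩ := pair_trans8 mclV mclW1 v w mclV_norm mclW1_norm hv hw mclVW1 hvw
  have e1' : (g : Perm leechLattice) mclV = v := e1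
  have e2' : (g : Perm leechLattice) mclW1 = w := e2
  refine mclG_simple.conj (g : Perm leechLattice) ?_
  intro k
  simp only [hsK, Subgroup.mem_inf]
  rw [conj_mem_iff Co0 g.2, conj_mem_stab_iff, conj_mem_stab_iff, Perm.smul_def,
    Perm.smul_def, e1', e2']

end Cfsg.Agent.Helper28
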