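import Cfsg.Agent.Helper28.W2025
import Cfsg.Agent.Helper28.McLSimple
import Cfsg.Agent.Helper3.Golay.Six
import Cfsg.Agent.Helper3.Golay.OctStab

/-!
The action of the stabiliser of two minimal vectors `v`, `w` of inner product `-8` on the 2025
minimal vectors orthogonal to `v` with inner product `16` with `w`: the count, transitivity, and
the three nontrivial suborbits of sizes 330, 462 and 1232 (the vectors with inner product
`0`, `16`, `8` with the base vector).
-/

set_option autoImplicit false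

namespace Cfsg.Agent.Helper28

open Cfsg
open scoped Pointwise

/-! ### the tag count -/

theorem int_le_sq (t : ℤ) : t ≤ t ^ 2 := by
  rcases le_or_gt t 0 with h | h
  · exact le_trans h (sq_nonneg t)
  · have h1 : (1 : ℤ) ≤ t := h
    nlinarith

theorem sum_abs32 (x : GolayPt → ℤ) (hn : ∑ i, x i ^ 2 = 32) :
    -32 ≤ ∑ i, x i ∧ ∑ i, x i ≤ 32 := by
  have h1 : ∑ i, x i ≤ ∑ i, x i ^ 2 := Finset.sum_le_sum (fun i _ => int_le_sq (x i))
  have h2 : ∑ i, -x i ≤ ∑ i, x i ^ 2 :=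
    Finset.sum_le_sum (fun i _ => by
      have h := int_le_sq (-x i)
      rw [neg_sq] at h
      exact h)
  rw [Finset.sum_neg_distrib] at h2
  rw [hn] at h1 h2
  constructor <;> linarith

theorem pm_tag (a : ℤ) (x : GolayPt → ℤ) (hn : ∑ i, x i ^ 2 = 32) :
    ((∑ i, (if i ∈ Cfsg.Agent.Helper3.gSupp 8388609 then tagPM a (x i)
        else tagShift (x i)) : ℕ) : ℤ) =
      ∑ i, x i + 120 + (if x none = a then 0 else if x none = -a then 70 else 210) +
        (if x (some 0) = a then 0 else if x (some 0) = -a then 70 else 210) := by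
  rw [gSupp_pair, Nat.cast_sum]
  have e : ∀ i : GolayPt, ((if i ∈ ({none, some 0} : Finset GolayPt) then tagPM a (x i)
      else tagShift (x i) : ℕ) : ℤ) =
      (x i + 5) + (if i ∈ ({none, some 0} : Finset GolayPt) then
        (if x i = a then (0 : ℤ) else if x i = -a then 70 else 210) else 0) := by
    intro i
    have h := abs_le_five hn i
    unfold tagPM tagShift
    by_cases hi : i ∈ ({none, some 0} : Finset GolayPt)
    · rw [if_pos hi, if_pos hi]
      split_ifs <;> push_cast <;> omega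
    · rw [if_neg hi, if_neg hi]
      omega
  rw [Finset.sum_congr rfl (fun i _ => e i), Finset.sum_add_distrib, Finset.sum_add_distrib,
    sum_const_golay, Finset.sum_ite_mem, Finset.univ_inter, Finset.sum_pair (by decide)]
  ring

theorem wSet_iff (a : ℤ) (ha : a ∈ Finset.Icc (-4 : ℤ) 4) (x : GolayPt → ℤ) :
    x ∈ wSet a ↔ x ∈ leechLattice ∧ ∑ i, x i ^ 2 = 32 ∧ ∑ i, x i = 16 + 4 * a ∧
      ((x none = a ∧ x (some 0) = -a) ∨ (x none = -a ∧ x (some 0) = a)) := by
  rw [Finset.mem_Icc] at ha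
  constructor
  · rintro ⟨⟨hx, hn, _⟩, ht⟩
    have hn' : ∑ i, x i ^ 2 = 32 := by
      rw [hn]
      norm_num
    have h := pm_tag a x hn'
    rw [ht] at h
    have hb := sum_abs32 x hn'
    unfold tgtPM at h
    refine ⟨hx, hn', ?_⟩
    split_ifs at h <;> omega
  · rintro ⟨hx, hn', hs, hd⟩
    refine ⟨⟨hx, by rw [hn']; norm_num, fun i => Finset.mem_Icc.2 (abs_le_five hn' i)⟩, ?_⟩
    have h := pm_tag a x hn'
    have hcast : ((∑ i, (if i ∈ Cfsg.Agent.Helper3.gSupp 8388609 then tagPM a (x i)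
        else tagShift (x i)) : ℕ) : ℤ) = ((tgtPM a : ℕ) : ℤ) := by
      rw [h, hs]
      unfold tgtPM
      rcases hd with ⟨k1, k2⟩ | ⟨k1, k2⟩
      · rw [k1, k2]
        split_ifs <;> omega
      · rw [k1, k2]
        split_ifs <;> omega
    exact_mod_cast hcast

/-- minimal vectors with coordinates `a, -a` at the base points and coordinate sum
`16 + 4 a` -/
def tA (a : ℤ) : Set (GolayPt → ℤ) :=
  {x | x ∈ leechLattice ∧ ∑ i, x i ^ 2 = 32 ∧ ∑ i, x i = 16 + 4 * a ∧ x none = a ∧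
    x (some 0) = -a}

/-- the mirror set -/
def tB (a : ℤ) : Set (GolayPt → ℤ) :=
  {x | x ∈ leechLattice ∧ ∑ i, x i ^ 2 = 32 ∧ ∑ i, x i = 16 + 4 * a ∧ x none = -a ∧
    x (some 0) = a}

theorem min_finite32 : {x : GolayPt → ℤ | ∑ i, x i ^ 2 = 32}.Finite := by
  apply Set.Finite.subset
    (Finset.finite_toSet (Fintype.piFinset (fun _ : GolayPt => Finset.Icc (-5 : ℤ) 5)))
  intro x hx
  have hx' : ∑ i, x i ^ 2 = 32 := hx
  rw [Finset.mem_coe, Fintype.mem_piFinset]
  intro i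
  exact Finset.mem_Icc.2 (abs_le_five hx' i)

theorem tA_finite (a : ℤ) : (tA a).Finite := min_finite32.subset (fun _ hx => hx.2.1)

theorem tB_finite (a : ℤ) : (tB a).Finite := min_finite32.subset (fun _ hx => hx.2.1)

theorem tB_ncard (a : ℤ) : (tB a).ncard = (tA a).ncard := by
  obtain ⟨σ, hσ, s1, s2⟩ := Cfsg.Agent.Helper3.M24_trans2 none (some 0) (some 0) none
    (by decide) (by decide)
  have s1' : σ⁻¹ (some 0) = none := by
    have h := Cfsg.Agent.Helper3.perm_inv_apply σ none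
    rw [s1] at h
    exact h
  have s2' : σ⁻¹ none = some 0 := by
    have h := Cfsg.Agent.Helper3.perm_inv_apply σ (some 0)
    rw [s2] at h
    exact h
  symm
  refine Set.ncard_congr (fun x _ => fun i => x (σ i)) ?_ ?_ ?_
  · rintro x ⟨hx, hn, hs, h1, h2⟩
    refine ⟨Cfsg.Agent.Helper3.leech_perm σ hσ x hx, ?_, ?_, ?_, ?_⟩
    · rw [← hn]
      exact Equiv.sum_comp σ (fun i => x i ^ 2)
    · rw [← hs]
      exact Equiv.sum_comp σ (fun i => x i)
    · show x (σ none) = -a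
      rw [s1]
      exact h2
    · show x (σ (some 0)) = a
      rw [s2]
      exact h1
  · intro x y _ _ hxy
    funext i
    have h : x (σ (σ⁻¹ i)) = y (σ (σ⁻¹ i)) := congrFun hxy (σ⁻¹ i)
    rw [Cfsg.Agent.Helper3.perm_apply_inv] at h
    exact h
  · rintro y ⟨hy, hn, hs, h1, h2⟩
    refine ⟨fun i => y (σ⁻¹ i),
      ⟨Cfsg.Agent.Helper3.leech_perm σ⁻¹ (M24.inv_mem hσ) y hy, ?_, ?_, ?_, ?_⟩, ?_⟩
    · rw [← hn]
      exact Equiv.sum_comp σ⁻¹ (fun i => y i ^ 2)
    · rw [← hs]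
      exact Equiv.sum_comp σ⁻¹ (fun i => y i)
    · show y (σ⁻¹ none) = a
      rw [s2']
      exact h2
    · show y (σ⁻¹ (some 0)) = -a
      rw [s1']
      exact h1
    · funext i
      show y (σ⁻¹ (σ i)) = y i
      rw [Cfsg.Agent.Helper3.perm_inv_apply]

theorem wSet_eq (a : ℤ) (ha : a ∈ Finset.Icc (-4 : ℤ) 4) : wSet a = tA a ∪ tB a := by
  ext x
  rw [wSet_iff a ha x, Set.mem_union]
  constructor
  · rintro ⟨hx, hn, hs, ⟨h1, h2⟩ | ⟨h1, h2⟩⟩
    · exact Or.inl ⟨hx, hn, hs, h1, h2⟩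
    · exact Or.inr ⟨hx, hn, hs, h1, h2⟩
  · rintro (⟨hx, hn, hs, h1, h2⟩ | ⟨hx, hn, hs, h1, h2⟩)
    · exact ⟨hx, hn, hs, Or.inl ⟨h1, h2⟩⟩
    · exact ⟨hx, hn, hs, Or.inr ⟨h1, h2⟩⟩

theorem tA_two (a : ℤ) (ha : a ∈ Finset.Icc (-4 : ℤ) 4) (ha0 : a ≠ 0) :
    2 * (tA a).ncard = wF a := by
  have hd : Disjoint (tA a) (tB a) := by
    rw [Set.disjoint_left]
    rintro x ⟨_, _, _, h1, _⟩ ⟨_, _, _, h1', _⟩
    apply ha0
    omega
  rw [← wSet_ncard a, wSet_eq a ha, Set.ncard_union_eq hd (tA_finite a) (tB_finite a),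
    tB_ncard]
  ring

theorem tA_zero : (tA 0).ncard = wF 0 := by
  have e : tB 0 = tA 0 := by
    ext x
    constructor
    · rintro ⟨hx, hn, hs, h1, h2⟩
      exact ⟨hx, hn, hs, by rw [h1]; norm_num, by rw [h2]; norm_num⟩
    · rintro ⟨hx, hn, hs, h1, h2⟩
      exact ⟨hx, hn, hs, by rw [h1]; norm_num, by rw [h2]; norm_num⟩
  rw [← wSet_ncard 0, wSet_eq 0 (Finset.mem_Icc.2 ⟨by norm_num, by norm_num⟩), e,
    Set.union_self]

/-- the class sizes -/
def tN (a : ℤ) : ℕ :=
  if a = -4 then 1 else if a = -2 then 462 else if a = -1 then 1232 else if a = 0 then 330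
  else 0

theorem tN_vals : tN (-4) = 1 ∧ tN (-3) = 0 ∧ tN (-2) = 462 ∧ tN (-1) = 1232 ∧ tN 0 = 330 ∧
    tN 1 = 0 ∧ tN 2 = 0 ∧ tN 3 = 0 ∧ tN 4 = 0 := by
  decide +kernel

theorem tN_sum : ∑ a ∈ Finset.Icc (-4 : ℤ) 4, tN a = 2025 := by
  decide +kernel

theorem tA_ncard (a : ℤ) (ha : a ∈ Finset.Icc (-4 : ℤ) 4) : (tA a).ncard = tN a := by
  obtain ⟨w1, w2, w3, w4, w5, w6, w7, w8, w9⟩ := w_num
  obtain ⟨t1, t2, t3, t4, t5, t6, t7, t8, t9⟩ := tN_vals
  have key : ∀ b : ℤ, b ∈ Finset.Icc (-4 : ℤ) 4 → b ≠ 0 → ∀ m : ℕ, wF b = 2 * m →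
      (tA b).ncard = m := by
    intro b hb hb0 m hm
    have h2 := tA_two b hb hb0
    omega
  have ha' := Finset.mem_Icc.1 ha
  have hcases : a = -4 ∨ a = -3 ∨ a = -2 ∨ a = -1 ∨ a = 0 ∨ a = 1 ∨ a = 2 ∨ a = 3 ∨
      a = 4 := by omega
  rcases hcases with rfl | rfl | rfl | rfl | rfl | rfl | rfl | rfl | rfl
  · rw [t1]
    exact key (-4) ha (by norm_num) 1 w1
  · rw [t2]
    exact key (-3) ha (by norm_num) 0 w2
  · rw [t3]
    exact key (-2) ha (by norm_num) 462 w3
  · rw [t4]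
    exact key (-1) ha (by norm_num) 1232 w4
  · rw [tA_zero, w5, t5]
  · rw [t6]
    exact key 1 ha (by norm_num) 0 w6
  · rw [t7]
    exact key 2 ha (by norm_num) 0 w7
  · rw [t8]
    exact key 3 ha (by norm_num) 0 w8
  · rw [t9]
    exact key 4 ha (by norm_num) 0 w9

/-- the standard set of 2025 vectors, as vectors -/
def stdT : Set (GolayPt → ℤ) :=
  {x | x ∈ leechLattice ∧ ∑ i, x i ^ 2 = 32 ∧ x none + x (some 0) = 0 ∧
    ∑ i, x i = 16 + 4 * x none}

theorem stdT_eq : stdT = ⋃ a ∈ Finset.Icc (-4 : ℤ) 4, tA a := by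
  ext x
  rw [Set.mem_iUnion₂]
  constructor
  · rintro ⟨hx, hn, h1, hs⟩
    have hb : x none ^ 2 + x (some 0) ^ 2 ≤ 32 := by
      have h := Finset.sum_le_sum_of_subset_of_nonneg
        (Finset.subset_univ ({none, some 0} : Finset GolayPt))
        (fun i _ _ => sq_nonneg (x i))
      rw [Finset.sum_pair (by decide), hn] at h
      exact h
    have h0 : x (some 0) = -x none := by omega
    rw [h0] at hb
    have hl : -4 ≤ x none := by nlinarith
    have hu : x none ≤ 4 := by nlinarith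
    exact ⟨x none, Finset.mem_Icc.2 ⟨hl, hu⟩, hx, hn, hs, rfl, h0⟩
  · rintro ⟨a, _, hx, hn, hs, h1, h2⟩
    refine ⟨hx, hn, ?_, ?_⟩
    · rw [h1, h2]
      ring
    · rw [h1]
      exact hs

theorem stdT_ncard : stdT.ncard = 2025 := by
  rw [stdT_eq, ncard_biUnion_fin _ _ (fun a _ => tA_finite a) ?_,
    Finset.sum_congr rfl (fun a ha => tA_ncard a ha)]
  · exact tN_sum
  · intro a _ b _ hne
    rw [Set.disjoint_left]
    rintro x ⟨_, _, _, h1, _⟩ ⟨_, _, _, h1', _⟩
    exact hne (h1.symm.trans h1')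

/-! ### the standard frame -/

theorem dot_mclW (x : GolayPt → ℤ) :
    dotInt (mclW : GolayPt → ℤ) x = ∑ i, x i - 4 * x none := by
  show dotInt (oddMin none (0 : GolayPt → ZMod 2)) x = _
  rw [dot_comm', dot_odd0]

theorem t25_std (x : leechLattice) :
    x ∈ dotSet2 mclV mclW 32 0 16 ↔ (x : GolayPt → ℤ) ∈ stdT := by
  constructor
  · rintro ⟨hn, h1, h2⟩
    have h1' : dotInt (sgnVec 4 {none, some 0} ∅) (x : GolayPt → ℤ) = 0 := h1
    rw [base_dot] at h1'
    rw [dot_mclW] at h2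
    exact ⟨x.2, hn, by omega, by omega⟩
  · rintro ⟨_, hn, h1, h2⟩
    refine ⟨hn, ?_, ?_⟩
    · show dotInt (sgnVec 4 {none, some 0} ∅) (x : GolayPt → ℤ) = 0
      rw [base_dot]
      omega
    · rw [dot_mclW]
      omega

theorem t25_std_ncard : (dotSet2 mclV mclW 32 0 16).ncard = 2025 := by
  rw [← Set.ncard_image_of_injective (dotSet2 mclV mclW 32 0 16) Subtype.val_injective]
  have e : Subtype.val '' dotSet2 mclV mclW 32 0 16 = stdT := by
    ext x
    constructor
    · rintro ⟨t, ht, rfl⟩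
      exact (t25_std t).1 ht
    · intro hx
      exact ⟨⟨x, hx.1⟩, (t25_std ⟨x, hx.1⟩).2 hx, rfl⟩
  rw [e]
  exact stdT_ncard

/-- exactly 2025 minimal vectors are orthogonal to `v` and have inner product `16` with `w` -/
theorem mcl2025_count (v w : leechLattice) (hv : sqNorm (v : GolayPt → ℤ) = 32)
    (hw : sqNorm (w : GolayPt → ℤ) = 32)
    (hvw : dotInt (v : GolayPt → ℤ) (w : GolayPt → ℤ) = -8) :
    (dotSet2 v w 32 0 16).ncard = 2025 := by
  obtain ⟨g, e1, e2⟩ := pair_trans8 v w mclV mclW hv hw mclV_norm mclW_norm hvw mclVW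
  have e1' : (g : Equiv.Perm leechLattice) v = mclV := e1
  have e2' : (g : Equiv.Perm leechLattice) w = mclW := e2
  rw [← Set.ncard_image_of_injective _ (g : Equiv.Perm leechLattice).injective,
    ← dotSet2_map, e1', e2']
  exact t25_std_ncard

/-- the joint stabiliser is transitive on the 2025 vectors -/
theorem mcl2025_trans (v w x x' : leechLattice) (hv : sqNorm (v : GolayPt → ℤ) = 32)
    (hw : sqNorm (w : GolayPt → ℤ) = 32)
    (hvw : dotInt (v : GolayPt → ℤ) (w : GolayPt → ℤ) = -8)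
    (hx : x ∈ dotSet2 v w 32 0 16) (hx' : x' ∈ dotSet2 v w 32 0 16) :
    ∃ g : Co0, g • v = v ∧ g • w = w ∧ g • x = x' := by
  obtain ⟨xn, xv, xw⟩ := hx
  obtain ⟨xn', xv', xw'⟩ := hx'
  have nn : sqNorm ((-x : leechLattice) : GolayPt → ℤ) = 32 := by
    rw [AddSubgroup.coe_neg, sqNorm_neg']
    exact xn
  have nn' : sqNorm ((-x' : leechLattice) : GolayPt → ℤ) = 32 := by
    rw [AddSubgroup.coe_neg, sqNorm_neg']
    exact xn'
  have nv : dotInt (v : GolayPt → ℤ) ((-x : leechLattice) : GolayPt → ℤ) = 0 := by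
    rw [AddSubgroup.coe_neg, dot_neg_right, xv]
    norm_num
  have nv' : dotInt (v : GolayPt → ℤ) ((-x' : leechLattice) : GolayPt → ℤ) = 0 := by
    rw [AddSubgroup.coe_neg, dot_neg_right, xv']
    norm_num
  have nw : dotInt (w : GolayPt → ℤ) ((-x : leechLattice) : GolayPt → ℤ) = -16 := by
    rw [AddSubgroup.coe_neg, dot_neg_right, xw]
  have nw' : dotInt (w : GolayPt → ℤ) ((-x' : leechLattice) : GolayPt → ℤ) = -16 := by
    rw [AddSubgroup.coe_neg, dot_neg_right, xw']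
  obtain ⟨g₁, a1, a2⟩ := std_orth v (-x) hv nn nv
  obtain ⟨g₂, b1, b2⟩ := std_orth v (-x') hv nn' nv'
  obtain ⟨c1, c2⟩ := std_coords v (-x) w g₁ a1 a2
  obtain ⟨d1, d2⟩ := std_coords v (-x') w g₂ b1 b2
  rw [hvw] at c1 d1
  rw [nw] at c2
  rw [nw'] at d2
  obtain ⟨n, hn1, hn2⟩ := odd_move ((g₁ : Equiv.Perm leechLattice) w)
    ((g₂ : Equiv.Perm leechLattice) w) ((g₁.2.2 w).trans hw) ((g₂.2.2 w).trans hw)
    (by omega) (by omega) (by omega) (by omega)
  have ev : (g₁ : Equiv.Perm leechLattice) v = (g₂ : Equiv.Perm leechLattice) v :=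
    Subtype.ext (a1.trans b1.symm)
  have ex : (g₁ : Equiv.Perm leechLattice) (-x) = (g₂ : Equiv.Perm leechLattice) (-x') :=
    Subtype.ext (a2.trans b2.symm)
  have fx : (n : Equiv.Perm leechLattice) ((g₁ : Equiv.Perm leechLattice) (-x)) =
      (g₁ : Equiv.Perm leechLattice) (-x) := by
    apply hn1
    intro i hi1 hi2
    rw [a2]
    unfold sgnVec
    simp [hi1, hi2]
  refine ⟨g₂⁻¹ * n * g₁, ?_, ?_, ?_⟩
  · show ((g₂⁻¹ : Co0) : Equiv.Perm leechLattice) ((n : Equiv.Perm leechLattice)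
      ((g₁ : Equiv.Perm leechLattice) v)) = v
    rw [fixBase_std hn1 _ a1, ev]
    exact Equiv.symm_apply_apply (g₂ : Equiv.Perm leechLattice) v
  · show ((g₂⁻¹ : Co0) : Equiv.Perm leechLattice) ((n : Equiv.Perm leechLattice)
      ((g₁ : Equiv.Perm leechLattice) w)) = w
    rw [hn2]
    exact Equiv.symm_apply_apply (g₂ : Equiv.Perm leechLattice) w
  · have h : ((g₂⁻¹ * n * g₁ : Co0) : Equiv.Perm leechLattice) (-x) = -x' := by
      show ((g₂⁻¹ : Co0) : Equiv.Perm leechLattice) ((n : Equiv.Perm leechLattice)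
        ((g₁ : Equiv.Perm leechLattice) (-x))) = -x'
      rw [fx, ex]
      exact Equiv.symm_apply_apply (g₂ : Equiv.Perm leechLattice) (-x')
    rw [co0_map_neg] at h
    exact neg_injective h

/-! ### the three classes in the standard frame -/

theorem t25_classA (z : GolayPt → ℤ) (hz : z ∈ leechLattice) (hn : sqNorm z = 32)
    (h1 : z none = 0) (h2 : z (some 0) = 0) (h4 : ∑ i, z i = 16) :
    ∃ O ∈ octads, none ∉ O ∧ some 0 ∉ O ∧ z = sgnVec 2 O ∅ := by
  rcases classify golayCode golayLike one_mem_golay (mem_leechSetOf.1 hz) hn with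
    ⟨U, V, hVU, hU, rfl⟩ | ⟨c, hc, hc8, V, hV, hVe, rfl⟩ | ⟨p, c, hc, rfl⟩
  · exfalso
    have hs := sgnVec_sum 4 hVU
    rw [hs, hU] at h4
    push_cast at h4
    omega
  · have hcard : (support₂ c).card = 8 := by rw [← hammingNorm_eq_card, hc8]
    have hoct : support₂ c ∈ octads := ⟨⟨c, hc, rfl⟩, hcard⟩
    have hs := sgnVec_sum 2 hV
    rw [hs, hcard] at h4
    push_cast at h4
    have hV0 : V.card = 0 := by omega
    have hVe' : V = ∅ := Finset.card_eq_zero.1 hV0
    subst hVe'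
    refine ⟨support₂ c, hoct, ?_, ?_, rfl⟩
    · intro hmem
      unfold sgnVec at h1
      rw [if_neg (Finset.notMem_empty _), if_pos hmem] at h1
      norm_num at h1
    · intro hmem
      unfold sgnVec at h2
      rw [if_neg (Finset.notMem_empty _), if_pos hmem] at h2
      norm_num at h2
  · exfalso
    have ho := oddMin_odd p c none
    rw [h1] at ho
    norm_num at ho

theorem t25_classB (z : GolayPt → ℤ) (hz : z ∈ leechLattice) (hn : sqNorm z = 32)
    (h1 : z none = -2) (h2 : z (some 0) = 2) (h4 : ∑ i, z i = 8) :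
    ∃ O ∈ octads, ∃ r : GolayPt, none ∈ O ∧ some 0 ∈ O ∧ r ∈ O ∧ r ≠ none ∧ r ≠ some 0 ∧
      z = sgnVec 2 O {none, r} := by
  rcases classify golayCode golayLike one_mem_golay (mem_leechSetOf.1 hz) hn with
    ⟨U, V, hVU, hU, rfl⟩ | ⟨c, hc, hc8, V, hV, hVe, rfl⟩ | ⟨p, c, hc, rfl⟩
  · exfalso
    rcases sgnVec_vals 4 U V none with h | h | h <;> rw [h] at h1 <;> norm_num at h1
  · have hcard : (support₂ c).card = 8 := by rw [← hammingNorm_eq_card, hc8]
    have hoct : support₂ c ∈ octads := ⟨⟨c, hc, rfl⟩, hcard⟩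
    have hs := sgnVec_sum 2 hV
    rw [hs, hcard] at h4
    push_cast at h4
    have hV2 : V.card = 2 := by omega
    have hnV : none ∈ V := by
      by_contra hnot
      unfold sgnVec at h1
      rw [if_neg hnot] at h1
      split_ifs at h1 <;> norm_num at h1
    have h0V : some 0 ∉ V := by
      intro hmem
      unfold sgnVec at h2
      rw [if_pos hmem] at h2
      norm_num at h2
    have h0S : some 0 ∈ support₂ c := by
      by_contra hnot
      unfold sgnVec at h2
      rw [if_neg h0V, if_neg hnot] at h2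
      norm_num at h2
    obtain ⟨a, b, hab, rfl⟩ := Finset.card_eq_two.1 hV2
    rw [Finset.mem_insert, Finset.mem_singleton] at hnV
    rcases hnV with e | e
    · subst e
      refine ⟨support₂ c, hoct, b, hV (by simp), h0S, hV (by simp), fun h => hab h.symm, ?_,
        rfl⟩
      intro h
      apply h0V
      rw [h]
      simp
    · subst e
      refine ⟨support₂ c, hoct, a, hV (by simp), h0S, hV (by simp), hab, ?_, ?_⟩
      · intro h
        apply h0V
        rw [h]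
        simp
      · rw [Finset.pair_comm]
  · exfalso
    have ho := oddMin_odd p c none
    rw [h1] at ho
    norm_num at ho

theorem t25_classC (z : GolayPt → ℤ) (hz : z ∈ leechLattice) (hn : sqNorm z = 32)
    (h1 : z none = -1) (h2 : z (some 0) = 1) (h4 : ∑ i, z i = 12) :
    ∃ c ∈ golayCode, ∃ p : GolayPt, hammingNorm c = 8 ∧ c none ≠ 0 ∧ c (some 0) = 0 ∧
      c p ≠ 0 ∧ p ≠ none ∧ p ≠ some 0 ∧ z = oddMin p c := by
  rcases classify golayCode golayLike one_mem_golay (mem_leechSetOf.1 hz) hn with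
    ⟨U, V, hVU, hU, rfl⟩ | ⟨c, hc, hc8, V, hV, hVe, rfl⟩ | ⟨p, c, hc, rfl⟩
  · exfalso
    rcases sgnVec_vals 4 U V none with h | h | h <;> rw [h] at h1 <;> norm_num at h1
  · exfalso
    rcases sgnVec_vals 2 (support₂ c) V none with h | h | h <;> rw [h] at h1 <;>
      norm_num at h1
  · have hpn : p ≠ none := by
      intro hp
      subst hp
      rw [oddMin_self] at h1
      split_ifs at h1 <;> norm_num at h1
    have hp0 : p ≠ some 0 := by
      intro hp
      subst hp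
      rw [oddMin_self] at h2
      split_ifs at h2 <;> norm_num at h2
    rw [oddMin_at p c none (Ne.symm hpn)] at h1
    rw [oddMin_at p c (some 0) (Ne.symm hp0)] at h2
    have hcn : c none ≠ 0 := by
      intro h
      rw [if_pos h] at h1
      norm_num at h1
    have hc0 : c (some 0) = 0 := by
      by_contra h
      rw [if_neg h] at h2
      norm_num at h2
    rw [oddMin_sum'] at h4
    have hw := golayLike.hwt c hc
    have hcp : c p ≠ 0 := by
      intro h
      rw [if_pos h] at h4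
      omega
    rw [if_neg hcp] at h4
    have h8 : hammingNorm c = 8 := by omega
    exact ⟨c, hc, p, h8, hcn, hc0, hcp, hpn, hp0, rfl⟩

/-! ### permutations fixing the two base points -/

theorem nodup_six (a b c d e f : GolayPt) (hab : a ≠ b) (hac : a ≠ c) (had : a ≠ d)
    (hae : a ≠ e) (haf : a ≠ f) (hbc : b ≠ c) (hbd : b ≠ d) (hbe : b ≠ e) (hbf : b ≠ f)
    (hcd : c ≠ d) (hce : c ≠ e) (hcf : c ≠ f) (hde : d ≠ e) (hdf : d ≠ f) (hef : e ≠ f) :
    [a, b, c, d, e, f].Nodup := by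
  simp [hab, hac, had, hae, haf, hbc, hbd, hbe, hbf, hcd, hce, hcf, hde, hdf, hef]

theorem smul_mem_of (σ : Equiv.Perm GolayPt) (P : Finset GolayPt) (z z' : GolayPt)
    (hzz : σ z' = z) (hz' : z' ∈ P) : z ∈ σ • P := by
  rw [← hzz]
  have hsm : σ z' = σ • z' := rfl
  rw [hsm]
  exact (Finset.smul_mem_smul_finset_iff σ).2 hz'

theorem smul_mem_iff' (σ : Equiv.Perm GolayPt) (P : Finset GolayPt) (i : GolayPt) :
    σ i ∈ σ • P ↔ i ∈ P := by
  have hsm : σ i = σ • i := rfl
  rw [hsm]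
  exact Finset.smul_mem_smul_finset_iff σ

/-- a list of five points of an octad and a point outside it lies in no octad -/
theorem six_not_oct (P : Finset GolayPt) (hP : P ∈ octads) (a b c d : GolayPt)
    (h0 : some 0 ∉ P) (hn : none ∈ P) (ha : a ∈ P) (hb : b ∈ P) (hc : c ∈ P) (hd : d ∈ P)
    (h1 : none ≠ a) (h2 : none ≠ b) (h3 : none ≠ c) (h4 : none ≠ d) (h5 : a ≠ b)
    (h6 : a ≠ c) (h7 : a ≠ d) (h8 : b ≠ c) (h9 : b ≠ d) (h10 : c ≠ d) :
    ¬ ∃ o ∈ octads, ∀ z ∈ [none, a, b, c, d, some 0], z ∈ o := by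
  rintro ⟨o, ho, hall⟩
  have e : o = P := by
    apply Cfsg.Agent.Helper3.octad_eq_of_inter ho hP
    have hsub : ({none, a, b, c, d} : Finset GolayPt) ⊆ o ∩ P := by
      intro z hz
      rw [Finset.mem_insert, Finset.mem_insert, Finset.mem_insert, Finset.mem_insert,
        Finset.mem_singleton] at hz
      rw [Finset.mem_inter]
      rcases hz with h | h | h | h | h
      · rw [h]
        exact ⟨hall none (by simp), hn⟩
      · rw [h]
        exact ⟨hall a (by simp), ha⟩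
      · rw [h]
        exact ⟨hall b (by simp), hb⟩
      · rw [h]
        exact ⟨hall c (by simp), hc⟩
      · rw [h]
        exact ⟨hall d (by simp), hd⟩
    rw [← card_five none a b c d h1 h2 h3 h4 h5 h6 h7 h8 h9 h10]
    exact Finset.card_le_card hsub
  apply h0
  rw [← e]
  exact hall (some 0) (by simp)

/-- four points of an octad avoiding the base points that lie in an octad through the base
points -/
theorem oct_frame (O : Finset GolayPt) (hO : O ∈ octads) (hn : none ∉ O) (h0 : some 0 ∉ O) :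
    ∃ a b c d : GolayPt, ∃ R ∈ octads, a ∈ O ∧ b ∈ O ∧ c ∈ O ∧ d ∈ O ∧
      a ≠ b ∧ a ≠ c ∧ a ≠ d ∧ b ≠ c ∧ b ≠ d ∧ c ≠ d ∧
      none ∈ R ∧ some 0 ∈ R ∧ a ∈ R ∧ b ∈ R ∧ c ∈ R ∧ d ∈ R := by
  obtain ⟨a, ha, b, hb, c, hc, hab, hac, hbc⟩ := exists_three O (by rw [hO.2]; norm_num)
  have hn0 : (none : GolayPt) ≠ some 0 := by decide
  have han : none ≠ a := fun e => hn (by rw [e]; exact ha)
  have hbn : none ≠ b := fun e => hn (by rw [e]; exact hb)
  have hcn : none ≠ c := fun e => hn (by rw [e]; exact hc)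
  have ha0 : some 0 ≠ a := fun e => h0 (by rw [e]; exact ha)
  have hb0 : some 0 ≠ b := fun e => h0 (by rw [e]; exact hb)
  have hc0 : some 0 ≠ c := fun e => h0 (by rw [e]; exact hc)
  have h5 : ({none, some 0, a, b, c} : Finset GolayPt).card = 5 :=
    card_five none (some 0) a b c hn0 han hbn hcn ha0 hb0 hc0 hab hac hbc
  obtain ⟨R, ⟨hR, hsub⟩, _⟩ := Cfsg.Agent.Helper3.octads_steiner.2 _ h5
  have mn : none ∈ R := hsub (by simp)
  have m0 : some 0 ∈ R := hsub (by simp)
  have ma : a ∈ R := hsub (by simp)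
  have mb : b ∈ R := hsub (by simp)
  have mc : c ∈ R := hsub (by simp)
  have hc3 : ({a, b, c} : Finset GolayPt).card = 3 :=
    Finset.card_eq_three.2 ⟨a, b, c, hab, hac, hbc, rfl⟩
  have h3 : 3 ≤ (R ∩ O).card := by
    have hs3 : ({a, b, c} : Finset GolayPt) ⊆ R ∩ O := by
      intro z hz
      rw [Finset.mem_insert, Finset.mem_insert, Finset.mem_singleton] at hz
      rw [Finset.mem_inter]
      rcases hz with h | h | h
      · rw [h]
        exact ⟨ma, ha⟩
      · rw [h]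
        exact ⟨mb, hb⟩
      · rw [h]
        exact ⟨mc, hc⟩
    rw [← hc3]
    exact Finset.card_le_card hs3
  have h8 : (R ∩ O).card ≠ 8 := by
    intro h
    have hRO : R ∩ O = R :=
      Finset.eq_of_subset_of_card_le Finset.inter_subset_left (le_of_eq (by rw [h, hR.2]))
    have hmem : none ∈ R ∩ O := by
      rw [hRO]
      exact mn
    exact hn (Finset.mem_inter.1 hmem).2
  have h4 : (R ∩ O).card = 4 := by
    rcases Cfsg.Agent.Helper3.octad_inter_card hR hO with h | h | h | h <;> omega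
  have hd : ∃ d ∈ R ∩ O, d ∉ ({a, b, c} : Finset GolayPt) := by
    by_contra hcon
    push Not at hcon
    have hle : (R ∩ O).card ≤ ({a, b, c} : Finset GolayPt).card :=
      Finset.card_le_card (fun z hz => hcon z hz)
    omega
  obtain ⟨d, hdm, hdn⟩ := hd
  rw [Finset.mem_insert, Finset.mem_insert, Finset.mem_singleton] at hdn
  push Not at hdn
  rw [Finset.mem_inter] at hdm
  exact ⟨a, b, c, d, R, hR, ha, hb, hc, hdm.2, hab, hac, fun e => hdn.1 e.symm, hbc,
    fun e => hdn.2.1 e.symm, fun e => hdn.2.2 e.symm, mn, m0, ma, mb, mc, hdm.1⟩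

/-- the permutations of the code fixing the two base points are transitive on the octads
avoiding them -/
theorem m22_oct (O O' : Finset GolayPt) (hO : O ∈ octads) (hO' : O' ∈ octads)
    (hn : none ∉ O) (h0 : some 0 ∉ O) (hn' : none ∉ O') (h0' : some 0 ∉ O') :
    ∃ σ ∈ M24, σ none = none ∧ σ (some 0) = some 0 ∧ σ • O' = O := by
  obtain ⟨a, b, c, d, R, hR, ha, hb, hc, hd, hab, hac, had, hbc, hbd, hcd, mn, m0, ma, mb, mc,
    md⟩ := oct_frame O hO hn h0
  obtain ⟨a', b', c', d', R', hR', ha', hb', hc', hd', hab', hac', had', hbc', hbd', hcd', mn',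
    m0', ma', mb', mc', md'⟩ := oct_frame O' hO' hn' h0'
  have hn0 : (none : GolayPt) ≠ some 0 := by decide
  have nin : ∀ (P : Finset GolayPt) (z w : GolayPt), w ∉ P → z ∈ P → w ≠ z :=
    fun P z w h hz e => h (by rw [e]; exact hz)
  have hx : [none, some 0, a', b', c', d'].Nodup :=
    nodup_six _ _ _ _ _ _ hn0 (nin O' a' none hn' ha') (nin O' b' none hn' hb')
      (nin O' c' none hn' hc') (nin O' d' none hn' hd') (nin O' a' (some 0) h0' ha')
      (nin O' b' (some 0) h0' hb') (nin O' c' (some 0) h0' hc') (nin O' d' (some 0) h0' hd')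
      hab' hac' had' hbc' hbd' hcd'
  have hy : [none, some 0, a, b, c, d].Nodup :=
    nodup_six _ _ _ _ _ _ hn0 (nin O a none hn ha) (nin O b none hn hb)
      (nin O c none hn hc) (nin O d none hn hd) (nin O a (some 0) h0 ha)
      (nin O b (some 0) h0 hb) (nin O c (some 0) h0 hc) (nin O d (some 0) h0 hd)
      hab hac had hbc hbd hcd
  have hiff : (∃ o ∈ octads, ∀ z ∈ [none, some 0, a', b', c', d'], z ∈ o) ↔
      (∃ o ∈ octads, ∀ z ∈ [none, some 0, a, b, c, d], z ∈ o) := by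
    constructor
    · intro _
      refine ⟨R, hR, ?_⟩
      intro z hz
      simp only [List.mem_cons, List.mem_nil_iff, or_false] at hz
      rcases hz with h | h | h | h | h | h <;> rw [h] <;> assumption
    · intro _
      refine ⟨R', hR', ?_⟩
      intro z hz
      simp only [List.mem_cons, List.mem_nil_iff, or_false] at hz
      rcases hz with h | h | h | h | h | h <;> rw [h] <;> assumption
  obtain ⟨g, hg, hmap⟩ := Cfsg.Agent.Helper3.six_trans [none, some 0, a', b', c', d']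
    [none, some 0, a, b, c, d] hx hy rfl rfl hiff
  have e : [g none, g (some 0), g a', g b', g c', g d'] = [none, some 0, a, b, c, d] := hmap
  injection e with s1 e
  injection e with s2 e
  injection e with s3 e
  injection e with s4 e
  injection e with s5 e
  injection e with s6 e
  have hO'' : g • O' ∈ octads := Cfsg.Agent.Helper3.smul_mem_octads hg hO'
  have na : a ∈ g • O' := smul_mem_of g O' a a' s3 ha'
  have nb : b ∈ g • O' := smul_mem_of g O' b b' s4 hb'
  have nc : c ∈ g • O' := smul_mem_of g O' c c' s5 hc'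
  have nd : d ∈ g • O' := smul_mem_of g O' d d' s6 hd'
  have nn : none ∉ g • O' := by
    intro hmem
    rw [← s1, smul_mem_iff'] at hmem
    exact hn' hmem
  have extra : ∀ P : Finset GolayPt, P ∈ octads → none ∉ P → a ∈ P → b ∈ P → c ∈ P → d ∈ P →
      ∃ t ∈ P, t ∉ R ∧ t ≠ a ∧ t ≠ b ∧ t ≠ c ∧ t ≠ d := by
    intro P hP hnP haP hbP hcP hdP
    have h4 := Finset.le_card_sdiff ({a, b, c, d} : Finset GolayPt) P
    have hc4 : ({a, b, c, d} : Finset GolayPt).card ≤ 4 := Finset.card_le_four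
    rw [hP.2] at h4
    obtain ⟨t, ht⟩ := Finset.card_pos.1
      (lt_of_lt_of_le (by omega : 0 < 8 - ({a, b, c, d} : Finset GolayPt).card) h4)
    rw [Finset.mem_sdiff, Finset.mem_insert, Finset.mem_insert, Finset.mem_insert,
      Finset.mem_singleton] at ht
    obtain ⟨htP, htn⟩ := ht
    push Not at htn
    refine ⟨t, htP, ?_, htn.1, htn.2.1, htn.2.2.1, htn.2.2.2⟩
    intro htR
    have e : R = P := by
      apply Cfsg.Agent.Helper3.octad_eq_of_inter hR hP
      have hsub : ({a, b, c, d, t} : Finset GolayPt) ⊆ R ∩ P := by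
        intro z hz
        rw [Finset.mem_insert, Finset.mem_insert, Finset.mem_insert, Finset.mem_insert,
          Finset.mem_singleton] at hz
        rw [Finset.mem_inter]
        rcases hz with h | h | h | h | h
        · rw [h]
          exact ⟨ma, haP⟩
        · rw [h]
          exact ⟨mb, hbP⟩
        · rw [h]
          exact ⟨mc, hcP⟩
        · rw [h]
          exact ⟨md, hdP⟩
        · rw [h]
          exact ⟨htR, htP⟩
      rw [← card_five a b c d t hab hac had (Ne.symm htn.1) hbc hbd (Ne.symm htn.2.1) hcd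
        (Ne.symm htn.2.2.1) (Ne.symm htn.2.2.2)]
      exact Finset.card_le_card hsub
    apply hnP
    rw [← e]
    exact mn
  obtain ⟨t, htO, htR, hta, htb, htc, htd⟩ := extra O hO hn ha hb hc hd
  obtain ⟨t'', htO'', htR'', hta'', htb'', htc'', htd''⟩ := extra (g • O') hO'' nn na nb nc nd
  obtain ⟨h, hh, hfix, hht⟩ := Cfsg.Agent.Helper3.octFix_trans R hR t'' t htR'' htR
  refine ⟨h * g, M24.mul_mem hh hg, ?_, ?_, ?_⟩
  · rw [Equiv.Perm.mul_apply, s1]
    exact hfix none mn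
  · rw [Equiv.Perm.mul_apply, s2]
    exact hfix (some 0) m0
  · rw [mul_smul]
    apply Cfsg.Agent.Helper3.octad_eq_of_inter (Cfsg.Agent.Helper3.smul_mem_octads hh hO'') hO
    have hsub : ({a, b, c, d, t} : Finset GolayPt) ⊆ h • (g • O') ∩ O := by
      intro z hz
      rw [Finset.mem_insert, Finset.mem_insert, Finset.mem_insert, Finset.mem_insert,
        Finset.mem_singleton] at hz
      rw [Finset.mem_inter]
      rcases hz with e | e | e | e | e
      · rw [e]
        exact ⟨smul_mem_of h _ a a (hfix a ma) na, ha⟩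
      · rw [e]
        exact ⟨smul_mem_of h _ b b (hfix b mb) nb, hb⟩
      · rw [e]
        exact ⟨smul_mem_of h _ c c (hfix c mc) nc, hc⟩
      · rw [e]
        exact ⟨smul_mem_of h _ d d (hfix d md) nd, hd⟩
      · rw [e]
        exact ⟨smul_mem_of h _ t t'' hht htO'', htO⟩
    rw [← card_five a b c d t hab hac had (Ne.symm hta) hbc hbd (Ne.symm htb) hcd
      (Ne.symm htc) (Ne.symm htd)]
    exact Finset.card_le_card hsub

/-- the permutations of the code fixing the two base points are transitive on the pairs of an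
octad through them and a further point of it -/
theorem m22_flag (O O' : Finset GolayPt) (hO : O ∈ octads) (hO' : O' ∈ octads)
    (r r' : GolayPt) (hn : none ∈ O) (h0 : some 0 ∈ O) (hr : r ∈ O) (hrn : r ≠ none)
    (hr0 : r ≠ some 0) (hn' : none ∈ O') (h0' : some 0 ∈ O') (hr' : r' ∈ O')
    (hrn' : r' ≠ none) (hr0' : r' ≠ some 0) :
    ∃ σ ∈ M24, σ none = none ∧ σ (some 0) = some 0 ∧ σ r' = r ∧ σ • O' = O := by
  have two : ∀ (P : Finset GolayPt) (s : GolayPt), P.card = 8 →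
      ∃ q t : GolayPt, q ∈ P ∧ t ∈ P ∧ q ≠ none ∧ q ≠ some 0 ∧ q ≠ s ∧ t ≠ none ∧
        t ≠ some 0 ∧ t ≠ s ∧ q ≠ t := by
    intro P s hP
    have h5 := Finset.le_card_sdiff ({none, some 0, s} : Finset GolayPt) P
    have h3 : ({none, some 0, s} : Finset GolayPt).card ≤ 3 := Finset.card_le_three
    rw [hP] at h5
    obtain ⟨q, hq, t, ht, u, hu, hqt, hqu, htu⟩ :=
      exists_three (P \ {none, some 0, s}) (by omega)
    rw [Finset.mem_sdiff, Finset.mem_insert, Finset.mem_insert, Finset.mem_singleton] at hq ht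
    push Not at hq ht
    exact ⟨q, t, hq.1, ht.1, hq.2.1, hq.2.2.1, hq.2.2.2, ht.2.1, ht.2.2.1, ht.2.2.2, hqt⟩
  obtain ⟨q, t, hqO, htO, hqn, hq0, hqr, htn, ht0, htr, hqt⟩ := two O r hO.2
  obtain ⟨q', t', hqO', htO', hqn', hq0', hqr', htn', ht0', htr', hqt'⟩ := two O' r' hO'.2
  have hn0 : (none : GolayPt) ≠ some 0 := by decide
  obtain ⟨σ, hσ, s1, s2, s3, s4, s5⟩ := m24_five none (some 0) r' q' t' none (some 0) r q t
    hn0 (Ne.symm hrn') (Ne.symm hqn') (Ne.symm htn') (Ne.symm hr0') (Ne.symm hq0')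
    (Ne.symm ht0') (Ne.symm hqr') (Ne.symm htr') hqt'
    hn0 (Ne.symm hrn) (Ne.symm hqn) (Ne.symm htn) (Ne.symm hr0) (Ne.symm hq0)
    (Ne.symm ht0) (Ne.symm hqr) (Ne.symm htr) hqt
  have t3 : σ • O' = O := by
    apply Cfsg.Agent.Helper3.octad_eq_of_inter (Cfsg.Agent.Helper3.smul_mem_octads hσ hO') hO
    have hsub : ({none, some 0, r, q, t} : Finset GolayPt) ⊆ σ • O' ∩ O := by
      intro z hz
      rw [Finset.mem_insert, Finset.mem_insert, Finset.mem_insert, Finset.mem_insert,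
        Finset.mem_singleton] at hz
      rw [Finset.mem_inter]
      rcases hz with h | h | h | h | h
      · rw [h]
        exact ⟨smul_mem_of σ O' _ _ s1 hn', hn⟩
      · rw [h]
        exact ⟨smul_mem_of σ O' _ _ s2 h0', h0⟩
      · rw [h]
        exact ⟨smul_mem_of σ O' _ _ s3 hr', hr⟩
      · rw [h]
        exact ⟨smul_mem_of σ O' _ _ s4 hqO', hqO⟩
      · rw [h]
        exact ⟨smul_mem_of σ O' _ _ s5 htO', htO⟩
    rw [← card_five none (some 0) r q t hn0 (Ne.symm hrn) (Ne.symm hqn) (Ne.symm htn)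
      (Ne.symm hr0) (Ne.symm hq0) (Ne.symm ht0) (Ne.symm hqr) (Ne.symm htr) hqt]
    exact Finset.card_le_card hsub
  exact ⟨σ, hσ, s1, s2, s3, t3⟩

/-- the permutations of the code fixing the two base points are transitive on the pairs of an
octad through the first base point only and a further point of it -/
theorem m22_odd (O O' : Finset GolayPt) (hO : O ∈ octads) (hO' : O' ∈ octads)
    (p p' : GolayPt) (hn : none ∈ O) (h0 : some 0 ∉ O) (hp : p ∈ O) (hpn : p ≠ none)
    (hn' : none ∈ O') (h0' : some 0 ∉ O') (hp' : p' ∈ O') (hpn' : p' ≠ none) :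
    ∃ σ ∈ M24, σ none = none ∧ σ (some 0) = some 0 ∧ σ p' = p ∧ σ • O' = O := by
  have three : ∀ (P : Finset GolayPt) (s : GolayPt), P.card = 8 →
      ∃ q t u : GolayPt, q ∈ P ∧ t ∈ P ∧ u ∈ P ∧ q ≠ none ∧ q ≠ s ∧ t ≠ none ∧ t ≠ s ∧
        u ≠ none ∧ u ≠ s ∧ q ≠ t ∧ q ≠ u ∧ t ≠ u := by
    intro P s hP
    have h5 := Finset.le_card_sdiff ({none, s} : Finset GolayPt) P
    have h2 : ({none, s} : Finset GolayPt).card ≤ 2 := Finset.card_le_two
    rw [hP] at h5
    obtain ⟨q, hq, t, ht, u, hu, hqt, hqu, htu⟩ := exists_three (P \ {none, s}) (by omega)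
    rw [Finset.mem_sdiff, Finset.mem_insert, Finset.mem_singleton] at hq ht hu
    push Not at hq ht hu
    exact ⟨q, t, u, hq.1, ht.1, hu.1, hq.2.1, hq.2.2, ht.2.1, ht.2.2, hu.2.1, hu.2.2, hqt, hqu,
      htu⟩
  obtain ⟨q, t, u, hqO, htO, huO, hqn, hqp, htn, htp, hun, hup, hqt, hqu, htu⟩ :=
    three O p hO.2
  obtain ⟨q', t', u', hqO', htO', huO', hqn', hqp', htn', htp', hun', hup', hqt', hqu',
    htu'⟩ := three O' p' hO'.2
  have hn0 : (none : GolayPt) ≠ some 0 := by decide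
  have ne0 : ∀ (P : Finset GolayPt) (a : GolayPt), some 0 ∉ P → a ∈ P → a ≠ some 0 :=
    fun P a h ha e => h (by rw [← e]; exact ha)
  have hx : [none, p', q', t', u', some 0].Nodup :=
    nodup_six _ _ _ _ _ _ (Ne.symm hpn') (Ne.symm hqn') (Ne.symm htn') (Ne.symm hun') hn0
      (Ne.symm hqp') (Ne.symm htp') (Ne.symm hup') (ne0 O' p' h0' hp') hqt' hqu'
      (ne0 O' q' h0' hqO') htu' (ne0 O' t' h0' htO') (ne0 O' u' h0' huO')
  have hy : [none, p, q, t, u, some 0].Nodup :=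
    nodup_six _ _ _ _ _ _ (Ne.symm hpn) (Ne.symm hqn) (Ne.symm htn) (Ne.symm hun) hn0
      (Ne.symm hqp) (Ne.symm htp) (Ne.symm hup) (ne0 O p h0 hp) hqt hqu
      (ne0 O q h0 hqO) htu (ne0 O t h0 htO) (ne0 O u h0 huO)
  have hiff : (∃ o ∈ octads, ∀ z ∈ [none, p', q', t', u', some 0], z ∈ o) ↔
      (∃ o ∈ octads, ∀ z ∈ [none, p, q, t, u, some 0], z ∈ o) :=
    ⟨fun hcon => absurd hcon (six_not_oct O' hO' p' q' t' u' h0' hn' hp' hqO' htO' huO'
        (Ne.symm hpn') (Ne.symm hqn') (Ne.symm htn') (Ne.symm hun') (Ne.symm hqp')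
        (Ne.symm htp') (Ne.symm hup') hqt' hqu' htu'),
      fun hcon => absurd hcon (six_not_oct O hO p q t u h0 hn hp hqO htO huO
        (Ne.symm hpn) (Ne.symm hqn) (Ne.symm htn) (Ne.symm hun) (Ne.symm hqp)
        (Ne.symm htp) (Ne.symm hup) hqt hqu htu)⟩
  obtain ⟨σ, hσ, hmap⟩ := Cfsg.Agent.Helper3.six_trans [none, p', q', t', u', some 0]
    [none, p, q, t, u, some 0] hx hy rfl rfl hiff
  have e : [σ none, σ p', σ q', σ t', σ u', σ (some 0)] = [none, p, q, t, u, some 0] := hmap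
  injection e with s1 e
  injection e with s2 e
  injection e with s3 e
  injection e with s4 e
  injection e with s5 e
  injection e with s6 e
  have t3 : σ • O' = O := by
    apply Cfsg.Agent.Helper3.octad_eq_of_inter (Cfsg.Agent.Helper3.smul_mem_octads hσ hO') hO
    have hsub : ({none, p, q, t, u} : Finset GolayPt) ⊆ σ • O' ∩ O := by
      intro z hz
      rw [Finset.mem_insert, Finset.mem_insert, Finset.mem_insert, Finset.mem_insert,
        Finset.mem_singleton] at hz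
      rw [Finset.mem_inter]
      rcases hz with h | h | h | h | h
      · rw [h]
        exact ⟨smul_mem_of σ O' _ _ s1 hn', hn⟩
      · rw [h]
        exact ⟨smul_mem_of σ O' _ _ s2 hp', hp⟩
      · rw [h]
        exact ⟨smul_mem_of σ O' _ _ s3 hqO', hqO⟩
      · rw [h]
        exact ⟨smul_mem_of σ O' _ _ s4 htO', htO⟩
      · rw [h]
        exact ⟨smul_mem_of σ O' _ _ s5 huO', huO⟩
    rw [← card_five none p q t u (Ne.symm hpn) (Ne.symm hqn) (Ne.symm htn) (Ne.symm hun)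
      (Ne.symm hqp) (Ne.symm htp) (Ne.symm hup) hqt hqu htu]
    exact Finset.card_le_card hsub
  exact ⟨σ, hσ, s1, s6, s2, t3⟩

/-! ### transitivity on the three classes -/

theorem t25A_move (z z' : leechLattice) (hn : sqNorm (z : GolayPt → ℤ) = 32)
    (h1 : (z : GolayPt → ℤ) none = 0) (h2 : (z : GolayPt → ℤ) (some 0) = 0)
    (h4 : ∑ i, (z : GolayPt → ℤ) i = 16) (hn' : sqNorm (z' : GolayPt → ℤ) = 32)
    (h1' : (z' : GolayPt → ℤ) none = 0) (h2' : (z' : GolayPt → ℤ) (some 0) = 0)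
    (h4' : ∑ i, (z' : GolayPt → ℤ) i = 16) :
    ∃ σ : Equiv.Perm GolayPt, ∃ hσ : σ ∈ M24, σ none = none ∧ σ (some 0) = some 0 ∧
      (co0Perm σ hσ : Equiv.Perm leechLattice) z = z' := by
  obtain ⟨O, hO, mn, m0, ez⟩ := t25_classA _ z.2 hn h1 h2 h4
  obtain ⟨O', hO', mn', m0', ez'⟩ := t25_classA _ z'.2 hn' h1' h2' h4'
  obtain ⟨σ, hσ, s1, s2, s3⟩ := m22_oct O O' hO hO' mn m0 mn' m0'
  refine ⟨σ, hσ, s1, s2, ?_⟩
  apply Subtype.ext
  funext i
  rw [co0Perm_apply, ez, ez']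
  have hO_iff : σ i ∈ O ↔ i ∈ O' := by
    rw [← s3]
    exact smul_mem_iff' σ O' i
  unfold sgnVec
  rw [if_neg (Finset.notMem_empty _), if_neg (Finset.notMem_empty _)]
  by_cases hiO : i ∈ O'
  · rw [if_pos (hO_iff.2 hiO), if_pos hiO]
  · rw [if_neg (fun h => hiO (hO_iff.1 h)), if_neg hiO]

theorem t25B_move (z z' : leechLattice) (hn : sqNorm (z : GolayPt → ℤ) = 32)
    (h1 : (z : GolayPt → ℤ) none = -2) (h2 : (z : GolayPt → ℤ) (some 0) = 2)
    (h4 : ∑ i, (z : GolayPt → ℤ) i = 8) (hn' : sqNorm (z' : GolayPt → ℤ) = 32)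
    (h1' : (z' : GolayPt → ℤ) none = -2) (h2' : (z' : GolayPt → ℤ) (some 0) = 2)
    (h4' : ∑ i, (z' : GolayPt → ℤ) i = 8) :
    ∃ σ : Equiv.Perm GolayPt, ∃ hσ : σ ∈ M24, σ none = none ∧ σ (some 0) = some 0 ∧
      (co0Perm σ hσ : Equiv.Perm leechLattice) z = z' := by
  obtain ⟨O, hO, r, mn, m0, mr, hrn, hr0, ez⟩ := t25_classB _ z.2 hn h1 h2 h4
  obtain ⟨O', hO', r', mn', m0', mr', hrn', hr0', ez'⟩ := t25_classB _ z'.2 hn' h1' h2' h4'
  obtain ⟨σ, hσ, s1, s2, s3, s4⟩ := m22_flag O O' hO hO' r r' mn m0 mr hrn hr0 mn' m0' mr'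
    hrn' hr0'
  refine ⟨σ, hσ, s1, s2, ?_⟩
  apply Subtype.ext
  funext i
  rw [co0Perm_apply, ez, ez']
  have hO_iff : σ i ∈ O ↔ i ∈ O' := by
    rw [← s4]
    exact smul_mem_iff' σ O' i
  have hV_iff : σ i ∈ ({none, r} : Finset GolayPt) ↔ i ∈ ({none, r'} : Finset GolayPt) := by
    rw [Finset.mem_insert, Finset.mem_singleton, Finset.mem_insert, Finset.mem_singleton]
    constructor
    · rintro (h | h)
      · exact Or.inl (σ.injective (h.trans s1.symm))
      · exact Or.inr (σ.injective (h.trans s3.symm))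
    · rintro (h | h)
      · exact Or.inl (by rw [h, s1])
      · exact Or.inr (by rw [h, s3])
  unfold sgnVec
  by_cases hiV : i ∈ ({none, r'} : Finset GolayPt)
  · rw [if_pos (hV_iff.2 hiV), if_pos hiV]
  · rw [if_neg (fun h => hiV (hV_iff.1 h)), if_neg hiV]
    by_cases hiO : i ∈ O'
    · rw [if_pos (hO_iff.2 hiO), if_pos hiO]
    · rw [if_neg (fun h => hiO (hO_iff.1 h)), if_neg hiO]

theorem t25C_move (z z' : leechLattice) (hn : sqNorm (z : GolayPt → ℤ) = 32)
    (h1 : (z : GolayPt → ℤ) none = -1) (h2 : (z : GolayPt → ℤ) (some 0) = 1)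
    (h4 : ∑ i, (z : GolayPt → ℤ) i = 12) (hn' : sqNorm (z' : GolayPt → ℤ) = 32)
    (h1' : (z' : GolayPt → ℤ) none = -1) (h2' : (z' : GolayPt → ℤ) (some 0) = 1)
    (h4' : ∑ i, (z' : GolayPt → ℤ) i = 12) :
    ∃ σ : Equiv.Perm GolayPt, ∃ hσ : σ ∈ M24, σ none = none ∧ σ (some 0) = some 0 ∧
      (co0Perm σ hσ : Equiv.Perm leechLattice) z = z' := by
  obtain ⟨c, hc, p, h8, hcn, hc0, hcp, hpn, hp0, ez⟩ := t25_classC _ z.2 hn h1 h2 h4
  obtain ⟨c', hc', p', h8', hcn', hc0', hcp', hpn', hp0', ez'⟩ :=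
    t25_classC _ z'.2 hn' h1' h2' h4'
  have hO : support₂ c ∈ octads := ⟨⟨c, hc, rfl⟩, by rw [← hammingNorm_eq_card, h8]⟩
  have hO' : support₂ c' ∈ octads := ⟨⟨c', hc', rfl⟩, by rw [← hammingNorm_eq_card, h8']⟩
  obtain ⟨σ, hσ, s1, s2, s3, s4⟩ := m22_odd (support₂ c) (support₂ c') hO hO' p p'
    ((mem_support₂ c none).2 hcn) (fun h => (mem_support₂ c (some 0)).1 h hc0)
    ((mem_support₂ c p).2 hcp) hpn
    ((mem_support₂ c' none).2 hcn') (fun h => (mem_support₂ c' (some 0)).1 h hc0')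
    ((mem_support₂ c' p').2 hcp') hpn'
  refine ⟨σ, hσ, s1, s2, ?_⟩
  apply Subtype.ext
  funext i
  rw [co0Perm_apply, ez, ez']
  by_cases hi : i = p'
  · rw [hi, s3, oddMin_self, oddMin_self, if_neg hcp, if_neg hcp']
  · have hσi : σ i ≠ p := fun h => hi (σ.injective (h.trans s3.symm))
    rw [oddMin_at p c (σ i) hσi, oddMin_at p' c' i hi]
    have hiff : σ i ∈ support₂ c ↔ i ∈ support₂ c' := by
      rw [← s4]
      exact smul_mem_iff' σ (support₂ c') i
    rw [mem_support₂, mem_support₂] at hiff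
    by_cases hci : c (σ i) = 0
    · have hci' : c' i = 0 := by
        by_contra h
        exact (hiff.2 h) hci
      rw [if_pos hci, if_pos hci']
    · rw [if_neg hci, if_neg (hiff.1 hci)]

theorem perm_fix_mclW (σ : Equiv.Perm GolayPt) (hσ : σ ∈ M24) (e : σ none = none) :
    (co0Perm σ hσ : Equiv.Perm leechLattice) mclW = mclW := by
  apply Subtype.ext
  funext i
  rw [co0Perm_apply]
  show oddMin none (0 : GolayPt → ZMod 2) (σ i) = oddMin none (0 : GolayPt → ZMod 2) i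
  rw [oddMin_zero, oddMin_zero]
  by_cases hi : i = none
  · rw [if_pos hi, if_pos (by rw [hi, e])]
  · rw [if_neg hi, if_neg (fun h => hi (σ.injective (h.trans e.symm)))]

/-- coordinates of a vector of the standard configuration -/
theorem t25_coord (y : leechLattice) (hy : y ∈ dotSet2 mclV mclW 32 0 16) :
    sqNorm (y : GolayPt → ℤ) = 32 ∧ (y : GolayPt → ℤ) (some 0) = -(y : GolayPt → ℤ) none ∧
      ∑ i, (y : GolayPt → ℤ) i = 16 + 4 * (y : GolayPt → ℤ) none ∧
      dotInt (stdX : GolayPt → ℤ) (y : GolayPt → ℤ) = -8 * (y : GolayPt → ℤ) none := by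
  obtain ⟨_, hn, h1, hs⟩ := (t25_std y).1 hy
  have hd : dotInt (sgnVec 4 {none, some 0} {none}) (y : GolayPt → ℤ) =
      -4 * (y : GolayPt → ℤ) none + 4 * (y : GolayPt → ℤ) (some 0) := dot_stdX _
  refine ⟨hn, by omega, hs, ?_⟩
  show dotInt (sgnVec 4 {none, some 0} {none}) (y : GolayPt → ℤ) = _
  rw [hd]
  omega

/-- transitivity of the stabiliser of the standard triple on each class -/
theorem t25_std_sub (y y' : leechLattice) (hy : y ∈ dotSet2 mclV mclW 32 0 16)
    (hy' : y' ∈ dotSet2 mclV mclW 32 0 16) (k : ℤ) (hk : k = 0 ∨ k = 16 ∨ k = 8)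
    (hd : dotInt (stdX : GolayPt → ℤ) (y : GolayPt → ℤ) = k)
    (hd' : dotInt (stdX : GolayPt → ℤ) (y' : GolayPt → ℤ) = k) :
    ∃ g : Co0, g • mclV = mclV ∧ g • mclW = mclW ∧ g • stdX = stdX ∧ g • y = y' := by
  obtain ⟨hn, h0, hs, hx⟩ := t25_coord y hy
  obtain ⟨hn', h0', hs', hx'⟩ := t25_coord y' hy'
  rw [hd] at hx
  rw [hd'] at hx'
  have key : ∀ (σ : Equiv.Perm GolayPt) (hσ : σ ∈ M24), σ none = none → σ (some 0) = some 0 →
      (co0Perm σ hσ : Equiv.Perm leechLattice) y = y' →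
      ∃ g : Co0, g • mclV = mclV ∧ g • mclW = mclW ∧ g • stdX = stdX ∧ g • y = y' :=
    fun σ hσ s1 s2 e => ⟨co0Perm σ hσ, perm_fix_mclV σ hσ s1 s2, perm_fix_mclW σ hσ s1,
      perm_fix_stdX σ hσ s1 s2, e⟩
  rcases hk with rfl | rfl | rfl
  · obtain ⟨σ, hσ, s1, s2, e⟩ := t25A_move y y' hn (by omega) (by omega) (by omega) hn'
      (by omega) (by omega) (by omega)
    exact key σ hσ s1 s2 e
  · obtain ⟨σ, hσ, s1, s2, e⟩ := t25B_move y y' hn (by omega) (by omega) (by omega) hn'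
      (by omega) (by omega) (by omega)
    exact key σ hσ s1 s2 e
  · obtain ⟨σ, hσ, s1, s2, e⟩ := t25C_move y y' hn (by omega) (by omega) (by omega) hn'
      (by omega) (by omega) (by omega)
    exact key σ hσ s1 s2 e

theorem stdX_mem25 : stdX ∈ dotSet2 mclV mclW 32 0 16 := by
  rw [t25_std]
  have hsub : ({none} : Finset GolayPt) ⊆ {none, some 0} := by simp
  have v1 : sgnVec 4 ({none, some 0} : Finset GolayPt) {none} none = -4 := by decide
  have v2 : sgnVec 4 ({none, some 0} : Finset GolayPt) {none} (some 0) = 4 := by decide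
  have hc2 : ({none, some 0} : Finset GolayPt).card = 2 := Finset.card_pair (by decide)
  have hsum : ∑ i, sgnVec 4 ({none, some 0} : Finset GolayPt) {none} i = 0 := by
    rw [sgnVec_sum 4 hsub, hc2, Finset.card_singleton]
    norm_num
  refine ⟨stdX.2, stdX_norm, ?_, ?_⟩
  · show sgnVec 4 ({none, some 0} : Finset GolayPt) {none} none +
      sgnVec 4 ({none, some 0} : Finset GolayPt) {none} (some 0) = 0
    rw [v1, v2]
    norm_num
  · show ∑ i, sgnVec 4 ({none, some 0} : Finset GolayPt) {none} i =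
      16 + 4 * sgnVec 4 ({none, some 0} : Finset GolayPt) {none} none
    rw [hsum, v1]
    norm_num

/-! ### the general configuration -/

/-- the vectors of the configuration with a given inner product with a given one -/
def genCls (v w x : leechLattice) (k : ℤ) : Set leechLattice :=
  {y | y ∈ dotSet2 v w 32 0 16 ∧ dotInt (x : GolayPt → ℤ) (y : GolayPt → ℤ) = k}

theorem stdCls_ncard (a : ℤ) (ha : a ∈ Finset.Icc (-4 : ℤ) 4) :
    (genCls mclV mclW stdX (-8 * a)).ncard = tN a := by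
  rw [← Set.ncard_image_of_injective (genCls mclV mclW stdX (-8 * a)) Subtype.val_injective,
    ← tA_ncard a ha]
  congr 1
  ext x
  constructor
  · rintro ⟨t, ⟨ht, hd⟩, rfl⟩
    obtain ⟨hn, h0, hs, hx⟩ := t25_coord t ht
    rw [hd] at hx
    have e : (t : GolayPt → ℤ) none = a := by omega
    exact ⟨t.2, hn, by rw [hs, e], e, by rw [h0, e]⟩
  · rintro ⟨hx, hn, hs, h1, h2⟩
    have q1 : x none + x (some 0) = 0 := by
      rw [h1, h2]
      ring
    have q2 : ∑ i, x i = 16 + 4 * x none := by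
      rw [h1]
      exact hs
    have hm : (⟨x, hx⟩ : leechLattice) ∈ dotSet2 mclV mclW 32 0 16 :=
      (t25_std ⟨x, hx⟩).2 ⟨hx, hn, q1, q2⟩
    obtain ⟨_, _, _, hd⟩ := t25_coord _ hm
    refine ⟨⟨x, hx⟩, ⟨hm, hd.trans ?_⟩, rfl⟩
    show -8 * x none = -8 * a
    rw [h1]

/-- moving a triple to the standard one -/
theorem t25_to_std (v w x : leechLattice) (hv : sqNorm (v : GolayPt → ℤ) = 32)
    (hw : sqNorm (w : GolayPt → ℤ) = 32)
    (hvw : dotInt (v : GolayPt → ℤ) (w : GolayPt → ℤ) = -8) (hx : x ∈ dotSet2 v w 32 0 16) :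
    ∃ g : Co0, (g : Equiv.Perm leechLattice) v = mclV ∧
      (g : Equiv.Perm leechLattice) w = mclW ∧ (g : Equiv.Perm leechLattice) x = stdX := by
  obtain ⟨g, e1, e2⟩ := pair_trans8 v w mclV mclW hv hw mclV_norm mclW_norm hvw mclVW
  have e1' : (g : Equiv.Perm leechLattice) v = mclV := e1
  have e2' : (g : Equiv.Perm leechLattice) w = mclW := e2
  have hgx : (g : Equiv.Perm leechLattice) x ∈ dotSet2 mclV mclW 32 0 16 := by
    have h := dotSet2_map_mem g v w 32 0 16 hx
    rw [e1', e2'] at h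
    exact h
  obtain ⟨k, k1, k2, k3⟩ := mcl2025_trans mclV mclW _ stdX mclV_norm mclW_norm mclVW hgx
    stdX_mem25
  refine ⟨k * g, ?_, ?_, ?_⟩
  · show (k : Equiv.Perm leechLattice) ((g : Equiv.Perm leechLattice) v) = mclV
    rw [e1']
    exact k1
  · show (k : Equiv.Perm leechLattice) ((g : Equiv.Perm leechLattice) w) = mclW
    rw [e2']
    exact k2
  · exact k3

theorem mcl2025_cls (v w x : leechLattice) (hv : sqNorm (v : GolayPt → ℤ) = 32)
    (hw : sqNorm (w : GolayPt → ℤ) = 32)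
    (hvw : dotInt (v : GolayPt → ℤ) (w : GolayPt → ℤ) = -8) (hx : x ∈ dotSet2 v w 32 0 16)
    (a : ℤ) (ha : a ∈ Finset.Icc (-4 : ℤ) 4) : (genCls v w x (-8 * a)).ncard = tN a := by
  obtain ⟨g, e1, e2, e3⟩ := t25_to_std v w x hv hw hvw hx
  rw [← Set.ncard_image_of_injective (genCls v w x (-8 * a))
    (g : Equiv.Perm leechLattice).injective, ← stdCls_ncard a ha]
  congr 1
  ext z
  constructor
  · rintro ⟨y, ⟨hy, hd⟩, rfl⟩
    refine ⟨?_, (dot_map g x stdX y e3).trans hd⟩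
    have h := dotSet2_map_mem g v w 32 0 16 hy
    rw [e1, e2] at h
    exact h
  · rintro ⟨hz, hd⟩
    have i1 : ((g⁻¹ : Co0) : Equiv.Perm leechLattice) mclV = v := by
      rw [← e1]
      exact Equiv.symm_apply_apply (g : Equiv.Perm leechLattice) v
    have i2 : ((g⁻¹ : Co0) : Equiv.Perm leechLattice) mclW = w := by
      rw [← e2]
      exact Equiv.symm_apply_apply (g : Equiv.Perm leechLattice) w
    have h := dotSet2_map_mem g⁻¹ mclV mclW 32 0 16 hz
    rw [i1, i2] at h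
    exact ⟨((g⁻¹ : Co0) : Equiv.Perm leechLattice) z, ⟨h, (dot_inv g x stdX z e3).trans hd⟩,
      Equiv.apply_symm_apply (g : Equiv.Perm leechLattice) z⟩

/-- the stabiliser of a vector of the configuration is transitive on each class -/
theorem mcl2025_sub_trans (v w x y y' : leechLattice) (hv : sqNorm (v : GolayPt → ℤ) = 32)
    (hw : sqNorm (w : GolayPt → ℤ) = 32)
    (hvw : dotInt (v : GolayPt → ℤ) (w : GolayPt → ℤ) = -8) (hx : x ∈ dotSet2 v w 32 0 16)
    (hy : y ∈ dotSet2 v w 32 0 16) (hy' : y' ∈ dotSet2 v w 32 0 16) (k : ℤ)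
    (hk : k = 0 ∨ k = 16 ∨ k = 8)
    (hd : dotInt (x : GolayPt → ℤ) (y : GolayPt → ℤ) = k)
    (hd' : dotInt (x : GolayPt → ℤ) (y' : GolayPt → ℤ) = k) :
    ∃ g : Co0, g • v = v ∧ g • w = w ∧ g • x = x ∧ g • y = y' := by
  obtain ⟨g, e1, e2, e3⟩ := t25_to_std v w x hv hw hvw hx
  have hgy : (g : Equiv.Perm leechLattice) y ∈ dotSet2 mclV mclW 32 0 16 := by
    have h := dotSet2_map_mem g v w 32 0 16 hy
    rw [e1, e2] at h
    exact h
  have hgy' : (g : Equiv.Perm leechLattice) y' ∈ dotSet2 mclV mclW 32 0 16 := by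
    have h := dotSet2_map_mem g v w 32 0 16 hy'
    rw [e1, e2] at h
    exact h
  have d1 : dotInt (stdX : GolayPt → ℤ)
      (((g : Equiv.Perm leechLattice) y : leechLattice) : GolayPt → ℤ) = k :=
    (dot_map g x stdX y e3).trans hd
  have d2 : dotInt (stdX : GolayPt → ℤ)
      (((g : Equiv.Perm leechLattice) y' : leechLattice) : GolayPt → ℤ) = k :=
    (dot_map g x stdX y' e3).trans hd'
  obtain ⟨m, m1, m2, m3, m4⟩ := t25_std_sub _ _ hgy hgy' k hk d1 d2
  have m1' : (m : Equiv.Perm leechLattice) mclV = mclV := m1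
  have m2' : (m : Equiv.Perm leechLattice) mclW = mclW := m2
  have m3' : (m : Equiv.Perm leechLattice) stdX = stdX := m3
  have m4' : (m : Equiv.Perm leechLattice) ((g : Equiv.Perm leechLattice) y) =
      (g : Equiv.Perm leechLattice) y' := m4
  refine ⟨g⁻¹ * m * g, ?_, ?_, ?_, ?_⟩
  · show ((g⁻¹ : Co0) : Equiv.Perm leechLattice) ((m : Equiv.Perm leechLattice)
      ((g : Equiv.Perm leechLattice) v)) = v
    rw [e1, m1', ← e1]
    exact Equiv.symm_apply_apply (g : Equiv.Perm leechLattice) v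
  · show ((g⁻¹ : Co0) : Equiv.Perm leechLattice) ((m : Equiv.Perm leechLattice)
      ((g : Equiv.Perm leechLattice) w)) = w
    rw [e2, m2', ← e2]
    exact Equiv.symm_apply_apply (g : Equiv.Perm leechLattice) w
  · show ((g⁻¹ : Co0) : Equiv.Perm leechLattice) ((m : Equiv.Perm leechLattice)
      ((g : Equiv.Perm leechLattice) x)) = x
    rw [e3, m3', ← e3]
    exact Equiv.symm_apply_apply (g : Equiv.Perm leechLattice) x
  · show ((g⁻¹ : Co0) : Equiv.Perm leechLattice) ((m : Equiv.Perm leechLattice)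
      ((g : Equiv.Perm leechLattice) y)) = y'
    rw [m4']
    exact Equiv.symm_apply_apply (g : Equiv.Perm leechLattice) y'

/-- the orbits of the stabiliser of a vector of the configuration are the classes -/
theorem orbit_eq_cls (v w x y : leechLattice) (hv : sqNorm (v : GolayPt → ℤ) = 32)
    (hw : sqNorm (w : GolayPt → ℤ) = 32)
    (hvw : dotInt (v : GolayPt → ℤ) (w : GolayPt → ℤ) = -8) (hx : x ∈ dotSet2 v w 32 0 16)
    (k : ℤ) (hk : k = 0 ∨ k = 16 ∨ k = 8) (hy : y ∈ genCls v w x k) :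
    MulAction.orbit ↥(MulAction.stabilizer ↥Co0 v ⊓ MulAction.stabilizer ↥Co0 w ⊓
      MulAction.stabilizer ↥Co0 x) y = genCls v w x k := by
  ext z
  constructor
  · rintro ⟨⟨g, hg⟩, rfl⟩
    have q1 := Subgroup.mem_inf.1 hg
    have q2 := Subgroup.mem_inf.1 q1.1
    have gv' : (g : Equiv.Perm leechLattice) v = v := MulAction.mem_stabilizer_iff.1 q2.1
    have gw' : (g : Equiv.Perm leechLattice) w = w := MulAction.mem_stabilizer_iff.1 q2.2
    have gx' : (g : Equiv.Perm leechLattice) x = x := MulAction.mem_stabilizer_iff.1 q1.2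
    show (g : Equiv.Perm leechLattice) y ∈ genCls v w x k
    refine ⟨?_, (dot_map g x x y gx').trans hy.2⟩
    have h := dotSet2_map_mem g v w 32 0 16 hy.1
    rw [gv', gw'] at h
    exact h
  · intro hz
    obtain ⟨g, g1, g2, g3, g4⟩ := mcl2025_sub_trans v w x y z hv hw hvw hx hy.1 hz.1 k hk hy.2
      hz.2
    have hmem : g ∈ MulAction.stabilizer ↥Co0 v ⊓ MulAction.stabilizer ↥Co0 w ⊓
        MulAction.stabilizer ↥Co0 x :=
      Subgroup.mem_inf.2 ⟨Subgroup.mem_inf.2 ⟨MulAction.mem_stabilizer_iff.2 g1,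
        MulAction.mem_stabilizer_iff.2 g2⟩, MulAction.mem_stabilizer_iff.2 g3⟩
    exact ⟨⟨g, hmem⟩, g4⟩

/-- three orbits of sizes 330, 462 and 1232 -/
theorem mcl2025_orbits (v w x : leechLattice) (hv : sqNorm (v : GolayPt → ℤ) = 32)
    (hw : sqNorm (w : GolayPt → ℤ) = 32)
    (hvw : dotInt (v : GolayPt → ℤ) (w : GolayPt → ℤ) = -8) (hx : x ∈ dotSet2 v w 32 0 16) :
    ∃ y₁ ∈ dotSet2 v w 32 0 16, ∃ y₂ ∈ dotSet2 v w 32 0 16, ∃ y₃ ∈ dotSet2 v w 32 0 16,
      (MulAction.orbit ↥(MulAction.stabilizer ↥Co0 v ⊓ MulAction.stabilizer ↥Co0 w ⊓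
        MulAction.stabilizer ↥Co0 x) y₁).ncard = 330 ∧
      (MulAction.orbit ↥(MulAction.stabilizer ↥Co0 v ⊓ MulAction.stabilizer ↥Co0 w ⊓
        MulAction.stabilizer ↥Co0 x) y₂).ncard = 462 ∧
      (MulAction.orbit ↥(MulAction.stabilizer ↥Co0 v ⊓ MulAction.stabilizer ↥Co0 w ⊓
        MulAction.stabilizer ↥Co0 x) y₃).ncard = 1232 := by
  obtain ⟨t1, t2, t3, t4, t5, t6, t7, t8, t9⟩ := tN_vals
  have c0 : (genCls v w x 0).ncard = 330 := by
    have h := mcl2025_cls v w x hv hw hvw hx 0 (Finset.mem_Icc.2 ⟨by norm_num, by norm_num⟩)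
    rw [t5] at h
    have e : (-8 : ℤ) * 0 = 0 := by norm_num
    rw [e] at h
    exact h
  have c16 : (genCls v w x 16).ncard = 462 := by
    have h := mcl2025_cls v w x hv hw hvw hx (-2)
      (Finset.mem_Icc.2 ⟨by norm_num, by norm_num⟩)
    rw [t3] at h
    have e : (-8 : ℤ) * (-2) = 16 := by norm_num
    rw [e] at h
    exact h
  have c8 : (genCls v w x 8).ncard = 1232 := by
    have h := mcl2025_cls v w x hv hw hvw hx (-1)
      (Finset.mem_Icc.2 ⟨by norm_num, by norm_num⟩)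
    rw [t4] at h
    have e : (-8 : ℤ) * (-1) = 8 := by norm_num
    rw [e] at h
    exact h
  have ne : ∀ (k : ℤ) (n : ℕ), (genCls v w x k).ncard = n → n ≠ 0 →
      ∃ y, y ∈ genCls v w x k := by
    intro k n hn hn0
    by_contra hcon
    have hem : genCls v w x k = ∅ := by
      ext y
      constructor
      · intro hy
        exact absurd ⟨y, hy⟩ hcon
      · intro hy
        exact absurd hy (Set.notMem_empty y)
    rw [hem, Set.ncard_empty] at hn
    exact hn0 hn.symm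
  obtain ⟨y₁, hy₁⟩ := ne 0 330 c0 (by norm_num)
  obtain ⟨y₂, hy₂⟩ := ne 16 462 c16 (by norm_num)
  obtain ⟨y₃, hy₃⟩ := ne 8 1232 c8 (by norm_num)
  refine ⟨y₁, hy₁.1, y₂, hy₂.1, y₃, hy₃.1, ?_, ?_, ?_⟩
  · rw [orbit_eq_cls v w x y₁ hv hw hvw hx 0 (Or.inl rfl) hy₁]
    exact c0
  · rw [orbit_eq_cls v w x y₂ hv hw hvw hx 16 (Or.inr (Or.inl rfl)) hy₂]
    exact c16
  · rw [orbit_eq_cls v w x y₃ hv hw hvw hx 8 (Or.inr (Or.inr rfl)) hy₃]
    exact c8

end Cfsg.Agent.Helper28
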