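import Cfsg.Agent.Helper28.W11178
import Cfsg.Agent.Helper28.McL2025
import Cfsg.Agent.Helper28.HSSimple
import Cfsg.Agent.Helper3.Golay.M12Thms2

/-!
The action of the stabiliser of a vector `u` of sum of squares 48 and a minimal vector `x` of
inner product `-16` with it on the 11178 minimal vectors of inner product `-16` with `u`: the
classes by the inner product with `x` (`-8`, `16`, `0`, `8`) have 352, 1100, 4125 and 5600
elements and are orbits.
-/

set_option autoImplicit false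

namespace Cfsg.Agent.Helper28

open Cfsg
open scoped Pointwise

/-! ### the tag count -/

theorem ab_tag (a b : ℤ) (x : GolayPt → ℤ) (hn : ∑ i, x i ^ 2 = 32) :
    ((∑ i, (if i ∈ Cfsg.Agent.Helper3.gSupp 8388609 then tagAB a b (x i)
        else tagShift (x i)) : ℕ) : ℤ) =
      ∑ i, x i + 120 + (if x none = a then 0 else if x none = b then 70 else 210) +
        (if x (some 0) = a then 0 else if x (some 0) = b then 70 else 210) := by
  rw [gSupp_pair, Nat.cast_sum]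
  have e : ∀ i : GolayPt, ((if i ∈ ({none, some 0} : Finset GolayPt) then tagAB a b (x i)
      else tagShift (x i) : ℕ) : ℤ) =
      (x i + 5) + (if i ∈ ({none, some 0} : Finset GolayPt) then
        (if x i = a then (0 : ℤ) else if x i = b then 70 else 210) else 0) := by
    intro i
    have h := abs_le_five hn i
    unfold tagAB tagShift
    by_cases hi : i ∈ ({none, some 0} : Finset GolayPt)
    · rw [if_pos hi, if_pos hi]
      split_ifs <;> push_cast <;> omega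
    · rw [if_neg hi, if_neg hi]
      omega
  rw [Finset.sum_congr rfl (fun i _ => e i), Finset.sum_add_distrib, Finset.sum_add_distrib,
    sum_const_golay, Finset.sum_ite_mem, Finset.univ_inter, Finset.sum_pair (by decide)]
  ring

/-- minimal vectors with coordinates `a`, `b` at the base points and coordinate sum `s` -/
def sAB (a b s : ℤ) : Set (GolayPt → ℤ) :=
  {x | x ∈ leechLattice ∧ ∑ i, x i ^ 2 = 32 ∧ ∑ i, x i = s ∧ x none = a ∧ x (some 0) = b}

theorem sAB_finite (a b s : ℤ) : (sAB a b s).Finite := min_finite32.subset (fun _ hx => hx.2.1)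

theorem wAB_iff (a b s : ℤ) (hab : a ≠ b) (hs : -32 ≤ s ∧ s ≤ 32) (x : GolayPt → ℤ) :
    x ∈ wAB a b s ↔ x ∈ leechLattice ∧ ∑ i, x i ^ 2 = 32 ∧ ∑ i, x i = s ∧
      ((x none = a ∧ x (some 0) = b) ∨ (x none = b ∧ x (some 0) = a)) := by
  constructor
  · rintro ⟨⟨hx, hn, _⟩, ht⟩
    have hn' : ∑ i, x i ^ 2 = 32 := by
      rw [hn]
      norm_num
    have h := ab_tag a b x hn'
    rw [ht] at h
    have hb := sum_abs32 x hn'
    unfold tgtAB at h
    rw [if_neg hab] at h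
    refine ⟨hx, hn', ?_⟩
    split_ifs at h <;> omega
  · rintro ⟨hx, hn', hs', hd⟩
    refine ⟨⟨hx, by rw [hn']; norm_num, fun i => Finset.mem_Icc.2 (abs_le_five hn' i)⟩, ?_⟩
    have h := ab_tag a b x hn'
    have hcast : ((∑ i, (if i ∈ Cfsg.Agent.Helper3.gSupp 8388609 then tagAB a b (x i)
        else tagShift (x i)) : ℕ) : ℤ) = ((tgtAB a b s : ℕ) : ℤ) := by
      rw [h, hs']
      unfold tgtAB
      rw [if_neg hab]
      rcases hd with ⟨k1, k2⟩ | ⟨k1, k2⟩
      · rw [k1, k2]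
        split_ifs <;> omega
      · rw [k1, k2]
        split_ifs <;> omega
    exact_mod_cast hcast

theorem wAA_iff (a s : ℤ) (hs : -32 ≤ s ∧ s ≤ 32) (x : GolayPt → ℤ) :
    x ∈ wAB a a s ↔ x ∈ sAB a a s := by
  constructor
  · rintro ⟨⟨hx, hn, _⟩, ht⟩
    have hn' : ∑ i, x i ^ 2 = 32 := by
      rw [hn]
      norm_num
    have h := ab_tag a a x hn'
    rw [ht] at h
    have hb := sum_abs32 x hn'
    unfold tgtAB at h
    rw [if_pos (rfl : a = a)] at h
    refine ⟨hx, hn', ?_⟩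
    split_ifs at h <;> omega
  · rintro ⟨hx, hn', hs', k1, k2⟩
    refine ⟨⟨hx, by rw [hn']; norm_num, fun i => Finset.mem_Icc.2 (abs_le_five hn' i)⟩, ?_⟩
    have h := ab_tag a a x hn'
    have hcast : ((∑ i, (if i ∈ Cfsg.Agent.Helper3.gSupp 8388609 then tagAB a a (x i)
        else tagShift (x i)) : ℕ) : ℤ) = ((tgtAB a a s : ℕ) : ℤ) := by
      rw [h, hs']
      unfold tgtAB
      rw [if_pos (rfl : a = a), k1, k2]
      split_ifs <;> omega
    exact_mod_cast hcast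

theorem sAB_swap (a b s : ℤ) : (sAB b a s).ncard = (sAB a b s).ncard := by
  obtain ⟨σ, hσ, s1, s2⟩ := Cfsg.Agent.Helper3.M24_trans2 none (some 0) (some 0) none
    (by decide) (by decide)
  have s1' : σ⁻¹ (some 0) = none := by
    have h := Cfsg.Agent.Helper3.perm_inv_apply σ none
    rw [s1] at h
    exact h
  have s2' : σ⁻¹ none = some 0 := by
    have h := Cfsg.Agent.Helper3.perm_inv_apply σ (some 0)
    rw [s2] at h
    exact h
  symm
  refine Set.ncard_congr (fun x _ => fun i => x (σ i)) ?_ ?_ ?_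
  · rintro x ⟨hx, hn, hs, h1, h2⟩
    refine ⟨Cfsg.Agent.Helper3.leech_perm σ hσ x hx, ?_, ?_, ?_, ?_⟩
    · rw [← hn]
      exact Equiv.sum_comp σ (fun i => x i ^ 2)
    · rw [← hs]
      exact Equiv.sum_comp σ (fun i => x i)
    · show x (σ none) = b
      rw [s1]
      exact h2
    · show x (σ (some 0)) = a
      rw [s2]
      exact h1
  · intro x y _ _ hxy
    funext i
    have h : x (σ (σ⁻¹ i)) = y (σ (σ⁻¹ i)) := congrFun hxy (σ⁻¹ i)
    rw [Cfsg.Agent.Helper3.perm_apply_inv] at h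
    exact h
  · rintro y ⟨hy, hn, hs, h1, h2⟩
    refine ⟨fun i => y (σ⁻¹ i),
      ⟨Cfsg.Agent.Helper3.leech_perm σ⁻¹ (M24.inv_mem hσ) y hy, ?_, ?_, ?_, ?_⟩, ?_⟩
    · rw [← hn]
      exact Equiv.sum_comp σ⁻¹ (fun i => y i ^ 2)
    · rw [← hs]
      exact Equiv.sum_comp σ⁻¹ (fun i => y i)
    · show y (σ⁻¹ none) = a
      rw [s2']
      exact h2
    · show y (σ⁻¹ (some 0)) = b
      rw [s1']
      exact h1
    · funext i
      show y (σ⁻¹ (σ i)) = y i
      rw [Cfsg.Agent.Helper3.perm_inv_apply]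

theorem sAB_two (a b s : ℤ) (hab : a ≠ b) (hs : -32 ≤ s ∧ s ≤ 32) :
    2 * (sAB a b s).ncard = wG a b s := by
  have hd : Disjoint (sAB a b s) (sAB b a s) := by
    rw [Set.disjoint_left]
    rintro x ⟨_, _, _, h1, _⟩ ⟨_, _, _, h1', _⟩
    exact hab (h1.symm.trans h1')
  have e : wAB a b s = sAB a b s ∪ sAB b a s := by
    ext x
    rw [wAB_iff a b s hab hs x, Set.mem_union]
    constructor
    · rintro ⟨hx, hn, hs', ⟨h1, h2⟩ | ⟨h1, h2⟩⟩
      · exact Or.inl ⟨hx, hn, hs', h1, h2⟩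
      · exact Or.inr ⟨hx, hn, hs', h1, h2⟩
    · rintro (⟨hx, hn, hs', h1, h2⟩ | ⟨hx, hn, hs', h1, h2⟩)
      · exact ⟨hx, hn, hs', Or.inl ⟨h1, h2⟩⟩
      · exact ⟨hx, hn, hs', Or.inr ⟨h1, h2⟩⟩
  rw [← wAB_ncard a b s, e, Set.ncard_union_eq hd (sAB_finite a b s) (sAB_finite b a s),
    sAB_swap a b s]
  ring

theorem sAA_one (a s : ℤ) (hs : -32 ≤ s ∧ s ≤ 32) : (sAB a a s).ncard = wG a a s := by
  rw [← wAB_ncard a a s]
  congr 1
  ext x
  exact (wAA_iff a s hs x).symm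

/-- the shape sizes -/
def nAB (a b : ℤ) : ℕ :=
  if a = -1 ∧ b = -3 then 176 else if a = 0 ∧ b = -2 then 176
  else if a = -2 ∧ b = -2 then 1155 else if a = -1 ∧ b = -1 then 2640
  else if a = 0 ∧ b = 0 then 330 else if a = -3 ∧ b = -1 then 672
  else if a = -2 ∧ b = 0 then 3696 else if a = -1 ∧ b = 1 then 1232
  else if a = -4 ∧ b = 0 then 22 else if a = -3 ∧ b = 1 then 616
  else if a = -2 ∧ b = 2 then 462 else if a = -4 ∧ b = 4 then 1 else 0

theorem sAB_ge (a b : ℤ) : nAB a b ≤ (sAB a b (-16 - 4 * a)).ncard := by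
  obtain ⟨w1, w2, w3, w4, w5, w6, w7, w8, w9, w10, w11, w12⟩ := wG_num
  have key : ∀ (a' b' s : ℤ) (m : ℕ), a' ≠ b' → (-32 ≤ s ∧ s ≤ 32) → wG a' b' s = 2 * m →
      -16 - 4 * a' = s → a = a' ∧ b = b' → m ≤ (sAB a b (-16 - 4 * a)).ncard := by
    rintro a' b' s m hab hs hm hse ⟨h1, h2⟩
    have h2' := sAB_two a' b' s hab hs
    have e : (sAB a b (-16 - 4 * a)).ncard = (sAB a' b' s).ncard := by rw [h1, h2, hse]
    rw [e]
    omega
  have key2 : ∀ (a' s : ℤ) (m : ℕ), (-32 ≤ s ∧ s ≤ 32) → wG a' a' s = m →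
      -16 - 4 * a' = s → a = a' ∧ b = a' → m ≤ (sAB a b (-16 - 4 * a)).ncard := by
    rintro a' s m hs hm hse ⟨h1, h2⟩
    have e : (sAB a b (-16 - 4 * a)).ncard = m := by
      rw [h1, h2, hse, sAA_one a' s hs, hm]
    exact le_of_eq e.symm
  unfold nAB
  by_cases h1 : a = -1 ∧ b = -3
  · rw [if_pos h1]
    exact key (-1) (-3) (-12) 176 (by norm_num) (by norm_num) (w1.trans (by norm_num))
      (by norm_num) h1
  rw [if_neg h1]
  by_cases h2 : a = 0 ∧ b = -2
  · rw [if_pos h2]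
    exact key 0 (-2) (-16) 176 (by norm_num) (by norm_num) (w2.trans (by norm_num))
      (by norm_num) h2
  rw [if_neg h2]
  by_cases h3 : a = -2 ∧ b = -2
  · rw [if_pos h3]
    exact key2 (-2) (-8) 1155 (by norm_num) w3 (by norm_num) h3
  rw [if_neg h3]
  by_cases h4 : a = -1 ∧ b = -1
  · rw [if_pos h4]
    exact key2 (-1) (-12) 2640 (by norm_num) w4 (by norm_num) h4
  rw [if_neg h4]
  by_cases h5 : a = 0 ∧ b = 0
  · rw [if_pos h5]
    exact key2 0 (-16) 330 (by norm_num) w5 (by norm_num) h5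
  rw [if_neg h5]
  by_cases h6 : a = -3 ∧ b = -1
  · rw [if_pos h6]
    exact key (-3) (-1) (-4) 672 (by norm_num) (by norm_num) (w6.trans (by norm_num))
      (by norm_num) h6
  rw [if_neg h6]
  by_cases h7 : a = -2 ∧ b = 0
  · rw [if_pos h7]
    exact key (-2) 0 (-8) 3696 (by norm_num) (by norm_num) (w7.trans (by norm_num))
      (by norm_num) h7
  rw [if_neg h7]
  by_cases h8 : a = -1 ∧ b = 1
  · rw [if_pos h8]
    exact key (-1) 1 (-12) 1232 (by norm_num) (by norm_num) (w8.trans (by norm_num))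
      (by norm_num) h8
  rw [if_neg h8]
  by_cases h9 : a = -4 ∧ b = 0
  · rw [if_pos h9]
    exact key (-4) 0 0 22 (by norm_num) (by norm_num) (w9.trans (by norm_num))
      (by norm_num) h9
  rw [if_neg h9]
  by_cases h10 : a = -3 ∧ b = 1
  · rw [if_pos h10]
    exact key (-3) 1 (-4) 616 (by norm_num) (by norm_num) (w10.trans (by norm_num))
      (by norm_num) h10
  rw [if_neg h10]
  by_cases h11 : a = -2 ∧ b = 2
  · rw [if_pos h11]
    exact key (-2) 2 (-8) 462 (by norm_num) (by norm_num) (w11.trans (by norm_num))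
      (by norm_num) h11
  rw [if_neg h11]
  by_cases h12 : a = -4 ∧ b = 4
  · rw [if_pos h12]
    exact key (-4) 4 0 1 (by norm_num) (by norm_num) (w12.trans (by norm_num))
      (by norm_num) h12
  rw [if_neg h12]
  exact Nat.zero_le _

/-- the standard configuration, as vectors -/
def stdS : Set (GolayPt → ℤ) :=
  {x | x ∈ leechLattice ∧ ∑ i, x i ^ 2 = 32 ∧ 4 * x none + ∑ i, x i = -16}

/-- the possible pairs of coordinates at the base points -/
noncomputable def abIdx : Finset (ℤ × ℤ) := Finset.Icc (-5 : ℤ) 5 ×ˢ Finset.Icc (-5 : ℤ) 5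

theorem stdS_eq : stdS = ⋃ p ∈ abIdx, sAB p.1 p.2 (-16 - 4 * p.1) := by
  ext x
  rw [Set.mem_iUnion₂]
  constructor
  · rintro ⟨hx, hn, hs⟩
    have h1 := abs_le_five hn none
    have h2 := abs_le_five hn (some 0)
    refine ⟨(x none, x (some 0)), ?_, hx, hn, ?_, rfl, rfl⟩
    · unfold abIdx
      rw [Finset.mem_product, Finset.mem_Icc, Finset.mem_Icc]
      exact ⟨h1, h2⟩
    · show ∑ i, x i = -16 - 4 * x none
      omega
  · rintro ⟨p, _, hx, hn, hs, h1, _⟩
    refine ⟨hx, hn, ?_⟩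
    omega

theorem stdS_ncard : stdS.ncard = 11178 := by
  have h := count11178 stdU stdU_norm
  rw [dotSet_ncard_eq] at h
  rw [← h]
  congr 1
  ext x
  constructor
  · rintro ⟨hx, hn, hs⟩
    refine ⟨hx, hn, ?_⟩
    show dotInt (fiveVec none) x = -16
    rw [dot_five]
    exact hs
  · rintro ⟨hx, hn, hs⟩
    have hs' : dotInt (fiveVec none) x = -16 := hs
    rw [dot_five] at hs'
    exact ⟨hx, hn, hs'⟩

theorem nAB_sum : ∑ p ∈ abIdx, nAB p.1 p.2 = 11178 := by
  decide +kernel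

theorem sAB_all (p : ℤ × ℤ) (hp : p ∈ abIdx) :
    (sAB p.1 p.2 (-16 - 4 * p.1)).ncard = nAB p.1 p.2 := by
  have hfin : ∀ q ∈ abIdx, (sAB q.1 q.2 (-16 - 4 * q.1)).Finite :=
    fun q _ => sAB_finite _ _ _
  have hdisj : ∀ q ∈ abIdx, ∀ q' ∈ abIdx, q ≠ q' →
      Disjoint (sAB q.1 q.2 (-16 - 4 * q.1)) (sAB q'.1 q'.2 (-16 - 4 * q'.1)) := by
    intro q _ q' _ hne
    rw [Set.disjoint_left]
    rintro x ⟨_, _, _, h1, h2⟩ ⟨_, _, _, h1', h2'⟩
    exact hne (Prod.ext (h1.symm.trans h1') (h2.symm.trans h2'))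
  have hsum : ∑ q ∈ abIdx, (sAB q.1 q.2 (-16 - 4 * q.1)).ncard = 11178 := by
    have h := stdS_ncard
    rw [stdS_eq, ncard_biUnion_fin abIdx _ hfin hdisj] at h
    exact h
  have hle : ∀ q ∈ abIdx, nAB q.1 q.2 ≤ (sAB q.1 q.2 (-16 - 4 * q.1)).ncard :=
    fun q _ => sAB_ge q.1 q.2
  have heq := (Finset.sum_eq_sum_iff_of_le hle).1 (nAB_sum.trans hsum.symm)
  exact (heq p hp).symm

theorem nAB_cases (a b : ℤ) (h : nAB a b ≠ 0) :
    (a = -1 ∧ b = -3) ∨ (a = 0 ∧ b = -2) ∨ (a = -2 ∧ b = -2) ∨ (a = -1 ∧ b = -1) ∨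
      (a = 0 ∧ b = 0) ∨ (a = -3 ∧ b = -1) ∨ (a = -2 ∧ b = 0) ∨ (a = -1 ∧ b = 1) ∨
      (a = -4 ∧ b = 0) ∨ (a = -3 ∧ b = 1) ∨ (a = -2 ∧ b = 2) ∨ (a = -4 ∧ b = 4) := by
  by_contra hc
  simp only [not_or] at hc
  obtain ⟨h1, h2, h3, h4, h5, h6, h7, h8, h9, h10, h11, h12⟩ := hc
  apply h
  unfold nAB
  rw [if_neg h1, if_neg h2, if_neg h3, if_neg h4, if_neg h5, if_neg h6, if_neg h7, if_neg h8,
    if_neg h9, if_neg h10, if_neg h11, if_neg h12]

/-- coordinates of a vector of the standard configuration -/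
theorem std11_coord (y : leechLattice) (k : ℤ) (hy : y ∈ dotSet2 stdU stdX 32 (-16) k) :
    ∑ i, (y : GolayPt → ℤ) i ^ 2 = 32 ∧
      ∑ i, (y : GolayPt → ℤ) i = -16 - 4 * (y : GolayPt → ℤ) none ∧
      4 * (y : GolayPt → ℤ) (some 0) = k + 4 * (y : GolayPt → ℤ) none ∧
      nAB ((y : GolayPt → ℤ) none) ((y : GolayPt → ℤ) (some 0)) ≠ 0 := by
  obtain ⟨hn, hu, hx⟩ := hy
  have hn' : ∑ i, (y : GolayPt → ℤ) i ^ 2 = 32 := hn
  have hu' : dotInt (fiveVec none) (y : GolayPt → ℤ) = -16 := hu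
  have hx' : dotInt (sgnVec 4 {none, some 0} {none}) (y : GolayPt → ℤ) = k := hx
  rw [dot_five] at hu'
  rw [dot_stdX] at hx'
  have hs : ∑ i, (y : GolayPt → ℤ) i = -16 - 4 * (y : GolayPt → ℤ) none := by omega
  refine ⟨hn', hs, by omega, ?_⟩
  have h1 := abs_le_five hn' none
  have h2 := abs_le_five hn' (some 0)
  have hp : ((y : GolayPt → ℤ) none, (y : GolayPt → ℤ) (some 0)) ∈ abIdx := by
    unfold abIdx
    rw [Finset.mem_product, Finset.mem_Icc, Finset.mem_Icc]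
    exact ⟨h1, h2⟩
  have hall : (sAB ((y : GolayPt → ℤ) none) ((y : GolayPt → ℤ) (some 0))
      (-16 - 4 * (y : GolayPt → ℤ) none)).ncard =
      nAB ((y : GolayPt → ℤ) none) ((y : GolayPt → ℤ) (some 0)) :=
    sAB_all ((y : GolayPt → ℤ) none, (y : GolayPt → ℤ) (some 0)) hp
  rw [← hall]
  have hmem : (y : GolayPt → ℤ) ∈ sAB ((y : GolayPt → ℤ) none) ((y : GolayPt → ℤ) (some 0))
      (-16 - 4 * (y : GolayPt → ℤ) none) := ⟨y.2, hn', hs, rfl, rfl⟩
  exact Set.ncard_ne_zero_of_mem hmem (sAB_finite _ _ _)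

/-! ### moves of the base shapes -/

theorem neg_coord (z : leechLattice) :
    sqNorm ((-z : leechLattice) : GolayPt → ℤ) = sqNorm (z : GolayPt → ℤ) ∧
      (∀ i, ((-z : leechLattice) : GolayPt → ℤ) i = -(z : GolayPt → ℤ) i) ∧
      ∑ i, ((-z : leechLattice) : GolayPt → ℤ) i = -∑ i, (z : GolayPt → ℤ) i := by
  refine ⟨?_, fun i => rfl, ?_⟩
  · rw [AddSubgroup.coe_neg, sqNorm_neg']
  · rw [← Finset.sum_neg_distrib]
    rfl

theorem swap_ex : ∃ τ : Equiv.Perm GolayPt, τ ∈ M24 ∧ τ none = some 0 ∧ τ (some 0) = none :=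
  Cfsg.Agent.Helper3.M24_trans2 none (some 0) (some 0) none (by decide) (by decide)

theorem conj_fix (τ σ : Equiv.Perm GolayPt) (hτ : τ ∈ M24) (hσ : σ ∈ M24) (w : leechLattice)
    (h : ∀ i, (w : GolayPt → ℤ) (τ (σ i)) = (w : GolayPt → ℤ) (τ i)) :
    ((co0Perm τ hτ)⁻¹ * co0Perm σ hσ * co0Perm τ hτ) • w = w := by
  have e : (co0Perm σ hσ : Equiv.Perm leechLattice)
      ((co0Perm τ hτ : Equiv.Perm leechLattice) w) =
      (co0Perm τ hτ : Equiv.Perm leechLattice) w := by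
    apply Subtype.ext
    funext i
    rw [co0Perm_apply, co0Perm_apply, co0Perm_apply]
    exact h i
  show (((co0Perm τ hτ)⁻¹ : Co0) : Equiv.Perm leechLattice)
    ((co0Perm σ hσ : Equiv.Perm leechLattice) ((co0Perm τ hτ : Equiv.Perm leechLattice) w)) = w
  rw [e]
  exact Equiv.symm_apply_apply (co0Perm τ hτ : Equiv.Perm leechLattice) w

theorem conj_fix_std (τ σ : Equiv.Perm GolayPt) (hτ : τ ∈ M24) (hσ : σ ∈ M24)
    (t1 : τ none = some 0) (t2 : τ (some 0) = none) (s1 : σ none = none)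
    (s2 : σ (some 0) = some 0) :
    ((co0Perm τ hτ)⁻¹ * co0Perm σ hσ * co0Perm τ hτ) • stdU = stdU ∧
      ((co0Perm τ hτ)⁻¹ * co0Perm σ hσ * co0Perm τ hτ) • stdX = stdX := by
  have hn : ∀ i, τ (σ i) = none ↔ τ i = none := by
    intro i
    constructor
    · intro h
      have h' : σ i = some 0 := τ.injective (h.trans t2.symm)
      have h'' : i = some 0 := σ.injective (h'.trans s2.symm)
      rw [h'', t2]
    · intro h
      have h' : i = some 0 := τ.injective (h.trans t2.symm)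
      rw [h', s2, t2]
  have h0 : ∀ i, τ (σ i) = some 0 ↔ τ i = some 0 := by
    intro i
    constructor
    · intro h
      have h' : σ i = none := τ.injective (h.trans t1.symm)
      have h'' : i = none := σ.injective (h'.trans s1.symm)
      rw [h'', t1]
    · intro h
      have h' : i = none := τ.injective (h.trans t1.symm)
      rw [h', s1, t1]
  constructor
  · apply conj_fix
    intro i
    show fiveVec none (τ (σ i)) = fiveVec none (τ i)
    unfold fiveVec
    by_cases hc : τ i = none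
    · rw [if_pos hc, if_pos ((hn i).2 hc)]
    · rw [if_neg hc, if_neg (fun h => hc ((hn i).1 h))]
  · apply conj_fix
    intro i
    show sgnVec 4 ({none, some 0} : Finset GolayPt) {none} (τ (σ i)) =
      sgnVec 4 ({none, some 0} : Finset GolayPt) {none} (τ i)
    unfold sgnVec
    simp only [Finset.mem_insert, Finset.mem_singleton]
    by_cases hc : τ i = none
    · rw [if_pos hc, if_pos ((hn i).2 hc)]
    · rw [if_neg hc, if_neg (fun h => hc ((hn i).1 h))]
      by_cases hd : τ i = some 0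
      · rw [if_pos (Or.inr hd), if_pos (Or.inr ((h0 i).2 hd))]
      · rw [if_neg (fun h : τ i = none ∨ τ i = some 0 => h.elim hc hd),
          if_neg (fun h : τ (σ i) = none ∨ τ (σ i) = some 0 =>
            h.elim (fun h' => hc ((hn i).1 h')) (fun h' => hd ((h0 i).1 h')))]

/-- the class of inner product `0`: vectors with coordinates `0, 0` at the base points -/
theorem base_move0 (y y' : leechLattice) (hn : ∑ i, (y : GolayPt → ℤ) i ^ 2 = 32)
    (hn' : ∑ i, (y' : GolayPt → ℤ) i ^ 2 = 32)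
    (h1 : (y : GolayPt → ℤ) none = 0) (h2 : (y : GolayPt → ℤ) (some 0) = 0)
    (h4 : ∑ i, (y : GolayPt → ℤ) i = -16)
    (h1' : (y' : GolayPt → ℤ) none = 0) (h2' : (y' : GolayPt → ℤ) (some 0) = 0)
    (h4' : ∑ i, (y' : GolayPt → ℤ) i = -16) :
    ∃ m : Co0, m • stdU = stdU ∧ m • stdX = stdX ∧ m • y = y' := by
  have data : ∀ z : leechLattice, ∑ i, (z : GolayPt → ℤ) i ^ 2 = 32 →
      (z : GolayPt → ℤ) none = 0 → (z : GolayPt → ℤ) (some 0) = 0 →
      ∑ i, (z : GolayPt → ℤ) i = -16 →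
      sqNorm ((-z : leechLattice) : GolayPt → ℤ) = 32 ∧
        ((-z : leechLattice) : GolayPt → ℤ) none = 0 ∧
        ((-z : leechLattice) : GolayPt → ℤ) (some 0) = 0 ∧
        ∑ i, ((-z : leechLattice) : GolayPt → ℤ) i = 16 := by
    intro z zn z1 z2 z4
    obtain ⟨q1, q2, q3⟩ := neg_coord z
    refine ⟨?_, ?_, ?_, ?_⟩
    · rw [q1]
      exact zn
    · rw [q2, z1]
      norm_num
    · rw [q2, z2]
      norm_num
    · rw [q3, z4]
      norm_num
  obtain ⟨a1, a2, a3, a4⟩ := data y hn h1 h2 h4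
  obtain ⟨b1, b2, b3, b4⟩ := data y' hn' h1' h2' h4'
  obtain ⟨σ, hσ, s1, s2, e⟩ := t25A_move (-y) (-y') a1 a2 a3 a4 b1 b2 b3 b4
  refine ⟨co0Perm σ hσ, perm_fix_stdU σ hσ s1, perm_fix_stdX σ hσ s1 s2, ?_⟩
  rw [co0_map_neg] at e
  exact neg_injective e

/-- the class of inner product `16`: vectors with coordinates `-2, 2` at the base points -/
theorem base_move16 (y y' : leechLattice) (hn : ∑ i, (y : GolayPt → ℤ) i ^ 2 = 32)
    (hn' : ∑ i, (y' : GolayPt → ℤ) i ^ 2 = 32)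
    (h1 : (y : GolayPt → ℤ) none = -2) (h2 : (y : GolayPt → ℤ) (some 0) = 2)
    (h4 : ∑ i, (y : GolayPt → ℤ) i = -8)
    (h1' : (y' : GolayPt → ℤ) none = -2) (h2' : (y' : GolayPt → ℤ) (some 0) = 2)
    (h4' : ∑ i, (y' : GolayPt → ℤ) i = -8) :
    ∃ m : Co0, m • stdU = stdU ∧ m • stdX = stdX ∧ m • y = y' := by
  obtain ⟨τ, hτ, t1, t2⟩ := swap_ex
  have data : ∀ z : leechLattice, ∑ i, (z : GolayPt → ℤ) i ^ 2 = 32 →
      (z : GolayPt → ℤ) none = -2 → (z : GolayPt → ℤ) (some 0) = 2 →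
      ∑ i, (z : GolayPt → ℤ) i = -8 →
      sqNorm (((co0Perm τ hτ : Equiv.Perm leechLattice) (-z) : leechLattice) :
          GolayPt → ℤ) = 32 ∧
        (((co0Perm τ hτ : Equiv.Perm leechLattice) (-z) : leechLattice) :
          GolayPt → ℤ) none = -2 ∧
        (((co0Perm τ hτ : Equiv.Perm leechLattice) (-z) : leechLattice) :
          GolayPt → ℤ) (some 0) = 2 ∧
        ∑ i, (((co0Perm τ hτ : Equiv.Perm leechLattice) (-z) : leechLattice) :
          GolayPt → ℤ) i = 8 := by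
    intro z zn z1 z2 z4
    obtain ⟨q1, q2, q3⟩ := neg_coord z
    refine ⟨?_, ?_, ?_, ?_⟩
    · rw [(co0Perm τ hτ).2.2 (-z), q1]
      exact zn
    · rw [co0Perm_apply, t1, q2, z2]
    · rw [co0Perm_apply, t2, q2, z1]
      norm_num
    · have hsum : ∑ i, (((co0Perm τ hτ : Equiv.Perm leechLattice) (-z) : leechLattice) :
          GolayPt → ℤ) i = ∑ i, ((-z : leechLattice) : GolayPt → ℤ) i :=
        Equiv.sum_comp τ (fun i => ((-z : leechLattice) : GolayPt → ℤ) i)
      rw [hsum, q3, z4]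
      norm_num
  obtain ⟨a1, a2, a3, a4⟩ := data y hn h1 h2 h4
  obtain ⟨b1, b2, b3, b4⟩ := data y' hn' h1' h2' h4'
  obtain ⟨σ, hσ, s1, s2, e⟩ := t25B_move _ _ a1 a2 a3 a4 b1 b2 b3 b4
  obtain ⟨f1, f2⟩ := conj_fix_std τ σ hτ hσ t1 t2 s1 s2
  refine ⟨(co0Perm τ hτ)⁻¹ * co0Perm σ hσ * co0Perm τ hτ, f1, f2, ?_⟩
  have hneg : (((co0Perm τ hτ)⁻¹ * co0Perm σ hσ * co0Perm τ hτ : Co0) :
      Equiv.Perm leechLattice) (-y) = -y' := by
    show (((co0Perm τ hτ)⁻¹ : Co0) : Equiv.Perm leechLattice)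
      ((co0Perm σ hσ : Equiv.Perm leechLattice)
        ((co0Perm τ hτ : Equiv.Perm leechLattice) (-y))) = -y'
    rw [e]
    exact Equiv.symm_apply_apply (co0Perm τ hτ : Equiv.Perm leechLattice) (-y')
  rw [co0_map_neg] at hneg
  exact neg_injective hneg

/-- the shape of the vectors with coordinates `0, -2` at the base points -/
theorem cls8_struct (z : GolayPt → ℤ) (hz : z ∈ leechLattice) (hn : sqNorm z = 32)
    (h1 : z none = 0) (h2 : z (some 0) = -2) (h4 : ∑ i, z i = -16) :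
    ∃ O ∈ octads, none ∉ O ∧ some 0 ∈ O ∧ z = sgnVec 2 O O := by
  rcases classify golayCode golayLike one_mem_golay (mem_leechSetOf.1 hz) hn with
    ⟨U, V, hVU, hU, rfl⟩ | ⟨c, hc, hc8, V, hV, hVe, rfl⟩ | ⟨p, c, hc, rfl⟩
  · exfalso
    rcases sgnVec_vals 4 U V (some 0) with h | h | h <;> rw [h] at h2 <;> norm_num at h2
  · have hcard : (support₂ c).card = 8 := by rw [← hammingNorm_eq_card, hc8]
    have hoct : support₂ c ∈ octads := ⟨⟨c, hc, rfl⟩, hcard⟩
    have hs := sgnVec_sum 2 hV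
    rw [hs, hcard] at h4
    push_cast at h4
    have hV8 : V.card = 8 := by omega
    have hVe' : V = support₂ c :=
      Finset.eq_of_subset_of_card_le hV (le_of_eq (by rw [hV8, hcard]))
    subst hVe'
    refine ⟨support₂ c, hoct, ?_, ?_, rfl⟩
    · intro hmem
      unfold sgnVec at h1
      rw [if_pos hmem] at h1
      norm_num at h1
    · by_contra hnot
      unfold sgnVec at h2
      rw [if_neg hnot, if_neg hnot] at h2
      norm_num at h2
  · exfalso
    have ho := oddMin_odd p c none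
    rw [h1] at ho
    norm_num at ho

/-- the permutations of the code fixing the two base points are transitive on the octads
through the second and not the first -/
theorem m22_oddM (O O' : Finset GolayPt) (hO : O ∈ octads) (hO' : O' ∈ octads)
    (hn : none ∉ O) (h0 : some 0 ∈ O) (hn' : none ∉ O') (h0' : some 0 ∈ O') :
    ∃ σ ∈ M24, σ none = none ∧ σ (some 0) = some 0 ∧ σ • O' = O := by
  obtain ⟨τ, hτ, t1, t2⟩ := swap_ex
  have key : ∀ P : Finset GolayPt, P ∈ octads → none ∉ P → some 0 ∈ P →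
      τ • P ∈ octads ∧ none ∈ τ • P ∧ some 0 ∉ τ • P ∧ ∃ p ∈ τ • P, p ≠ none := by
    intro P hP hPn hP0
    have hoct : τ • P ∈ octads := Cfsg.Agent.Helper3.smul_mem_octads hτ hP
    refine ⟨hoct, ?_, ?_, ?_⟩
    · have h := (smul_mem_iff' τ P (some 0)).2 hP0
      rw [t2] at h
      exact h
    · intro h
      have h' := (smul_mem_iff' τ P none).1 (by rw [t1]; exact h)
      exact hPn h'
    · exact Finset.exists_mem_ne (by rw [hoct.2]; norm_num) none
  obtain ⟨k1, k2, k3, p, hp, hpn⟩ := key O hO hn h0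
  obtain ⟨k1', k2', k3', p', hp', hpn'⟩ := key O' hO' hn' h0'
  obtain ⟨σ, hσ, s1, s2, _, s4⟩ := m22_odd (τ • O) (τ • O') k1 k1' p p' k2 k3 hp hpn k2' k3'
    hp' hpn'
  have ti1 : τ⁻¹ (some 0) = none := by
    have h := Cfsg.Agent.Helper3.perm_inv_apply τ none
    rw [t1] at h
    exact h
  have ti2 : τ⁻¹ none = some 0 := by
    have h := Cfsg.Agent.Helper3.perm_inv_apply τ (some 0)
    rw [t2] at h
    exact h
  refine ⟨τ⁻¹ * σ * τ, M24.mul_mem (M24.mul_mem (M24.inv_mem hτ) hσ) hτ, ?_, ?_, ?_⟩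
  · rw [Equiv.Perm.mul_apply, Equiv.Perm.mul_apply, t1, s2, ti1]
  · rw [Equiv.Perm.mul_apply, Equiv.Perm.mul_apply, t2, s1, ti2]
  · rw [mul_smul, mul_smul, s4, inv_smul_smul]

/-- the class of inner product `-8`: vectors with coordinates `0, -2` at the base points -/
theorem base_move8 (y y' : leechLattice) (hn : ∑ i, (y : GolayPt → ℤ) i ^ 2 = 32)
    (hn' : ∑ i, (y' : GolayPt → ℤ) i ^ 2 = 32)
    (h1 : (y : GolayPt → ℤ) none = 0) (h2 : (y : GolayPt → ℤ) (some 0) = -2)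
    (h4 : ∑ i, (y : GolayPt → ℤ) i = -16)
    (h1' : (y' : GolayPt → ℤ) none = 0) (h2' : (y' : GolayPt → ℤ) (some 0) = -2)
    (h4' : ∑ i, (y' : GolayPt → ℤ) i = -16) :
    ∃ m : Co0, m • stdU = stdU ∧ m • stdX = stdX ∧ m • y = y' := by
  obtain ⟨O, hO, mn, m0, ez⟩ := cls8_struct _ y.2 hn h1 h2 h4
  obtain ⟨O', hO', mn', m0', ez'⟩ := cls8_struct _ y'.2 hn' h1' h2' h4'
  obtain ⟨σ, hσ, s1, s2, s3⟩ := m22_oddM O O' hO hO' mn m0 mn' m0'
  refine ⟨co0Perm σ hσ, perm_fix_stdU σ hσ s1, perm_fix_stdX σ hσ s1 s2, ?_⟩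
  apply Subtype.ext
  funext i
  show (((co0Perm σ hσ : Equiv.Perm leechLattice) y : leechLattice) : GolayPt → ℤ) i =
    (y' : GolayPt → ℤ) i
  rw [co0Perm_apply, ez, ez']
  have hiff : σ i ∈ O ↔ i ∈ O' := by
    rw [← s3]
    exact smul_mem_iff' σ O' i
  unfold sgnVec
  by_cases hi : i ∈ O'
  · rw [if_pos (hiff.2 hi), if_pos hi]
  · rw [if_neg (fun h => hi (hiff.1 h)), if_neg (fun h => hi (hiff.1 h)), if_neg hi, if_neg hi]

/-! ### reaching the base shapes -/

theorem odd_pt_mem (q : GolayPt) : oddMin q (0 : GolayPt → ZMod 2) ∈ leechLattice :=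
  mem_of_LP (LP_oddMin golayCode golayLike golayCode.zero_mem q)

theorem reach_odd (y : leechLattice) (q : GolayPt) (hq1 : q ≠ none) (hq2 : q ≠ some 0) (c : ℤ)
    (h : ∑ i, (y : GolayPt → ℤ) i - 4 * (y : GolayPt → ℤ) q = c) :
    ∃ t ∈ hsSet stdU stdW, dotInt (t : GolayPt → ℤ) (y : GolayPt → ℤ) = c := by
  refine ⟨⟨oddMin q 0, odd_pt_mem q⟩, oddMin_mem_hsSet q hq1 hq2 (odd_pt_mem q), ?_⟩
  show dotInt (oddMin q (0 : GolayPt → ZMod 2)) (y : GolayPt → ℤ) = c
  rw [dot_comm', dot_odd0]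
  exact h

theorem reach_base (y : leechLattice) (c : ℤ)
    (h : 4 * (y : GolayPt → ℤ) none + 4 * (y : GolayPt → ℤ) (some 0) = c) :
    ∃ t ∈ hsSet stdU stdW, dotInt (t : GolayPt → ℤ) (y : GolayPt → ℤ) = c := by
  refine ⟨mclV, mclV_mem, ?_⟩
  show dotInt (sgnVec 4 {none, some 0} ∅) (y : GolayPt → ℤ) = c
  rw [base_dot]
  exact h

theorem rest_sum (y : GolayPt → ℤ) :
    ∑ i, y i = y none + y (some 0) +
      ∑ i ∈ (Finset.univ.erase (none : GolayPt)).erase (some 0), y i := by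
  have h1 := Finset.add_sum_erase Finset.univ y (Finset.mem_univ (none : GolayPt))
  have h2 := Finset.add_sum_erase (Finset.univ.erase (none : GolayPt)) y
    (Finset.mem_erase.2 ⟨by decide, Finset.mem_univ (some 0 : GolayPt)⟩)
  linarith

theorem exists_neg_rest (y : GolayPt → ℤ) (h : ∑ i, y i < y none + y (some 0)) :
    ∃ q, q ≠ none ∧ q ≠ some 0 ∧ y q < 0 := by
  by_contra hcon
  have hnn : 0 ≤ ∑ i ∈ (Finset.univ.erase (none : GolayPt)).erase (some 0), y i := by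
    apply Finset.sum_nonneg
    intro i hi
    rw [Finset.mem_erase, Finset.mem_erase] at hi
    by_contra hneg
    exact hcon ⟨i, hi.2.1, hi.1, not_le.1 hneg⟩
  have hr := rest_sum y
  linarith

theorem exists_zero_rest (y : GolayPt → ℤ) (hn : ∑ i, y i ^ 2 = 32) (h1 : y none = -4) :
    ∃ q, q ≠ none ∧ q ≠ some 0 ∧ y q = 0 := by
  by_contra hcon
  have hge : ∀ i ∈ (Finset.univ.erase (none : GolayPt)).erase (some 0),
      (1 : ℤ) ≤ y i ^ 2 := by
    intro i hi
    rw [Finset.mem_erase, Finset.mem_erase] at hi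
    have hne : y i ≠ 0 := fun h0 => hcon ⟨i, hi.2.1, hi.1, h0⟩
    have hcases : y i ≤ -1 ∨ 1 ≤ y i := by omega
    rcases hcases with h | h <;> nlinarith
  have hsum := Finset.sum_le_sum hge
  rw [Finset.sum_const, nsmul_eq_mul, mul_one] at hsum
  have hcard : ((Finset.univ.erase (none : GolayPt)).erase (some 0)).card = 22 := by
    decide +kernel
  rw [hcard] at hsum
  push_cast at hsum
  have hr := rest_sum (fun i => y i ^ 2)
  have hr' : ∑ i, y i ^ 2 = y none ^ 2 + y (some 0) ^ 2 +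
      ∑ i ∈ (Finset.univ.erase (none : GolayPt)).erase (some 0), y i ^ 2 := hr
  rw [hn, h1] at hr'
  have hsq : 0 ≤ y (some 0) ^ 2 := sq_nonneg _
  norm_num at hr'
  linarith

/-- an odd minimal vector with negative rest sum has a coordinate `-1` off the base points -/
theorem light_m1 (y : GolayPt → ℤ) (hy : y ∈ leechLattice) (hn : sqNorm y = 32)
    (h3 : y none = -3 ∨ y (some 0) = -3) (h : ∑ i, y i < y none + y (some 0)) :
    ∃ q, q ≠ none ∧ q ≠ some 0 ∧ y q = -1 := by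
  obtain ⟨q, hq1, hq2, hq⟩ := exists_neg_rest y h
  refine ⟨q, hq1, hq2, ?_⟩
  rcases classify golayCode golayLike one_mem_golay (mem_leechSetOf.1 hy) hn with
    ⟨U, V, hVU, hU, rfl⟩ | ⟨c, hc, hc8, V, hV, hVe, rfl⟩ | ⟨p, c, hc, rfl⟩
  · exfalso
    rcases h3 with h3 | h3
    · rcases sgnVec_vals 4 U V none with h' | h' | h' <;> rw [h'] at h3 <;> norm_num at h3
    · rcases sgnVec_vals 4 U V (some 0) with h' | h' | h' <;> rw [h'] at h3 <;>
        norm_num at h3
  · exfalso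
    rcases h3 with h3 | h3
    · rcases sgnVec_vals 2 (support₂ c) V none with h' | h' | h' <;> rw [h'] at h3 <;>
        norm_num at h3
    · rcases sgnVec_vals 2 (support₂ c) V (some 0) with h' | h' | h' <;> rw [h'] at h3 <;>
        norm_num at h3
  · have hqp : q ≠ p := by
      intro hqp'
      rcases h3 with h3 | h3
      · rw [oddMin_at p c none (fun e => hq1 (hqp'.trans e.symm))] at h3
        split_ifs at h3 <;> norm_num at h3
      · rw [oddMin_at p c (some 0) (fun e => hq2 (hqp'.trans e.symm))] at h3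
        split_ifs at h3 <;> norm_num at h3
    rw [oddMin_at p c q hqp] at hq ⊢
    by_cases hc0 : c q = 0
    · rw [if_pos hc0] at hq
      norm_num at hq
    · rw [if_neg hc0]

/-- an even minimal vector with negative rest sum has a coordinate `-2` off the base points -/
theorem light_m2 (y : GolayPt → ℤ) (hy : y ∈ leechLattice) (hn : sqNorm y = 32)
    (h1 : y none = -2) (h : ∑ i, y i < y none + y (some 0)) :
    ∃ q, q ≠ none ∧ q ≠ some 0 ∧ y q = -2 := by
  obtain ⟨q, hq1, hq2, hq⟩ := exists_neg_rest y h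
  refine ⟨q, hq1, hq2, ?_⟩
  rcases classify golayCode golayLike one_mem_golay (mem_leechSetOf.1 hy) hn with
    ⟨U, V, hVU, hU, rfl⟩ | ⟨c, hc, hc8, V, hV, hVe, rfl⟩ | ⟨p, c, hc, rfl⟩
  · exfalso
    rcases sgnVec_vals 4 U V none with h' | h' | h' <;> rw [h'] at h1 <;> norm_num at h1
  · rcases sgnVec_vals 2 (support₂ c) V q with h' | h' | h'
    · rw [h'] at hq
      norm_num at hq
    · rw [h'] at hq
      norm_num at hq
    · exact h'
  · exfalso
    have ho := oddMin_odd p c none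
    omega

/-- an odd minimal vector with coordinates `-1, -1` at the base points and coordinate sum `-12`
has a coordinate `-3` -/
theorem light_m3 (y : GolayPt → ℤ) (hy : y ∈ leechLattice) (hn : sqNorm y = 32)
    (h1 : y none = -1) (h2 : y (some 0) = -1) (h4 : ∑ i, y i = -12) :
    ∃ q, q ≠ none ∧ q ≠ some 0 ∧ y q = -3 := by
  rcases classify golayCode golayLike one_mem_golay (mem_leechSetOf.1 hy) hn with
    ⟨U, V, hVU, hU, rfl⟩ | ⟨c, hc, hc8, V, hV, hVe, rfl⟩ | ⟨p, c, hc, rfl⟩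
  · exfalso
    rcases sgnVec_vals 4 U V none with h' | h' | h' <;> rw [h'] at h1 <;> norm_num at h1
  · exfalso
    rcases sgnVec_vals 2 (support₂ c) V none with h' | h' | h' <;> rw [h'] at h1 <;>
      norm_num at h1
  · have hpn : p ≠ none := by
      intro hp
      rw [hp, oddMin_self] at h1
      split_ifs at h1 <;> norm_num at h1
    have hp0 : p ≠ some 0 := by
      intro hp
      rw [hp, oddMin_self] at h2
      split_ifs at h2 <;> norm_num at h2
    refine ⟨p, hpn, hp0, ?_⟩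
    rw [oddMin_sum'] at h4
    have hw := golayLike.hwt c hc
    rw [oddMin_self]
    by_cases hcp : c p = 0
    · rw [if_pos hcp]
    · exfalso
      rw [if_neg hcp] at h4
      omega

theorem reach16 (y : leechLattice) (hy : y ∈ dotSet2 stdU stdX 32 (-16) 16) :
    ∃ t ∈ hsSet stdU stdW, dotInt (t : GolayPt → ℤ) (y : GolayPt → ℤ) = 0 := by
  obtain ⟨hn, hs, hk, hne⟩ := std11_coord y 16 hy
  have hc : ((y : GolayPt → ℤ) none = -4 ∧ (y : GolayPt → ℤ) (some 0) = 0) ∨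
      ((y : GolayPt → ℤ) none = -3 ∧ (y : GolayPt → ℤ) (some 0) = 1) ∨
      ((y : GolayPt → ℤ) none = -2 ∧ (y : GolayPt → ℤ) (some 0) = 2) := by
    rcases nAB_cases _ _ hne with h | h | h | h | h | h | h | h | h | h | h | h <;> omega
  rcases hc with ⟨a1, a2⟩ | ⟨a1, a2⟩ | ⟨a1, a2⟩
  · obtain ⟨q, hq1, hq2, hq⟩ := exists_zero_rest _ hn a1
    exact reach_odd y q hq1 hq2 0 (by rw [hs, a1, hq]; norm_num)
  · obtain ⟨q, hq1, hq2, hq⟩ := light_m1 _ y.2 hn (Or.inl a1) (by rw [hs, a1, a2]; norm_num)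
    exact reach_odd y q hq1 hq2 0 (by rw [hs, a1, hq]; norm_num)
  · exact reach_base y 0 (by rw [a1, a2]; norm_num)

theorem reach8 (y : leechLattice) (hy : y ∈ dotSet2 stdU stdX 32 (-16) (-8)) :
    ∃ t ∈ hsSet stdU stdW, dotInt (t : GolayPt → ℤ) (y : GolayPt → ℤ) = -8 := by
  obtain ⟨hn, hs, hk, hne⟩ := std11_coord y (-8) hy
  have hc : ((y : GolayPt → ℤ) none = -1 ∧ (y : GolayPt → ℤ) (some 0) = -3) ∨
      ((y : GolayPt → ℤ) none = 0 ∧ (y : GolayPt → ℤ) (some 0) = -2) := by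
    rcases nAB_cases _ _ hne with h | h | h | h | h | h | h | h | h | h | h | h <;> omega
  rcases hc with ⟨a1, a2⟩ | ⟨a1, a2⟩
  · obtain ⟨q, hq1, hq2, hq⟩ := light_m1 _ y.2 hn (Or.inr a2) (by rw [hs, a1, a2]; norm_num)
    exact reach_odd y q hq1 hq2 (-8) (by rw [hs, a1, hq]; norm_num)
  · exact reach_base y (-8) (by rw [a1, a2]; norm_num)

theorem reach0 (y : leechLattice) (hy : y ∈ dotSet2 stdU stdX 32 (-16) 0) :
    ∃ t ∈ hsSet stdU stdW, dotInt (t : GolayPt → ℤ) (y : GolayPt → ℤ) = 0 := by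
  obtain ⟨hn, hs, hk, hne⟩ := std11_coord y 0 hy
  have hc : ((y : GolayPt → ℤ) none = -2 ∧ (y : GolayPt → ℤ) (some 0) = -2) ∨
      ((y : GolayPt → ℤ) none = -1 ∧ (y : GolayPt → ℤ) (some 0) = -1) ∨
      ((y : GolayPt → ℤ) none = 0 ∧ (y : GolayPt → ℤ) (some 0) = 0) := by
    rcases nAB_cases _ _ hne with h | h | h | h | h | h | h | h | h | h | h | h <;> omega
  rcases hc with ⟨a1, a2⟩ | ⟨a1, a2⟩ | ⟨a1, a2⟩
  · obtain ⟨q, hq1, hq2, hq⟩ := light_m2 _ y.2 hn a1 (by rw [hs, a1, a2]; norm_num)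
    exact reach_odd y q hq1 hq2 0 (by rw [hs, a1, hq]; norm_num)
  · obtain ⟨q, hq1, hq2, hq⟩ := light_m3 _ y.2 hn a1 a2 (by rw [hs, a1]; norm_num)
    exact reach_odd y q hq1 hq2 0 (by rw [hs, a1, hq]; norm_num)
  · exact reach_base y 0 (by rw [a1, a2]; norm_num)

/-! ### transitivity in the standard frame -/

theorem fix_stdX (h : Co0) (h1 : h • stdU = stdU) (h2 : h • stdW = stdW) : h • stdX = stdX := by
  have e : stdX = -(stdU + stdW) := by
    unfold stdW
    abel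
  have h1' : (h : Equiv.Perm leechLattice) stdU = stdU := h1
  have h2' : (h : Equiv.Perm leechLattice) stdW = stdW := h2
  have h3 : (h : Equiv.Perm leechLattice) (-(stdU + stdW)) = -(stdU + stdW) := by
    rw [co0_map_neg, h.2.1, h1', h2']
  show (h : Equiv.Perm leechLattice) stdX = stdX
  rw [e]
  exact h3

theorem inv_fix (h : Co0) (w : leechLattice) (e : (h : Equiv.Perm leechLattice) w = w) :
    ((h⁻¹ : Co0) : Equiv.Perm leechLattice) w = w := by
  have h1 : ((h⁻¹ : Co0) : Equiv.Perm leechLattice) ((h : Equiv.Perm leechLattice) w) = w :=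
    Equiv.symm_apply_apply (h : Equiv.Perm leechLattice) w
  rw [e] at h1
  exact h1

theorem std_sub11 (k c : ℤ)
    (reach : ∀ y : leechLattice, y ∈ dotSet2 stdU stdX 32 (-16) k →
      ∃ t ∈ hsSet stdU stdW, dotInt (t : GolayPt → ℤ) (y : GolayPt → ℤ) = c)
    (base : ∀ y y' : leechLattice, y ∈ dotSet2 stdU stdX 32 (-16) k →
      y' ∈ dotSet2 stdU stdX 32 (-16) k →
      dotInt (mclV : GolayPt → ℤ) (y : GolayPt → ℤ) = c →
      dotInt (mclV : GolayPt → ℤ) (y' : GolayPt → ℤ) = c →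
      ∃ m : Co0, m • stdU = stdU ∧ m • stdX = stdX ∧ m • y = y')
    (y y' : leechLattice) (hy : y ∈ dotSet2 stdU stdX 32 (-16) k)
    (hy' : y' ∈ dotSet2 stdU stdX 32 (-16) k) :
    ∃ g : Co0, g • stdU = stdU ∧ g • stdX = stdX ∧ g • y = y' := by
  obtain ⟨t, ht, hty⟩ := reach y hy
  obtain ⟨t', ht', hty'⟩ := reach y' hy'
  obtain ⟨h₁, p1, p2, p3⟩ := hs_trans100 stdU stdW t mclV stdU_norm stdW_norm stdUW ht mclV_mem
  obtain ⟨h₂, q1, q2, q3⟩ := hs_trans100 stdU stdW t' mclV stdU_norm stdW_norm stdUW ht'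
    mclV_mem
  have p4 := fix_stdX h₁ p1 p2
  have q4 := fix_stdX h₂ q1 q2
  have p1' : (h₁ : Equiv.Perm leechLattice) stdU = stdU := p1
  have p3' : (h₁ : Equiv.Perm leechLattice) t = mclV := p3
  have p4' : (h₁ : Equiv.Perm leechLattice) stdX = stdX := p4
  have q1' : (h₂ : Equiv.Perm leechLattice) stdU = stdU := q1
  have q3' : (h₂ : Equiv.Perm leechLattice) t' = mclV := q3
  have q4' : (h₂ : Equiv.Perm leechLattice) stdX = stdX := q4
  have my : (h₁ : Equiv.Perm leechLattice) y ∈ dotSet2 stdU stdX 32 (-16) k := by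
    have h := dotSet2_map_mem h₁ stdU stdX 32 (-16) k hy
    rw [p1', p4'] at h
    exact h
  have my' : (h₂ : Equiv.Perm leechLattice) y' ∈ dotSet2 stdU stdX 32 (-16) k := by
    have h := dotSet2_map_mem h₂ stdU stdX 32 (-16) k hy'
    rw [q1', q4'] at h
    exact h
  have d1 : dotInt (mclV : GolayPt → ℤ)
      (((h₁ : Equiv.Perm leechLattice) y : leechLattice) : GolayPt → ℤ) = c :=
    (dot_map h₁ t mclV y p3').trans hty
  have d2 : dotInt (mclV : GolayPt → ℤ)
      (((h₂ : Equiv.Perm leechLattice) y' : leechLattice) : GolayPt → ℤ) = c :=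
    (dot_map h₂ t' mclV y' q3').trans hty'
  obtain ⟨m, m1, m2, m3⟩ := base _ _ my my' d1 d2
  have m1' : (m : Equiv.Perm leechLattice) stdU = stdU := m1
  have m2' : (m : Equiv.Perm leechLattice) stdX = stdX := m2
  have m3' : (m : Equiv.Perm leechLattice) ((h₁ : Equiv.Perm leechLattice) y) =
      (h₂ : Equiv.Perm leechLattice) y' := m3
  refine ⟨h₂⁻¹ * m * h₁, ?_, ?_, ?_⟩
  · show ((h₂⁻¹ : Co0) : Equiv.Perm leechLattice) ((m : Equiv.Perm leechLattice)
      ((h₁ : Equiv.Perm leechLattice) stdU)) = stdU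
    rw [p1', m1']
    exact inv_fix h₂ stdU q1'
  · show ((h₂⁻¹ : Co0) : Equiv.Perm leechLattice) ((m : Equiv.Perm leechLattice)
      ((h₁ : Equiv.Perm leechLattice) stdX)) = stdX
    rw [p4', m2']
    exact inv_fix h₂ stdX q4'
  · show ((h₂⁻¹ : Co0) : Equiv.Perm leechLattice) ((m : Equiv.Perm leechLattice)
      ((h₁ : Equiv.Perm leechLattice) y)) = y'
    rw [m3']
    exact Equiv.symm_apply_apply (h₂ : Equiv.Perm leechLattice) y'

theorem base_coord (y : leechLattice) (k c : ℤ) (hy : y ∈ dotSet2 stdU stdX 32 (-16) k)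
    (hd : dotInt (mclV : GolayPt → ℤ) (y : GolayPt → ℤ) = c) :
    ∑ i, (y : GolayPt → ℤ) i ^ 2 = 32 ∧ 8 * (y : GolayPt → ℤ) none = c - k ∧
      8 * (y : GolayPt → ℤ) (some 0) = c + k ∧
      ∑ i, (y : GolayPt → ℤ) i = -16 - 4 * (y : GolayPt → ℤ) none := by
  obtain ⟨hn, hs, hk, _⟩ := std11_coord y k hy
  have hd' : dotInt (sgnVec 4 {none, some 0} ∅) (y : GolayPt → ℤ) = c := hd
  rw [base_dot] at hd'
  exact ⟨hn, by omega, by omega, hs⟩

theorem std_trans16 (y y' : leechLattice) (hy : y ∈ dotSet2 stdU stdX 32 (-16) 16)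
    (hy' : y' ∈ dotSet2 stdU stdX 32 (-16) 16) :
    ∃ g : Co0, g • stdU = stdU ∧ g • stdX = stdX ∧ g • y = y' := by
  refine std_sub11 16 0 reach16 ?_ y y' hy hy'
  intro z z' hz hz' hd hd'
  obtain ⟨a1, a2, a3, a4⟩ := base_coord z 16 0 hz hd
  obtain ⟨b1, b2, b3, b4⟩ := base_coord z' 16 0 hz' hd'
  have a5 : (z : GolayPt → ℤ) none = -2 := by omega
  have b5 : (z' : GolayPt → ℤ) none = -2 := by omega
  exact base_move16 z z' a1 b1 a5 (by omega) (by omega) b5 (by omega) (by omega)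

theorem std_trans8 (y y' : leechLattice) (hy : y ∈ dotSet2 stdU stdX 32 (-16) (-8))
    (hy' : y' ∈ dotSet2 stdU stdX 32 (-16) (-8)) :
    ∃ g : Co0, g • stdU = stdU ∧ g • stdX = stdX ∧ g • y = y' := by
  refine std_sub11 (-8) (-8) reach8 ?_ y y' hy hy'
  intro z z' hz hz' hd hd'
  obtain ⟨a1, a2, a3, a4⟩ := base_coord z (-8) (-8) hz hd
  obtain ⟨b1, b2, b3, b4⟩ := base_coord z' (-8) (-8) hz' hd'
  have a5 : (z : GolayPt → ℤ) none = 0 := by omega
  have b5 : (z' : GolayPt → ℤ) none = 0 := by omega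
  exact base_move8 z z' a1 b1 a5 (by omega) (by omega) b5 (by omega) (by omega)

theorem std_trans0 (y y' : leechLattice) (hy : y ∈ dotSet2 stdU stdX 32 (-16) 0)
    (hy' : y' ∈ dotSet2 stdU stdX 32 (-16) 0) :
    ∃ g : Co0, g • stdU = stdU ∧ g • stdX = stdX ∧ g • y = y' := by
  refine std_sub11 0 0 reach0 ?_ y y' hy hy'
  intro z z' hz hz' hd hd'
  obtain ⟨a1, a2, a3, a4⟩ := base_coord z 0 0 hz hd
  obtain ⟨b1, b2, b3, b4⟩ := base_coord z' 0 0 hz' hd'
  have a5 : (z : GolayPt → ℤ) none = 0 := by omega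
  have b5 : (z' : GolayPt → ℤ) none = 0 := by omega
  exact base_move0 z z' a1 b1 a5 (by omega) (by omega) b5 (by omega) (by omega)

/-! ### the class of inner product `8`: the frame of `u + x + y` -/

theorem dot_leechE (z : GolayPt → ℤ) :
    dotInt ((leechE none : leechLattice) : GolayPt → ℤ) z = 8 * z none := by
  unfold dotInt
  rw [Finset.sum_eq_single (none : GolayPt)]
  · rw [leechE_apply, if_pos rfl]
  · intro b _ hb
    rw [leechE_apply, if_neg hb, zero_mul]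
  · intro h
    exact absurd (Finset.mem_univ _) h

/-- a minimal vector with coordinate `3` at the first base point -/
theorem odd_std3 (y : GolayPt → ℤ) (hy : y ∈ leechLattice) (hn : sqNorm y = 32)
    (h1 : y none = 3) : ∃ c ∈ golayCode, c none ≠ 0 ∧ y = oddMin none c := by
  rcases classify golayCode golayLike one_mem_golay (mem_leechSetOf.1 hy) hn with
    ⟨U, V, hVU, hU, rfl⟩ | ⟨c, hc, hc8, V, hV, hVe, rfl⟩ | ⟨p, c, hc, rfl⟩
  · exfalso
    rcases sgnVec_vals 4 U V none with h | h | h <;> rw [h] at h1 <;> norm_num at h1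
  · exfalso
    rcases sgnVec_vals 2 (support₂ c) V none with h | h | h <;> rw [h] at h1 <;>
      norm_num at h1
  · have hp : p = none := by
      by_contra hp
      rw [oddMin_at p c none (fun h => hp h.symm)] at h1
      split_ifs at h1 <;> norm_num at h1
    subst hp
    refine ⟨c, hc, ?_, rfl⟩
    rw [oddMin_self] at h1
    intro hc0
    rw [if_pos hc0] at h1
    norm_num at h1

theorem negW_apply (i : GolayPt) :
    ((-mclW : leechLattice) : GolayPt → ℤ) i = if i = none then 3 else -1 := by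
  show -(oddMin none (0 : GolayPt → ZMod 2) i) = _
  rw [oddMin_zero]
  split_ifs <;> norm_num

theorem zmod2_add_one : ∀ a : ZMod 2, a + 1 ≠ 0 ↔ a = 0 := by decide

theorem k8_frame (u x y : leechLattice) (hu : sqNorm (u : GolayPt → ℤ) = 48)
    (hx : sqNorm (x : GolayPt → ℤ) = 32) (hy : sqNorm (y : GolayPt → ℤ) = 32)
    (hux : dotInt (u : GolayPt → ℤ) (x : GolayPt → ℤ) = -16)
    (huy : dotInt (u : GolayPt → ℤ) (y : GolayPt → ℤ) = -16)
    (hxy : dotInt (x : GolayPt → ℤ) (y : GolayPt → ℤ) = 8) :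
    ∃ g : Co0, ∃ c ∈ golayCode, c none ≠ 0 ∧ hammingNorm c = 12 ∧
      (g : Equiv.Perm leechLattice) (u + x + y) = leechE none ∧
      (g : Equiv.Perm leechLattice) x = -mclW ∧
      (((g : Equiv.Perm leechLattice) y : leechLattice) : GolayPt → ℤ) = oddMin none c := by
  have hf : sqNorm ((u + x + y : leechLattice) : GolayPt → ℤ) = 64 := by
    rw [AddSubgroup.coe_add, AddSubgroup.coe_add, sqNorm_add, sqNorm_add, dot_add_left, hu, hx,
      hy, hux, huy, hxy]
    norm_num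
  have hfx : dotInt ((u + x + y : leechLattice) : GolayPt → ℤ) (x : GolayPt → ℤ) = 24 := by
    rw [AddSubgroup.coe_add, AddSubgroup.coe_add, dot_add_left, dot_add_left, hux, dot_self, hx,
      dot_comm' (y : GolayPt → ℤ) (x : GolayPt → ℤ), hxy]
    norm_num
  have hfy : dotInt ((u + x + y : leechLattice) : GolayPt → ℤ) (y : GolayPt → ℤ) = 24 := by
    rw [AddSubgroup.coe_add, AddSubgroup.coe_add, dot_add_left, dot_add_left, huy, hxy, dot_self,
      hy]
    norm_num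
  obtain ⟨_, g₁, e⟩ := trans64 ((u + x + y : leechLattice) : GolayPt → ℤ)
    (leechE none : GolayPt → ℤ) (u + x + y).2 hf (leechE none).2 (sqNorm_leechE none)
  have e1 : (g₁ : Equiv.Perm leechLattice) (u + x + y) = leechE none := Subtype.ext e
  have x3 : (((g₁ : Equiv.Perm leechLattice) x : leechLattice) : GolayPt → ℤ) none = 3 := by
    have h := co0_dot (g₁ : Equiv.Perm leechLattice) g₁.2 (u + x + y) x
    rw [e1, dot_leechE, hfx] at h
    omega
  have y3 : (((g₁ : Equiv.Perm leechLattice) y : leechLattice) : GolayPt → ℤ) none = 3 := by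
    have h := co0_dot (g₁ : Equiv.Perm leechLattice) g₁.2 (u + x + y) y
    rw [e1, dot_leechE, hfy] at h
    omega
  obtain ⟨c₁, hc₁, hc₁n, ex⟩ := odd_std3 _ ((g₁ : Equiv.Perm leechLattice) x).2
    ((g₁.2.2 x).trans hx) x3
  have hC : support₂ (c₁ + 1) ∈ supports (golayCode : Set (GolayPt → ZMod 2)) :=
    ⟨c₁ + 1, golayCode.add_mem hc₁ one_mem_golay, rfl⟩
  have hCmem : ∀ i, i ∈ support₂ (c₁ + 1) ↔ c₁ i = 0 := by
    intro i
    rw [mem_support₂, Pi.add_apply, Pi.one_apply]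
    exact zmod2_add_one (c₁ i)
  have hnC : none ∉ support₂ (c₁ + 1) := fun h => hc₁n ((hCmem none).1 h)
  have e2 : (co0Sign _ hC : Equiv.Perm leechLattice) (leechE none) = leechE none := by
    apply Subtype.ext
    funext i
    rw [co0Sign_apply, leechE_apply]
    by_cases hi : i = none
    · rw [hi, if_neg hnC]
    · rw [if_neg hi]
      simp
  have ex2 : (co0Sign _ hC : Equiv.Perm leechLattice) ((g₁ : Equiv.Perm leechLattice) x) =
      -mclW := by
    apply Subtype.ext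
    funext i
    rw [co0Sign_apply, ex, negW_apply]
    by_cases hi : i = none
    · rw [hi, if_neg hnC, oddMin_self, if_neg hc₁n, if_pos rfl]
    · rw [oddMin_at none c₁ i hi, if_neg hi]
      by_cases hci : c₁ i = 0
      · rw [if_pos ((hCmem i).2 hci), if_pos hci]
      · rw [if_neg (fun h => hci ((hCmem i).1 h)), if_neg hci]
  have y3' : (((co0Sign _ hC : Equiv.Perm leechLattice) ((g₁ : Equiv.Perm leechLattice) y) :
      leechLattice) : GolayPt → ℤ) none = 3 := by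
    rw [co0Sign_apply, if_neg hnC]
    exact y3
  obtain ⟨c₂, hc₂, hc₂n, ey⟩ := odd_std3 _
    ((co0Sign _ hC : Equiv.Perm leechLattice) ((g₁ : Equiv.Perm leechLattice) y)).2
    (((co0Sign _ hC).2.2 _).trans ((g₁.2.2 y).trans hy)) y3'
  have hdot : dotInt ((-mclW : leechLattice) : GolayPt → ℤ) (oddMin none c₂) = 8 := by
    have h := co0_dot (co0Sign _ hC : Equiv.Perm leechLattice) (co0Sign _ hC).2
      ((g₁ : Equiv.Perm leechLattice) x) ((g₁ : Equiv.Perm leechLattice) y)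
    rw [ex2, ey, co0_dot (g₁ : Equiv.Perm leechLattice) g₁.2 x y, hxy] at h
    exact h
  have hw12 : hammingNorm c₂ = 12 := by
    rw [AddSubgroup.coe_neg, dot_neg_left, dot_mclW, oddMin_sum', if_neg hc₂n, oddMin_self,
      if_neg hc₂n] at hdot
    omega
  refine ⟨co0Sign _ hC * g₁, c₂, hc₂, hc₂n, hw12, ?_, ex2, ey⟩
  show (co0Sign _ hC : Equiv.Perm leechLattice) ((g₁ : Equiv.Perm leechLattice) (u + x + y)) =
    leechE none
  rw [e1, e2]

/-- the permutations of the code fixing the first base point are transitive on the dodecads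
through it -/
theorem m23_dod (D D' : Finset GolayPt) (hD : D ∈ dodecads) (hD' : D' ∈ dodecads)
    (hn : none ∈ D) (hn' : none ∈ D') : ∃ σ ∈ M24, σ none = none ∧ σ • D' = D := by
  obtain ⟨g, hg, hgD⟩ := Cfsg.Agent.Helper3.M24_dodecad_trans D' D hD' hD
  have hmem : g none ∈ D := by
    rw [← hgD]
    exact (smul_mem_iff' g D' none).2 hn'
  obtain ⟨h, hh, hhD, hpt⟩ := Cfsg.Agent.Helper3.M12_trans D hD 1 (by norm_num)
    (fun _ => g none) (fun _ => none) (fun _ _ => hmem) (fun _ _ => hn)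
    (by intro i hi j hj _; omega) (by intro i hi j hj _; omega)
  refine ⟨h * g, M24.mul_mem hh hg, ?_, ?_⟩
  · rw [Equiv.Perm.mul_apply]
    exact hpt 0 (by norm_num)
  · rw [mul_smul, hgD, hhD]

theorem k8_trans (u x y y' : leechLattice) (hu : sqNorm (u : GolayPt → ℤ) = 48)
    (hx : sqNorm (x : GolayPt → ℤ) = 32) (hy : sqNorm (y : GolayPt → ℤ) = 32)
    (hy' : sqNorm (y' : GolayPt → ℤ) = 32)
    (hux : dotInt (u : GolayPt → ℤ) (x : GolayPt → ℤ) = -16)
    (huy : dotInt (u : GolayPt → ℤ) (y : GolayPt → ℤ) = -16)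
    (huy' : dotInt (u : GolayPt → ℤ) (y' : GolayPt → ℤ) = -16)
    (hxy : dotInt (x : GolayPt → ℤ) (y : GolayPt → ℤ) = 8)
    (hxy' : dotInt (x : GolayPt → ℤ) (y' : GolayPt → ℤ) = 8) :
    ∃ g : Co0, g • u = u ∧ g • x = x ∧ g • y = y' := by
  obtain ⟨g₁, c₁, hc₁, hn₁, hw₁, f₁, x₁, y₁⟩ := k8_frame u x y hu hx hy hux huy hxy
  obtain ⟨g₂, c₂, hc₂, hn₂, hw₂, f₂, x₂, y₂⟩ := k8_frame u x y' hu hx hy' hux huy' hxy'
  have hD₁ : support₂ c₁ ∈ dodecads := ⟨⟨c₁, hc₁, rfl⟩, by rw [← hammingNorm_eq_card, hw₁]⟩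
  have hD₂ : support₂ c₂ ∈ dodecads := ⟨⟨c₂, hc₂, rfl⟩, by rw [← hammingNorm_eq_card, hw₂]⟩
  obtain ⟨σ, hσ, s1, s2⟩ := m23_dod (support₂ c₁) (support₂ c₂) hD₁ hD₂
    ((mem_support₂ c₁ none).2 hn₁) ((mem_support₂ c₂ none).2 hn₂)
  have n1 : (co0Perm σ hσ : Equiv.Perm leechLattice) (leechE none) = leechE none := by
    apply Subtype.ext
    funext i
    rw [co0Perm_apply, leechE_apply, leechE_apply]
    by_cases hi : i = none
    · rw [if_pos hi, if_pos (by rw [hi, s1])]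
    · rw [if_neg hi, if_neg (fun h => hi (σ.injective (h.trans s1.symm)))]
  have n2 : (co0Perm σ hσ : Equiv.Perm leechLattice) (-mclW) = -mclW := by
    rw [co0_map_neg, perm_fix_mclW σ hσ s1]
  have n3 : (co0Perm σ hσ : Equiv.Perm leechLattice) ((g₁ : Equiv.Perm leechLattice) y) =
      (g₂ : Equiv.Perm leechLattice) y' := by
    apply Subtype.ext
    funext i
    rw [co0Perm_apply, y₁, y₂]
    by_cases hi : i = none
    · rw [hi, s1, oddMin_self, oddMin_self, if_neg hn₁, if_neg hn₂]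
    · have hσi : σ i ≠ none := fun h => hi (σ.injective (h.trans s1.symm))
      rw [oddMin_at none c₁ (σ i) hσi, oddMin_at none c₂ i hi]
      have hiff : σ i ∈ support₂ c₁ ↔ i ∈ support₂ c₂ := by
        rw [← s2]
        exact smul_mem_iff' σ (support₂ c₂) i
      rw [mem_support₂, mem_support₂] at hiff
      by_cases hci : c₁ (σ i) = 0
      · have hci' : c₂ i = 0 := by
          by_contra h
          exact (hiff.2 h) hci
        rw [if_pos hci, if_pos hci']
      · rw [if_neg hci, if_neg (hiff.1 hci)]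
  have gx : ((g₂⁻¹ * co0Perm σ hσ * g₁ : Co0) : Equiv.Perm leechLattice) x = x := by
    show ((g₂⁻¹ : Co0) : Equiv.Perm leechLattice) ((co0Perm σ hσ : Equiv.Perm leechLattice)
      ((g₁ : Equiv.Perm leechLattice) x)) = x
    rw [x₁, n2, ← x₂]
    exact Equiv.symm_apply_apply (g₂ : Equiv.Perm leechLattice) x
  have gy : ((g₂⁻¹ * co0Perm σ hσ * g₁ : Co0) : Equiv.Perm leechLattice) y = y' := by
    show ((g₂⁻¹ : Co0) : Equiv.Perm leechLattice) ((co0Perm σ hσ : Equiv.Perm leechLattice)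
      ((g₁ : Equiv.Perm leechLattice) y)) = y'
    rw [n3]
    exact Equiv.symm_apply_apply (g₂ : Equiv.Perm leechLattice) y'
  have gf : ((g₂⁻¹ * co0Perm σ hσ * g₁ : Co0) : Equiv.Perm leechLattice) (u + x + y) =
      u + x + y' := by
    show ((g₂⁻¹ : Co0) : Equiv.Perm leechLattice) ((co0Perm σ hσ : Equiv.Perm leechLattice)
      ((g₁ : Equiv.Perm leechLattice) (u + x + y))) = u + x + y'
    rw [f₁, n1, ← f₂]
    exact Equiv.symm_apply_apply (g₂ : Equiv.Perm leechLattice) (u + x + y')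
  refine ⟨g₂⁻¹ * co0Perm σ hσ * g₁, ?_, gx, gy⟩
  have hadd := (g₂⁻¹ * co0Perm σ hσ * g₁ : Co0).2.1
  rw [hadd, hadd, gx, gy] at gf
  show ((g₂⁻¹ * co0Perm σ hσ * g₁ : Co0) : Equiv.Perm leechLattice) u = u
  exact add_right_cancel (add_right_cancel gf)

/-! ### the general configuration -/

/-- the joint stabiliser is transitive on each class -/
theorem co3_sub_trans (u x y y' : leechLattice) (hu : sqNorm (u : GolayPt → ℤ) = 48)
    (hx : sqNorm (x : GolayPt → ℤ) = 32)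
    (hux : dotInt (u : GolayPt → ℤ) (x : GolayPt → ℤ) = -16) (k : ℤ)
    (hk : k = -8 ∨ k = 16 ∨ k = 0 ∨ k = 8)
    (hy : y ∈ dotSet2 u x 32 (-16) k) (hy' : y' ∈ dotSet2 u x 32 (-16) k) :
    ∃ g : Co0, g • u = u ∧ g • x = x ∧ g • y = y' := by
  by_cases h8 : k = 8
  · subst h8
    exact k8_trans u x y y' hu hx hy.1 hy'.1 hux hy.2.1 hy'.2.1 hy.2.2 hy'.2.2
  obtain ⟨g, e1, e2⟩ := pair_trans16 u x stdU stdX hu stdU_norm hx stdX_norm hux std_dot
  have e1' : (g : Equiv.Perm leechLattice) u = stdU := e1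
  have e2' : (g : Equiv.Perm leechLattice) x = stdX := e2
  have my : (g : Equiv.Perm leechLattice) y ∈ dotSet2 stdU stdX 32 (-16) k := by
    have h := dotSet2_map_mem g u x 32 (-16) k hy
    rw [e1', e2'] at h
    exact h
  have my' : (g : Equiv.Perm leechLattice) y' ∈ dotSet2 stdU stdX 32 (-16) k := by
    have h := dotSet2_map_mem g u x 32 (-16) k hy'
    rw [e1', e2'] at h
    exact h
  have hstd : ∃ m : Co0, m • stdU = stdU ∧ m • stdX = stdX ∧
      m • ((g : Equiv.Perm leechLattice) y) = (g : Equiv.Perm leechLattice) y' := by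
    rcases hk with rfl | rfl | rfl | rfl
    · exact std_trans8 _ _ my my'
    · exact std_trans16 _ _ my my'
    · exact std_trans0 _ _ my my'
    · exact absurd rfl h8
  obtain ⟨m, m1, m2, m3⟩ := hstd
  have m1' : (m : Equiv.Perm leechLattice) stdU = stdU := m1
  have m2' : (m : Equiv.Perm leechLattice) stdX = stdX := m2
  have m3' : (m : Equiv.Perm leechLattice) ((g : Equiv.Perm leechLattice) y) =
      (g : Equiv.Perm leechLattice) y' := m3
  refine ⟨g⁻¹ * m * g, ?_, ?_, ?_⟩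
  · show ((g⁻¹ : Co0) : Equiv.Perm leechLattice) ((m : Equiv.Perm leechLattice)
      ((g : Equiv.Perm leechLattice) u)) = u
    rw [e1', m1', ← e1']
    exact Equiv.symm_apply_apply (g : Equiv.Perm leechLattice) u
  · show ((g⁻¹ : Co0) : Equiv.Perm leechLattice) ((m : Equiv.Perm leechLattice)
      ((g : Equiv.Perm leechLattice) x)) = x
    rw [e2', m2', ← e2']
    exact Equiv.symm_apply_apply (g : Equiv.Perm leechLattice) x
  · show ((g⁻¹ : Co0) : Equiv.Perm leechLattice) ((m : Equiv.Perm leechLattice)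
      ((g : Equiv.Perm leechLattice) y)) = y'
    rw [m3']
    exact Equiv.symm_apply_apply (g : Equiv.Perm leechLattice) y'

/-- the classes of the standard configuration, as vectors -/
def stdC (k : ℤ) : Set (GolayPt → ℤ) :=
  {x | x ∈ leechLattice ∧ ∑ i, x i ^ 2 = 32 ∧ 4 * x none + ∑ i, x i = -16 ∧
    -4 * x none + 4 * x (some 0) = k}

theorem stdC_eq (k : ℤ) : stdC k =
    ⋃ p ∈ abIdx.filter (fun p => -4 * p.1 + 4 * p.2 = k), sAB p.1 p.2 (-16 - 4 * p.1) := by
  ext x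
  rw [Set.mem_iUnion₂]
  constructor
  · rintro ⟨hx, hn, hs, hk⟩
    have h1 := abs_le_five hn none
    have h2 := abs_le_five hn (some 0)
    refine ⟨(x none, x (some 0)), ?_, hx, hn, ?_, rfl, rfl⟩
    · unfold abIdx
      rw [Finset.mem_filter, Finset.mem_product, Finset.mem_Icc, Finset.mem_Icc]
      exact ⟨⟨h1, h2⟩, hk⟩
    · show ∑ i, x i = -16 - 4 * x none
      omega
  · rintro ⟨p, hp, hx, hn, hs, h1, h2⟩
    rw [Finset.mem_filter] at hp
    have hp2 : -4 * p.1 + 4 * p.2 = k := hp.2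
    refine ⟨hx, hn, ?_, ?_⟩
    · omega
    · rw [h1, h2]
      exact hp2

theorem nAB_cls :
    ∑ p ∈ abIdx.filter (fun p => -4 * p.1 + 4 * p.2 = (-8 : ℤ)), nAB p.1 p.2 = 352 ∧
    ∑ p ∈ abIdx.filter (fun p => -4 * p.1 + 4 * p.2 = (16 : ℤ)), nAB p.1 p.2 = 1100 ∧
    ∑ p ∈ abIdx.filter (fun p => -4 * p.1 + 4 * p.2 = (0 : ℤ)), nAB p.1 p.2 = 4125 ∧
    ∑ p ∈ abIdx.filter (fun p => -4 * p.1 + 4 * p.2 = (8 : ℤ)), nAB p.1 p.2 = 5600 := by
  decide +kernel

theorem stdC_ncard (k : ℤ) : (stdC k).ncard =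
    ∑ p ∈ abIdx.filter (fun p => -4 * p.1 + 4 * p.2 = k), nAB p.1 p.2 := by
  have hfin : ∀ q ∈ abIdx.filter (fun p => -4 * p.1 + 4 * p.2 = k),
      (sAB q.1 q.2 (-16 - 4 * q.1)).Finite := fun q _ => sAB_finite _ _ _
  have hdisj : ∀ q ∈ abIdx.filter (fun p => -4 * p.1 + 4 * p.2 = k),
      ∀ q' ∈ abIdx.filter (fun p => -4 * p.1 + 4 * p.2 = k), q ≠ q' →
      Disjoint (sAB q.1 q.2 (-16 - 4 * q.1)) (sAB q'.1 q'.2 (-16 - 4 * q'.1)) := by
    intro q _ q' _ hne
    rw [Set.disjoint_left]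
    rintro x ⟨_, _, _, h1, h2⟩ ⟨_, _, _, h1', h2'⟩
    exact hne (Prod.ext (h1.symm.trans h1') (h2.symm.trans h2'))
  rw [stdC_eq, ncard_biUnion_fin _ _ hfin hdisj]
  exact Finset.sum_congr rfl (fun q hq => sAB_all q (Finset.mem_filter.1 hq).1)

theorem std_cls_ncard (k : ℤ) : (dotSet2 stdU stdX 32 (-16) k).ncard = (stdC k).ncard := by
  rw [← Set.ncard_image_of_injective (dotSet2 stdU stdX 32 (-16) k) Subtype.val_injective]
  congr 1
  ext x
  constructor
  · rintro ⟨t, ⟨hn, hu, hx⟩, rfl⟩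
    have hu' : dotInt (fiveVec none) (t : GolayPt → ℤ) = -16 := hu
    have hx' : dotInt (sgnVec 4 {none, some 0} {none}) (t : GolayPt → ℤ) = k := hx
    rw [dot_five] at hu'
    rw [dot_stdX] at hx'
    exact ⟨t.2, hn, hu', hx'⟩
  · rintro ⟨hx, hn, hs, hk⟩
    refine ⟨⟨x, hx⟩, ⟨hn, ?_, ?_⟩, rfl⟩
    · show dotInt (fiveVec none) x = -16
      rw [dot_five]
      exact hs
    · show dotInt (sgnVec 4 {none, some 0} {none}) x = k
      rw [dot_stdX]
      exact hk

theorem co3_cls_ncard (u x : leechLattice) (hu : sqNorm (u : GolayPt → ℤ) = 48)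
    (hx : sqNorm (x : GolayPt → ℤ) = 32)
    (hux : dotInt (u : GolayPt → ℤ) (x : GolayPt → ℤ) = -16) (k : ℤ) :
    (dotSet2 u x 32 (-16) k).ncard =
      ∑ p ∈ abIdx.filter (fun p => -4 * p.1 + 4 * p.2 = k), nAB p.1 p.2 := by
  obtain ⟨g, e1, e2⟩ := pair_trans16 u x stdU stdX hu stdU_norm hx stdX_norm hux std_dot
  have e1' : (g : Equiv.Perm leechLattice) u = stdU := e1
  have e2' : (g : Equiv.Perm leechLattice) x = stdX := e2
  rw [← Set.ncard_image_of_injective _ (g : Equiv.Perm leechLattice).injective,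
    ← dotSet2_map, e1', e2', std_cls_ncard, stdC_ncard]

/-- the orbits of the joint stabiliser are the classes -/
theorem orbit11_eq (u x y : leechLattice) (hu : sqNorm (u : GolayPt → ℤ) = 48)
    (hx : sqNorm (x : GolayPt → ℤ) = 32)
    (hux : dotInt (u : GolayPt → ℤ) (x : GolayPt → ℤ) = -16) (k : ℤ)
    (hk : k = -8 ∨ k = 16 ∨ k = 0 ∨ k = 8) (hy : y ∈ dotSet2 u x 32 (-16) k) :
    MulAction.orbit ↥(MulAction.stabilizer ↥Co0 u ⊓ MulAction.stabilizer ↥Co0 x) y =
      dotSet2 u x 32 (-16) k := by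
  ext z
  constructor
  · rintro ⟨⟨g, hg⟩, rfl⟩
    have q := Subgroup.mem_inf.1 hg
    have gu' : (g : Equiv.Perm leechLattice) u = u := MulAction.mem_stabilizer_iff.1 q.1
    have gx' : (g : Equiv.Perm leechLattice) x = x := MulAction.mem_stabilizer_iff.1 q.2
    show (g : Equiv.Perm leechLattice) y ∈ dotSet2 u x 32 (-16) k
    have h := dotSet2_map_mem g u x 32 (-16) k hy
    rw [gu', gx'] at h
    exact h
  · intro hz
    obtain ⟨g, g1, g2, g3⟩ := co3_sub_trans u x y z hu hx hux k hk hy hz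
    have hmem : g ∈ MulAction.stabilizer ↥Co0 u ⊓ MulAction.stabilizer ↥Co0 x :=
      Subgroup.mem_inf.2 ⟨MulAction.mem_stabilizer_iff.2 g1, MulAction.mem_stabilizer_iff.2 g2⟩
    exact ⟨⟨g, hmem⟩, g3⟩

theorem cls_disj (u x : leechLattice) (A : Set leechLattice) (k : ℤ)
    (hA : ∀ y ∈ A, dotInt (x : GolayPt → ℤ) (y : GolayPt → ℤ) ≠ k) :
    Disjoint A (dotSet2 u x 32 (-16) k) := by
  rw [Set.disjoint_left]
  intro y hy hy'
  exact hA y hy hy'.2.2

/-- the stabiliser of a vector of sum of squares 48 and of one of the 11178 minimal vectors of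
inner product `-16` with it has, besides the fixed vector, four orbits on them, of sizes 352,
1100, 4125 and 5600 -/
theorem co3_rank5 (u x : leechLattice) (hu : sqNorm (u : GolayPt → ℤ) = 48)
    (hx : x ∈ dotSet u 32 (-16)) :
    ∃ y₁ ∈ dotSet u 32 (-16), ∃ y₂ ∈ dotSet u 32 (-16), ∃ y₃ ∈ dotSet u 32 (-16),
      ∃ y₄ ∈ dotSet u 32 (-16),
      (MulAction.orbit ↥(MulAction.stabilizer ↥Co0 u ⊓ MulAction.stabilizer ↥Co0 x)
        y₁).ncard = 352 ∧
      (MulAction.orbit ↥(MulAction.stabilizer ↥Co0 u ⊓ MulAction.stabilizer ↥Co0 x)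
        y₂).ncard = 1100 ∧
      (MulAction.orbit ↥(MulAction.stabilizer ↥Co0 u ⊓ MulAction.stabilizer ↥Co0 x)
        y₃).ncard = 4125 ∧
      (MulAction.orbit ↥(MulAction.stabilizer ↥Co0 u ⊓ MulAction.stabilizer ↥Co0 x)
        y₄).ncard = 5600 ∧
      dotSet u 32 (-16) = {x} ∪
        MulAction.orbit ↥(MulAction.stabilizer ↥Co0 u ⊓ MulAction.stabilizer ↥Co0 x) y₁ ∪
        MulAction.orbit ↥(MulAction.stabilizer ↥Co0 u ⊓ MulAction.stabilizer ↥Co0 x) y₂ ∪
        MulAction.orbit ↥(MulAction.stabilizer ↥Co0 u ⊓ MulAction.stabilizer ↥Co0 x) y₃ ∪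
        MulAction.orbit ↥(MulAction.stabilizer ↥Co0 u ⊓ MulAction.stabilizer ↥Co0 x) y₄ := by
  obtain ⟨hxn, hux⟩ := hx
  obtain ⟨n1, n2, n3, n4⟩ := nAB_cls
  have c1 : (dotSet2 u x 32 (-16) (-8)).ncard = 352 :=
    (co3_cls_ncard u x hu hxn hux (-8)).trans n1
  have c2 : (dotSet2 u x 32 (-16) 16).ncard = 1100 :=
    (co3_cls_ncard u x hu hxn hux 16).trans n2
  have c3 : (dotSet2 u x 32 (-16) 0).ncard = 4125 :=
    (co3_cls_ncard u x hu hxn hux 0).trans n3
  have c4 : (dotSet2 u x 32 (-16) 8).ncard = 5600 :=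
    (co3_cls_ncard u x hu hxn hux 8).trans n4
  have ne : ∀ (k : ℤ) (n : ℕ), (dotSet2 u x 32 (-16) k).ncard = n → n ≠ 0 →
      ∃ y, y ∈ dotSet2 u x 32 (-16) k := by
    intro k n hn hn0
    by_contra hcon
    have hem : dotSet2 u x 32 (-16) k = ∅ := by
      ext y
      constructor
      · intro hy
        exact absurd ⟨y, hy⟩ hcon
      · intro hy
        exact absurd hy (Set.notMem_empty y)
    rw [hem, Set.ncard_empty] at hn
    exact hn0 hn.symm
  obtain ⟨y₁, hy₁⟩ := ne (-8) 352 c1 (by norm_num)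
  obtain ⟨y₂, hy₂⟩ := ne 16 1100 c2 (by norm_num)
  obtain ⟨y₃, hy₃⟩ := ne 0 4125 c3 (by norm_num)
  obtain ⟨y₄, hy₄⟩ := ne 8 5600 c4 (by norm_num)
  have o1 := orbit11_eq u x y₁ hu hxn hux (-8) (Or.inl rfl) hy₁
  have o2 := orbit11_eq u x y₂ hu hxn hux 16 (Or.inr (Or.inl rfl)) hy₂
  have o3 := orbit11_eq u x y₃ hu hxn hux 0 (Or.inr (Or.inr (Or.inl rfl))) hy₃
  have o4 := orbit11_eq u x y₄ hu hxn hux 8 (Or.inr (Or.inr (Or.inr rfl))) hy₄
  refine ⟨y₁, ⟨hy₁.1, hy₁.2.1⟩, y₂, ⟨hy₂.1, hy₂.2.1⟩, y₃, ⟨hy₃.1, hy₃.2.1⟩, y₄,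
    ⟨hy₄.1, hy₄.2.1⟩, ?_, ?_, ?_, ?_, ?_⟩
  · rw [o1]
    exact c1
  · rw [o2]
    exact c2
  · rw [o3]
    exact c3
  · rw [o4]
    exact c4
  · rw [o1, o2, o3, o4]
    have h11 := count11178 u hu
    have hfinS : (dotSet u 32 (-16)).Finite :=
      Set.finite_of_ncard_ne_zero (by rw [h11]; norm_num)
    have hsub : ∀ k : ℤ, dotSet2 u x 32 (-16) k ⊆ dotSet u 32 (-16) :=
      fun k y hy => ⟨hy.1, hy.2.1⟩
    have hfin : ∀ k : ℤ, (dotSet2 u x 32 (-16) k).Finite := fun k => hfinS.subset (hsub k)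
    have hxx : dotInt (x : GolayPt → ℤ) (x : GolayPt → ℤ) = 32 := by rw [dot_self, hxn]
    have v0 : ∀ y ∈ ({x} : Set leechLattice),
        dotInt (x : GolayPt → ℤ) (y : GolayPt → ℤ) = 32 := by
      intro y hy
      rw [Set.mem_singleton_iff.1 hy]
      exact hxx
    have d1 : Disjoint ({x} : Set leechLattice) (dotSet2 u x 32 (-16) (-8)) :=
      cls_disj u x _ (-8) (fun y hy => by rw [v0 y hy]; norm_num)
    have v1 : ∀ y ∈ ({x} : Set leechLattice) ∪ dotSet2 u x 32 (-16) (-8),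
        dotInt (x : GolayPt → ℤ) (y : GolayPt → ℤ) = 32 ∨
          dotInt (x : GolayPt → ℤ) (y : GolayPt → ℤ) = -8 := by
      rintro y (hy | hy)
      · exact Or.inl (v0 y hy)
      · exact Or.inr hy.2.2
    have d2 : Disjoint (({x} : Set leechLattice) ∪ dotSet2 u x 32 (-16) (-8))
        (dotSet2 u x 32 (-16) 16) :=
      cls_disj u x _ 16 (fun y hy => by rcases v1 y hy with h | h <;> rw [h] <;> norm_num)
    have v2 : ∀ y ∈ ({x} : Set leechLattice) ∪ dotSet2 u x 32 (-16) (-8) ∪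
        dotSet2 u x 32 (-16) 16,
        dotInt (x : GolayPt → ℤ) (y : GolayPt → ℤ) = 32 ∨
          dotInt (x : GolayPt → ℤ) (y : GolayPt → ℤ) = -8 ∨
          dotInt (x : GolayPt → ℤ) (y : GolayPt → ℤ) = 16 := by
      rintro y (hy | hy)
      · rcases v1 y hy with h | h
        · exact Or.inl h
        · exact Or.inr (Or.inl h)
      · exact Or.inr (Or.inr hy.2.2)
    have d3 : Disjoint (({x} : Set leechLattice) ∪ dotSet2 u x 32 (-16) (-8) ∪
        dotSet2 u x 32 (-16) 16) (dotSet2 u x 32 (-16) 0) :=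
      cls_disj u x _ 0
        (fun y hy => by rcases v2 y hy with h | h | h <;> rw [h] <;> norm_num)
    have v3 : ∀ y ∈ ({x} : Set leechLattice) ∪ dotSet2 u x 32 (-16) (-8) ∪
        dotSet2 u x 32 (-16) 16 ∪ dotSet2 u x 32 (-16) 0,
        dotInt (x : GolayPt → ℤ) (y : GolayPt → ℤ) = 32 ∨
          dotInt (x : GolayPt → ℤ) (y : GolayPt → ℤ) = -8 ∨
          dotInt (x : GolayPt → ℤ) (y : GolayPt → ℤ) = 16 ∨
          dotInt (x : GolayPt → ℤ) (y : GolayPt → ℤ) = 0 := by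
      rintro y (hy | hy)
      · rcases v2 y hy with h | h | h
        · exact Or.inl h
        · exact Or.inr (Or.inl h)
        · exact Or.inr (Or.inr (Or.inl h))
      · exact Or.inr (Or.inr (Or.inr hy.2.2))
    have d4 : Disjoint (({x} : Set leechLattice) ∪ dotSet2 u x 32 (-16) (-8) ∪
        dotSet2 u x 32 (-16) 16 ∪ dotSet2 u x 32 (-16) 0) (dotSet2 u x 32 (-16) 8) :=
      cls_disj u x _ 8
        (fun y hy => by rcases v3 y hy with h | h | h | h <;> rw [h] <;> norm_num)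
    have f0 : ({x} : Set leechLattice).Finite := Set.finite_singleton x
    have f1 := f0.union (hfin (-8))
    have f2 := f1.union (hfin 16)
    have f3 := f2.union (hfin 0)
    have e4 := Set.ncard_union_eq d4 f3 (hfin 8)
    have e3 := Set.ncard_union_eq d3 f2 (hfin 0)
    have e2 := Set.ncard_union_eq d2 f1 (hfin 16)
    have e1 := Set.ncard_union_eq d1 f0 (hfin (-8))
    have e0 : ({x} : Set leechLattice).ncard = 1 := Set.ncard_singleton x
    have hcard : (({x} : Set leechLattice) ∪ dotSet2 u x 32 (-16) (-8) ∪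
        dotSet2 u x 32 (-16) 16 ∪ dotSet2 u x 32 (-16) 0 ∪
        dotSet2 u x 32 (-16) 8).ncard = 11178 := by
      omega
    symm
    apply Set.eq_of_subset_of_ncard_le ?_ ?_ hfinS
    · intro y hy
      rcases hy with (((hy | hy) | hy) | hy) | hy
      · rw [Set.mem_singleton_iff.1 hy]
        exact ⟨hxn, hux⟩
      · exact hsub _ hy
      · exact hsub _ hy
      · exact hsub _ hy
      · exact hsub _ hy
    · exact le_of_eq (h11.trans hcard.symm)

end Cfsg.Agent.Helper28
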