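import Cfsg.Agent.Helper28.McLSimple
import Cfsg.Agent.Helper28.Rank4Pair

/-!
The stabiliser in the automorphism group of the lattice of a vector `u` of sum of squares 48:
its order and its simplicity.  The group acts transitively on the 552 minimal vectors `y` with
`u - y` minimal; the stabiliser of one of them is the joint stabiliser of two minimal vectors
of inner product `-8`, a simple group, with orbits of sizes `1`, `1`, `275`, `275`.
-/

set_option autoImplicit false
set_option linter.style.haveILetI false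

namespace Cfsg.Agent.Helper28

open Cfsg Equiv Cfsg.Agent.Helper3
open scoped Pointwise

/-- the stabiliser of a vector, as a group of permutations of the lattice -/
def co3K (u : leechLattice) : Subgroup (Perm leechLattice) :=
  Co0 ⊓ MulAction.stabilizer (Perm leechLattice) u

theorem mem_co3K (u : leechLattice) (k : Perm leechLattice) :
    k ∈ co3K u ↔ k ∈ Co0 ∧ k u = u := by
  simp only [co3K, Subgroup.mem_inf, MulAction.mem_stabilizer_iff, Perm.smul_def]

/-- the order of the stabiliser of a vector of sum of squares 48 -/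
theorem co3K_card (u : leechLattice) (hu : sqNorm (u : GolayPt → ℤ) = 48) :
    Nat.card ↥(co3K u) = 495766656000 := by
  have h48 : {x : leechLattice | sqNorm (x : GolayPt → ℤ) = 48}.ncard = 16773120 := by
    rw [← count48, ← Set.ncard_image_of_injective _ Subtype.val_injective]
    congr 1
    ext x
    constructor
    · rintro ⟨y, hy, rfl⟩
      exact ⟨y.2, hy⟩
    · rintro ⟨hx, hn⟩
      exact ⟨⟨x, hx⟩, hn, rfl⟩
  have hfin48 : {x : leechLattice | sqNorm (x : GolayPt → ℤ) = 48}.Finite :=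
    Set.finite_of_ncard_ne_zero (by rw [h48]; norm_num)
  have hc48 : hfin48.toFinset.card = 16773120 := by
    rw [← Set.ncard_eq_toFinset_card _ hfin48]
    exact h48
  have e1 := card_eq_orbit_mul_stab (G := Perm leechLattice) Co0 u hfin48.toFinset
    (by
      intro g hg
      rw [Set.Finite.mem_toFinset]
      exact (hg.2 u).trans hu)
    (by
      intro δ hδ
      rw [Set.Finite.mem_toFinset] at hδ
      obtain ⟨_, g, hg⟩ := trans48 (u : GolayPt → ℤ) (δ : GolayPt → ℤ) u.2 hu δ.2 hδ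
      exact ⟨(g : Perm leechLattice), g.2, Subtype.ext hg⟩)
  rw [hc48, co0_card] at e1
  unfold co3K
  omega

/-- the decompositions of a vector into two minimal vectors -/
def decSet (u : leechLattice) : Set leechLattice :=
  {y | sqNorm (y : GolayPt → ℤ) = 32 ∧
    sqNorm ((u : GolayPt → ℤ) - (y : GolayPt → ℤ)) = 32}

theorem co3K_inv (u : leechLattice) (k : Perm leechLattice) (hk : k ∈ co3K u)
    (a : leechLattice) (ha : a ∈ decSet u) : k a ∈ decSet u := by
  obtain ⟨hkC, hku⟩ := (mem_co3K u k).1 hk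
  refine ⟨(hkC.2 a).trans ha.1, ?_⟩
  have h := co0_map_sub ⟨k, hkC⟩ u a
  have h' : k (u - a) = k u - k a := h
  rw [hku] at h'
  have e : (u : GolayPt → ℤ) - ((k a : leechLattice) : GolayPt → ℤ) =
      ((k (u - a) : leechLattice) : GolayPt → ℤ) := by
    rw [h', AddSubgroup.coe_sub]
  rw [e, hkC.2 (u - a), AddSubgroup.coe_sub]
  exact ha.2

theorem co3K_trans (u : leechLattice) (hu : sqNorm (u : GolayPt → ℤ) = 48)
    (a b : leechLattice) (ha : a ∈ decSet u) (hb : b ∈ decSet u) :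
    ∃ k ∈ co3K u, k a = b := by
  obtain ⟨g, e1, e2⟩ := co3_trans552 u a b hu ha hb
  exact ⟨(g : Perm leechLattice), (mem_co3K u _).2 ⟨g.2, e1⟩, e2⟩

theorem dec_dich (u x y : leechLattice) (hu : sqNorm (u : GolayPt → ℤ) = 48)
    (hx : x ∈ decSet u) (hy : y ∈ decSet u) (h1 : y ≠ x) (h2 : y ≠ u - x) :
    dotInt (x : GolayPt → ℤ) (y : GolayPt → ℤ) = 8 ∨
      dotInt (x : GolayPt → ℤ) (y : GolayPt → ℤ) = 16 := by
  have hle := dot_min_le x y hx.1 hy.1 (Ne.symm h1)
  have hn2 : sqNorm ((u - x : leechLattice) : GolayPt → ℤ) = 32 := by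
    rw [AddSubgroup.coe_sub]
    exact hx.2
  have hle2 := dot_min_le (u - x) y hn2 hy.1 (Ne.symm h2)
  rw [AddSubgroup.coe_sub, dot_sub_left, dot24 u y hu hy.1 hy.2] at hle2
  have hdvd := leech_dot_dvd _ _ x.2 y.2
  omega

/-! ### no central involution -/

/-- no automorphism fixes the standard vector of sum of squares 48 and exchanges the two terms
of each of its decompositions into minimal vectors -/
theorem no_neg_refl_std (n : Co0) (hnu : (n : Perm leechLattice) stdU = stdU)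
    (hn : ∀ y : leechLattice, sqNorm (y : GolayPt → ℤ) = 32 →
      sqNorm ((stdU : GolayPt → ℤ) - (y : GolayPt → ℤ)) = 32 →
      (n : Perm leechLattice) y = stdU - y) : False := by
  have hsub : ({some 0} : Finset GolayPt) ⊆ {none, some 0} := by simp
  obtain ⟨hzm, -⟩ := sgn4_min none (some 0) (by decide) {some 0} hsub
  obtain ⟨z, hz⟩ : ∃ z : leechLattice,
      (z : GolayPt → ℤ) = sgnVec 4 {none, some 0} {some 0} := ⟨⟨_, hzm⟩, rfl⟩
  have hU : (stdU : GolayPt → ℤ) = fiveVec none := rfl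
  have hz0 : sgnVec 4 ({none, some 0} : Finset GolayPt) {some 0} none = 4 := by decide
  have hzsum : ∑ i, sgnVec 4 ({none, some 0} : Finset GolayPt) {some 0} i = 0 := by
    rw [sgnVec_sum 4 hsub]
    have h2 : ({none, some 0} : Finset GolayPt).card = 2 := by decide
    rw [h2, Finset.card_singleton]
    norm_num
  have hzu : dotInt (stdU : GolayPt → ℤ) (z : GolayPt → ℤ) = 16 := by
    rw [hU, hz, dot_five, hz0, hzsum]
    norm_num
  obtain ⟨a, ha⟩ : ∃ a : GolayPt → ℤ,
      (((n : Perm leechLattice) z : leechLattice) : GolayPt → ℤ) = a := ⟨_, rfl⟩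
  have hau : dotInt a (stdU : GolayPt → ℤ) = 16 := by
    have h := co0_dot (n : Perm leechLattice) n.2 z stdU
    rw [hnu, ha] at h
    exact h.trans ((dot_comm' _ _).trans hzu)
  have key : ∀ j : GolayPt, j ≠ none →
      a none + a j + ((z : GolayPt → ℤ) none + (z : GolayPt → ℤ) j) = 4 := by
    intro j hj
    obtain ⟨hym, hyn⟩ := sgn4_min none j (Ne.symm hj) ∅ (Finset.empty_subset _)
    obtain ⟨y, hy⟩ : ∃ y : leechLattice, (y : GolayPt → ℤ) = sgnVec 4 {none, j} ∅ :=
      ⟨⟨_, hym⟩, rfl⟩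
    have hy0 : sgnVec 4 ({none, j} : Finset GolayPt) ∅ none = 4 :=
      sgnVec_of_mem_sdiff (by simp)
    have hyj : sgnVec 4 ({none, j} : Finset GolayPt) ∅ j = 4 :=
      sgnVec_of_mem_sdiff (by simp)
    have hysum : ∑ i, sgnVec 4 ({none, j} : Finset GolayPt) ∅ i = 8 := by
      rw [sgnVec_sum 4 (Finset.empty_subset _), Finset.card_pair (Ne.symm hj),
        Finset.card_empty]
      norm_num
    have hyu : dotInt (stdU : GolayPt → ℤ) (y : GolayPt → ℤ) = 24 := by
      rw [hU, hy, dot_five, hy0, hysum]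
      norm_num
    have hy1 : sqNorm (y : GolayPt → ℤ) = 32 := by
      rw [hy]
      exact hyn
    have hy2 : sqNorm ((stdU : GolayPt → ℤ) - (y : GolayPt → ℤ)) = 32 := by
      rw [sqNorm_sub, stdU_norm, hy1, hyu]
      norm_num
    have h1 := hn y hy1 hy2
    have h := co0_dot (n : Perm leechLattice) n.2 z y
    rw [h1, ha, AddSubgroup.coe_sub, dot_sub_right, hau, hy,
      dot_sgnVec_pair a 4 none j (Ne.symm hj) ∅ (Finset.empty_subset _),
      dot_sgnVec_pair (z : GolayPt → ℤ) 4 none j (Ne.symm hj) ∅ (Finset.empty_subset _),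
      hy0, hyj] at h
    omega
  have hsumW : 4 * (a none + (z : GolayPt → ℤ) none) +
      ∑ i, (a i + (z : GolayPt → ℤ) i) = 32 := by
    have h1 : dotInt (stdU : GolayPt → ℤ) a = 16 := (dot_comm' _ _).trans hau
    rw [hU, dot_five] at h1
    have h2 := hzu
    rw [hU, dot_five] at h2
    rw [Finset.sum_add_distrib]
    linarith
  have hW : ∀ i : GolayPt, a i + (z : GolayPt → ℤ) i =
      (4 - (a none + (z : GolayPt → ℤ) none)) +
        (if i = none then 2 * (a none + (z : GolayPt → ℤ) none) - 4 else 0) := by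
    intro i
    by_cases hi : i = none
    · rw [if_pos hi, hi]
      ring
    · rw [if_neg hi]
      have h := key i hi
      linarith
  rw [Finset.sum_congr rfl (fun i _ => hW i), Finset.sum_add_distrib, Finset.sum_const,
    Finset.sum_ite_eq' Finset.univ none
      (fun _ => (2 * (a none + (z : GolayPt → ℤ) none) - 4 : ℤ)),
    if_pos (Finset.mem_univ none), Finset.card_univ, Cfsg.Agent.Helper3.card_golayPt,
    nsmul_eq_mul] at hsumW
  push_cast at hsumW
  omega

theorem no_neg_refl (u : leechLattice) (hu : sqNorm (u : GolayPt → ℤ) = 48) (n : Co0)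
    (hnu : (n : Perm leechLattice) u = u)
    (hn : ∀ y : leechLattice, sqNorm (y : GolayPt → ℤ) = 32 →
      sqNorm ((u : GolayPt → ℤ) - (y : GolayPt → ℤ)) = 32 →
      (n : Perm leechLattice) y = u - y) : False := by
  obtain ⟨_, h, hh⟩ := trans48 (u : GolayPt → ℤ) (stdU : GolayPt → ℤ) u.2 hu stdU.2 stdU_norm
  have hh' : (h : Perm leechLattice) u = stdU := Subtype.ext hh
  have e : ((h⁻¹ : Co0) : Perm leechLattice) stdU = u := by
    rw [← hh']
    exact Equiv.symm_apply_apply (h : Perm leechLattice) u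
  apply no_neg_refl_std (h * n * h⁻¹)
  · show (h : Perm leechLattice) ((n : Perm leechLattice)
      (((h⁻¹ : Co0) : Perm leechLattice) stdU)) = stdU
    rw [e, hnu, hh']
  · intro y hy1 hy2
    show (h : Perm leechLattice) ((n : Perm leechLattice)
      (((h⁻¹ : Co0) : Perm leechLattice) y)) = stdU - y
    have hy1' : sqNorm ((((h⁻¹ : Co0) : Perm leechLattice) y : leechLattice) :
        GolayPt → ℤ) = 32 := ((h⁻¹ : Co0).2.2 y).trans hy1
    have hy2' : sqNorm ((u : GolayPt → ℤ) -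
        ((((h⁻¹ : Co0) : Perm leechLattice) y : leechLattice) : GolayPt → ℤ)) = 32 := by
      have h3 := co0_map_sub h⁻¹ stdU y
      rw [e] at h3
      rw [← AddSubgroup.coe_sub, ← h3, (h⁻¹ : Co0).2.2 (stdU - y), AddSubgroup.coe_sub]
      exact hy2
    have e2 : (h : Perm leechLattice) (((h⁻¹ : Co0) : Perm leechLattice) y) = y :=
      Equiv.apply_symm_apply (h : Perm leechLattice) y
    rw [hn _ hy1' hy2', co0_map_sub, hh', e2]

/-! ### simplicity -/

/-- simplicity in the standard frame -/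
theorem co3_std_simple : SimpleIn (co3K mclU1) := by
  classical
  have h552 : (decSet mclU1).ncard = 552 := census48 mclU1 mclU1_norm
  have hfin : (decSet mclU1).Finite :=
    Set.finite_of_ncard_ne_zero (by rw [h552]; norm_num)
  have hmemS : ∀ a, a ∈ hfin.toFinset ↔ a ∈ decSet mclU1 :=
    fun a => Set.Finite.mem_toFinset hfin
  have hScard : hfin.toFinset.card = 552 := by
    rw [← Set.ncard_eq_toFinset_card _ hfin]
    exact h552
  obtain ⟨Δ, hΔ⟩ : ∃ Δ : Finset leechLattice, ∀ y, y ∈ Δ ↔ y ∈ mclSet mclU1 mclV 16 :=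
    ⟨hfin.toFinset.filter (fun y : leechLattice =>
      dotInt (mclV : GolayPt → ℤ) (y : GolayPt → ℤ) = 16), fun y => by
      rw [Finset.mem_filter, hmemS]
      exact ⟨fun h => ⟨h.1.1, h.1.2, h.2⟩, fun h => ⟨⟨h.1, h.2.1⟩, h.2.2⟩⟩⟩
  obtain ⟨Γ, hΓ⟩ : ∃ Γ : Finset leechLattice, ∀ y, y ∈ Γ ↔ y ∈ mclSet mclU1 mclV 8 :=
    ⟨hfin.toFinset.filter (fun y : leechLattice =>
      dotInt (mclV : GolayPt → ℤ) (y : GolayPt → ℤ) = 8), fun y => by
      rw [Finset.mem_filter, hmemS]
      exact ⟨fun h => ⟨h.1.1, h.1.2, h.2⟩, fun h => ⟨⟨h.1, h.2.1⟩, h.2.2⟩⟩⟩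
  have hVV : dotInt (mclV : GolayPt → ℤ) (mclV : GolayPt → ℤ) = 32 := by
    rw [dot_self]
    exact mclV_norm
  have huv := dot24 mclU1 mclV mclU1_norm mclV_ok.1 mclV_ok.2
  have hW1dec : mclW1 ∈ decSet mclU1 := by
    refine ⟨mclW1_norm, ?_⟩
    have e : (mclU1 : GolayPt → ℤ) - (mclW1 : GolayPt → ℤ) = (mclV : GolayPt → ℤ) := by
      show (mclV : GolayPt → ℤ) + (mclW1 : GolayPt → ℤ) - (mclW1 : GolayPt → ℤ) = _
      rw [add_sub_cancel_right]
    rw [e]
    exact mclV_norm
  have hΔc : Δ.card = 275 := by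
    rw [← Set.ncard_coe_finset]
    have e : (↑Δ : Set leechLattice) = mclSet mclU1 mclV 16 := by
      ext y
      rw [Finset.mem_coe]
      exact hΔ y
    rw [e]
    exact mcl_count mclU1 mclV mclU1_norm mclV_ok
  have hxx' : mclV ≠ mclW1 := by
    intro h
    have h1 := mclVW1
    rw [← h, hVV] at h1
    norm_num at h1
  have hxΔ : mclV ∉ Δ := by
    intro h
    have h1 := ((hΔ _).1 h).2.2
    rw [hVV] at h1
    norm_num at h1
  have hxΓ : mclV ∉ Γ := by
    intro h
    have h1 := ((hΓ _).1 h).2.2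
    rw [hVV] at h1
    norm_num at h1
  have hx'Δ : mclW1 ∉ Δ := by
    intro h
    have h1 := ((hΔ _).1 h).2.2
    rw [mclVW1] at h1
    norm_num at h1
  have hx'Γ : mclW1 ∉ Γ := by
    intro h
    have h1 := ((hΓ _).1 h).2.2
    rw [mclVW1] at h1
    norm_num at h1
  have hdisj : Disjoint Δ Γ := by
    rw [Finset.disjoint_left]
    intro y ha hb
    have h1 := ((hΔ y).1 ha).2.2
    have h2 := ((hΓ y).1 hb).2.2
    rw [h1] at h2
    norm_num at h2
  have hsplit : hfin.toFinset = insert mclV (insert mclW1 (Δ ∪ Γ)) := by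
    ext y
    rw [hmemS, Finset.mem_insert, Finset.mem_insert, Finset.mem_union, hΔ, hΓ]
    constructor
    · intro hy
      by_cases h1 : y = mclV
      · exact Or.inl h1
      · by_cases h2 : y = mclW1
        · exact Or.inr (Or.inl h2)
        · have h2' : y ≠ mclU1 - mclV := by
            rw [mclU1_sub]
            exact h2
          rcases dec_dich mclU1 mclV y mclU1_norm mclV_ok hy h1 h2' with h | h
          · exact Or.inr (Or.inr (Or.inr ⟨hy.1, hy.2, h⟩))
          · exact Or.inr (Or.inr (Or.inl ⟨hy.1, hy.2, h⟩))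
    · rintro (h | h | h | h)
      · rw [h]
        exact mclV_ok
      · rw [h]
        exact hW1dec
      · exact ⟨h.1, h.2.1⟩
      · exact ⟨h.1, h.2.1⟩
  have hΓc : Γ.card = 275 := by
    have h1 : mclW1 ∉ Δ ∪ Γ := by
      rw [Finset.mem_union]
      tauto
    have h2 : mclV ∉ insert mclW1 (Δ ∪ Γ) := by
      rw [Finset.mem_insert, Finset.mem_union]
      tauto
    have h := congrArg Finset.card hsplit
    rw [hScard, Finset.card_insert_of_notMem h2, Finset.card_insert_of_notMem h1,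
      Finset.card_union_of_disjoint hdisj, hΔc] at h
    omega
  have hΔtr : ∀ a ∈ Δ, ∀ b ∈ Δ, ∃ k ∈ co3K mclU1, k mclV = mclV ∧ k a = b := by
    intro a ha b hb
    obtain ⟨g, e1, e2, e3⟩ := mcl_trans mclU1 mclV a b mclU1_norm mclV_ok ((hΔ a).1 ha)
      ((hΔ b).1 hb)
    exact ⟨(g : Perm leechLattice), (mem_co3K _ _).2 ⟨g.2, e1⟩, e2, e3⟩
  have hΓtr : ∀ a ∈ Γ, ∀ b ∈ Γ, ∃ k ∈ co3K mclU1, k mclV = mclV ∧ k a = b := by
    intro a ha b hb
    have ha' := mcl_flip mclU1 mclV a huv 8 16 (by norm_num) ((hΓ a).1 ha)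
    have hb' := mcl_flip mclU1 mclV b huv 8 16 (by norm_num) ((hΓ b).1 hb)
    obtain ⟨g, e1, e2, e3⟩ := mcl_trans mclU1 mclV (mclU1 - a) (mclU1 - b) mclU1_norm mclV_ok
      ha' hb'
    refine ⟨(g : Perm leechLattice), (mem_co3K _ _).2 ⟨g.2, e1⟩, e2, ?_⟩
    have e1' : (g : Perm leechLattice) mclU1 = mclU1 := e1
    have e3' : (g : Perm leechLattice) (mclU1 - a) = mclU1 - b := e3
    rw [co0_map_sub, e1'] at e3'
    exact sub_right_inj.1 e3'
  have hcent : ∀ n ∈ co3K mclU1, n mclV = mclW1 →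
      (∀ g ∈ co3K mclU1, n (g mclV) = g mclW1) → False := by
    intro n hn hnx hall
    obtain ⟨hnC, hnu⟩ := (mem_co3K _ _).1 hn
    apply no_neg_refl mclU1 mclU1_norm ⟨n, hnC⟩ hnu
    intro y hy1 hy2
    obtain ⟨g, hg, hgy⟩ := co3K_trans mclU1 mclU1_norm mclV y mclV_ok ⟨hy1, hy2⟩
    obtain ⟨hgC, hgu⟩ := (mem_co3K _ _).1 hg
    have h1 := hall g hg
    rw [hgy] at h1
    have h2 : g mclW1 = mclU1 - y := by
      have h3 := co0_map_sub ⟨g, hgC⟩ mclU1 mclV
      have h3' : g (mclU1 - mclV) = g mclU1 - g mclV := h3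
      rw [mclU1_sub, hgu, hgy] at h3'
      exact h3'
    exact h1.trans h2
  have hΔblock : ∃ g ∈ co3K mclU1, g mclV ∈ Δ ∧ ∃ b ∈ Δ, g b ∉ insert mclV Δ := by
    obtain ⟨g, hg, hgx⟩ := co3K_trans mclU1 mclU1_norm mclV mclX1 mclV_ok
      ⟨mclX1_mem.1, mclX1_mem.2.1⟩
    obtain ⟨hgC, hgu⟩ := (mem_co3K _ _).1 hg
    have h112 := mcl_sub8 mclU1 mclV mclX1 mclU1_norm mclV_ok mclX1_mem
    obtain ⟨c₀, hc₀, hc₀8⟩ := Set.nonempty_of_ncard_ne_zero
      (s := {y : leechLattice | y ∈ mclSet mclU1 mclV 16 ∧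
        dotInt (mclX1 : GolayPt → ℤ) (y : GolayPt → ℤ) = 8}) (by rw [h112]; norm_num)
    have hc := mcl_flip mclU1 mclV c₀ huv 16 8 (by norm_num) hc₀
    have hXc : dotInt (mclX1 : GolayPt → ℤ)
        ((mclU1 - c₀ : leechLattice) : GolayPt → ℤ) = 16 := by
      rw [AddSubgroup.coe_sub, dot_sub_right,
        dot_comm' (mclX1 : GolayPt → ℤ) (mclU1 : GolayPt → ℤ),
        dot24 mclU1 mclX1 mclU1_norm mclX1_mem.1 mclX1_mem.2.1, hc₀8]
      norm_num
    refine ⟨g, hg, (hΔ _).2 (by rw [hgx]; exact mclX1_mem), g⁻¹ (mclU1 - c₀), ?_, ?_⟩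
    · rw [hΔ]
      have hb := co3K_inv mclU1 g⁻¹ ((co3K mclU1).inv_mem hg) (mclU1 - c₀) ⟨hc.1, hc.2.1⟩
      refine ⟨hb.1, hb.2, ?_⟩
      have hd := co0_dot g hgC mclV (g⁻¹ (mclU1 - c₀))
      rw [hgx, papply_inv] at hd
      exact hd.symm.trans hXc
    · rw [papply_inv]
      intro hmem
      rw [Finset.mem_insert, hΔ] at hmem
      rcases hmem with h | h
      · have h8 := hc.2.2
        rw [h, hVV] at h8
        norm_num at h8
      · have h8 := hc.2.2
        rw [h.2.2] at h8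
        norm_num at h8
  have hΓblock : ∃ g ∈ co3K mclU1, g mclV ∈ Γ ∧ ∃ b ∈ Γ, g b ∉ insert mclV Γ := by
    have ha := mcl_flip mclU1 mclV mclX1 huv 16 8 (by norm_num) mclX1_mem
    obtain ⟨g, hg, hgx⟩ := co3K_trans mclU1 mclU1_norm mclV (mclU1 - mclX1) mclV_ok
      ⟨ha.1, ha.2.1⟩
    obtain ⟨hgC, hgu⟩ := (mem_co3K _ _).1 hg
    have hac : dotInt ((mclU1 - mclX1 : leechLattice) : GolayPt → ℤ)
        (mclX : GolayPt → ℤ) = 8 := by
      rw [AddSubgroup.coe_sub, dot_sub_left,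
        dot24 mclU1 mclX mclU1_norm mclX_mem.1 mclX_mem.2.1, mclX1X]
      norm_num
    refine ⟨g, hg, (hΓ _).2 (by rw [hgx]; exact ha), g⁻¹ mclX, ?_, ?_⟩
    · rw [hΓ]
      have hb := co3K_inv mclU1 g⁻¹ ((co3K mclU1).inv_mem hg) mclX
        ⟨mclX_mem.1, mclX_mem.2.1⟩
      refine ⟨hb.1, hb.2, ?_⟩
      have hd := co0_dot g hgC mclV (g⁻¹ mclX)
      rw [hgx, papply_inv] at hd
      exact hd.symm.trans hac
    · rw [papply_inv]
      intro hmem
      rw [Finset.mem_insert, hΓ] at hmem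
      rcases hmem with h | h
      · have h16 := mclX_mem.2.2
        rw [h, hVV] at h16
        norm_num at h16
      · have h16 := mclX_mem.2.2
        rw [h.2.2] at h16
        norm_num at h16
  have hstabeq : co3K mclU1 ⊓ MulAction.stabilizer (Perm leechLattice) mclV =
      hsK mclV mclW1 := by
    ext k
    rw [Subgroup.mem_inf, mem_co3K, mem_hsK, MulAction.mem_stabilizer_iff, Perm.smul_def]
    constructor
    · rintro ⟨⟨hkC, hku⟩, hkv⟩
      refine ⟨hkC, hkv, ?_⟩
      have h := co0_map_sub ⟨k, hkC⟩ mclU1 mclV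
      have h' : k (mclU1 - mclV) = k mclU1 - k mclV := h
      rw [hku, hkv, mclU1_sub] at h'
      exact h'
    · rintro ⟨hkC, hkv, hkw⟩
      refine ⟨⟨hkC, ?_⟩, hkv⟩
      show k (mclV + mclW1) = mclV + mclW1
      rw [hkC.1 mclV mclW1, hkv, hkw]
  refine simpleIn_rank4 (co3K mclU1) hfin.toFinset Δ Γ mclV mclW1 275 ?_ ?_ hsplit hxx' hxΔ
    hxΓ hx'Δ hx'Γ hdisj hΔc hΓc (by norm_num) (by norm_num) hΔtr hΓtr (by norm_num)
    (by norm_num) 3 23 (by norm_num) (by norm_num) (by norm_num) (by norm_num) (by norm_num)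
    (by norm_num) (by norm_num) hcent hΔblock hΓblock ?_
  · intro k hk a ha
    exact (hmemS _).2 (co3K_inv mclU1 k hk a ((hmemS a).1 ha))
  · intro a ha
    exact co3K_trans mclU1 mclU1_norm mclV a mclV_ok ((hmemS a).1 ha)
  · rw [hstabeq]
    exact mclG_simple

/-- simplicity of the stabiliser of a vector of sum of squares 48 -/
theorem co3_simpleIn (u : leechLattice) (hu : sqNorm (u : GolayPt → ℤ) = 48) :
    SimpleIn (co3K u) := by
  obtain ⟨_, g, hg⟩ := trans48 (mclU1 : GolayPt → ℤ) (u : GolayPt → ℤ) mclU1.2 mclU1_norm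
    u.2 hu
  have hg' : (g : Perm leechLattice) mclU1 = u := Subtype.ext hg
  refine co3_std_simple.conj (g : Perm leechLattice) ?_
  intro k
  simp only [co3K, Subgroup.mem_inf]
  rw [conj_mem_iff Co0 g.2, conj_mem_stab_iff, Perm.smul_def, hg']

end Cfsg.Agent.Helper28
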