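import Cfsg.Agent.Helper28.W11178

/-!
Further counting data for minimal vectors sorted by their coordinates at the two base points:
the shapes of the minimal vectors orthogonal to `(4, 4, 0, …)` with inner product `-8` with
`(-3, 1, …, 1)`.
-/

set_option autoImplicit false

namespace Cfsg.Agent.Helper28

open Cfsg

theorem wG_num2 : wG 0 0 (-8) = 9471 ∧ wG 1 (-1) (-4) = 20064 ∧ wG 2 (-2) 0 = 3080 := by
  decide +kernel

end Cfsg.Agent.Helper28
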