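import Cfsg.Agent.Helper28.Co2Crit
import Cfsg.Agent.Helper28.W22275
import Cfsg.Agent.Helper28.Co3Rank5
import Cfsg.Agent.Helper28.Co3Simple

/-!
The stabiliser in the automorphism group of the lattice of a minimal vector `v`: its order and
its simplicity.  The group acts transitively on the 47104 minimal vectors of inner product `-8`
with `v`; the stabiliser of one of them, `x`, is simple.  A normal subgroup containing it has an
orbit containing `x`, the 2025 vectors of inner product `16` with `x` and the 22275 vectors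
orthogonal to `x`, hence more than half of the points.  A normal subgroup meeting it trivially
is excluded by the criterion of `Co2Crit`, with the help of two further simple subgroups (the
joint stabiliser of two vectors of sum of squares 48 with sum `-v`, and the coordinate
permutations fixing a point).
-/

set_option autoImplicit false
set_option linter.style.haveILetI false

namespace Cfsg.Agent.Helper28

open Cfsg Equiv Cfsg.Agent.Helper3
open scoped Pointwise

/-- the order of the stabiliser of a minimal vector -/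
theorem co2K_card (v : leechLattice) (hv : sqNorm (v : GolayPt → ℤ) = 32) :
    Nat.card ↥(co3K v) = 42305421312000 := by
  have h32 : {x : leechLattice | sqNorm (x : GolayPt → ℤ) = 32}.ncard = 196560 := by
    rw [← count32, ← Set.ncard_image_of_injective _ Subtype.val_injective]
    congr 1
    ext x
    constructor
    · rintro ⟨y, hy, rfl⟩
      exact ⟨y.2, hy⟩
    · rintro ⟨hx, hn⟩
      exact ⟨⟨x, hx⟩, hn, rfl⟩
  have hfin32 : {x : leechLattice | sqNorm (x : GolayPt → ℤ) = 32}.Finite :=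
    Set.finite_of_ncard_ne_zero (by rw [h32]; norm_num)
  have hc32 : hfin32.toFinset.card = 196560 := by
    rw [← Set.ncard_eq_toFinset_card _ hfin32]
    exact h32
  have e1 := card_eq_orbit_mul_stab (G := Perm leechLattice) Co0 v hfin32.toFinset
    (by
      intro g hg
      rw [Set.Finite.mem_toFinset]
      exact (hg.2 v).trans hv)
    (by
      intro δ hδ
      rw [Set.Finite.mem_toFinset] at hδ
      obtain ⟨_, g, hg⟩ := min_trans (v : GolayPt → ℤ) (δ : GolayPt → ℤ) v.2 hv δ.2 hδ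
      exact ⟨(g : Perm leechLattice), g.2, Subtype.ext hg⟩)
  rw [hc32, co0_card] at e1
  unfold co3K
  omega

/-- the stabiliser of two minimal vectors `v`, `y` of inner product `-8` is transitive on the
minimal vectors of inner product `-8` with `v` and `16` with `y` -/
theorem co2_link (v y a b : leechLattice) (hv : sqNorm (v : GolayPt → ℤ) = 32)
    (hy : sqNorm (y : GolayPt → ℤ) = 32)
    (hvy : dotInt (v : GolayPt → ℤ) (y : GolayPt → ℤ) = -8)
    (ha : sqNorm (a : GolayPt → ℤ) = 32)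
    (hva : dotInt (v : GolayPt → ℤ) (a : GolayPt → ℤ) = -8)
    (hya : dotInt (y : GolayPt → ℤ) (a : GolayPt → ℤ) = 16)
    (hb : sqNorm (b : GolayPt → ℤ) = 32)
    (hvb : dotInt (v : GolayPt → ℤ) (b : GolayPt → ℤ) = -8)
    (hyb : dotInt (y : GolayPt → ℤ) (b : GolayPt → ℤ) = 16) :
    ∃ m ∈ hsK v y, m a = b := by
  have key : ∀ c : leechLattice, sqNorm (c : GolayPt → ℤ) = 32 →
      dotInt (v : GolayPt → ℤ) (c : GolayPt → ℤ) = -8 →
      dotInt (y : GolayPt → ℤ) (c : GolayPt → ℤ) = 16 → y - c ∈ dotSet2 v y 32 0 16 := by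
    intro c hc hvc hyc
    refine ⟨?_, ?_, ?_⟩
    · rw [AddSubgroup.coe_sub, sqNorm_sub, hy, hc, hyc]
      norm_num
    · rw [AddSubgroup.coe_sub, dot_sub_right, hvy, hvc]
      norm_num
    · rw [AddSubgroup.coe_sub, dot_sub_right, dot_self, hy, hyc]
      norm_num
  obtain ⟨g, e1, e2, e3⟩ := mcl2025_trans v y (y - a) (y - b) hv hy hvy (key a ha hva hya)
    (key b hb hvb hyb)
  have e1' : (g : Perm leechLattice) v = v := e1
  have e2' : (g : Perm leechLattice) y = y := e2
  have e3' : (g : Perm leechLattice) (y - a) = y - b := e3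
  refine ⟨(g : Perm leechLattice), (mem_hsK v y _).2 ⟨g.2, e1', e2'⟩, ?_⟩
  rw [co0_map_sub, e2'] at e3'
  exact sub_right_inj.1 e3'

/-- an even minimal vector has a zero coordinate off the base points -/
theorem exists_zero_even (y : GolayPt → ℤ) (hy : y ∈ leechLattice) (hn : ∑ i, y i ^ 2 = 32)
    (h1 : y none = -2) : ∃ q, q ≠ none ∧ q ≠ some 0 ∧ y q = 0 := by
  obtain ⟨m, hLP⟩ := (mem_leechLattice_iff y).1 hy
  have hpar := hLP.1
  have hev : ∀ i, y i % 2 = 0 := by
    intro i
    have hi := hpar i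
    have h0 := hpar none
    rw [h1] at h0
    unfold Int.ModEq at hi h0
    omega
  by_contra hcon
  have hge : ∀ i ∈ (Finset.univ.erase (none : GolayPt)).erase (some 0),
      (4 : ℤ) ≤ y i ^ 2 := by
    intro i hi
    rw [Finset.mem_erase, Finset.mem_erase] at hi
    have hne : y i ≠ 0 := fun h0 => hcon ⟨i, hi.2.1, hi.1, h0⟩
    have hi2 := hev i
    have hcases : y i ≤ -2 ∨ 2 ≤ y i := by omega
    rcases hcases with h | h <;> nlinarith
  have hsum := Finset.sum_le_sum hge
  rw [Finset.sum_const, nsmul_eq_mul] at hsum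
  have hcard : ((Finset.univ.erase (none : GolayPt)).erase (some 0)).card = 22 := by
    decide +kernel
  rw [hcard] at hsum
  push_cast at hsum
  have hr := rest_sum (fun i => y i ^ 2)
  have hr' : ∑ i, y i ^ 2 = y none ^ 2 + y (some 0) ^ 2 +
      ∑ i ∈ (Finset.univ.erase (none : GolayPt)).erase (some 0), y i ^ 2 := hr
  rw [hn, h1] at hr'
  have hsq : 0 ≤ y (some 0) ^ 2 := sq_nonneg _
  norm_num at hr'
  linarith

/-- two orthogonal minimal vectors with inner product `-8` with a third one have a common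
neighbour -/
theorem co2_orth_link (v x z : leechLattice) (hv : sqNorm (v : GolayPt → ℤ) = 32)
    (hx : sqNorm (x : GolayPt → ℤ) = 32) (hz : sqNorm (z : GolayPt → ℤ) = 32)
    (hvx : dotInt (v : GolayPt → ℤ) (x : GolayPt → ℤ) = -8)
    (hvz : dotInt (v : GolayPt → ℤ) (z : GolayPt → ℤ) = -8)
    (hxz : dotInt (x : GolayPt → ℤ) (z : GolayPt → ℤ) = 0) :
    ∃ y : leechLattice, sqNorm (y : GolayPt → ℤ) = 32 ∧
      dotInt (v : GolayPt → ℤ) (y : GolayPt → ℤ) = -8 ∧
      dotInt (y : GolayPt → ℤ) (x : GolayPt → ℤ) = 16 ∧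
      dotInt (y : GolayPt → ℤ) (z : GolayPt → ℤ) = 16 := by
  obtain ⟨g, a1, a2⟩ := std_orth x z hx hz hxz
  obtain ⟨c1, c2⟩ := std_coords x z v g a1 a2
  rw [dot_comm', hvx] at c1
  rw [hvz] at c2
  have h1 : (((g : Perm leechLattice) v : leechLattice) : GolayPt → ℤ) none = -2 := by omega
  obtain ⟨q, hq1, hq2, hq0⟩ := exists_zero_even _ ((g : Perm leechLattice) v).2
    ((g.2.2 v).trans hv) h1
  obtain ⟨hm, hnm⟩ := sgn4_min none q (Ne.symm hq1) ∅ (Finset.empty_subset _)
  obtain ⟨y', hy'⟩ : ∃ y' : leechLattice, (y' : GolayPt → ℤ) = sgnVec 4 {none, q} ∅ :=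
    ⟨⟨_, hm⟩, rfl⟩
  have hdot : ∀ t : GolayPt → ℤ, dotInt (sgnVec 4 {none, q} ∅) t = 4 * t none + 4 * t q := by
    intro t
    rw [dot_comm', dot_sgnVec_pair t 4 none q (Ne.symm hq1) ∅ (Finset.empty_subset _)]
    have e1 : sgnVec 4 ({none, q} : Finset GolayPt) ∅ none = 4 := by
      unfold sgnVec
      simp
    have e2 : sgnVec 4 ({none, q} : Finset GolayPt) ∅ q = 4 := by
      unfold sgnVec
      simp
    rw [e1, e2]
    ring
  refine ⟨((g⁻¹ : Co0) : Perm leechLattice) y', ?_, ?_, ?_, ?_⟩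
  · refine ((g⁻¹ : Co0).2.2 y').trans ?_
    rw [hy']
    exact hnm
  · rw [dot_inv g v ((g : Perm leechLattice) v) y' rfl, hy', dot_comm', hdot, h1, hq0]
    norm_num
  · rw [dot_comm', dot_inv g x ((g : Perm leechLattice) x) y' rfl, a1, hy', dot_comm', hdot]
    have e1 : sgnVec 4 ({none, some 0} : Finset GolayPt) ∅ none = 4 := by decide
    have e2 : sgnVec 4 ({none, some 0} : Finset GolayPt) ∅ q = 0 := by
      unfold sgnVec
      simp [hq1, hq2]
    rw [e1, e2]
    norm_num
  · rw [dot_comm', dot_inv g z ((g : Perm leechLattice) z) y' rfl, a2, hy', dot_comm', hdot]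
    have e1 : sgnVec 4 ({none, some 0} : Finset GolayPt) {some 0} none = 4 := by decide
    have e2 : sgnVec 4 ({none, some 0} : Finset GolayPt) {some 0} q = 0 := by
      unfold sgnVec
      simp [hq1, hq2]
    rw [e1, e2]
    norm_num

/-! ### the standard frame -/

/-- the vector `(4, 0, 0, 4, 0, …)` -/
def co2Z : leechLattice :=
  ⟨sgnVec 4 {none, some 2} ∅, (sgn4_min none (some 2) (by decide) ∅ (Finset.empty_subset _)).1⟩

theorem co2Z_norm : sqNorm (co2Z : GolayPt → ℤ) = 32 :=
  (sgn4_min none (some 2) (by decide) ∅ (Finset.empty_subset _)).2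

theorem co2Z_none : (co2Z : GolayPt → ℤ) none = 4 := by
  show sgnVec 4 ({none, some 2} : Finset GolayPt) ∅ none = 4
  decide

theorem co2Z_zero : (co2Z : GolayPt → ℤ) (some 0) = 0 := by
  show sgnVec 4 ({none, some 2} : Finset GolayPt) ∅ (some 0) = 0
  decide

theorem co2Z_one : (co2Z : GolayPt → ℤ) (some 1) = 0 := by
  show sgnVec 4 ({none, some 2} : Finset GolayPt) ∅ (some 1) = 0
  decide

theorem co2Z_sum : ∑ i, (co2Z : GolayPt → ℤ) i = 8 := by
  show ∑ i, sgnVec 4 ({none, some 2} : Finset GolayPt) ∅ i = 8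
  rw [sgnVec_sum 4 (Finset.empty_subset _)]
  have h : ({none, some 2} : Finset GolayPt).card = 2 := by decide
  rw [h, Finset.card_empty]
  norm_num

theorem mclWV : dotInt (mclW : GolayPt → ℤ) (mclV : GolayPt → ℤ) = -8 := by
  rw [dot_comm']
  exact mclVW

theorem mclW_X1 : dotInt (mclW : GolayPt → ℤ) (mclX1 : GolayPt → ℤ) = -8 := by
  rw [dot_mclW, mclX1_sum, mclX1_none]
  norm_num

theorem mclX1_V : dotInt (mclX1 : GolayPt → ℤ) (mclV : GolayPt → ℤ) = 16 := by
  rw [dot_comm']
  have h := base_dot (mclX1 : GolayPt → ℤ)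
  rw [mclX1_none, mclX1_zero] at h
  exact h.trans (by norm_num)

theorem mclW_Z : dotInt (mclW : GolayPt → ℤ) (co2Z : GolayPt → ℤ) = -8 := by
  rw [dot_mclW, co2Z_sum, co2Z_none]
  norm_num

theorem mclV_Z : dotInt (mclV : GolayPt → ℤ) (co2Z : GolayPt → ℤ) = 16 := by
  have h := base_dot (co2Z : GolayPt → ℤ)
  rw [co2Z_none, co2Z_zero] at h
  exact h.trans (by norm_num)

theorem mclX1_Z : dotInt (mclX1 : GolayPt → ℤ) (co2Z : GolayPt → ℤ) = 16 := by
  rw [dot_X1, co2Z_none, co2Z_one]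
  norm_num

/-- at least 22275 minimal vectors have inner product `-8` with `(-3, 1, …, 1)` and are
orthogonal to `(4, 4, 0, …)` -/
theorem co2_count0 :
    22275 ≤ {x : GolayPt → ℤ | x ∈ leechLattice ∧ sqNorm x = 32 ∧
      dotInt (mclW : GolayPt → ℤ) x = -8 ∧ dotInt (mclV : GolayPt → ℤ) x = 0}.ncard := by
  obtain ⟨n1, n2, n3⟩ := wG_num2
  obtain ⟨-, -, -, -, -, -, -, w8, -, -, -, -⟩ := wG_num
  have c1 : (sAB 0 0 (-8)).ncard = 9471 := by
    rw [sAA_one 0 (-8) (by norm_num), n1]
  have c2 : (sAB 1 (-1) (-4)).ncard = 10032 := by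
    have h := sAB_two 1 (-1) (-4) (by norm_num) (by norm_num)
    rw [n2] at h
    omega
  have c3 : (sAB (-1) 1 (-12)).ncard = 1232 := by
    have h := sAB_two (-1) 1 (-12) (by norm_num) (by norm_num)
    rw [w8] at h
    omega
  have c4 : (sAB 2 (-2) 0).ncard = 1540 := by
    have h := sAB_two 2 (-2) 0 (by norm_num) (by norm_num)
    rw [n3] at h
    omega
  have dis : ∀ a b s a' b' s' : ℤ, a ≠ a' → Disjoint (sAB a b s) (sAB a' b' s') := by
    intro a b s a' b' s' hne
    rw [Set.disjoint_left]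
    rintro x ⟨_, _, _, h1, _⟩ ⟨_, _, _, h1', _⟩
    exact hne (h1.symm.trans h1')
  have f1 := sAB_finite 0 0 (-8)
  have f2 := sAB_finite 1 (-1) (-4)
  have f3 := sAB_finite (-1) 1 (-12)
  have f4 := sAB_finite 2 (-2) 0
  have hU : (sAB 0 0 (-8) ∪ sAB 1 (-1) (-4) ∪ sAB (-1) 1 (-12) ∪ sAB 2 (-2) 0).ncard =
      (sAB 0 0 (-8)).ncard + (sAB 1 (-1) (-4)).ncard + (sAB (-1) 1 (-12)).ncard +
        (sAB 2 (-2) 0).ncard := by
    rw [Set.ncard_union_eq (Set.disjoint_union_left.2 ⟨Set.disjoint_union_left.2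
        ⟨dis _ _ _ _ _ _ (by norm_num), dis _ _ _ _ _ _ (by norm_num)⟩,
        dis _ _ _ _ _ _ (by norm_num)⟩) ((f1.union f2).union f3) f4,
      Set.ncard_union_eq (Set.disjoint_union_left.2
        ⟨dis _ _ _ _ _ _ (by norm_num), dis _ _ _ _ _ _ (by norm_num)⟩) (f1.union f2) f3,
      Set.ncard_union_eq (dis _ _ _ _ _ _ (by norm_num)) f1 f2]
  have hU' : (sAB 0 0 (-8) ∪ sAB 1 (-1) (-4) ∪ sAB (-1) 1 (-12) ∪ sAB 2 (-2) 0).ncard =
      22275 := by
    omega
  rw [← hU']
  refine Set.ncard_le_ncard ?_ (min_finite32.subset (fun _ hx => hx.2.1))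
  intro x hx
  have key : ∀ a b s : ℤ, x ∈ sAB a b s → s - 4 * a = -8 → a + b = 0 →
      (x ∈ leechLattice ∧ sqNorm x = 32 ∧ dotInt (mclW : GolayPt → ℤ) x = -8 ∧
        dotInt (mclV : GolayPt → ℤ) x = 0) := by
    rintro a b s ⟨hxL, hn, hs, h1, h2⟩ e1 e2
    refine ⟨hxL, hn, ?_, ?_⟩
    · rw [dot_mclW, hs, h1]
      exact e1
    · show dotInt (sgnVec 4 {none, some 0} ∅) x = 0
      rw [base_dot, h1, h2]
      omega
  rcases hx with ((hx | hx) | hx) | hx
  · exact key 0 0 (-8) hx (by norm_num) (by norm_num)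
  · exact key 1 (-1) (-4) hx (by norm_num) (by norm_num)
  · exact key (-1) 1 (-12) hx (by norm_num) (by norm_num)
  · exact key 2 (-2) 0 hx (by norm_num) (by norm_num)

theorem co2_arith (α β γ : ℤ) (h1 : -3 * α + β + 22 * γ = -8)
    (h2 : α ^ 2 + β ^ 2 + 22 * γ ^ 2 = 32) : α = 4 ∧ β = 4 ∧ γ = 0 := by
  have hγ1 : -1 ≤ γ := by nlinarith [sq_nonneg α, sq_nonneg β, sq_nonneg (γ + 2)]
  have hγ2 : γ ≤ 1 := by nlinarith [sq_nonneg α, sq_nonneg β, sq_nonneg (γ - 2)]
  have hα1 : -5 ≤ α := by nlinarith [sq_nonneg β, sq_nonneg γ, sq_nonneg (α + 6)]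
  have hα2 : α ≤ 5 := by nlinarith [sq_nonneg β, sq_nonneg γ, sq_nonneg (α - 6)]
  have hβ : β = 3 * α - 8 - 22 * γ := by linarith
  subst hβ
  interval_cases γ <;> interval_cases α <;>
    first | (exfalso; norm_num at h2; done) | norm_num

/-- the base point is the only fixed point of its stabiliser -/
theorem co2_fix (y : leechLattice) (hy : y ∈ dotSet mclW 32 (-8))
    (hfix : ∀ m ∈ hsK mclW mclV, m y = y) : y = mclV := by
  obtain ⟨hn, hd⟩ := hy
  have hconst : ∀ i : GolayPt, i ≠ none → i ≠ some 0 →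
      (y : GolayPt → ℤ) i = (y : GolayPt → ℤ) (some 1) := by
    intro i hi1 hi2
    obtain ⟨σ, hσ, e1, e2, e3⟩ := m24_fix2 (some 1) i (by decide) (by decide) hi1 hi2
    have hm : ((co0Perm σ hσ : Co0) : Perm leechLattice) ∈ hsK mclW mclV :=
      (mem_hsK _ _ _).2 ⟨(co0Perm σ hσ).2, perm_fix_mclW σ hσ e1, perm_fix_mclV σ hσ e1 e2⟩
    have h := hfix _ hm
    have h' : ((((co0Perm σ hσ : Co0) : Perm leechLattice) y : leechLattice) : GolayPt → ℤ) i =
        (y : GolayPt → ℤ) i := by rw [h]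
    rw [co0Perm_apply, e3] at h'
    exact h'.symm
  have hconst' : ∀ i ∈ (Finset.univ.erase (none : GolayPt)).erase (some 0),
      (y : GolayPt → ℤ) i = (y : GolayPt → ℤ) (some 1) := by
    intro i hi
    rw [Finset.mem_erase, Finset.mem_erase] at hi
    exact hconst i hi.2.1 hi.1
  have hcard : ((Finset.univ.erase (none : GolayPt)).erase (some 0)).card = 22 := by
    decide +kernel
  have hsum : ∑ i, (y : GolayPt → ℤ) i = (y : GolayPt → ℤ) none + (y : GolayPt → ℤ) (some 0) +
      22 * (y : GolayPt → ℤ) (some 1) := by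
    have e0 : ∑ i ∈ (Finset.univ.erase (none : GolayPt)).erase (some 0), (y : GolayPt → ℤ) i =
        ∑ _i ∈ (Finset.univ.erase (none : GolayPt)).erase (some 0),
          (y : GolayPt → ℤ) (some 1) :=
      Finset.sum_congr rfl (fun i hi => hconst' i hi)
    rw [rest_sum (y : GolayPt → ℤ), e0, Finset.sum_const, hcard, nsmul_eq_mul]
    norm_num
  have hsq : ∑ i, (y : GolayPt → ℤ) i ^ 2 = (y : GolayPt → ℤ) none ^ 2 +
      (y : GolayPt → ℤ) (some 0) ^ 2 + 22 * (y : GolayPt → ℤ) (some 1) ^ 2 := by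
    have hr : ∑ i, (y : GolayPt → ℤ) i ^ 2 = (y : GolayPt → ℤ) none ^ 2 +
        (y : GolayPt → ℤ) (some 0) ^ 2 +
        ∑ i ∈ (Finset.univ.erase (none : GolayPt)).erase (some 0), (y : GolayPt → ℤ) i ^ 2 :=
      rest_sum (fun i => (y : GolayPt → ℤ) i ^ 2)
    have e0 : ∑ i ∈ (Finset.univ.erase (none : GolayPt)).erase (some 0),
        (y : GolayPt → ℤ) i ^ 2 =
        ∑ _i ∈ (Finset.univ.erase (none : GolayPt)).erase (some 0),
          (y : GolayPt → ℤ) (some 1) ^ 2 :=
      Finset.sum_congr rfl (fun i hi => by rw [hconst' i hi])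
    rw [hr, e0, Finset.sum_const, hcard, nsmul_eq_mul]
    norm_num
  have h1 : -3 * (y : GolayPt → ℤ) none + (y : GolayPt → ℤ) (some 0) +
      22 * (y : GolayPt → ℤ) (some 1) = -8 := by
    have h := hd
    rw [dot_mclW, hsum] at h
    linarith
  have h2 : (y : GolayPt → ℤ) none ^ 2 + (y : GolayPt → ℤ) (some 0) ^ 2 +
      22 * (y : GolayPt → ℤ) (some 1) ^ 2 = 32 := by
    rw [← hsq]
    exact hn
  obtain ⟨ha, hb, hc⟩ := co2_arith _ _ _ h1 h2
  apply Subtype.ext
  funext i
  show (y : GolayPt → ℤ) i = sgnVec 4 ({none, some 0} : Finset GolayPt) ∅ i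
  by_cases hi1 : i = none
  · rw [hi1, ha]
    decide
  · by_cases hi2 : i = some 0
    · rw [hi2, hb]
      decide
    · rw [hconst i hi1 hi2, hc]
      unfold sgnVec
      simp [hi1, hi2]

/-! ### two further simple subgroups -/

/-- the permutations of the code fixing the first base point -/
def m23P : Subgroup (Perm GolayPt) :=
  M24 ⊓ MulAction.stabilizer (Perm GolayPt) (none : GolayPt)

theorem m23P_le : m23P ≤ M24 := inf_le_left

theorem m23P_card : Nat.card ↥m23P = 10200960 := by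
  have h := natCard_stabilizer_subgroup M24 (none : GolayPt)
  rw [M24_stab_card] at h
  exact h.symm

theorem m23Hom_injective :
    Function.Injective (permHom.comp (Subgroup.inclusion m23P_le)) :=
  permHom_injective.comp (Subgroup.inclusion_injective m23P_le)

theorem m23_range_simple : SimpleIn (permHom.comp (Subgroup.inclusion m23P_le)).range := by
  haveI : IsSimpleGroup ↥m23P := isSimpleGroup_of_simpleIn m23P (M23_simpleIn none)
  haveI : IsSimpleGroup ↥(permHom.comp (Subgroup.inclusion m23P_le)).range :=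
    (MonoidHom.ofInjective m23Hom_injective).symm.isSimpleGroup
  exact simpleIn_of_isSimpleGroup _

theorem m23_range_card :
    Nat.card ↥(permHom.comp (Subgroup.inclusion m23P_le)).range = 10200960 := by
  rw [← Nat.card_congr (MonoidHom.ofInjective m23Hom_injective).toEquiv, m23P_card]

theorem m23_range_le : (permHom.comp (Subgroup.inclusion m23P_le)).range ≤ co3K mclW := by
  rintro _ ⟨σ, rfl⟩
  have hσ1 : σ.1 none = none := σ.2.2
  have e1 : σ.1⁻¹ none = none := by
    rw [Perm.inv_eq_iff_eq, hσ1]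
  show ((co0Perm σ.1⁻¹ (M24.inv_mem (m23P_le σ.2)) : Co0) : Perm leechLattice) ∈ co3K mclW
  exact (mem_co3K _ _).2 ⟨(co0Perm _ _).2, perm_fix_mclW _ _ e1⟩

/-! ### simplicity -/

/-- simplicity in the standard frame -/
theorem co2_std_simple : SimpleIn (co3K mclW) := by
  classical
  have h8 : (dotSet mclW 32 (-8)).ncard = 47104 := by
    rw [dotSet_ncard_eq]
    exact (census (mclW : GolayPt → ℤ) mclW.2 mclW_norm).2.1
  have hfin : (dotSet mclW 32 (-8)).Finite :=
    Set.finite_of_ncard_ne_zero (by rw [h8]; norm_num)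
  have hmemS : ∀ a, a ∈ hfin.toFinset ↔ a ∈ dotSet mclW 32 (-8) :=
    fun a => Set.Finite.mem_toFinset hfin
  have hScard : hfin.toFinset.card = 47104 := by
    rw [← Set.ncard_eq_toFinset_card _ hfin]
    exact h8
  have hxS : mclV ∈ hfin.toFinset := (hmemS _).2 ⟨mclV_norm, mclWV⟩
  have hSinv : ∀ k ∈ co3K mclW, ∀ a ∈ hfin.toFinset, k a ∈ hfin.toFinset := by
    intro k hk a ha
    obtain ⟨hkC, hkw⟩ := (mem_co3K _ _).1 hk
    obtain ⟨han, had⟩ := (hmemS a).1 ha
    refine (hmemS _).2 ⟨(hkC.2 a).trans han, ?_⟩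
    have hd := co0_dot k hkC mclW a
    rw [hkw] at hd
    exact hd.trans had
  have htr : ∀ a ∈ hfin.toFinset, ∃ k ∈ co3K mclW, k mclV = a := by
    intro a ha
    obtain ⟨han, had⟩ := (hmemS a).1 ha
    obtain ⟨g, hg1, hg2⟩ := stab_trans_one mclW mclV a mclW_norm mclV_norm han mclWV had
    exact ⟨(g : Perm leechLattice), (mem_co3K _ _).2 ⟨g.2, hg1⟩, hg2⟩
  have hstabeq : co3K mclW ⊓ MulAction.stabilizer (Perm leechLattice) mclV =
      hsK mclW mclV := rfl
  have hstab : SimpleIn (co3K mclW ⊓ MulAction.stabilizer (Perm leechLattice) mclV) := by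
    rw [hstabeq]
    exact mcl_simpleIn mclW mclV mclW_norm mclV_norm mclWV
  -- the joint stabiliser of two vectors of sum of squares 48 with sum `-mclW`
  obtain ⟨_, g, hg⟩ := min_trans (stdX : GolayPt → ℤ) (mclW : GolayPt → ℤ) stdX.2 stdX_norm
    mclW.2 mclW_norm
  have hg' : (g : Perm leechLattice) stdX = mclW := Subtype.ext hg
  have hXW : -(stdU + stdW) = stdX := by
    show -(stdU + -(stdU + stdX)) = stdX
    abel
  have hpq : mclW = -((g : Perm leechLattice) stdU + (g : Perm leechLattice) stdW) := by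
    rw [← hg', ← hXW, co0_map_neg, g.2.1]
  have hp48 : sqNorm (((g : Perm leechLattice) stdU : leechLattice) : GolayPt → ℤ) = 48 :=
    (g.2.2 stdU).trans stdU_norm
  have hq48 : sqNorm (((g : Perm leechLattice) stdW : leechLattice) : GolayPt → ℤ) = 48 :=
    (g.2.2 stdW).trans stdW_norm
  have hpqd : dotInt (((g : Perm leechLattice) stdU : leechLattice) : GolayPt → ℤ)
      (((g : Perm leechLattice) stdW : leechLattice) : GolayPt → ℤ) = -32 :=
    (co0_dot (g : Perm leechLattice) g.2 stdU stdW).trans stdUW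
  have hH1K : hsK ((g : Perm leechLattice) stdU) ((g : Perm leechLattice) stdW) ≤
      co3K mclW := by
    intro k hk
    obtain ⟨hkC, hkp, hkq⟩ := (mem_hsK _ _ k).1 hk
    refine (mem_co3K _ _).2 ⟨hkC, ?_⟩
    have h1 := co0_map_neg ⟨k, hkC⟩
      ((g : Perm leechLattice) stdU + (g : Perm leechLattice) stdW)
    have h1' : k (-((g : Perm leechLattice) stdU + (g : Perm leechLattice) stdW)) =
        -k ((g : Perm leechLattice) stdU + (g : Perm leechLattice) stdW) := h1
    rw [hkC.1, hkp, hkq, ← hpq] at h1'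
    exact h1'
  -- a normal subgroup containing the point stabiliser has a large orbit
  have hbig : ∀ N : Subgroup (Perm leechLattice), N ≤ co3K mclW →
      (∀ k ∈ co3K mclW, ∀ n ∈ N, k * n * k⁻¹ ∈ N) →
      co3K mclW ⊓ MulAction.stabilizer (Perm leechLattice) mclV ≤ N →
      hfin.toFinset.card < 2 * (orbFin N hfin.toFinset mclV).card := by
    intro N hNK hinv hMN
    have hNy : ∀ y ∈ hfin.toFinset, ∀ m ∈ hsK mclW y, m ∈ N := by
      intro y hy m hm
      obtain ⟨k, hk, hky⟩ := htr y hy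
      obtain ⟨hmC, hmw, hmy⟩ := (mem_hsK _ _ m).1 hm
      have hmK : m ∈ co3K mclW := (mem_co3K _ _).2 ⟨hmC, hmw⟩
      have h1 : k⁻¹ * m * k ∈ co3K mclW ⊓ MulAction.stabilizer (Perm leechLattice) mclV := by
        refine Subgroup.mem_inf.2 ⟨(co3K mclW).mul_mem ((co3K mclW).mul_mem
          ((co3K mclW).inv_mem hk) hmK) hk, ?_⟩
        rw [MulAction.mem_stabilizer_iff, Perm.smul_def, Perm.mul_apply, Perm.mul_apply, hky,
          hmy, ← hky, pinv_apply]
      have h2 := hinv k hk _ (hMN h1)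
      have e : k * (k⁻¹ * m * k) * k⁻¹ = m := by group
      rwa [e] at h2
    have horb0 : ∀ z ∈ hfin.toFinset,
        dotInt (mclV : GolayPt → ℤ) (z : GolayPt → ℤ) = 0 →
        z ∈ orbFin N hfin.toFinset mclV := by
      intro z hz hz0
      obtain ⟨hzn, hzd⟩ := (hmemS z).1 hz
      obtain ⟨y, hyn, hvy, hyx, hyz⟩ := co2_orth_link mclW mclV z mclW_norm mclV_norm hzn
        mclWV hzd hz0
      obtain ⟨m, hm, hmz⟩ := co2_link mclW y mclV z mclW_norm hyn hvy mclV_norm mclWV hyx
        hzn hzd hyz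
      exact (mem_orbFin N hfin.toFinset mclV z).2
        ⟨hz, m, hNy y ((hmemS y).2 ⟨hyn, hvy⟩) m hm, hmz⟩
    have horb16 : ∀ z ∈ hfin.toFinset,
        dotInt (mclV : GolayPt → ℤ) (z : GolayPt → ℤ) = 16 →
        z ∈ orbFin N hfin.toFinset mclV := by
      intro z hz hz16
      obtain ⟨hzn, hzd⟩ := (hmemS z).1 hz
      obtain ⟨m0, hm0, hm0z⟩ := co2_link mclW mclX1 mclV co2Z mclW_norm mclX1_norm mclW_X1
        mclV_norm mclWV mclX1_V co2Z_norm mclW_Z mclX1_Z
      have hm0N := hNy mclX1 ((hmemS _).2 ⟨mclX1_norm, mclW_X1⟩) m0 hm0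
      obtain ⟨m1, hm1, hm1z⟩ := co2_link mclW mclV co2Z z mclW_norm mclV_norm mclWV co2Z_norm
        mclW_Z mclV_Z hzn hzd hz16
      have hm1N : m1 ∈ N := hMN hm1
      exact (mem_orbFin N hfin.toFinset mclV z).2
        ⟨hz, m1 * m0, N.mul_mem hm1N hm0N, by rw [Perm.mul_apply, hm0z, hm1z]⟩
    obtain ⟨F0, hF0⟩ : ∃ F : Finset leechLattice, ∀ a, a ∈ F ↔ a ∈ hfin.toFinset ∧
        dotInt (mclV : GolayPt → ℤ) (a : GolayPt → ℤ) = 0 :=
      ⟨hfin.toFinset.filter (fun a : leechLattice =>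
        dotInt (mclV : GolayPt → ℤ) (a : GolayPt → ℤ) = 0), fun a => Finset.mem_filter⟩
    obtain ⟨F16, hF16⟩ : ∃ F : Finset leechLattice, ∀ a, a ∈ F ↔ a ∈ hfin.toFinset ∧
        dotInt (mclV : GolayPt → ℤ) (a : GolayPt → ℤ) = 16 :=
      ⟨hfin.toFinset.filter (fun a : leechLattice =>
        dotInt (mclV : GolayPt → ℤ) (a : GolayPt → ℤ) = 16), fun a => Finset.mem_filter⟩
    have hc0 : 22275 ≤ F0.card := by
      have h := co2_count0
      have hF : (Subtype.val '' (↑F0 : Set leechLattice)).ncard = F0.card := by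
        rw [Set.ncard_image_of_injective _ Subtype.val_injective, Set.ncard_coe_finset]
      rw [← hF]
      refine le_trans h (le_of_eq ?_)
      congr 1
      ext x
      constructor
      · rintro ⟨hxL, hxn, hxw, hxv⟩
        exact ⟨⟨x, hxL⟩, Finset.mem_coe.2 ((hF0 _).2 ⟨(hmemS _).2 ⟨hxn, hxw⟩, hxv⟩), rfl⟩
      · rintro ⟨a, ha, rfl⟩
        obtain ⟨ha1, ha2⟩ := (hF0 a).1 (Finset.mem_coe.1 ha)
        obtain ⟨han, had⟩ := (hmemS a).1 ha1
        exact ⟨a.2, han, had, ha2⟩
    have hc16 : 2025 ≤ F16.card := by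
      have h25 := mcl2025_count mclW mclV mclW_norm mclV_norm mclWV
      have hfin25 : (dotSet2 mclW mclV 32 0 16).Finite :=
        Set.finite_of_ncard_ne_zero (by rw [h25]; norm_num)
      have hc25 : hfin25.toFinset.card = 2025 := by
        rw [← Set.ncard_eq_toFinset_card _ hfin25]
        exact h25
      rw [← hc25]
      refine Finset.card_le_card_of_injOn (fun t : leechLattice => mclV - t) ?_ ?_
      · intro t ht
        obtain ⟨tn, tw, tv⟩ := (Set.Finite.mem_toFinset hfin25).1 (Finset.mem_coe.1 ht)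
        show mclV - t ∈ F16
        rw [hF16, hmemS]
        refine ⟨⟨?_, ?_⟩, ?_⟩
        · rw [AddSubgroup.coe_sub, sqNorm_sub, mclV_norm, tn, tv]
          norm_num
        · rw [AddSubgroup.coe_sub, dot_sub_right, mclWV, tw]
          norm_num
        · rw [AddSubgroup.coe_sub, dot_sub_right, dot_self, mclV_norm, tv]
          norm_num
      · intro a _ b _ hab
        exact sub_right_inj.1 hab
    have hVV : dotInt (mclV : GolayPt → ℤ) (mclV : GolayPt → ℤ) = 32 := by
      rw [dot_self]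
      exact mclV_norm
    have hx0 : mclV ∉ F0 ∪ F16 := by
      rw [Finset.mem_union, hF0, hF16]
      rintro (⟨_, h⟩ | ⟨_, h⟩)
      · rw [hVV] at h
        norm_num at h
      · rw [hVV] at h
        norm_num at h
    have hdisj : Disjoint F0 F16 := by
      rw [Finset.disjoint_left]
      intro a ha hb
      have h1 := ((hF0 a).1 ha).2
      have h2 := ((hF16 a).1 hb).2
      rw [h1] at h2
      norm_num at h2
    have hsub : insert mclV (F0 ∪ F16) ⊆ orbFin N hfin.toFinset mclV := by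
      intro a ha
      rw [Finset.mem_insert, Finset.mem_union] at ha
      rcases ha with ha | ha | ha
      · rw [ha]
        exact (mem_orbFin N hfin.toFinset mclV mclV).2 ⟨hxS, 1, N.one_mem, rfl⟩
      · exact horb0 a ((hF0 a).1 ha).1 ((hF0 a).1 ha).2
      · exact horb16 a ((hF16 a).1 ha).1 ((hF16 a).1 ha).2
    have h1 := Finset.card_le_card hsub
    rw [Finset.card_insert_of_notMem hx0, Finset.card_union_of_disjoint hdisj] at h1
    rw [hScard]
    omega
  exact simpleIn_semireg (co3K mclW) hfin.toFinset mclV hxS hSinv htr hstab hbig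
    (fun y hy h => co2_fix y ((hmemS y).1 hy) (fun m hm => h m hm))
    (hsK ((g : Perm leechLattice) stdU) ((g : Perm leechLattice) stdW))
    (permHom.comp (Subgroup.inclusion m23P_le)).range hH1K m23_range_le
    (hs_simpleIn _ _ hp48 hq48 hpqd) m23_range_simple hScard (co2K_card mclW mclW_norm)
    (hsK_card _ _ hp48 hq48 hpqd) m23_range_card

/-- simplicity of the stabiliser of a minimal vector -/
theorem co2_simpleIn (v : leechLattice) (hv : sqNorm (v : GolayPt → ℤ) = 32) :
    SimpleIn (co3K v) := by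
  obtain ⟨_, g, hg⟩ := min_trans (mclW : GolayPt → ℤ) (v : GolayPt → ℤ) mclW.2 mclW_norm
    v.2 hv
  have hg' : (g : Perm leechLattice) mclW = v := Subtype.ext hg
  refine co2_std_simple.conj (g : Perm leechLattice) ?_
  intro k
  simp only [co3K, Subgroup.mem_inf]
  rw [conj_mem_iff Co0 g.2, conj_mem_stab_iff, Perm.smul_def, hg']

end Cfsg.Agent.Helper28
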