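import Cfsg.Agent.Helper28.StabTrans

/-!
Pairs `(u, x)` of a vector of sum of squares 48 and a minimal vector with inner product `-16`
form one orbit of the automorphism group: `u` is the sum of two minimal vectors `u - t`, `t`
with `t` orthogonal to `x`, and the triples `(x, u - t, t)` form one orbit.
-/

set_option autoImplicit false

namespace Cfsg.Agent.Helper28

open Cfsg

theorem census5_set_gen (s : ℤ) (t : ℕ) (hst : (t : ℤ) = s + 140) :
    {w : GolayPt → ℤ | w ∈ leechLattice ∧ sqNorm w = 32 ∧ dotInt (fiveVec none) w = s} =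
    {x : GolayPt → ℤ | (x ∈ leechLattice ∧ ∑ i, x i ^ 2 = ((32 : ℕ) : ℤ) ∧
        ∀ i, x i ∈ Finset.Icc (-5 : ℤ) 5) ∧
      ∑ i, (if i ∈ Cfsg.Agent.Helper3.gSupp 8388608 then tagFive (x i) else tagShift (x i))
        = t} := by
  ext x
  constructor
  · rintro ⟨hx, hn, hd⟩
    have hn' : ∑ i, x i ^ 2 = 32 := hn
    refine ⟨⟨hx, by rw [hn']; norm_num, fun i => ?_⟩, ?_⟩
    · have h := abs_le_five hn' i
      rw [Finset.mem_Icc]
      exact h
    · have h := five_tag x hn'
      omega
  · rintro ⟨⟨hx, hn, _⟩, ht⟩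
    have hn' : ∑ i, x i ^ 2 = 32 := by
      rw [hn]
      norm_num
    refine ⟨hx, hn', ?_⟩
    have h := five_tag x hn'
    rw [ht] at h
    omega

theorem census5_num16 : ∑ kj ∈ ({0, 8, 12, 16, 24} : Finset ℕ) ×ˢ Finset.range 2,
    Cfsg.Agent.Helper3.gCountLt 4096 (fun n => decide (clsOf 8388608 n = kj)) *
      (dCnt (Finset.Icc (-5) 5) tagFive tagShift (Cfsg.Agent.Helper3.gPopc 8388608) 0 32 124
          kj.1 kj.2 +
        dCnt (Finset.Icc (-5) 5) tagFive tagShift (Cfsg.Agent.Helper3.gPopc 8388608) 1 32 124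
          kj.1 kj.2) = 11178 := by
  decide +kernel

/-- a vector of sum of squares 48 has inner product `-16` with 11178 minimal vectors -/
theorem count11178 (u : leechLattice) (hu : sqNorm (u : GolayPt → ℤ) = 48) :
    (dotSet u 32 (-16)).ncard = 11178 := by
  have hrel := trans48 (u : GolayPt → ℤ) (fiveVec none) u.2 hu (fiveVec_mem none)
    (fiveVec_norm none)
  rw [dotSet_ncard_eq, dot_count_rel hrel 32 (-16), census5_set_gen (-16) 124 (by norm_num),
    count_tag (Finset.Icc (-5) 5) (Finset.Subset.refl _) 8388608 tagFive tagShift 32 124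
      (by norm_num) _ census5_T]
  exact census5_num16

theorem dot_five (x : GolayPt → ℤ) : dotInt (fiveVec none) x = 4 * x none + ∑ i, x i := by
  show ∑ i : GolayPt, (if i = none then (5 : ℤ) else 1) * x i = _
  have e : ∀ i : GolayPt, (if i = none then (5 : ℤ) else 1) * x i =
      x i + (if i = none then 4 * x i else 0) := by
    intro i
    split_ifs <;> ring
  rw [Finset.sum_congr rfl (fun i _ => e i), Finset.sum_add_distrib,
    Finset.sum_ite_eq' Finset.univ none (fun i => 4 * x i), if_pos (Finset.mem_univ _)]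
  ring

theorem ex_t_pair (x : GolayPt → ℤ) (d : GolayPt) (hd : d ≠ none) (h : x d = -x none) :
    ∃ t ∈ leechLattice, sqNorm t = 32 ∧ dotInt (fiveVec none) t = 24 ∧ dotInt x t = 0 := by
  obtain ⟨hm, hn⟩ := sgn4_min none d (Ne.symm hd) ∅ (Finset.empty_subset _)
  have v1 : sgnVec 4 ({none, d} : Finset GolayPt) ∅ none = 4 := by
    unfold sgnVec
    simp
  have v2 : sgnVec 4 ({none, d} : Finset GolayPt) ∅ d = 4 := by
    unfold sgnVec
    simp
  refine ⟨_, hm, hn, ?_, ?_⟩
  · rw [dot_sgnVec_pair _ 4 none d (Ne.symm hd) ∅ (Finset.empty_subset _), v1, v2]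
    show (if (none : GolayPt) = none then (5 : ℤ) else 1) * 4 +
      (if d = none then (5 : ℤ) else 1) * 4 = 24
    rw [if_pos rfl, if_neg hd]
    norm_num
  · rw [dot_sgnVec_pair _ 4 none d (Ne.symm hd) ∅ (Finset.empty_subset _), v1, v2, h]
    ring

theorem exists_outside (U : Finset GolayPt) (hcard : U.card ≤ 8) :
    ∃ d : GolayPt, d ≠ none ∧ d ∉ U := by
  by_contra hall
  push Not at hall
  have hsub : (Finset.univ : Finset GolayPt) ⊆ insert none U := by
    intro d _
    by_cases hd : d = none
    · rw [hd]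
      exact Finset.mem_insert_self _ _
    · exact Finset.mem_insert_of_mem (hall d hd)
  have h1 := Finset.card_le_card hsub
  rw [Finset.card_univ, Cfsg.Agent.Helper3.card_golayPt] at h1
  have h2 := Finset.card_insert_le none U
  omega

/-- the even shapes always have a coordinate opposite to the one at the special point -/
theorem even_contra (a : ℤ) (U V : Finset GolayPt) (hVU : V ⊆ U) (hcard : U.card ≤ 8)
    (hex : ∀ d : GolayPt, d ≠ none → sgnVec a U V d ≠ -sgnVec a U V none)
    (hd : 4 * sgnVec a U V none + ∑ i, sgnVec a U V i = -16)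
    (hprod : ∀ s : ℤ, (s = a ∨ s = -a) → s * (4 + (U.card : ℤ)) ≠ -16) : False := by
  by_cases hn : none ∈ U
  · have hs : sgnVec a U V none = a ∨ sgnVec a U V none = -a := by
      unfold sgnVec
      by_cases hnV : none ∈ V
      · rw [if_pos hnV]
        exact Or.inr rfl
      · rw [if_neg hnV, if_pos hn]
        exact Or.inl rfl
    have hall : ∀ i, sgnVec a U V i = sgnVec a U V none * (if i ∈ U then 1 else 0) := by
      intro i
      by_cases hi : i ∈ U
      · rw [if_pos hi, mul_one]
        by_cases hin : i = none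
        · rw [hin]
        · have h1 := hex i hin
          have h2 : sgnVec a U V i = a ∨ sgnVec a U V i = -a := by
            unfold sgnVec
            by_cases hiV : i ∈ V
            · rw [if_pos hiV]
              exact Or.inr rfl
            · rw [if_neg hiV, if_pos hi]
              exact Or.inl rfl
          rcases hs with hs | hs <;> rcases h2 with h2 | h2
          · rw [h2, hs]
          · rw [h2, hs] at h1
            exact absurd rfl h1
          · rw [h2, hs, neg_neg] at h1
            exact absurd rfl h1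
          · rw [h2, hs]
      · rw [if_neg hi, mul_zero]
        unfold sgnVec
        rw [if_neg (fun h => hi (hVU h)), if_neg hi]
    have hsum : ∑ i, sgnVec a U V i = sgnVec a U V none * (U.card : ℤ) := by
      rw [Finset.sum_congr rfl (fun i _ => hall i), ← Finset.mul_sum, sum_ind_mem]
    rw [hsum] at hd
    apply hprod _ hs
    rw [← hd]
    ring
  · have h0 : sgnVec a U V none = 0 := by
      unfold sgnVec
      rw [if_neg (fun h => hn (hVU h)), if_neg hn]
    obtain ⟨d, hd1, hd2⟩ := exists_outside U hcard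
    have hd0 : sgnVec a U V d = 0 := by
      unfold sgnVec
      rw [if_neg (fun h => hd2 (hVU h)), if_neg hd2]
    apply hex d hd1
    rw [hd0, h0, neg_zero]

theorem oddMin_zero (p i : GolayPt) : oddMin p (0 : GolayPt → ZMod 2) i = if i = p then -3 else 1 := by
  unfold oddMin
  simp

theorem dot_odd0 (x : GolayPt → ℤ) (p : GolayPt) :
    dotInt x (oddMin p (0 : GolayPt → ZMod 2)) = ∑ i, x i - 4 * x p := by
  unfold dotInt
  have e : ∀ i : GolayPt, x i * oddMin p (0 : GolayPt → ZMod 2) i =
      x i + (if i = p then -4 * x i else 0) := by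
    intro i
    rw [oddMin_zero]
    split_ifs <;> ring
  rw [Finset.sum_congr rfl (fun i _ => e i), Finset.sum_add_distrib,
    Finset.sum_ite_eq' Finset.univ p (fun i => -4 * x i), if_pos (Finset.mem_univ _)]
  ring

theorem sum_const_golay (s : ℤ) : ∑ _i : GolayPt, s = 24 * s := by
  rw [Finset.sum_const, Finset.card_univ, Cfsg.Agent.Helper3.card_golayPt]
  simp

/-- for the standard vector of sum of squares 48 and a minimal vector of inner product `-16`
with it, there is a minimal vector `t` with `u - t` minimal and `t` orthogonal to `x` -/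
theorem ex_t_std (x : GolayPt → ℤ) (hx : x ∈ leechLattice) (hn : sqNorm x = 32)
    (hd : dotInt (fiveVec none) x = -16) :
    ∃ t ∈ leechLattice, sqNorm t = 32 ∧ dotInt (fiveVec none) t = 24 ∧ dotInt x t = 0 := by
  by_cases hex : ∃ d : GolayPt, d ≠ none ∧ x d = -x none
  · obtain ⟨d, hd1, hd2⟩ := hex
    exact ex_t_pair x d hd1 hd2
  push Not at hex
  rw [dot_five] at hd
  rcases classify golayCode golayLike one_mem_golay (mem_leechSetOf.1 hx) hn with
    ⟨U, V, hVU, hU, rfl⟩ | ⟨c, hc, hc8, V, hV, hVe, rfl⟩ | ⟨p, c, hc, rfl⟩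
  · exfalso
    refine even_contra 4 U V hVU (by rw [hU]; norm_num) hex hd ?_
    rw [hU]
    rintro s (rfl | rfl) <;> norm_num
  · exfalso
    have hU : (support₂ c).card = 8 := by rw [← hammingNorm_eq_card, hc8]
    refine even_contra 2 (support₂ c) V hV (by rw [hU]) hex hd ?_
    rw [hU]
    rintro s (rfl | rfl) <;> norm_num
  · by_cases hp : p = none
    · subst hp
      have hval : ∀ i : GolayPt, i ≠ none →
          (oddMin none c i = 1 ∨ oddMin none c i = -1) := by
        intro i hi
        unfold oddMin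
        rw [if_neg hi]
        split_ifs
        · exact Or.inl rfl
        · exact Or.inr rfl
      have hnv : oddMin none c none = -3 ∨ oddMin none c none = 3 := by
        unfold oddMin
        rw [if_pos rfl]
        split_ifs
        · exact Or.inl rfl
        · exact Or.inr rfl
      have hge : ∀ i : GolayPt, -1 ≤ oddMin none c i ∨ i = none := by
        intro i
        by_cases hi : i = none
        · exact Or.inr hi
        · rcases hval i hi with h | h <;> rw [h] <;> norm_num
      rcases hnv with h3 | h3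
      · -- the coordinate at the special point is -3
        rw [h3] at hd
        have hsum : ∑ i, oddMin none c i = -4 := by linarith
        have hexc : ∃ c' : GolayPt, c' ≠ none ∧ oddMin none c c' = -1 := by
          by_contra hno
          push Not at hno
          have hall : ∀ i : GolayPt, oddMin none c i = if i = none then -3 else 1 := by
            intro i
            by_cases hi : i = none
            · rw [if_pos hi, hi, h3]
            · rw [if_neg hi]
              rcases hval i hi with h | h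
              · exact h
              · exact absurd h (hno i hi)
          have e20 : ∑ i : GolayPt, (if i = none then (-3 : ℤ) else 1) = 20 := by
            decide +kernel
          rw [Finset.sum_congr rfl (fun i _ => hall i), e20] at hsum
          norm_num at hsum
        obtain ⟨c', hc1, hc2⟩ := hexc
        refine ⟨oddMin c' 0, mem_of_LP (LP_oddMin golayCode golayLike golayCode.zero_mem c'),
          oddMin_sq Cfsg.Agent.Helper3.card_golayPt c' 0, ?_, ?_⟩
        · rw [dot_five, oddMin_zero, if_neg (Ne.symm hc1),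
            oddMin_sum Cfsg.Agent.Helper3.card_golayPt]
          have h0 : hammingNorm (0 : GolayPt → ZMod 2) = 0 := by simp
          rw [h0]
          simp
        · rw [dot_odd0, hsum, hc2]
          norm_num
      · -- the coordinate at the special point is 3: impossible
        exfalso
        rw [h3] at hd
        have hsum : ∑ i, oddMin none c i = -28 := by linarith
        have hlow : ∑ _i : GolayPt, (-1 : ℤ) ≤ ∑ i, oddMin none c i := by
          apply Finset.sum_le_sum
          intro i _
          rcases hge i with h | h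
          · exact h
          · rw [h, h3]
            norm_num
        rw [sum_const_golay, hsum] at hlow
        norm_num at hlow
    · exfalso
      have hs : oddMin p c none = 1 ∨ oddMin p c none = -1 := by
        unfold oddMin
        rw [if_neg (fun h => hp h.symm)]
        split_ifs
        · exact Or.inl rfl
        · exact Or.inr rfl
      have hpv : oddMin p c p = -3 ∨ oddMin p c p = 3 := by
        unfold oddMin
        rw [if_pos rfl]
        split_ifs
        · exact Or.inl rfl
        · exact Or.inr rfl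
      have hall : ∀ i : GolayPt, oddMin p c i =
          oddMin p c none + (if i = p then oddMin p c p - oddMin p c none else 0) := by
        intro i
        by_cases hi : i = p
        · rw [if_pos hi, hi]
          ring
        · rw [if_neg hi, add_zero]
          by_cases hin : i = none
          · rw [hin]
          · have h1 := hex i hin
            have h2 : oddMin p c i = 1 ∨ oddMin p c i = -1 := by
              unfold oddMin
              rw [if_neg hi]
              split_ifs
              · exact Or.inl rfl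
              · exact Or.inr rfl
            rcases hs with hs | hs <;> rcases h2 with h2 | h2
            · rw [h2, hs]
            · rw [h2, hs] at h1
              exact absurd rfl h1
            · rw [h2, hs, neg_neg] at h1
              exact absurd rfl h1
            · rw [h2, hs]
      have hsum : ∑ i, oddMin p c i = 24 * oddMin p c none + (oddMin p c p - oddMin p c none) := by
        rw [Finset.sum_congr rfl (fun i _ => hall i), Finset.sum_add_distrib, sum_const_golay,
          Finset.sum_ite_eq' Finset.univ p (fun _ => oddMin p c p - oddMin p c none),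
          if_pos (Finset.mem_univ _)]
      rw [hsum] at hd
      rcases hs with hs | hs <;> rcases hpv with hpv | hpv <;> rw [hs, hpv] at hd <;>
        norm_num at hd

/-- the general form of `ex_t_std` -/
theorem ex_t (u x : leechLattice) (hu : sqNorm (u : GolayPt → ℤ) = 48)
    (hx : sqNorm (x : GolayPt → ℤ) = 32)
    (hd : dotInt (u : GolayPt → ℤ) (x : GolayPt → ℤ) = -16) :
    ∃ t : leechLattice, sqNorm (t : GolayPt → ℤ) = 32 ∧
      dotInt (u : GolayPt → ℤ) (t : GolayPt → ℤ) = 24 ∧
      dotInt (x : GolayPt → ℤ) (t : GolayPt → ℤ) = 0 := by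
  obtain ⟨hum, g, e⟩ := trans48 (u : GolayPt → ℤ) (fiveVec none) u.2 hu (fiveVec_mem none)
    (fiveVec_norm none)
  have e' : (((g : Equiv.Perm leechLattice) u : leechLattice) : GolayPt → ℤ) = fiveVec none := e
  have hdx : dotInt (fiveVec none)
      (((g : Equiv.Perm leechLattice) x : leechLattice) : GolayPt → ℤ) = -16 := by
    rw [← e']
    exact (co0_dot (g : Equiv.Perm leechLattice) g.2 u x).trans hd
  obtain ⟨t, ht, htn, ht1, ht2⟩ := ex_t_std _ ((g : Equiv.Perm leechLattice) x).2
    ((g.2.2 x).trans hx) hdx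
  have e2 : (g : Equiv.Perm leechLattice) (((g⁻¹ : Co0) : Equiv.Perm leechLattice) ⟨t, ht⟩) =
      ⟨t, ht⟩ := Equiv.apply_symm_apply (g : Equiv.Perm leechLattice) ⟨t, ht⟩
  refine ⟨((g⁻¹ : Co0) : Equiv.Perm leechLattice) ⟨t, ht⟩, ?_, ?_, ?_⟩
  · exact ((g⁻¹ : Co0).2.2 ⟨t, ht⟩).trans htn
  · have h := co0_dot (g : Equiv.Perm leechLattice) g.2 u
      (((g⁻¹ : Co0) : Equiv.Perm leechLattice) ⟨t, ht⟩)
    rw [e2, e'] at h
    rw [← h]
    exact ht1
  · have h := co0_dot (g : Equiv.Perm leechLattice) g.2 x
      (((g⁻¹ : Co0) : Equiv.Perm leechLattice) ⟨t, ht⟩)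
    rw [e2] at h
    rw [← h]
    exact ht2

/-- two minimal vectors with coordinate `-3` at the first base point and equal coordinates at
the second differ by a sign change that fixes the base points -/
theorem odd_move2 (y y' : leechLattice) (hn : sqNorm (y : GolayPt → ℤ) = 32)
    (hn' : sqNorm (y' : GolayPt → ℤ) = 32)
    (h1 : (y : GolayPt → ℤ) none = -3) (h1' : (y' : GolayPt → ℤ) none = -3)
    (h2 : (y : GolayPt → ℤ) (some 0) = (y' : GolayPt → ℤ) (some 0)) :
    ∃ n : Co0, FixBase n ∧ (n : Equiv.Perm leechLattice) y = y' := by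
  obtain ⟨c₁, hc₁, hz₁, e₁⟩ := odd_std _ y.2 hn h1
  obtain ⟨c₂, hc₂, hz₂, e₂⟩ := odd_std _ y'.2 hn' h1'
  have hsum : c₁ (some 0) + c₂ (some 0) = 0 := by
    rw [e₁, e₂] at h2
    unfold oddMin at h2
    have hne : (some 0 : GolayPt) ≠ none := by decide
    rw [if_neg hne, if_neg hne] at h2
    by_cases k1 : c₁ (some 0) = 0 <;> by_cases k2 : c₂ (some 0) = 0
    · rw [k1, k2, add_zero]
    · rw [if_pos k1, if_neg k2] at h2
      norm_num at h2
    · rw [if_neg k1, if_pos k2] at h2
      norm_num at h2
    · rw [zmod2_eq_one_of_ne _ k1, zmod2_eq_one_of_ne _ k2]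
      decide
  have hS : support₂ (c₁ + c₂) ∈ supports (golayCode : Set (GolayPt → ZMod 2)) :=
    ⟨c₁ + c₂, golayCode.add_mem hc₁ hc₂, rfl⟩
  refine ⟨co0Sign _ hS, fixBase_sign _ hS ?_ ?_, ?_⟩
  · rw [mem_support₂, Pi.add_apply, hz₁, hz₂]
    simp
  · rw [mem_support₂, Pi.add_apply, hsum]
    simp
  · apply Subtype.ext
    funext i
    rw [co0Sign_apply, e₁, e₂]
    have hmem : i ∈ support₂ (c₁ + c₂) ↔ c₁ i + c₂ i ≠ 0 := by
      rw [mem_support₂, Pi.add_apply]
    by_cases hi : i = none
    · have hnot : i ∉ support₂ (c₁ + c₂) := by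
        rw [hmem, hi, hz₁, hz₂]
        simp
      rw [if_neg hnot]
      unfold oddMin
      rw [if_pos hi, if_pos hi, hz₁, hz₂]
    · unfold oddMin
      rw [if_neg hi, if_neg hi]
      by_cases k1 : c₁ i = 0 <;> by_cases k2 : c₂ i = 0
      · have hnot : i ∉ support₂ (c₁ + c₂) := by
          rw [hmem, k1, k2]
          simp
        rw [if_neg hnot, if_pos k1, if_pos k2]
      · have hin : i ∈ support₂ (c₁ + c₂) := by
          rw [hmem, k1, zero_add]
          exact k2
        rw [if_pos hin, if_pos k1, if_neg k2]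
      · have hin : i ∈ support₂ (c₁ + c₂) := by
          rw [hmem, k2, add_zero]
          exact k1
        rw [if_pos hin, if_neg k1, if_pos k2]
        norm_num
      · have hnot : i ∉ support₂ (c₁ + c₂) := by
          rw [hmem, zmod2_eq_one_of_ne _ k1, zmod2_eq_one_of_ne _ k2]
          decide
        rw [if_neg hnot, if_neg k1, if_neg k2]

theorem supp_base_one (y : leechLattice)
    (hy : (y : GolayPt → ℤ) = sgnVec 4 {none, some 0} ∅) :
    ∀ i, i ≠ none → i ≠ some 0 → (y : GolayPt → ℤ) i = 0 := by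
  intro i hi1 hi2
  rw [hy]
  unfold sgnVec
  simp [hi1, hi2]

theorem supp_base_two (y : leechLattice)
    (hy : (y : GolayPt → ℤ) = sgnVec 4 {none, some 0} {some 0}) :
    ∀ i, i ≠ none → i ≠ some 0 → (y : GolayPt → ℤ) i = 0 := by
  intro i hi1 hi2
  rw [hy]
  unfold sgnVec
  simp [hi1, hi2]

/-- triples of minimal vectors `(x, a, t)` with inner products `x·t = 0`, `x·a = -16`,
`a·t = -8` form one orbit -/
theorem triple_trans (x a t x' a' t' : leechLattice)
    (hx : sqNorm (x : GolayPt → ℤ) = 32) (ha : sqNorm (a : GolayPt → ℤ) = 32)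
    (ht : sqNorm (t : GolayPt → ℤ) = 32) (hx' : sqNorm (x' : GolayPt → ℤ) = 32)
    (ha' : sqNorm (a' : GolayPt → ℤ) = 32) (ht' : sqNorm (t' : GolayPt → ℤ) = 32)
    (h1 : dotInt (x : GolayPt → ℤ) (t : GolayPt → ℤ) = 0)
    (h2 : dotInt (x : GolayPt → ℤ) (a : GolayPt → ℤ) = -16)
    (h3 : dotInt (a : GolayPt → ℤ) (t : GolayPt → ℤ) = -8)
    (h1' : dotInt (x' : GolayPt → ℤ) (t' : GolayPt → ℤ) = 0)
    (h2' : dotInt (x' : GolayPt → ℤ) (a' : GolayPt → ℤ) = -16)
    (h3' : dotInt (a' : GolayPt → ℤ) (t' : GolayPt → ℤ) = -8) :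
    ∃ g : Co0, g • x = x' ∧ g • a = a' ∧ g • t = t' := by
  obtain ⟨g₁, p1, p2⟩ := std_orth x t hx ht h1
  obtain ⟨g₂, q1, q2⟩ := std_orth x' t' hx' ht' h1'
  obtain ⟨c1, c2⟩ := std_coords x t a g₁ p1 p2
  obtain ⟨d1, d2⟩ := std_coords x' t' a' g₂ q1 q2
  rw [h2] at c1
  rw [h3] at c2
  rw [h2'] at d1
  rw [h3'] at d2
  obtain ⟨n, hn1, hn2⟩ := odd_move2 ((g₁ : Equiv.Perm leechLattice) a)
    ((g₂ : Equiv.Perm leechLattice) a') ((g₁.2.2 a).trans ha) ((g₂.2.2 a').trans ha')
    (by omega) (by omega) (by omega)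
  refine ⟨g₂⁻¹ * n * g₁, ?_, ?_, ?_⟩
  · show ((g₂⁻¹ : Co0) : Equiv.Perm leechLattice) ((n : Equiv.Perm leechLattice)
      ((g₁ : Equiv.Perm leechLattice) x)) = x'
    have e : (n : Equiv.Perm leechLattice) ((g₁ : Equiv.Perm leechLattice) x) =
        (g₂ : Equiv.Perm leechLattice) x' := by
      rw [hn1 _ (supp_base_one _ p1)]
      exact Subtype.ext (p1.trans q1.symm)
    rw [e]
    exact Equiv.symm_apply_apply (g₂ : Equiv.Perm leechLattice) x'
  · show ((g₂⁻¹ : Co0) : Equiv.Perm leechLattice) ((n : Equiv.Perm leechLattice)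
      ((g₁ : Equiv.Perm leechLattice) a)) = a'
    rw [hn2]
    exact Equiv.symm_apply_apply (g₂ : Equiv.Perm leechLattice) a'
  · show ((g₂⁻¹ : Co0) : Equiv.Perm leechLattice) ((n : Equiv.Perm leechLattice)
      ((g₁ : Equiv.Perm leechLattice) t)) = t'
    have e : (n : Equiv.Perm leechLattice) ((g₁ : Equiv.Perm leechLattice) t) =
        (g₂ : Equiv.Perm leechLattice) t' := by
      rw [hn1 _ (supp_base_two _ p2)]
      exact Subtype.ext (p2.trans q2.symm)
    rw [e]
    exact Equiv.symm_apply_apply (g₂ : Equiv.Perm leechLattice) t'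

/-- the data of the triple `(y, u - s, s)` -/
theorem triple_data (u y s : leechLattice) (hu : sqNorm (u : GolayPt → ℤ) = 48)
    (hs : sqNorm (s : GolayPt → ℤ) = 32)
    (h24 : dotInt (u : GolayPt → ℤ) (s : GolayPt → ℤ) = 24)
    (h16 : dotInt (u : GolayPt → ℤ) (y : GolayPt → ℤ) = -16)
    (h0 : dotInt (y : GolayPt → ℤ) (s : GolayPt → ℤ) = 0) :
    sqNorm ((u - s : leechLattice) : GolayPt → ℤ) = 32 ∧
      dotInt (y : GolayPt → ℤ) ((u - s : leechLattice) : GolayPt → ℤ) = -16 ∧
      dotInt ((u - s : leechLattice) : GolayPt → ℤ) (s : GolayPt → ℤ) = -8 := by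
  refine ⟨?_, ?_, ?_⟩
  · rw [AddSubgroup.coe_sub, sqNorm_sub, hu, hs, h24]
    norm_num
  · rw [AddSubgroup.coe_sub, sub_eq_add_neg, dot_add_right, dot_neg_right,
      dot_comm' (y : GolayPt → ℤ) (u : GolayPt → ℤ), h16, h0]
    norm_num
  · rw [AddSubgroup.coe_sub, sub_eq_add_neg, dot_add_left, dot_neg_left, h24, dot_self, hs]
    norm_num

/-- the stabiliser of a vector of sum of squares 48 is transitive on the minimal vectors of
inner product `-16` with it -/
theorem co3_trans16 (u x x' : leechLattice) (hu : sqNorm (u : GolayPt → ℤ) = 48)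
    (hx : sqNorm (x : GolayPt → ℤ) = 32) (hx' : sqNorm (x' : GolayPt → ℤ) = 32)
    (hd : dotInt (u : GolayPt → ℤ) (x : GolayPt → ℤ) = -16)
    (hd' : dotInt (u : GolayPt → ℤ) (x' : GolayPt → ℤ) = -16) :
    ∃ g : Co0, g • u = u ∧ g • x = x' := by
  obtain ⟨t, ht, ht1, ht2⟩ := ex_t u x hu hx hd
  obtain ⟨t', ht', ht1', ht2'⟩ := ex_t u x' hu hx' hd'
  obtain ⟨k1, k2, k3⟩ := triple_data u x t hu ht ht1 hd ht2
  obtain ⟨k1', k2', k3'⟩ := triple_data u x' t' hu ht' ht1' hd' ht2'
  obtain ⟨g, e1, e2, e3⟩ := triple_trans x (u - t) t x' (u - t') t' hx k1 ht hx' k1' ht'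
    ht2 k2 k3 ht2' k2' k3'
  refine ⟨g, ?_, e1⟩
  have eu : u = (u - t) + t := by abel
  have e2' : (g : Equiv.Perm leechLattice) (u - t) = u - t' := e2
  have e3' : (g : Equiv.Perm leechLattice) t = t' := e3
  show (g : Equiv.Perm leechLattice) u = u
  conv_lhs => rw [eu]
  rw [g.2.1, e2', e3']
  abel

/-- pairs `(u, x)` of a vector of sum of squares 48 and a minimal vector of inner product `-16`
form one orbit -/
theorem pair_trans16 (u x u' x' : leechLattice) (hu : sqNorm (u : GolayPt → ℤ) = 48)
    (hu' : sqNorm (u' : GolayPt → ℤ) = 48)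
    (hx : sqNorm (x : GolayPt → ℤ) = 32) (hx' : sqNorm (x' : GolayPt → ℤ) = 32)
    (hd : dotInt (u : GolayPt → ℤ) (x : GolayPt → ℤ) = -16)
    (hd' : dotInt (u' : GolayPt → ℤ) (x' : GolayPt → ℤ) = -16) :
    ∃ g : Co0, g • u = u' ∧ g • x = x' := by
  obtain ⟨hum, g₀, e0⟩ := trans48 (u : GolayPt → ℤ) (u' : GolayPt → ℤ) u.2 hu u'.2 hu'
  have e0' : (g₀ : Equiv.Perm leechLattice) u = u' := Subtype.ext e0
  have hd2 : dotInt (u' : GolayPt → ℤ)
      (((g₀ : Equiv.Perm leechLattice) x : leechLattice) : GolayPt → ℤ) = -16 := by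
    rw [← e0']
    exact (co0_dot (g₀ : Equiv.Perm leechLattice) g₀.2 u x).trans hd
  obtain ⟨h, h1, h2⟩ := co3_trans16 u' ((g₀ : Equiv.Perm leechLattice) x) x' hu'
    ((g₀.2.2 x).trans hx) hx' hd2 hd'
  refine ⟨h * g₀, ?_, ?_⟩
  · show (h : Equiv.Perm leechLattice) ((g₀ : Equiv.Perm leechLattice) u) = u'
    rw [e0']
    exact h1
  · exact h2

/-- two vectors of sum of squares 48 with inner product `-32` are exchanged by an
automorphism -/
theorem hs_swap (v w : leechLattice) (hv : sqNorm (v : GolayPt → ℤ) = 48)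
    (hw : sqNorm (w : GolayPt → ℤ) = 48)
    (hvw : dotInt (v : GolayPt → ℤ) (w : GolayPt → ℤ) = -32) :
    ∃ g : Co0, g • v = w ∧ g • w = v := by
  have hxn : sqNorm ((-(v + w) : leechLattice) : GolayPt → ℤ) = 32 := by
    rw [AddSubgroup.coe_neg, sqNorm_neg', AddSubgroup.coe_add, sqNorm_add, hv, hw, hvw]
    norm_num
  have h1 : dotInt (v : GolayPt → ℤ) ((-(v + w) : leechLattice) : GolayPt → ℤ) = -16 := by
    rw [AddSubgroup.coe_neg, dot_neg_right, AddSubgroup.coe_add, dot_add_right, dot_self, hv,
      hvw]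
    norm_num
  have h2 : dotInt (w : GolayPt → ℤ) ((-(v + w) : leechLattice) : GolayPt → ℤ) = -16 := by
    rw [AddSubgroup.coe_neg, dot_neg_right, AddSubgroup.coe_add, dot_add_right, dot_self, hw,
      dot_comm' (w : GolayPt → ℤ) (v : GolayPt → ℤ), hvw]
    norm_num
  obtain ⟨g, e1, e2⟩ := pair_trans16 v (-(v + w)) w (-(v + w)) hv hw hxn hxn h1 h2
  refine ⟨g, e1, ?_⟩
  have e1' : (g : Equiv.Perm leechLattice) v = w := e1
  have e2' : (g : Equiv.Perm leechLattice) (-(v + w)) = -(v + w) := e2
  rw [co0_map_neg, g.2.1, e1'] at e2'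
  have e3 : w + (g : Equiv.Perm leechLattice) w = v + w := neg_injective e2'
  show (g : Equiv.Perm leechLattice) w = v
  have e4 : w + (g : Equiv.Perm leechLattice) w = w + v := by
    rw [e3]
    abel
  exact add_left_cancel e4

end Cfsg.Agent.Helper28
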