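import Cfsg.Agent.Helper28.GolayConc
import Cfsg.Agent.Helper3.GMod.Subsp
import Cfsg.Agent.Helper3.Golay.OctStab
import Cfsg.Agent.Helper3.Golay.M12Thms2

/-!
The stabiliser of a code word in the permutation group of the length-24 code has no fixed
point on the non-trivial cosets of the code: for a word `w` outside the code there is a
permutation fixing the given code word and moving `w` to a different coset.
-/

set_option autoImplicit false

namespace Cfsg.Agent.Helper28

open Cfsg
open scoped Pointwise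

/-- the permutation action on words -/
def pact (σ : Equiv.Perm GolayPt) (w : GolayPt → ZMod 2) : GolayPt → ZMod 2 :=
  fun p => w (σ.symm p)

theorem support₂_pact (σ : Equiv.Perm GolayPt) (w : GolayPt → ZMod 2) :
    support₂ (pact σ w) = σ • support₂ w := by
  ext p
  have e : σ.symm p ∈ support₂ w ↔ p ∈ σ • support₂ w :=
    Finset.inv_smul_mem_iff (a := σ) (b := p) (s := support₂ w)
  rw [← e]
  simp only [mem_support₂]
  exact Iff.rfl

theorem pact_mem (σ : Equiv.Perm GolayPt) (hσ : σ ∈ M24) (c : GolayPt → ZMod 2)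
    (hc : c ∈ golayCode) : pact σ c ∈ golayCode := by
  rw [Cfsg.Agent.Helper3.mem_golay_iff_support, support₂_pact]
  exact Cfsg.Agent.Helper3.smul_mem_supports hσ
    ((Cfsg.Agent.Helper3.mem_golay_iff_support c).1 hc)

theorem pact_eq_of_smul (σ : Equiv.Perm GolayPt) (u : GolayPt → ZMod 2)
    (h : σ • support₂ u = support₂ u) : pact σ u = u := by
  apply Cfsg.Agent.Helper3.support₂_inj
  rw [support₂_pact, h]

theorem move_not_mem (σ : Equiv.Perm GolayPt) (v : GolayPt → ZMod 2) (h4 : hammingNorm v ≤ 4)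
    (hne : σ • support₂ v ≠ support₂ v)
    (hint : hammingNorm v = 4 → (σ • support₂ v ∩ support₂ v).Nonempty) :
    pact σ v - v ∉ golayCode := by
  intro hmem
  rw [sub_eq_add₂] at hmem
  have hw := wt_add (pact σ v) v
  have hc : hammingNorm (pact σ v) = hammingNorm v := by
    rw [hammingNorm_eq_card, hammingNorm_eq_card, support₂_pact, Finset.card_smul_finset]
  rw [support₂_pact, hc] at hw
  rcases golayLike.hwt _ hmem with h | h | h | h | h
  · apply hne
    have h0 : pact σ v + v = 0 := hammingNorm_eq_zero.1 h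
    have h1 : support₂ (pact σ v + v) = ∅ := by
      rw [h0]
      ext i
      simp [mem_support₂]
    rw [support₂_add, support₂_pact] at h1
    exact symmDiff_eq_bot.1 h1
  · have h5 : hammingNorm v = 4 := by omega
    have h6 := hint h5
    have h7 : 0 < (σ • support₂ v ∩ support₂ v).card := Finset.card_pos.2 h6
    omega
  · omega
  · omega
  · omega

theorem move_transfer (σ : Equiv.Perm GolayPt) (hσ : σ ∈ M24) (v w : GolayPt → ZMod 2)
    (hvw : v - w ∈ golayCode) (h : pact σ v - v ∉ golayCode) : pact σ w - w ∉ golayCode := by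
  intro hmem
  apply h
  have h1 : pact σ (v - w) ∈ golayCode := pact_mem σ hσ _ hvw
  have e1 : pact σ (v - w) = pact σ v - pact σ w := rfl
  have e : pact σ v - v = (pact σ w - w) + (pact σ (v - w) - (v - w)) := by
    rw [e1]
    abel
  rw [e]
  exact golayCode.add_mem hmem (golayCode.sub_mem h1 hvw)

theorem exists_leader_fn (w : GolayPt → ZMod 2) :
    ∃ v, v - w ∈ golayCode ∧ hammingNorm v ≤ 4 := by
  rcases fib_structure golayCode golayLike.hcard golayLike.hdim golayLike.hmin w with
    ⟨u, hu, -⟩ | ⟨h6, -⟩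
  · have hmem : u ∈ fib golayCode w := by
      rw [hu]
      exact Finset.mem_singleton_self u
    exact ⟨u, (mem_fib golayCode w u).1 hmem⟩
  · have hne : (fib golayCode w).Nonempty := Finset.card_pos.1 (by omega)
    obtain ⟨u, hu⟩ := hne
    exact ⟨u, (mem_fib golayCode w u).1 hu⟩

theorem exists_tetrad (v : GolayPt → ZMod 2) (hv : hammingNorm v = 4) (X : Finset GolayPt)
    (hX : 7 ≤ X.card) :
    ∃ t : GolayPt → ZMod 2, t - v ∈ golayCode ∧ hammingNorm t = 4 ∧
      2 ≤ (support₂ t ∩ X).card := by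
  have hvm : v ∈ fib golayCode v := by
    have h := self_mem_fib golayCode v
    exact h (le_of_eq hv)
  have hcov := sextet_cover golayCode golayLike.hcard golayLike.hdim golayLike.hmin v
  have h46 : (fib golayCode v).card = 6 ∧ ∀ t ∈ fib golayCode v, hammingNorm t = 4 := by
    rcases fib_structure golayCode golayLike.hcard golayLike.hdim golayLike.hmin v with
      ⟨u, hu, hu3⟩ | ⟨h6, h⟩
    · exfalso
      rw [hu, Finset.mem_singleton] at hvm
      rw [hvm] at hv
      omega
    · exact ⟨h6, fun t ht => (h t ht).1⟩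
  obtain ⟨h6, h4⟩ := h46
  by_contra hcon
  push Not at hcon
  have hsub : X ⊆ (fib golayCode v).biUnion (fun t => support₂ t ∩ X) := by
    intro x hx
    obtain ⟨t, ht, hxt⟩ := hcov hv x
    exact Finset.mem_biUnion.2 ⟨t, ht, Finset.mem_inter.2 ⟨hxt, hx⟩⟩
  have h1 := Finset.card_le_card hsub
  have h2 : ((fib golayCode v).biUnion (fun t => support₂ t ∩ X)).card ≤
      ∑ t ∈ fib golayCode v, (support₂ t ∩ X).card := Finset.card_biUnion_le
  have h3 : ∑ t ∈ fib golayCode v, (support₂ t ∩ X).card ≤ ∑ t ∈ fib golayCode v, 1 := by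
    apply Finset.sum_le_sum
    intro t ht
    have h5 := hcon t ((mem_fib golayCode v t).1 ht).1 (h4 t ht)
    omega
  rw [Finset.sum_const, h6, smul_eq_mul] at h3
  omega

/-- The main step: enough transitivity of the stabiliser of `U` moves every non-trivial coset. -/
theorem exists_move_coset (U X : Finset GolayPt) (hX : 7 ≤ X.card)
    (h2 : ∀ a ∈ X, ∀ b ∈ X, ∀ c ∈ X, a ≠ b → a ≠ c →
      ∃ σ ∈ M24, σ • U = U ∧ σ a = a ∧ σ b = c)
    (h1 : ∀ p, p ∉ X → ∃ Y : Finset GolayPt, 4 ≤ Y.card ∧
      ∀ q ∈ Y, ∃ σ ∈ M24, σ • U = U ∧ σ p = q)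
    (w : GolayPt → ZMod 2) (hw : w ∉ golayCode) :
    ∃ σ ∈ M24, σ • U = U ∧ pact σ w - w ∉ golayCode := by
  obtain ⟨v, hvw, hv4⟩ := exists_leader_fn w
  have hv0 : v ≠ 0 := by
    intro h0
    apply hw
    rw [h0, zero_sub] at hvw
    have := golayCode.neg_mem hvw
    rwa [neg_neg] at this
  by_cases hv : hammingNorm v = 4
  · obtain ⟨t, htv, ht4, ht2⟩ := exists_tetrad v hv X hX
    have htw : t - w ∈ golayCode := by
      have e : t - w = (t - v) + (v - w) := by abel
      rw [e]
      exact golayCode.add_mem htv hvw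
    obtain ⟨a, ha, b, hb, hab⟩ := Finset.one_lt_card.1 (show 1 < (support₂ t ∩ X).card by omega)
    rw [Finset.mem_inter] at ha hb
    have hlt : (support₂ t).card < X.card := by
      have : (support₂ t).card = 4 := ht4
      omega
    obtain ⟨c, hcX, hct⟩ := Finset.exists_mem_notMem_of_card_lt_card hlt
    have hac : a ≠ c := fun h => hct (h ▸ ha.1)
    obtain ⟨σ, hσ, hσU, hσa, hσb⟩ := h2 a ha.2 b hb.2 c hcX hab hac
    refine ⟨σ, hσ, hσU, move_transfer σ hσ t w htw (move_not_mem σ t (by omega) ?_ ?_)⟩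
    · intro heq
      have hmem : σ b ∈ σ • support₂ t := Finset.smul_mem_smul_finset hb.1
      rw [hσb, heq] at hmem
      exact hct hmem
    · intro _
      have hmem : σ a ∈ σ • support₂ t := Finset.smul_mem_smul_finset ha.1
      rw [hσa] at hmem
      exact ⟨a, Finset.mem_inter.2 ⟨hmem, ha.1⟩⟩
  · have hv3 : (support₂ v).card ≤ 3 := by
      have : (support₂ v).card = hammingNorm v := rfl
      omega
    have hne : (support₂ v).Nonempty := by
      rw [Finset.nonempty_iff_ne_empty]
      intro hem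
      apply hv0
      have h0 : hammingNorm v = 0 := by
        rw [hammingNorm_eq_card, hem]
        rfl
      exact hammingNorm_eq_zero.1 h0
    obtain ⟨p, hp⟩ := hne
    have horb : ∃ Y : Finset GolayPt, 4 ≤ Y.card ∧
        ∀ q ∈ Y, ∃ σ ∈ M24, σ • U = U ∧ σ p = q := by
      by_cases hpX : p ∈ X
      · refine ⟨X.erase p, ?_, ?_⟩
        · have := Finset.card_erase_of_mem hpX
          omega
        · intro q hq
          rw [Finset.mem_erase] at hq
          have hcard : 0 < ((X.erase p).erase q).card := by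
            have e1 := Finset.card_erase_of_mem hpX
            have e2 := Finset.pred_card_le_card_erase (s := X.erase p) (a := q)
            omega
          obtain ⟨a, ha⟩ := Finset.card_pos.1 hcard
          rw [Finset.mem_erase, Finset.mem_erase] at ha
          obtain ⟨σ, hσ, hσU, -, hσp⟩ := h2 a ha.2.2 p hpX q hq.2 ha.2.1 ha.1
          exact ⟨σ, hσ, hσU, hσp⟩
      · exact h1 p hpX
    obtain ⟨Y, hY, hYorb⟩ := horb
    obtain ⟨q, hqY, hqv⟩ := Finset.exists_mem_notMem_of_card_lt_card
      (show (support₂ v).card < Y.card by omega)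
    obtain ⟨σ, hσ, hσU, hσp⟩ := hYorb q hqY
    refine ⟨σ, hσ, hσU, move_transfer σ hσ v w hvw (move_not_mem σ v hv4 ?_ ?_)⟩
    · intro heq
      have hmem : σ p ∈ σ • support₂ v := Finset.smul_mem_smul_finset hp
      rw [hσp, heq] at hmem
      exact hqv hmem
    · intro h
      exact absurd h hv

/-- the stabiliser of an octad is doubly transitive on it -/
theorem oct_two_trans (O : Finset GolayPt) (hO : O ∈ octads) (a b c : GolayPt) (ha : a ∈ O)
    (hb : b ∈ O) (hc : c ∈ O) (hab : a ≠ b) (hac : a ≠ c) :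
    ∃ σ ∈ M24, σ • O = O ∧ σ a = a ∧ σ b = c := by
  have hcard : O.card = 8 := Cfsg.Agent.Helper3.octads_card hO
  have h3 : 3 ≤ (((O.erase a).erase b).erase c).card := by
    have e1 := Finset.card_erase_of_mem ha
    have e2 : ((O.erase a).erase b).card = (O.erase a).card - 1 :=
      Finset.card_erase_of_mem (Finset.mem_erase.2 ⟨hab.symm, hb⟩)
    have e3 := Finset.pred_card_le_card_erase (s := (O.erase a).erase b) (a := c)
    omega
  obtain ⟨T, hT, hT3⟩ := Finset.exists_subset_card_eq h3
  obtain ⟨e1, e2, e3, h12, h13, h23, rfl⟩ := Finset.card_eq_three.1 hT3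
  have m1 := hT (show e1 ∈ ({e1, e2, e3} : Finset GolayPt) by simp)
  have m2 := hT (show e2 ∈ ({e1, e2, e3} : Finset GolayPt) by simp)
  have m3 := hT (show e3 ∈ ({e1, e2, e3} : Finset GolayPt) by simp)
  simp only [Finset.mem_erase] at m1 m2 m3
  have a1 : a ≠ e1 := fun h => m1.2.2.1 h.symm
  have a2 : a ≠ e2 := fun h => m2.2.2.1 h.symm
  have a3 : a ≠ e3 := fun h => m3.2.2.1 h.symm
  have b1 : b ≠ e1 := fun h => m1.2.1 h.symm
  have b2 : b ≠ e2 := fun h => m2.2.1 h.symm
  have b3 : b ≠ e3 := fun h => m3.2.1 h.symm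
  have c1 : c ≠ e1 := fun h => m1.1 h.symm
  have c2 : c ≠ e2 := fun h => m2.1 h.symm
  have c3 : c ≠ e3 := fun h => m3.1 h.symm
  have htail : [e1, e2, e3].Nodup :=
    List.nodup_cons.2 ⟨by simp [h12, h13], List.nodup_cons.2 ⟨by simp [h23],
      List.nodup_singleton _⟩⟩
  have hx : [a, b, e1, e2, e3].Nodup :=
    List.nodup_cons.2 ⟨by simp [hab, a1, a2, a3], List.nodup_cons.2 ⟨by simp [b1, b2, b3],
      htail⟩⟩
  have hy : [a, c, e1, e2, e3].Nodup :=
    List.nodup_cons.2 ⟨by simp [hac, a1, a2, a3], List.nodup_cons.2 ⟨by simp [c1, c2, c3],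
      htail⟩⟩
  obtain ⟨g, hg, hmap⟩ := Cfsg.Agent.Helper3.M24_trans_list [a, b, e1, e2, e3]
    [a, c, e1, e2, e3] hx hy rfl (by simp)
  simp only [List.map_cons, List.map_nil, List.cons.injEq, and_true] at hmap
  obtain ⟨ga, gb, g1, g2, g3⟩ := hmap
  refine ⟨g, hg, ?_, ga, gb⟩
  apply Cfsg.Agent.Helper3.octad_eq_of_inter (Cfsg.Agent.Helper3.smul_mem_octads hg hO) hO
  have h5 : ([a, c, e1, e2, e3] : List GolayPt).toFinset.card = 5 :=
    List.toFinset_card_of_nodup hy
  have ma : g a ∈ g • O := Finset.smul_mem_smul_finset ha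
  have mb : g b ∈ g • O := Finset.smul_mem_smul_finset hb
  have me1 : g e1 ∈ g • O := Finset.smul_mem_smul_finset m1.2.2.2
  have me2 : g e2 ∈ g • O := Finset.smul_mem_smul_finset m2.2.2.2
  have me3 : g e3 ∈ g • O := Finset.smul_mem_smul_finset m3.2.2.2
  rw [ga] at ma
  rw [gb] at mb
  rw [g1] at me1
  rw [g2] at me2
  rw [g3] at me3
  have hsub : ([a, c, e1, e2, e3] : List GolayPt).toFinset ⊆ g • O ∩ O := by
    intro x hx'
    rw [List.mem_toFinset] at hx'
    simp only [List.mem_cons, List.not_mem_nil, or_false] at hx'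
    rw [Finset.mem_inter]
    rcases hx' with rfl | rfl | rfl | rfl | rfl
    · exact ⟨ma, ha⟩
    · exact ⟨mb, hc⟩
    · exact ⟨me1, m1.2.2.2⟩
    · exact ⟨me2, m2.2.2.2⟩
    · exact ⟨me3, m3.2.2.2⟩
  calc 5 = ([a, c, e1, e2, e3] : List GolayPt).toFinset.card := h5.symm
    _ ≤ (g • O ∩ O).card := Finset.card_le_card hsub

/-- code words whose stabiliser contains that of an octad -/
theorem oct_case (O : Finset GolayPt) (hO : O ∈ octads) (U : Finset GolayPt)
    (hU : ∀ σ : Equiv.Perm GolayPt, σ • O = O → σ • U = U)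
    (w : GolayPt → ZMod 2) (hw : w ∉ golayCode) :
    ∃ σ ∈ M24, σ • U = U ∧ pact σ w - w ∉ golayCode := by
  have hcard : O.card = 8 := Cfsg.Agent.Helper3.octads_card hO
  obtain ⟨σ, hσ, hσO, hσw⟩ := exists_move_coset O O (by omega)
    (fun a ha b hb c hc hab hac => oct_two_trans O hO a b c ha hb hc hab hac)
    (by
      intro p hp
      refine ⟨Oᶜ, ?_, ?_⟩
      · rw [Finset.card_compl, Cfsg.Agent.Helper3.card_golayPt, hcard]
        norm_num
      · intro q hq
        rw [Finset.mem_compl] at hq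
        obtain ⟨a, ha, hfix, hapq⟩ := Cfsg.Agent.Helper3.octFix_trans O hO p q hp hq
        exact ⟨a, ha, Cfsg.Agent.Helper3.smul_eq_of_fix hfix, hapq⟩) w hw
  exact ⟨σ, hσ, hU σ hσO, hσw⟩

/-- code words whose stabiliser contains that of a dodecad -/
theorem dod_case (d : Finset GolayPt) (hd : d ∈ dodecads) (w : GolayPt → ZMod 2)
    (hw : w ∉ golayCode) : ∃ σ ∈ M24, σ • d = d ∧ pact σ w - w ∉ golayCode := by
  have hcard : d.card = 12 := Cfsg.Agent.Helper3.dodecads_card hd
  apply exists_move_coset d d (by omega) _ _ w hw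
  · intro a ha b hb c hc hab hac
    obtain ⟨g, hg, hgd, hgx⟩ := Cfsg.Agent.Helper3.M12_trans d hd 2 (by norm_num)
      (fun i => if i = 0 then a else b) (fun i => if i = 0 then a else c)
      (by
        intro i hi
        interval_cases i <;> simp [ha, hb])
      (by
        intro i hi
        interval_cases i <;> simp [ha, hc])
      (by
        intro i hi j hj hij
        interval_cases i <;> interval_cases j <;> simp_all)
      (by
        intro i hi j hj hij
        interval_cases i <;> interval_cases j <;> simp_all)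
    have g0 := hgx 0 (by norm_num)
    have g1 := hgx 1 (by norm_num)
    simp at g0 g1
    exact ⟨g, hg, hgd, g0, g1⟩
  · intro p hp
    refine ⟨dᶜ, ?_, ?_⟩
    · rw [Finset.card_compl, Cfsg.Agent.Helper3.card_golayPt, hcard]
      norm_num
    · intro q hq
      obtain ⟨g, hg, hgd, hgx⟩ := Cfsg.Agent.Helper3.M12_trans dᶜ
        (Cfsg.Agent.Helper3.compl_mem_dodecads hd) 1 (by norm_num)
        (fun _ => p) (fun _ => q)
        (fun _ _ => Finset.mem_compl.2 hp) (fun _ _ => hq)
        (by
          intro i hi j hj _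
          omega)
        (by
          intro i hi j hj _
          omega)
      refine ⟨g, hg, ?_, hgx 0 (by norm_num)⟩
      rw [Cfsg.Agent.Helper3.smul_compl] at hgd
      exact compl_injective hgd

/-- code words fixed by all permutations -/
theorem triv_case (U : Finset GolayPt) (hU : ∀ σ : Equiv.Perm GolayPt, σ • U = U)
    (w : GolayPt → ZMod 2) (hw : w ∉ golayCode) :
    ∃ σ ∈ M24, σ • U = U ∧ pact σ w - w ∉ golayCode := by
  apply exists_move_coset U Finset.univ _ _ _ w hw
  · rw [Finset.card_univ, Cfsg.Agent.Helper3.card_golayPt]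
    norm_num
  · intro a _ b _ c _ hab hac
    obtain ⟨g, hg, h1, h2⟩ := Cfsg.Agent.Helper3.M24_trans2 a b a c hab hac
    exact ⟨g, hg, hU g, h1, h2⟩
  · intro p hp
    exact absurd (Finset.mem_univ p) hp

theorem coset_move_main (u : GolayPt → ZMod 2) (hu : u ∈ golayCode) (w : GolayPt → ZMod 2)
    (hw : w ∉ golayCode) : ∃ σ ∈ M24, pact σ u = u ∧ pact σ w - w ∉ golayCode := by
  have key : ∃ σ ∈ M24, σ • support₂ u = support₂ u ∧ pact σ w - w ∉ golayCode := by
    have hsupp : support₂ u ∈ supports (golayCode : Set (GolayPt → ZMod 2)) := ⟨u, hu, rfl⟩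
    rcases golayLike.hwt u hu with h | h | h | h | h
    · apply triv_case _ _ w hw
      intro σ
      have h0 : support₂ u = ∅ := Finset.card_eq_zero.1 h
      rw [h0, Finset.smul_finset_empty]
    · exact oct_case (support₂ u) ⟨hsupp, h⟩ (support₂ u) (fun σ hσ => hσ) w hw
    · exact dod_case (support₂ u) ⟨hsupp, h⟩ w hw
    · have hO : (support₂ u)ᶜ ∈ octads := by
        refine ⟨Cfsg.Agent.Helper3.compl_mem_supports hsupp, ?_⟩
        rw [Finset.card_compl, Cfsg.Agent.Helper3.card_golayPt]
        have : (support₂ u).card = 16 := h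
        omega
      apply oct_case (support₂ u)ᶜ hO (support₂ u) _ w hw
      intro σ hσ
      rw [Cfsg.Agent.Helper3.smul_compl] at hσ
      exact compl_injective hσ
    · apply triv_case _ _ w hw
      intro σ
      have h0 : support₂ u = Finset.univ := by
        apply Finset.eq_univ_of_card
        rw [Cfsg.Agent.Helper3.card_golayPt]
        exact h
      rw [h0, Finset.smul_finset_univ]
  obtain ⟨σ, hσ, h1, h2⟩ := key
  exact ⟨σ, hσ, pact_eq_of_smul σ u h1, h2⟩

end Cfsg.Agent.Helper28
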