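import Cfsg.Agent.Helper28.LeechCount

/-!
The census of the lattice vectors of sum of squares 48.
-/

set_option autoImplicit false

namespace Cfsg.Agent.Helper28

open Cfsg

/-- the values between -6 and 6 other than `a` and `-a` -/
noncomputable def avoid (a : ℤ) : Finset ℤ := (Finset.Icc (-6) 6).filter (fun v => v ≠ a ∧ v ≠ -a)

theorem avoid_subset (a : ℤ) : avoid a ⊆ Finset.Icc (-8) 8 :=
  (Finset.filter_subset _ _).trans (Finset.Icc_subset_Icc (by norm_num) (by norm_num))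

theorem coord_bound48 {x : GolayPt → ℤ} (hn : ∑ i, x i ^ 2 = 48) (i : GolayPt) :
    x i ∈ Finset.Icc (-6 : ℤ) 6 := by
  have h := sq_le_of_sum hn i
  rw [Finset.mem_Icc]
  constructor <;> nlinarith

theorem num48 :
    (gCnt (Finset.Icc (-6) 6) 0 0 48 + 759 * gCnt (Finset.Icc (-6) 6) 0 8 48 +
      2576 * gCnt (Finset.Icc (-6) 6) 0 12 48 + 759 * gCnt (Finset.Icc (-6) 6) 0 16 48 +
        gCnt (Finset.Icc (-6) 6) 0 24 48) +
      (gCnt (Finset.Icc (-6) 6) 1 0 48 + 759 * gCnt (Finset.Icc (-6) 6) 1 8 48 +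
        2576 * gCnt (Finset.Icc (-6) 6) 1 12 48 + 759 * gCnt (Finset.Icc (-6) 6) 1 16 48 +
          gCnt (Finset.Icc (-6) 6) 1 24 48) = 16773120 := by
  decide +kernel

theorem num48_two :
    (gCnt {0, 2, -2} 0 0 48 + 759 * gCnt {0, 2, -2} 0 8 48 +
      2576 * gCnt {0, 2, -2} 0 12 48 + 759 * gCnt {0, 2, -2} 0 16 48 +
        gCnt {0, 2, -2} 0 24 48) +
      (gCnt {0, 2, -2} 1 0 48 + 759 * gCnt {0, 2, -2} 1 8 48 +
        2576 * gCnt {0, 2, -2} 1 12 48 + 759 * gCnt {0, 2, -2} 1 16 48 +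
          gCnt {0, 2, -2} 1 24 48) = 5275648 := by
  decide +kernel

theorem num48_three :
    (gCnt (avoid 3) 0 0 48 + 759 * gCnt (avoid 3) 0 8 48 +
      2576 * gCnt (avoid 3) 0 12 48 + 759 * gCnt (avoid 3) 0 16 48 +
        gCnt (avoid 3) 0 24 48) +
      (gCnt (avoid 3) 1 0 48 + 759 * gCnt (avoid 3) 1 8 48 +
        2576 * gCnt (avoid 3) 1 12 48 + 759 * gCnt (avoid 3) 1 16 48 +
          gCnt (avoid 3) 1 24 48) = 8482816 := by
  decide +kernel

theorem num48_four :
    (gCnt (avoid 4) 0 0 48 + 759 * gCnt (avoid 4) 0 8 48 +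
      2576 * gCnt (avoid 4) 0 12 48 + 759 * gCnt (avoid 4) 0 16 48 +
        gCnt (avoid 4) 0 24 48) +
      (gCnt (avoid 4) 1 0 48 + 759 * gCnt (avoid 4) 1 8 48 +
        2576 * gCnt (avoid 4) 1 12 48 + 759 * gCnt (avoid 4) 1 16 48 +
          gCnt (avoid 4) 1 24 48) = 13664256 := by
  decide +kernel

theorem num48_five :
    (gCnt (avoid 5) 0 0 48 + 759 * gCnt (avoid 5) 0 8 48 +
      2576 * gCnt (avoid 5) 0 12 48 + 759 * gCnt (avoid 5) 0 16 48 +
        gCnt (avoid 5) 0 24 48) +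
      (gCnt (avoid 5) 1 0 48 + 759 * gCnt (avoid 5) 1 8 48 +
        2576 * gCnt (avoid 5) 1 12 48 + 759 * gCnt (avoid 5) 1 16 48 +
          gCnt (avoid 5) 1 24 48) = 16674816 := by
  decide +kernel

/-- the number of lattice vectors of sum of squares 48 -/
theorem count48 :
    {x : GolayPt → ℤ | x ∈ leechLattice ∧ sqNorm x = 48}.ncard = 16773120 := by
  have hset : {x : GolayPt → ℤ | x ∈ leechLattice ∧ sqNorm x = 48} =
      {x : GolayPt → ℤ | x ∈ leechLattice ∧ ∑ i, x i ^ 2 = ((48 : ℕ) : ℤ) ∧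
        ∀ i, x i ∈ Finset.Icc (-6 : ℤ) 6} := by
    ext x
    constructor
    · rintro ⟨hx, hn⟩
      have hn' : ∑ i, x i ^ 2 = (48 : ℤ) := hn
      exact ⟨hx, by rw [hn']; norm_num, fun i => coord_bound48 hn' i⟩
    · rintro ⟨hx, hn, _⟩
      refine ⟨hx, ?_⟩
      show ∑ i, x i ^ 2 = 48
      rw [hn]
      norm_num
  rw [hset, count_lattice _ (Finset.Icc_subset_Icc (by norm_num) (by norm_num)) 48]
  exact num48

/-- the vectors with all coordinates 0, 2 or -2 -/
theorem count48_two :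
    {x : GolayPt → ℤ | x ∈ leechLattice ∧ sqNorm x = 48 ∧
      ∀ i, x i = 0 ∨ x i = 2 ∨ x i = -2}.ncard = 5275648 := by
  have hset : {x : GolayPt → ℤ | x ∈ leechLattice ∧ sqNorm x = 48 ∧
      ∀ i, x i = 0 ∨ x i = 2 ∨ x i = -2} =
      {x : GolayPt → ℤ | x ∈ leechLattice ∧ ∑ i, x i ^ 2 = ((48 : ℕ) : ℤ) ∧
        ∀ i, x i ∈ ({0, 2, -2} : Finset ℤ)} := by
    ext x
    constructor
    · rintro ⟨hx, hn, hv⟩
      have hn' : ∑ i, x i ^ 2 = (48 : ℤ) := hn
      refine ⟨hx, by rw [hn']; norm_num, fun i => ?_⟩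
      simp only [Finset.mem_insert, Finset.mem_singleton]
      exact hv i
    · rintro ⟨hx, hn, hv⟩
      refine ⟨hx, ?_, fun i => ?_⟩
      · show ∑ i, x i ^ 2 = 48
        rw [hn]
        norm_num
      · have h := hv i
        simp only [Finset.mem_insert, Finset.mem_singleton] at h
        exact h
  rw [hset, count_lattice _ (by decide) 48]
  exact num48_two

/-- the vectors having a coordinate of absolute value `a` -/
theorem count_exists (a : ℤ) (ha : 0 ≤ a) :
    {x : GolayPt → ℤ | x ∈ leechLattice ∧ sqNorm x = 48 ∧ ∃ i, |x i| = a}.ncard =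
      16773120 - {x : GolayPt → ℤ | x ∈ leechLattice ∧ ∑ i, x i ^ 2 = ((48 : ℕ) : ℤ) ∧
        ∀ i, x i ∈ avoid a}.ncard := by
  have hsub : {x : GolayPt → ℤ | x ∈ leechLattice ∧ ∑ i, x i ^ 2 = ((48 : ℕ) : ℤ) ∧
      ∀ i, x i ∈ avoid a} ⊆ {x : GolayPt → ℤ | x ∈ leechLattice ∧ sqNorm x = 48} := by
    rintro x ⟨hx, hn, _⟩
    refine ⟨hx, ?_⟩
    show ∑ i, x i ^ 2 = 48
    rw [hn]
    norm_num
  have hfin : {x : GolayPt → ℤ | x ∈ leechLattice ∧ sqNorm x = 48}.Finite :=
    Set.finite_of_ncard_ne_zero (by rw [count48]; norm_num)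
  have hset : {x : GolayPt → ℤ | x ∈ leechLattice ∧ sqNorm x = 48 ∧ ∃ i, |x i| = a} =
      {x : GolayPt → ℤ | x ∈ leechLattice ∧ sqNorm x = 48} \
        {x : GolayPt → ℤ | x ∈ leechLattice ∧ ∑ i, x i ^ 2 = ((48 : ℕ) : ℤ) ∧
          ∀ i, x i ∈ avoid a} := by
    ext x
    constructor
    · rintro ⟨hx, hn, i, hi⟩
      refine ⟨⟨hx, hn⟩, ?_⟩
      rintro ⟨_, _, hv⟩
      have h := hv i
      unfold avoid at h
      rw [Finset.mem_filter] at h
      rcases abs_choice (x i) with h1 | h1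
      · exact h.2.1 (by rw [← hi, h1])
      · exact h.2.2 (by rw [← hi, h1, neg_neg])
    · rintro ⟨⟨hx, hn⟩, hnT⟩
      refine ⟨hx, hn, ?_⟩
      by_contra hne
      push Not at hne
      apply hnT
      have hn' : ∑ i, x i ^ 2 = (48 : ℤ) := hn
      refine ⟨hx, by rw [hn']; norm_num, fun i => ?_⟩
      unfold avoid
      rw [Finset.mem_filter]
      refine ⟨coord_bound48 hn' i, ?_, ?_⟩
      · intro h
        apply hne i
        rw [h, abs_of_nonneg ha]
      · intro h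
        apply hne i
        rw [h, abs_neg, abs_of_nonneg ha]
  rw [hset, Set.ncard_sdiff hsub (hfin.subset hsub), count48]

/-- a lattice vector of sum of squares 48 with a coordinate 3 or -3 has three of them -/
theorem three3 {x : GolayPt → ℤ} (hx : x ∈ leechLattice) (hn : ∑ i, x i ^ 2 = 48)
    {i : GolayPt} (hi : |x i| = 3) :
    ∃ i j k, i ≠ j ∧ j ≠ k ∧ i ≠ k ∧ |x i| = 3 ∧ |x j| = 3 ∧ |x k| = 3 := by
  have hi' : x i = 3 ∨ x i = -3 := (abs_eq (by norm_num)).1 hi
  have hodd : x i % 2 = 1 := by omega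
  have hlp := lp_odd hx i hodd
  have hpar : ∀ j, x j % 2 = 1 := by
    intro j
    have h := hlp.1 j
    unfold Int.ModEq at h
    omega
  have h4 : ∀ j, (if x j % 4 = 1 then x j else -x j) % 4 = 1 := by
    intro j
    have h := hpar j
    split_ifs with h1
    · exact h1
    · omega
  have hn' : ∑ j, (if x j % 4 = 1 then x j else -x j) ^ 2 = 48 := by
    rw [← hn]
    refine Finset.sum_congr rfl (fun j _ => ?_)
    split_ifs
    · rfl
    · exact neg_sq _
  obtain ⟨hv, hc⟩ := norm1_count (fun j => if x j % 4 = 1 then x j else -x j) h4 48 hn'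
    (by norm_num)
  have himem : i ∈ Finset.univ.filter
      (fun j => (if x j % 4 = 1 then x j else -x j) = -3) := by
    rw [Finset.mem_filter]
    refine ⟨Finset.mem_univ i, ?_⟩
    rcases hi' with h | h
    · rw [h]
      norm_num
    · rw [h]
      norm_num
  have hpos : 0 < (Finset.univ.filter
      (fun j => (if x j % 4 = 1 then x j else -x j) = -3)).card :=
    Finset.card_pos.2 ⟨i, himem⟩
  have hc3 : (Finset.univ.filter
      (fun j => (if x j % 4 = 1 then x j else -x j) = -3)).card = 3 := by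
    omega
  obtain ⟨a, b, c, hab, hac, hbc, hs⟩ := Finset.card_eq_three.1 hc3
  have habs : ∀ j ∈ Finset.univ.filter
      (fun j => (if x j % 4 = 1 then x j else -x j) = -3), |x j| = 3 := by
    intro j hj
    have h := (Finset.mem_filter.1 hj).2
    rw [abs_eq (by norm_num)]
    split_ifs at h with h1
    · exact Or.inr h
    · left
      omega
  refine ⟨a, b, c, hab, hbc, hac, habs a ?_, habs b ?_, habs c ?_⟩
  · rw [hs]
    simp
  · rw [hs]
    simp
  · rw [hs]
    simp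

end Cfsg.Agent.Helper28
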