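import Cfsg.Agent.Helper28.Co0Trans34
import Cfsg.Agent.Helper28.Co0Cross
import Cfsg.Agent.Helper3.Golay.Weights

/-!
The cross through a lattice vector of sum of squares 64 has 48 members.
-/

set_option autoImplicit false

namespace Cfsg.Agent.Helper28

open Cfsg

/-- the cross of a lattice vector, inside the lattice -/
def crossSub (v : leechLattice) : Set leechLattice :=
  {w | sqNorm (w : GolayPt → ℤ) = sqNorm (v : GolayPt → ℤ) ∧ ∃ z : leechLattice, v - w = 2 • z}

theorem cross_eq_image (v : leechLattice) :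
    cross (v : GolayPt → ℤ) = Subtype.val '' crossSub v := by
  ext y
  constructor
  · rintro ⟨hy, hn, z, hz, e⟩
    exact ⟨⟨y, hy⟩, ⟨hn, ⟨z, hz⟩, Subtype.ext e⟩, rfl⟩
  · rintro ⟨w, ⟨hn, z, e⟩, rfl⟩
    exact ⟨w.2, hn, z, z.2, congrArg Subtype.val e⟩

theorem co0_map_sub (g : Co0) (v w : leechLattice) :
    (g : Equiv.Perm leechLattice) (v - w) =
      (g : Equiv.Perm leechLattice) v - (g : Equiv.Perm leechLattice) w := by
  rw [sub_eq_add_neg, g.2.1, co0_map_neg, ← sub_eq_add_neg]

theorem co0_map_two (g : Co0) (z : leechLattice) :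
    (g : Equiv.Perm leechLattice) (2 • z) = 2 • (g : Equiv.Perm leechLattice) z := by
  rw [two_nsmul, g.2.1, two_nsmul]

theorem crossSub_map_mem (g : Co0) {v w : leechLattice} (h : w ∈ crossSub v) :
    (g : Equiv.Perm leechLattice) w ∈ crossSub ((g : Equiv.Perm leechLattice) v) := by
  obtain ⟨hn, z, e⟩ := h
  refine ⟨?_, (g : Equiv.Perm leechLattice) z, ?_⟩
  · rw [g.2.2 w, g.2.2 v]
    exact hn
  · rw [← co0_map_sub, e, co0_map_two]

theorem crossSub_map (g : Co0) (v : leechLattice) :
    crossSub ((g : Equiv.Perm leechLattice) v) =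
      (g : Equiv.Perm leechLattice) '' crossSub v := by
  ext w
  constructor
  · intro h
    have h' := crossSub_map_mem g⁻¹ h
    refine ⟨((g⁻¹ : Co0) : Equiv.Perm leechLattice) w, ?_, ?_⟩
    · have e : ((g⁻¹ : Co0) : Equiv.Perm leechLattice) ((g : Equiv.Perm leechLattice) v) = v :=
        Equiv.symm_apply_apply (g : Equiv.Perm leechLattice) v
      rw [e] at h'
      exact h'
    · exact Equiv.apply_symm_apply (g : Equiv.Perm leechLattice) w
  · rintro ⟨u, hu, rfl⟩
    exact crossSub_map_mem g hu

theorem cross_ncard_map (g : Co0) (v : leechLattice) :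
    (cross (((g : Equiv.Perm leechLattice) v : leechLattice) : GolayPt → ℤ)).ncard =
      (cross (v : GolayPt → ℤ)).ncard := by
  rw [cross_eq_image, cross_eq_image, Set.ncard_image_of_injective _ Subtype.val_injective,
    Set.ncard_image_of_injective _ Subtype.val_injective, crossSub_map,
    Set.ncard_image_of_injective _ (g : Equiv.Perm leechLattice).injective]

theorem sqNorm_single (j : GolayPt) (s : ℤ) : sqNorm (Pi.single j s : GolayPt → ℤ) = s ^ 2 := by
  unfold sqNorm
  rw [Finset.sum_eq_single j]
  · rw [Pi.single_eq_same]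
  · intro i _ hij
    rw [Pi.single_eq_of_ne hij]
    norm_num
  · intro h
    exact absurd (Finset.mem_univ j) h

theorem stdCross_ncard : stdCross.ncard = 48 := by
  have e : stdCross = ↑(Finset.image (fun q : GolayPt × Bool =>
      (Pi.single q.1 (if q.2 then 8 else -8) : GolayPt → ℤ)) Finset.univ) := by
    ext y
    rw [Finset.mem_coe, Finset.mem_image]
    constructor
    · rintro ⟨i, s, hs | hs, rfl⟩
      · exact ⟨(i, true), Finset.mem_univ _, by rw [hs]; rfl⟩
      · exact ⟨(i, false), Finset.mem_univ _, by rw [hs]; rfl⟩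
    · rintro ⟨⟨i, b⟩, _, rfl⟩
      cases b
      · exact ⟨i, -8, Or.inr rfl, rfl⟩
      · exact ⟨i, 8, Or.inl rfl, rfl⟩
  rw [e, Set.ncard_coe_finset, Finset.card_image_of_injective, Finset.card_univ,
    Fintype.card_prod, golayLike.hcard, Fintype.card_bool]
  intro ⟨i, b⟩ ⟨i', b'⟩ h
  have h1 := congrFun h i
  simp only [Pi.single_eq_same] at h1
  have hi : i = i' := by
    by_contra hne
    rw [Pi.single_eq_of_ne hne] at h1
    cases b <;> simp at h1
  subst hi
  rw [Pi.single_eq_same] at h1
  have hb : b = b' := by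
    cases b <;> cases b' <;> first | rfl | (exfalso; revert h1; norm_num)
  rw [hb]

theorem cross_single_sub (p : GolayPt) (y : GolayPt → ℤ)
    (hy : y ∈ cross (Pi.single p (8 : ℤ))) : y ∈ stdCross := by
  obtain ⟨hyL, hn, z, hz, e⟩ := hy
  rw [sqNorm_single] at hn
  have hn' : ∑ i, y i ^ 2 = 64 := by
    have h : sqNorm y = 8 ^ 2 := hn
    unfold sqNorm at h
    rw [h]
    norm_num
  have hpt : ∀ i, (if i = p then (8 : ℤ) else 0) - y i = 2 * z i := by
    intro i
    have h := congrFun e i
    rw [Pi.sub_apply, Pi.single_apply] at h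
    rw [h]
    simp
  rcases lp_cases hz with hlp | hlp
  · have hz2 : ∀ i, z i % 2 = 0 := by
      intro i
      have h := hlp.1 i
      unfold Int.ModEq at h
      omega
    have hc := hlp.2.2
    have hw := Cfsg.Agent.Helper3.golay_hammingNorm _ hc
    have hsupp : ∀ i, halfWord z 0 i ≠ 0 → 16 ≤ y i ^ 2 := by
      intro i hi
      simp only [halfWord] at hi
      rw [Ne, intCast_zmod2_eq_zero] at hi
      have h1 := hpt i
      have h2 := hz2 i
      have h3 : y i % 8 = 4 := by split_ifs at h1 <;> omega
      have h4 : y i ≤ -4 ∨ 4 ≤ y i := by omega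
      rcases h4 with h4 | h4 <;> nlinarith
    have hw0 : hammingNorm (halfWord z 0) = 0 := by
      by_contra hne
      have h8 : 8 ≤ hammingNorm (halfWord z 0) := by omega
      have hle : (support₂ (halfWord z 0)).card • (16 : ℤ) ≤
          ∑ i ∈ support₂ (halfWord z 0), y i ^ 2 :=
        Finset.card_nsmul_le_sum _ _ _ (fun i hi => hsupp i ((mem_support₂ _ i).1 hi))
      have hle2 : ∑ i ∈ support₂ (halfWord z 0), y i ^ 2 ≤ ∑ i, y i ^ 2 :=
        Finset.sum_le_sum_of_subset_of_nonneg (Finset.subset_univ _)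
          (fun i _ _ => sq_nonneg _)
      rw [hammingNorm_eq_card] at h8
      rw [nsmul_eq_mul] at hle
      have h8' : (8 : ℤ) ≤ ((support₂ (halfWord z 0)).card : ℤ) := by exact_mod_cast h8
      linarith
    have hc0 : halfWord z 0 = 0 := hammingNorm_eq_zero.1 hw0
    have hy8 : ∀ i, y i % 8 = 0 := by
      intro i
      have h := congrFun hc0 i
      simp only [halfWord, Pi.zero_apply] at h
      rw [intCast_zmod2_eq_zero] at h
      have h1 := hpt i
      have h2 := hz2 i
      split_ifs at h1 <;> omega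
    have hex : ∃ j, y j ≠ 0 := by
      by_contra hall
      push Not at hall
      have h0 : ∑ i, y i ^ 2 = 0 :=
        Finset.sum_eq_zero (fun i _ => by rw [hall i]; norm_num)
      omega
    obtain ⟨j, hj⟩ := hex
    have hsplit : y j ^ 2 + ∑ i ∈ Finset.univ.erase j, y i ^ 2 = ∑ i, y i ^ 2 :=
      Finset.add_sum_erase Finset.univ (fun i => y i ^ 2) (Finset.mem_univ j)
    have hrest : 0 ≤ ∑ i ∈ Finset.univ.erase j, y i ^ 2 :=
      Finset.sum_nonneg (fun i _ => sq_nonneg _)
    have hj8 := hy8 j
    have hj64 : 64 ≤ y j ^ 2 := by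
      have h4 : y j ≤ -8 ∨ 8 ≤ y j := by omega
      rcases h4 with h4 | h4 <;> nlinarith
    have hrest0 : ∑ i ∈ Finset.univ.erase j, y i ^ 2 = 0 := by linarith
    have hjsq : y j ^ 2 = 64 := by linarith
    have hzero : ∀ i, i ≠ j → y i = 0 := by
      intro i hi
      have h := (Finset.sum_eq_zero_iff_of_nonneg (fun i _ => sq_nonneg (y i))).1 hrest0 i
        (Finset.mem_erase.2 ⟨hi, Finset.mem_univ i⟩)
      exact (pow_eq_zero_iff (by norm_num)).1 h
    have hj' : y j = 8 ∨ y j = -8 := by
      have h : (y j - 8) * (y j + 8) = 0 := by nlinarith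
      rcases mul_eq_zero.1 h with h | h
      · left
        omega
      · right
        omega
    refine ⟨j, y j, hj', ?_⟩
    funext i
    rw [Pi.single_apply]
    split_ifs with h
    · rw [h]
    · exact hzero i h
  · exfalso
    have hz2 : ∀ i, z i % 2 = 1 := by
      intro i
      have h := hlp.1 i
      unfold Int.ModEq at h
      omega
    have hall : ∀ i, 4 ≤ y i ^ 2 := by
      intro i
      have h1 := hpt i
      have h2 := hz2 i
      have h3 : y i % 4 = 2 := by split_ifs at h1 <;> omega
      have h4 : y i ≤ -2 ∨ 2 ≤ y i := by omega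
      rcases h4 with h4 | h4 <;> nlinarith
    have hle : (Finset.univ : Finset GolayPt).card • (4 : ℤ) ≤ ∑ i, y i ^ 2 :=
      Finset.card_nsmul_le_sum _ _ _ (fun i _ => hall i)
    rw [Finset.card_univ, golayLike.hcard, hn'] at hle
    norm_num at hle

theorem cross_single_sup (p : GolayPt) (y : GolayPt → ℤ) (hy : y ∈ stdCross) :
    y ∈ cross (Pi.single p (8 : ℤ)) := by
  obtain ⟨j, s, hs, rfl⟩ := hy
  have hmem : (Pi.single j s : GolayPt → ℤ) ∈ leechLattice := by
    rcases hs with rfl | rfl
    · rw [← leechE_eq_single]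
      exact (leechE j).2
    · have h : (Pi.single j (-8) : GolayPt → ℤ) = -(leechE j : GolayPt → ℤ) := by
        rw [leechE_eq_single, ← Pi.single_neg]
      rw [h]
      exact leechLattice.neg_mem (leechE j).2
  refine ⟨hmem, ?_, fun i => (if i = p then 4 else 0) - (if i = j then s / 2 else 0), ?_, ?_⟩
  · rw [sqNorm_single, sqNorm_single]
    rcases hs with rfl | rfl <;> norm_num
  · apply (mem_leechLattice_iff _).2
    refine ⟨0, ?_, ?_, ?_⟩
    · intro i
      show ((if i = p then (4 : ℤ) else 0) - (if i = j then s / 2 else 0)) % 2 = 0 % 2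
      rcases hs with rfl | rfl <;> split_ifs <;> norm_num
    · show (∑ i, ((if i = p then (4 : ℤ) else 0) - (if i = j then s / 2 else 0))) % 8 =
        (4 * 0) % 8
      rw [Finset.sum_sub_distrib, Finset.sum_ite_eq', Finset.sum_ite_eq']
      simp only [Finset.mem_univ, if_true]
      rcases hs with rfl | rfl <;> norm_num
    · have e0 : halfWord
          (fun i => (if i = p then (4 : ℤ) else 0) - (if i = j then s / 2 else 0)) 0 = 0 := by
        funext i
        simp only [halfWord, Pi.zero_apply]
        rw [intCast_zmod2_eq_zero]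
        rcases hs with rfl | rfl <;> split_ifs <;> norm_num
      rw [e0]
      exact golayCode.zero_mem
  · funext i
    rw [Pi.sub_apply, Pi.single_apply, Pi.single_apply]
    simp only [Pi.smul_apply, nsmul_eq_mul, Nat.cast_ofNat]
    rcases hs with rfl | rfl <;> split_ifs <;> norm_num

theorem cross_single (p : GolayPt) : cross (Pi.single p (8 : ℤ)) = stdCross :=
  Set.Subset.antisymm (cross_single_sub p) (cross_single_sup p)

/-- the cross through a lattice vector of sum of squares 64 has 48 members -/
theorem cross_ncard (x : GolayPt → ℤ) (hx : x ∈ leechLattice) (hn : sqNorm x = 64) :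
    (cross x).ncard = 48 := by
  have he : (Pi.single none 8 : GolayPt → ℤ) ∈ leechLattice := by
    rw [← leechE_eq_single]
    exact (leechE none).2
  have hne : ∑ i, (Pi.single none 8 : GolayPt → ℤ) i ^ 2 = 64 := by
    have h := sqNorm_single none 8
    unfold sqNorm at h
    rw [h]
    norm_num
  obtain ⟨hx', g, hg⟩ := trans64 x _ hx hn he hne
  have h : (cross (Pi.single none 8 : GolayPt → ℤ)).ncard = (cross x).ncard := by
    have h0 := cross_ncard_map g ⟨x, hx'⟩
    rw [hg] at h0
    exact h0
  rw [← h, cross_single, stdCross_ncard]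

end Cfsg.Agent.Helper28
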