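import Mathlib

/-!
Counting integer vectors with prescribed coordinate value sets, prescribed sum of squares and
prescribed coordinate sum modulo 8, by reading off digits of a product of natural numbers
written in a large base.
-/

set_option autoImplicit false

namespace Cfsg.Agent.Helper28

/-- the base -/
def bigB : ℕ := 2 ^ 64

/-- the exponent attached to a coordinate value -/
def expo (v : ℤ) : ℕ := 256 * (v ^ 2).toNat + (v % 8).toNat

/-- digit extraction: a sum of powers of a base larger than the number of summands -/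
theorem digit_count {α : Type*} (S : Finset α) (f : α → ℕ) (B : ℕ) (hB : S.card < B) (E : ℕ) :
    (∑ x ∈ S, B ^ f x) / B ^ E % B = (S.filter (fun x => f x = E)).card := by
  have hB0 : 0 < B := by omega
  have hBE : 0 < B ^ E := Nat.pow_pos hB0
  have hsplit : ∑ x ∈ S, B ^ f x = ∑ x ∈ S, (if f x < E then B ^ f x else 0) +
      B ^ E * (∑ x ∈ S, (if f x = E then 1 else 0) +
        B * ∑ x ∈ S, (if E < f x then B ^ (f x - E - 1) else 0)) := by
    rw [Finset.mul_sum, ← Finset.sum_add_distrib, Finset.mul_sum, ← Finset.sum_add_distrib]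
    refine Finset.sum_congr rfl (fun x _ => ?_)
    rcases lt_trichotomy (f x) E with h | h | h
    · have h1 : ¬ f x = E := by omega
      have h2 : ¬ E < f x := by omega
      rw [if_pos h, if_neg h1, if_neg h2]
      simp
    · have h1 : ¬ f x < E := by omega
      have h2 : ¬ E < f x := by omega
      rw [if_neg h1, if_pos h, if_neg h2, h]
      simp
    · have h1 : ¬ f x < E := by omega
      have h2 : ¬ f x = E := by omega
      rw [if_neg h1, if_neg h2, if_pos h]
      have e : f x = E + (1 + (f x - E - 1)) := by omega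
      conv_lhs => rw [e]
      rw [pow_add, pow_add, pow_one]
      ring
  have ha : ∑ x ∈ S, (if f x = E then 1 else 0) = (S.filter (fun x => f x = E)).card :=
    (Finset.card_filter _ _).symm
  have hLlt : ∑ x ∈ S, (if f x < E then B ^ f x else 0) < B ^ E := by
    rcases Nat.eq_zero_or_pos E with h0 | hpos
    · have hz : ∑ x ∈ S, (if f x < E then B ^ f x else 0) = 0 := by
        apply Finset.sum_eq_zero
        intro x _
        have h1 : ¬ f x < E := by omega
        rw [if_neg h1]
      rw [hz]
      exact hBE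
    · have hle : ∑ x ∈ S, (if f x < E then B ^ f x else 0) ≤ S.card * B ^ (E - 1) := by
        have h := Finset.sum_le_card_nsmul S (fun x => if f x < E then B ^ f x else 0)
          (B ^ (E - 1)) (by
            intro x _
            show (if f x < E then B ^ f x else 0) ≤ B ^ (E - 1)
            split_ifs with h
            · exact Nat.pow_le_pow_right hB0 (by omega)
            · exact Nat.zero_le _)
        rwa [smul_eq_mul] at h
      have e : B ^ E = B * B ^ (E - 1) := by
        have e1 : E = (E - 1) + 1 := by omega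
        conv_lhs => rw [e1]
        rw [pow_succ, mul_comm]
      rw [e]
      exact lt_of_le_of_lt hle (Nat.mul_lt_mul_of_lt_of_le hB le_rfl (Nat.pow_pos hB0))
  rw [hsplit, ha, Nat.add_mul_div_left _ _ hBE, Nat.div_eq_of_lt hLlt, zero_add,
    Nat.add_mul_mod_self_left, Nat.mod_eq_of_lt]
  exact lt_of_le_of_lt (Finset.card_filter_le _ _) hB

/-- the digits of a product of sums of powers count the vectors of given total exponent -/
theorem prod_digit {ι : Type*} [Fintype ι] [DecidableEq ι] (V : ι → Finset ℤ) (e : ℤ → ℕ)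
    (B : ℕ) (hB : (Fintype.piFinset V).card < B) (E : ℕ) :
    (∏ i, ∑ v ∈ V i, B ^ e v) / B ^ E % B =
      ((Fintype.piFinset V).filter (fun x => ∑ i, e (x i) = E)).card := by
  rw [Finset.prod_univ_sum]
  have h : ∀ x ∈ Fintype.piFinset V, ∏ i, B ^ e (x i) = B ^ ∑ i, e (x i) :=
    fun x _ => Finset.prod_pow_eq_pow_sum _ _ _
  rw [Finset.sum_congr rfl h]
  exact digit_count _ _ B hB E

/-- the total exponent of a vector encodes its sum of squares and its coordinate sum mod 8 -/
theorem expo_decode {ι : Type*} [Fintype ι] (hι : Fintype.card ι = 24) (x : ι → ℤ) (N r : ℕ)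
    (hr : r < 8) :
    (∑ i, x i ^ 2 = (N : ℤ) ∧ (∑ i, x i) % 8 = (r : ℤ)) ↔
      ∃ j ∈ Finset.range 22, ∑ i, expo (x i) = 256 * N + (8 * j + r) := by
  have hexp : ∑ i, expo (x i) = 256 * (∑ i, (x i ^ 2).toNat) + ∑ i, (x i % 8).toNat := by
    unfold expo
    rw [Finset.sum_add_distrib, ← Finset.mul_sum]
  have hn : ((∑ i, (x i ^ 2).toNat : ℕ) : ℤ) = ∑ i, x i ^ 2 := by
    rw [Nat.cast_sum]
    exact Finset.sum_congr rfl (fun i _ => Int.toNat_of_nonneg (sq_nonneg _))
  have hT : ((∑ i, (x i % 8).toNat : ℕ) : ℤ) = ∑ i, x i % 8 := by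
    rw [Nat.cast_sum]
    exact Finset.sum_congr rfl
      (fun i _ => Int.toNat_of_nonneg (Int.emod_nonneg _ (by norm_num)))
  have hT8 : (∑ i, x i % 8) % 8 = (∑ i, x i) % 8 := (Finset.sum_int_mod _ _ _).symm
  have hTle : ∑ i, (x i % 8).toNat ≤ 168 := by
    have h := Finset.sum_le_card_nsmul (Finset.univ : Finset ι) (fun i => (x i % 8).toNat) 7 (by
      intro i _
      have h1 := Int.emod_lt_of_pos (x i) (show (0 : ℤ) < 8 by norm_num)
      have h2 := Int.emod_nonneg (x i) (show (8 : ℤ) ≠ 0 by norm_num)
      show (x i % 8).toNat ≤ 7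
      omega)
    rw [Finset.card_univ, hι, smul_eq_mul] at h
    omega
  rw [hexp, ← hn, ← hT8, ← hT]
  generalize (∑ i, (x i ^ 2).toNat) = n
  generalize (∑ i, (x i % 8).toNat) = T at hTle ⊢
  constructor
  · rintro ⟨h1, h2⟩
    refine ⟨T / 8, Finset.mem_range.2 (by omega), ?_⟩
    omega
  · rintro ⟨j, hj, e⟩
    have hj' := Finset.mem_range.1 hj
    constructor <;> omega

/-- the number of vectors with coordinates in prescribed sets, of given sum of squares and
given coordinate sum modulo 8 -/
theorem fiber_card {ι : Type*} [Fintype ι] [DecidableEq ι] (hι : Fintype.card ι = 24)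
    (V : ι → Finset ℤ) (hV : ∀ i, (V i).card ≤ 5) (N r : ℕ) (hr : r < 8) :
    ((Fintype.piFinset V).filter
        (fun x => ∑ i, x i ^ 2 = (N : ℤ) ∧ (∑ i, x i) % 8 = (r : ℤ))).card =
      ∑ j ∈ Finset.range 22,
        (∏ i, ∑ v ∈ V i, bigB ^ expo v) / bigB ^ (256 * N + (8 * j + r)) % bigB := by
  have hcard : (Fintype.piFinset V).card < bigB := by
    rw [Fintype.card_piFinset]
    calc ∏ i, (V i).card ≤ ∏ _i : ι, 5 :=
          Finset.prod_le_prod (fun i _ => Nat.zero_le _) (fun i _ => hV i)
      _ = 5 ^ 24 := by rw [Finset.prod_const, Finset.card_univ, hι]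
      _ < bigB := by unfold bigB; norm_num
  have hterm : ∀ j ∈ Finset.range 22,
      (∏ i, ∑ v ∈ V i, bigB ^ expo v) / bigB ^ (256 * N + (8 * j + r)) % bigB =
        ((Fintype.piFinset V).filter
          (fun x => ∑ i, expo (x i) = 256 * N + (8 * j + r))).card :=
    fun j _ => prod_digit V expo bigB hcard _
  rw [Finset.sum_congr rfl hterm, ← Finset.card_biUnion]
  · congr 1
    ext x
    simp only [Finset.mem_filter, Finset.mem_biUnion]
    constructor
    · rintro ⟨hx, h⟩
      obtain ⟨j, hj, e⟩ := (expo_decode hι x N r hr).1 h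
      exact ⟨j, hj, hx, e⟩
    · rintro ⟨j, hj, hx, e⟩
      exact ⟨hx, (expo_decode hι x N r hr).2 ⟨j, hj, e⟩⟩
  · intro j hj j' hj' hne
    refine Finset.disjoint_left.2 (fun x hx hx' => hne ?_)
    have e1 := (Finset.mem_filter.1 hx).2
    have e2 := (Finset.mem_filter.1 hx').2
    omega

/-- a product of a two-valued family -/
theorem prod_ite_pow {ι : Type*} [Fintype ι] (c : ι → ZMod 2) (p0 p1 : ℕ) :
    ∏ i, (if c i = 0 then p0 else p1) =
      p0 ^ (Fintype.card ι - hammingNorm c) * p1 ^ hammingNorm c := by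
  rw [Finset.prod_ite, Finset.prod_const, Finset.prod_const]
  have h := Finset.card_filter_add_card_filter_not (s := (Finset.univ : Finset ι))
    (fun i => c i = 0)
  rw [Finset.card_univ] at h
  have e : (Finset.univ.filter (fun i => ¬ c i = 0)).card = hammingNorm c := rfl
  rw [e] at h ⊢
  congr 2
  omega

end Cfsg.Agent.Helper28
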