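import Mathlib
import Cfsg.Prelude.Def_Sporadic_a

/-!
Binary codes of length 24, dimension 12 and minimum weight at least 8: coset leaders
(sextets), the octads form a Steiner system, the octads span the code.
-/

set_option autoImplicit false
set_option linter.unusedSectionVars false

namespace Cfsg.Agent.Helper28

open Cfsg

section Basic

variable {ι : Type*} [Fintype ι] [DecidableEq ι]

theorem hammingNorm_eq_card (u : ι → ZMod 2) : hammingNorm u = (support₂ u).card := rfl

theorem mem_support₂ (u : ι → ZMod 2) (i : ι) : i ∈ support₂ u ↔ u i ≠ 0 := by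
  simp [support₂]

theorem support₂_add (u v : ι → ZMod 2) :
    support₂ (u + v) = symmDiff (support₂ u) (support₂ v) := by
  ext i
  simp only [mem_support₂, Finset.mem_symmDiff, Pi.add_apply]
  generalize u i = a
  generalize v i = b
  revert a b
  decide

theorem sub_eq_add₂ (u v : ι → ZMod 2) : u - v = u + v := by
  ext i
  simp only [Pi.sub_apply, Pi.add_apply]
  generalize u i = a
  generalize v i = b
  revert a b
  decide

theorem add_self₂ (u : ι → ZMod 2) : u + u = 0 := by
  ext i
  simp only [Pi.add_apply, Pi.zero_apply]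
  generalize u i = a
  revert a
  decide

theorem card_symmDiff_add (A B : Finset ι) :
    (symmDiff A B).card + 2 * (A ∩ B).card = A.card + B.card := by
  have h1 : (symmDiff A B).card = (A \ B).card + (B \ A).card := by
    rw [symmDiff_def, Finset.sup_eq_union, Finset.card_union_of_disjoint]
    exact disjoint_sdiff_sdiff
  have h2 := Finset.card_sdiff_add_card_inter A B
  have h3 := Finset.card_sdiff_add_card_inter B A
  rw [Finset.inter_comm B A] at h3
  omega

theorem wt_add (u v : ι → ZMod 2) :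
    hammingNorm (u + v) + 2 * (support₂ u ∩ support₂ v).card = hammingNorm u + hammingNorm v := by
  rw [hammingNorm_eq_card, support₂_add]
  exact card_symmDiff_add _ _

theorem wt_zero : hammingNorm (0 : ι → ZMod 2) = 0 := by
  simp

theorem dot_eq (u v : ι → ZMod 2) :
    ∑ i, u i * v i = ((support₂ u ∩ support₂ v).card : ZMod 2) := by
  have h1 : ∀ i, u i * v i = if (u i ≠ 0 ∧ v i ≠ 0) then (1 : ZMod 2) else 0 := by
    intro i
    generalize u i = a
    generalize v i = b
    revert a b
    decide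
  rw [Finset.sum_congr rfl (fun i _ => h1 i), Finset.sum_boole]
  congr 2
  ext i
  simp [mem_support₂]

theorem even_inter_of_dot (u v : ι → ZMod 2) (h : ∑ i, u i * v i = 0) :
    2 ∣ (support₂ u ∩ support₂ v).card := by
  rw [dot_eq] at h
  exact (ZMod.natCast_eq_zero_iff _ 2).1 h

/-- the word with a given support -/
def ind (s : Finset ι) : ι → ZMod 2 := fun i => if i ∈ s then 1 else 0

theorem support₂_ind (s : Finset ι) : support₂ (ind s) = s := by
  ext i
  simp [mem_support₂, ind]

theorem ind_support₂ (u : ι → ZMod 2) : ind (support₂ u) = u := by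
  ext i
  simp only [ind, mem_support₂]
  generalize u i = a
  revert a
  decide

theorem wt_ind (s : Finset ι) : hammingNorm (ind s) = s.card := by
  rw [hammingNorm_eq_card, support₂_ind]

theorem card_wt_eq (k : ℕ) :
    (Finset.univ.filter (fun u : ι → ZMod 2 => hammingNorm u = k)).card
      = (Fintype.card ι).choose k := by
  rw [← Finset.card_univ (α := ι), ← Finset.card_powersetCard]
  refine Finset.card_bij' (fun u _ => support₂ u) (fun s _ => ind s) ?_ ?_ ?_ ?_
  · intro u hu
    rw [Finset.mem_filter] at hu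
    rw [Finset.mem_powersetCard]
    exact ⟨Finset.subset_univ _, hu.2⟩
  · intro s hs
    rw [Finset.mem_powersetCard] at hs
    rw [Finset.mem_filter]
    exact ⟨Finset.mem_univ _, by rw [wt_ind]; exact hs.2⟩
  · intro u _
    exact ind_support₂ u
  · intro s _
    exact support₂_ind s

end Basic

section Core

variable {ι : Type*} [Fintype ι] [DecidableEq ι] (C : Submodule (ZMod 2) (ι → ZMod 2))

/-- weights used in the coset count -/
def cw (u : ι → ZMod 2) : ℕ := if hammingNorm u ≤ 3 then 6 else 1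

open Classical in
/-- the words of weight at most 4 in the coset of `v` -/
noncomputable def fib (v : ι → ZMod 2) : Finset (ι → ZMod 2) :=
  Finset.univ.filter (fun u => u - v ∈ C ∧ hammingNorm u ≤ 4)

open Classical in
theorem mem_fib (v u : ι → ZMod 2) : u ∈ fib C v ↔ u - v ∈ C ∧ hammingNorm u ≤ 4 := by
  unfold fib
  rw [Finset.mem_filter]
  simp

theorem self_mem_fib (v : ι → ZMod 2) (hv : hammingNorm v ≤ 4) : v ∈ fib C v := by
  rw [mem_fib, sub_self]
  exact ⟨C.zero_mem, hv⟩

theorem fib_pair (hmin : ∀ w ∈ C, w ≠ 0 → 8 ≤ hammingNorm w) (v u u' : ι → ZMod 2)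
    (hu : u ∈ fib C v) (hu' : u' ∈ fib C v) (hne : u ≠ u') :
    hammingNorm u = 4 ∧ hammingNorm u' = 4 ∧ Disjoint (support₂ u) (support₂ u') := by
  rw [mem_fib] at hu hu'
  have hmem : u + u' ∈ C := by
    have h := C.sub_mem hu.1 hu'.1
    rw [sub_sub_sub_cancel_right, sub_eq_add₂] at h
    exact h
  have hne0 : u + u' ≠ 0 := by
    intro h
    apply hne
    rw [← sub_eq_add₂] at h
    exact sub_eq_zero.1 h
  have h8 := hmin _ hmem hne0
  have hw := wt_add u u'
  have h1 := hu.2
  have h2 := hu'.2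
  refine ⟨by omega, by omega, ?_⟩
  rw [Finset.disjoint_iff_inter_eq_empty, ← Finset.card_eq_zero]
  omega

theorem fib_all4 (hmin : ∀ w ∈ C, w ≠ 0 → 8 ≤ hammingNorm w) (v : ι → ZMod 2)
    (hcard : 1 < (fib C v).card) : ∀ u ∈ fib C v, hammingNorm u = 4 := by
  intro u hu
  obtain ⟨u', hu', hne⟩ := Finset.exists_mem_ne hcard u
  exact (fib_pair C hmin v u u' hu hu' hne.symm).1

theorem fib_union_card (hmin : ∀ w ∈ C, w ≠ 0 → 8 ≤ hammingNorm w) (v : ι → ZMod 2)
    (hcard : 1 < (fib C v).card) :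
    ((fib C v).biUnion support₂).card = 4 * (fib C v).card := by
  rw [Finset.card_biUnion]
  · rw [Finset.sum_congr rfl (g := fun _ => 4)
      (fun u hu => by rw [← hammingNorm_eq_card, fib_all4 C hmin v hcard u hu]),
      Finset.sum_const, smul_eq_mul, mul_comm]
  · intro u hu u' hu' hne
    exact (fib_pair C hmin v u u' (Finset.mem_coe.1 hu) (Finset.mem_coe.1 hu') hne).2.2

theorem fib_card_le (hι : Fintype.card ι = 24) (hmin : ∀ w ∈ C, w ≠ 0 → 8 ≤ hammingNorm w)
    (v : ι → ZMod 2) (hcard : 1 < (fib C v).card) : (fib C v).card ≤ 6 := by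
  have h := fib_union_card C hmin v hcard
  have h2 : ((fib C v).biUnion support₂).card ≤ 24 := by
    rw [← hι]
    exact Finset.card_le_univ _
  omega

theorem cw_le (u : ι → ZMod 2) : cw u ≤ 6 := by
  unfold cw
  split_ifs <;> omega

theorem fib_sum_of_card (hmin : ∀ w ∈ C, w ≠ 0 → 8 ≤ hammingNorm w) (v : ι → ZMod 2)
    (hcard : 1 < (fib C v).card) : ∑ u ∈ fib C v, cw u = (fib C v).card := by
  rw [Finset.card_eq_sum_ones]
  apply Finset.sum_congr rfl
  intro u hu
  unfold cw
  rw [fib_all4 C hmin v hcard u hu]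
  simp

theorem fib_sum_le (hι : Fintype.card ι = 24) (hmin : ∀ w ∈ C, w ≠ 0 → 8 ≤ hammingNorm w)
    (v : ι → ZMod 2) : ∑ u ∈ fib C v, cw u ≤ 6 := by
  by_cases hcard : 1 < (fib C v).card
  · rw [fib_sum_of_card C hmin v hcard]
    exact fib_card_le C hι hmin v hcard
  · have h : ∑ u ∈ fib C v, cw u ≤ (fib C v).card • 6 :=
      Finset.sum_le_card_nsmul (fib C v) cw 6 (fun u _ => cw_le u)
    rw [smul_eq_mul] at h
    have : (fib C v).card * 6 ≤ 6 := by omega
    omega

theorem card_coset (hdim : Module.finrank (ZMod 2) C = 12) (u : ι → ZMod 2)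
    [DecidablePred (fun v : ι → ZMod 2 => u - v ∈ C)] :
    (Finset.univ.filter (fun v : ι → ZMod 2 => u - v ∈ C)).card = 4096 := by
  classical
  have h1 : Fintype.card C = 2 ^ 12 := by
    rw [Module.card_eq_pow_finrank (K := ZMod 2) (V := C), hdim, ZMod.card]
  rw [← Fintype.card_subtype, show (4096:ℕ) = 2^12 by norm_num, ← h1]
  refine Fintype.card_congr ⟨fun x => ⟨u - x.1, x.2⟩, fun c => ⟨u - c.1, ?_⟩, ?_, ?_⟩
  · rw [sub_sub_cancel]
    exact c.2
  · intro x
    apply Subtype.ext
    simp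
  · intro c
    apply Subtype.ext
    simp

theorem sum_cw (hι : Fintype.card ι = 24) :
    ∑ u : ι → ZMod 2, (if hammingNorm u ≤ 4 then cw u * 4096 else 0) = 6 * 2 ^ 24 := by
  rw [← Finset.sum_filter]
  have hmaps : ∀ u ∈ Finset.univ.filter (fun u : ι → ZMod 2 => hammingNorm u ≤ 4),
      hammingNorm u ∈ Finset.range 5 := by
    intro u hu
    rw [Finset.mem_filter] at hu
    rw [Finset.mem_range]
    omega
  rw [← Finset.sum_fiberwise_of_maps_to hmaps]
  have h : ∀ k ∈ Finset.range 5,
      ∑ u ∈ (Finset.univ.filter (fun u : ι → ZMod 2 => hammingNorm u ≤ 4)).filter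
        (fun u => hammingNorm u = k), cw u * 4096
        = Nat.choose 24 k * ((if k ≤ 3 then 6 else 1) * 4096) := by
    intro k hk
    rw [Finset.mem_range] at hk
    have e : (Finset.univ.filter (fun u : ι → ZMod 2 => hammingNorm u ≤ 4)).filter
        (fun u => hammingNorm u = k)
        = Finset.univ.filter (fun u : ι → ZMod 2 => hammingNorm u = k) := by
      ext u
      simp only [Finset.mem_filter, Finset.mem_univ, true_and]
      constructor
      · exact fun h => h.2
      · exact fun h => ⟨by omega, h⟩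
    rw [e, Finset.sum_congr rfl (g := fun _ => (if k ≤ 3 then 6 else 1) * 4096)
      (fun u hu => by rw [Finset.mem_filter] at hu; unfold cw; rw [hu.2]),
      Finset.sum_const, card_wt_eq, hι, smul_eq_mul]
  rw [Finset.sum_congr rfl h]
  decide

open Classical in
theorem total (hι : Fintype.card ι = 24) (hdim : Module.finrank (ZMod 2) C = 12) :
    ∑ v : ι → ZMod 2, ∑ u ∈ fib C v, cw u = 6 * 2 ^ 24 := by
  have h1 : ∀ v : ι → ZMod 2, ∑ u ∈ fib C v, cw u
      = ∑ u : ι → ZMod 2, if (u - v ∈ C ∧ hammingNorm u ≤ 4) then cw u else 0 := by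
    intro v
    unfold fib
    rw [Finset.sum_filter]
  have h2 : ∀ u : ι → ZMod 2,
      ∑ v : ι → ZMod 2, (if (u - v ∈ C ∧ hammingNorm u ≤ 4) then cw u else 0)
        = (if hammingNorm u ≤ 4 then cw u * 4096 else 0) := by
    intro u
    by_cases hu : hammingNorm u ≤ 4
    · simp only [hu, and_true, if_true]
      rw [← Finset.sum_filter, Finset.sum_const, card_coset C hdim u, smul_eq_mul, mul_comm]
    · simp [hu]
  calc ∑ v : ι → ZMod 2, ∑ u ∈ fib C v, cw u
      = ∑ v : ι → ZMod 2, ∑ u : ι → ZMod 2,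
          (if (u - v ∈ C ∧ hammingNorm u ≤ 4) then cw u else 0) :=
        Finset.sum_congr rfl (fun v _ => h1 v)
    _ = ∑ u : ι → ZMod 2, ∑ v : ι → ZMod 2,
          (if (u - v ∈ C ∧ hammingNorm u ≤ 4) then cw u else 0) := Finset.sum_comm
    _ = ∑ u : ι → ZMod 2, (if hammingNorm u ≤ 4 then cw u * 4096 else 0) :=
        Finset.sum_congr rfl (fun u _ => h2 u)
    _ = 6 * 2 ^ 24 := sum_cw hι

theorem sum_six (hι : Fintype.card ι = 24) :
    ∑ _v : ι → ZMod 2, (6 : ℕ) = 6 * 2 ^ 24 := by
  rw [Finset.sum_const, Finset.card_univ, Fintype.card_fun, ZMod.card, hι, smul_eq_mul, mul_comm]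

theorem fib_sum_eq (hι : Fintype.card ι = 24) (hdim : Module.finrank (ZMod 2) C = 12)
    (hmin : ∀ w ∈ C, w ≠ 0 → 8 ≤ hammingNorm w) (v : ι → ZMod 2) :
    ∑ u ∈ fib C v, cw u = 6 := by
  have h := (Finset.sum_eq_sum_iff_of_le (s := (Finset.univ : Finset (ι → ZMod 2)))
    (f := fun v => ∑ u ∈ fib C v, cw u) (g := fun _ => 6)
    (fun v _ => fib_sum_le C hι hmin v)).1 ((total C hι hdim).trans (sum_six hι).symm)
  exact h v (Finset.mem_univ v)

/-- Coset leaders of a `[24,12,8]` binary code. -/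
theorem fib_structure (hι : Fintype.card ι = 24) (hdim : Module.finrank (ZMod 2) C = 12)
    (hmin : ∀ w ∈ C, w ≠ 0 → 8 ≤ hammingNorm w) (v : ι → ZMod 2) :
    (∃ u, fib C v = {u} ∧ hammingNorm u ≤ 3) ∨
    ((fib C v).card = 6 ∧ ∀ u ∈ fib C v, hammingNorm u = 4 ∧
      ∀ u' ∈ fib C v, u ≠ u' → Disjoint (support₂ u) (support₂ u')) := by
  have hsum := fib_sum_eq C hι hdim hmin v
  by_cases hcard : 1 < (fib C v).card
  · right
    rw [fib_sum_of_card C hmin v hcard] at hsum
    exact ⟨hsum, fun u hu => ⟨fib_all4 C hmin v hcard u hu,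
      fun u' hu' hne => (fib_pair C hmin v u u' hu hu' hne).2.2⟩⟩
  · left
    have hne : (fib C v).card ≠ 0 := by
      intro h0
      rw [Finset.card_eq_zero] at h0
      rw [h0, Finset.sum_empty] at hsum
      omega
    have h1 : (fib C v).card = 1 := by omega
    obtain ⟨u, hu⟩ := Finset.card_eq_one.1 h1
    refine ⟨u, hu, ?_⟩
    rw [hu, Finset.sum_singleton] at hsum
    unfold cw at hsum
    split_ifs at hsum with h
    · exact h
    · omega

theorem sextet_cover (hι : Fintype.card ι = 24) (hdim : Module.finrank (ZMod 2) C = 12)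
    (hmin : ∀ w ∈ C, w ≠ 0 → 8 ≤ hammingNorm w) (v : ι → ZMod 2)
    (hv : hammingNorm v = 4) (x : ι) : ∃ u ∈ fib C v, x ∈ support₂ u := by
  have hvm : v ∈ fib C v := self_mem_fib C v (by omega)
  rcases fib_structure C hι hdim hmin v with ⟨u, hu, hu3⟩ | ⟨h6, -⟩
  · exfalso
    rw [hu, Finset.mem_singleton] at hvm
    rw [hvm] at hv
    omega
  · have hcard : 1 < (fib C v).card := by omega
    have h := fib_union_card C hmin v hcard
    rw [h6] at h
    have huniv : (fib C v).biUnion support₂ = Finset.univ := by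
      apply Finset.eq_univ_of_card
      rw [h, hι]
    have hx : x ∈ (fib C v).biUnion support₂ := by
      rw [huniv]
      exact Finset.mem_univ x
    rw [Finset.mem_biUnion] at hx
    exact hx

theorem exists_octad (hι : Fintype.card ι = 24) (hdim : Module.finrank (ZMod 2) C = 12)
    (hmin : ∀ w ∈ C, w ≠ 0 → 8 ≤ hammingNorm w) (s : Finset ι) (hs : s.card = 5) :
    ∃ o ∈ C, hammingNorm o = 8 ∧ s ⊆ support₂ o := by
  have hne : s.Nonempty := by
    rw [← Finset.card_pos]
    omega
  obtain ⟨x, hx⟩ := hne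
  have hsv : support₂ (ind (s.erase x)) = s.erase x := support₂_ind _
  have hwv : hammingNorm (ind (s.erase x)) = 4 := by
    rw [hammingNorm_eq_card, hsv, Finset.card_erase_of_mem hx, hs]
  obtain ⟨u, hu, hxu⟩ := sextet_cover C hι hdim hmin _ hwv x
  have hvm : ind (s.erase x) ∈ fib C (ind (s.erase x)) := self_mem_fib C _ (by omega)
  have hne : u ≠ ind (s.erase x) := by
    intro h
    rw [h, hsv] at hxu
    exact (Finset.notMem_erase x s) hxu
  obtain ⟨hu4, -, hdisj⟩ := fib_pair C hmin _ u _ hu hvm hne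
  refine ⟨u - ind (s.erase x), ((mem_fib C _ u).1 hu).1, ?_, ?_⟩
  · rw [sub_eq_add₂]
    have hw := wt_add u (ind (s.erase x))
    rw [Finset.disjoint_iff_inter_eq_empty.1 hdisj, Finset.card_empty] at hw
    omega
  · rw [sub_eq_add₂, support₂_add]
    intro y hy
    rw [Finset.mem_symmDiff]
    by_cases hyx : y = x
    · left
      rw [hyx]
      exact ⟨hxu, fun h => by rw [hsv] at h; exact Finset.notMem_erase x s h⟩
    · right
      have hyv : y ∈ support₂ (ind (s.erase x)) := by
        rw [hsv]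
        exact Finset.mem_erase.2 ⟨hyx, hy⟩
      exact ⟨hyv, fun h => Finset.disjoint_left.1 hdisj h hyv⟩

theorem octad_unique (hmin : ∀ w ∈ C, w ≠ 0 → 8 ≤ hammingNorm w) (s : Finset ι)
    (hs : s.card = 5) (o₁ o₂ : ι → ZMod 2) (h₁ : o₁ ∈ C) (h₂ : o₂ ∈ C)
    (w₁ : hammingNorm o₁ = 8) (w₂ : hammingNorm o₂ = 8)
    (hs₁ : s ⊆ support₂ o₁) (hs₂ : s ⊆ support₂ o₂) : o₁ = o₂ := by
  by_contra hne
  have hmem : o₁ + o₂ ∈ C := C.add_mem h₁ h₂
  have hne0 : o₁ + o₂ ≠ 0 := by
    intro h
    apply hne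
    rw [← sub_eq_add₂] at h
    exact sub_eq_zero.1 h
  have h8 := hmin _ hmem hne0
  have hw := wt_add o₁ o₂
  have hc : s.card ≤ (support₂ o₁ ∩ support₂ o₂).card :=
    Finset.card_le_card (Finset.subset_inter hs₁ hs₂)
  omega

/-- The octads of a `[24,12,8]` binary code form a Steiner system `S(5,8,24)`. -/
theorem steiner (hι : Fintype.card ι = 24) (hdim : Module.finrank (ZMod 2) C = 12)
    (hmin : ∀ w ∈ C, w ≠ 0 → 8 ≤ hammingNorm w) :
    Cfsg.IsSteinerSystem 5 8 (Cfsg.wordsOfWeight (C : Set (ι → ZMod 2)) 8) := by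
  refine ⟨fun b hb => hb.2, fun s hs => ?_⟩
  obtain ⟨o, ho, hw, hso⟩ := exists_octad C hι hdim hmin s hs
  refine ⟨support₂ o, ⟨⟨⟨o, ho, rfl⟩, by rw [← hammingNorm_eq_card]; exact hw⟩, hso⟩, ?_⟩
  rintro b ⟨⟨⟨o', ho', rfl⟩, hcard⟩, hs'⟩
  rw [octad_unique C hmin s hs o' o ho' ho (by rw [hammingNorm_eq_card]; exact hcard) hw hs' hso]

/-- A `[24,12,8]` binary code is spanned by its words of weight 8. -/
theorem span_octads (hι : Fintype.card ι = 24) (hdim : Module.finrank (ZMod 2) C = 12)
    (hmin : ∀ w ∈ C, w ≠ 0 → 8 ≤ hammingNorm w) :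
    Submodule.span (ZMod 2) {w : ι → ZMod 2 | w ∈ C ∧ hammingNorm w = 8} = C := by
  apply le_antisymm
  · rw [Submodule.span_le]
    exact fun w hw => hw.1
  · have key : ∀ n : ℕ, ∀ c ∈ C, hammingNorm c = n →
        c ∈ Submodule.span (ZMod 2) {w : ι → ZMod 2 | w ∈ C ∧ hammingNorm w = 8} := by
      intro n
      induction n using Nat.strong_induction_on with
      | _ n ih =>
        intro c hc hn
        by_cases h0 : c = 0
        · rw [h0]
          exact Submodule.zero_mem _
        · have h8 := hmin c hc h0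
          obtain ⟨s, hsub, hs5⟩ := Finset.exists_subset_card_eq (s := support₂ c) (n := 5)
            (by rw [← hammingNorm_eq_card]; omega)
          obtain ⟨o, ho, hw, hso⟩ := exists_octad C hι hdim hmin s hs5
          have hwt := wt_add c o
          have hc5 : 5 ≤ (support₂ c ∩ support₂ o).card := by
            rw [← hs5]
            exact Finset.card_le_card (Finset.subset_inter hsub hso)
          have hlt : hammingNorm (c + o) < n := by omega
          have h1 := ih _ hlt (c + o) (C.add_mem hc ho) rfl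
          have h2 : o ∈ Submodule.span (ZMod 2)
              {w : ι → ZMod 2 | w ∈ C ∧ hammingNorm w = 8} :=
            Submodule.subset_span ⟨ho, hw⟩
          have h3 := Submodule.add_mem _ h1 h2
          rw [add_assoc, add_self₂, add_zero] at h3
          exact h3
    intro c hc
    exact key _ c hc rfl

/-- A self-orthogonal `[24,12,8]` binary code is doubly even. -/
theorem doubly_even (hι : Fintype.card ι = 24) (hdim : Module.finrank (ZMod 2) C = 12)
    (horth : ∀ v ∈ C, ∀ w ∈ C, ∑ i, v i * w i = 0)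
    (hmin : ∀ w ∈ C, w ≠ 0 → 8 ≤ hammingNorm w) : ∀ w ∈ C, 4 ∣ hammingNorm w := by
  intro w hw
  have hspan : w ∈ Submodule.span (ZMod 2)
      {w : ι → ZMod 2 | w ∈ C ∧ hammingNorm w = 8} := by
    rw [span_octads C hι hdim hmin]
    exact hw
  have key : w ∈ C ∧ 4 ∣ hammingNorm w := by
    refine Submodule.span_induction (p := fun x _ => x ∈ C ∧ 4 ∣ hammingNorm x) ?_ ?_ ?_ ?_ hspan
    · intro x hx
      exact ⟨hx.1, by rw [hx.2]; norm_num⟩
    · exact ⟨C.zero_mem, by rw [wt_zero]; exact dvd_zero 4⟩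
    · intro x y _ _ hx hy
      refine ⟨C.add_mem hx.1 hy.1, ?_⟩
      have hwt := wt_add x y
      have hev := even_inter_of_dot x y (horth x hx.1 y hy.1)
      obtain ⟨a, ha⟩ := hx.2
      obtain ⟨b, hb⟩ := hy.2
      obtain ⟨c, hc⟩ := hev
      exact ⟨a + b - c, by omega⟩
    · intro a x _ hx
      refine ⟨C.smul_mem a hx.1, ?_⟩
      have : a = 0 ∨ a = 1 := by
        revert a
        decide
      rcases this with rfl | rfl
      · rw [zero_smul, wt_zero]
        exact dvd_zero 4
      · rw [one_smul]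
        exact hx.2
  exact key.2

end Core

end Cfsg.Agent.Helper28
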