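import Cfsg.Agent.Helper28.Co3Trans

/-!
The configuration of two vectors of sum of squares 48 with inner product `-32`: exactly 100
minimal vectors have inner products `24` and `-24` with them, and the joint stabiliser permutes
them transitively.
-/

set_option autoImplicit false

namespace Cfsg.Agent.Helper28

open Cfsg

/-- lattice vectors with given sum of squares and inner products with two vectors -/
def dotSet2 (v x : leechLattice) (n s r : ℤ) : Set leechLattice :=
  {t | sqNorm (t : GolayPt → ℤ) = n ∧ dotInt (v : GolayPt → ℤ) (t : GolayPt → ℤ) = s ∧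
    dotInt (x : GolayPt → ℤ) (t : GolayPt → ℤ) = r}

theorem dotSet2_map_mem (g : Co0) (v x : leechLattice) (n s r : ℤ) {t : leechLattice}
    (h : t ∈ dotSet2 v x n s r) :
    (g : Equiv.Perm leechLattice) t ∈ dotSet2 ((g : Equiv.Perm leechLattice) v)
      ((g : Equiv.Perm leechLattice) x) n s r := by
  obtain ⟨hn, hd, hd'⟩ := h
  exact ⟨(g.2.2 t).trans hn, (co0_dot (g : Equiv.Perm leechLattice) g.2 v t).trans hd,
    (co0_dot (g : Equiv.Perm leechLattice) g.2 x t).trans hd'⟩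

theorem dotSet2_map (g : Co0) (v x : leechLattice) (n s r : ℤ) :
    dotSet2 ((g : Equiv.Perm leechLattice) v) ((g : Equiv.Perm leechLattice) x) n s r =
      (g : Equiv.Perm leechLattice) '' dotSet2 v x n s r := by
  ext w
  constructor
  · intro h
    have h' := dotSet2_map_mem g⁻¹ _ _ n s r h
    refine ⟨((g⁻¹ : Co0) : Equiv.Perm leechLattice) w, ?_, ?_⟩
    · have e1 : ((g⁻¹ : Co0) : Equiv.Perm leechLattice) ((g : Equiv.Perm leechLattice) v) = v :=
        Equiv.symm_apply_apply (g : Equiv.Perm leechLattice) v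
      have e2 : ((g⁻¹ : Co0) : Equiv.Perm leechLattice) ((g : Equiv.Perm leechLattice) x) = x :=
        Equiv.symm_apply_apply (g : Equiv.Perm leechLattice) x
      rw [e1, e2] at h'
      exact h'
    · exact Equiv.apply_symm_apply (g : Equiv.Perm leechLattice) w
  · rintro ⟨u, hu, rfl⟩
    exact dotSet2_map_mem g v x n s r hu

/-- the standard vector of sum of squares 48 -/
def stdU : leechLattice := ⟨fiveVec none, fiveVec_mem none⟩

/-- the standard minimal vector of inner product `-16` with it -/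
def stdX : leechLattice :=
  ⟨sgnVec 4 {none, some 0} {none}, (sgn4_min none (some 0) (by decide) {none} (by simp)).1⟩

theorem stdU_norm : sqNorm (stdU : GolayPt → ℤ) = 48 := fiveVec_norm none

theorem stdX_norm : sqNorm (stdX : GolayPt → ℤ) = 32 :=
  (sgn4_min none (some 0) (by decide) {none} (by simp)).2

theorem dot_stdX (x : GolayPt → ℤ) :
    dotInt (sgnVec 4 {none, some 0} {none}) x = -4 * x none + 4 * x (some 0) := by
  rw [dot_comm', dot_sgnVec_pair x 4 none (some 0) (by decide) {none} (by simp)]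
  have h1 : sgnVec 4 ({none, some 0} : Finset GolayPt) {none} none = -4 := by decide
  have h2 : sgnVec 4 ({none, some 0} : Finset GolayPt) {none} (some 0) = 4 := by decide
  rw [h1, h2]
  ring

theorem std_dot : dotInt (stdU : GolayPt → ℤ) (stdX : GolayPt → ℤ) = -16 := by
  show dotInt (fiveVec none) (sgnVec 4 {none, some 0} {none}) = -16
  rw [dot_comm', dot_stdX]
  show -4 * (if (none : GolayPt) = none then (5 : ℤ) else 1) +
    4 * (if (some 0 : GolayPt) = none then (5 : ℤ) else 1) = -16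
  rw [if_pos rfl, if_neg (by decide)]
  norm_num

/-- the standard set, as vectors -/
def stdF : Set (GolayPt → ℤ) :=
  {t | t ∈ leechLattice ∧ sqNorm t = 32 ∧ dotInt (fiveVec none) t = 24 ∧
    dotInt (sgnVec 4 {none, some 0} {none}) t = 0}

/-- the tag detecting the value `v₀` -/
def tagEq (v₀ v : ℤ) : ℕ := (if v = v₀ then 0 else 165) + (v + 5).toNat

/-- the vectors of the standard set with coordinate `v₀` at both base points -/
def tagSet (v₀ : ℤ) : Set (GolayPt → ℤ) :=
  {x | (x ∈ leechLattice ∧ ∑ i, x i ^ 2 = ((32 : ℕ) : ℤ) ∧ ∀ i, x i ∈ Finset.Icc (-5 : ℤ) 5) ∧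
    ∑ i, (if i ∈ Cfsg.Agent.Helper3.gSupp 8388609 then tagEq v₀ (x i) else tagShift (x i)) =
      (144 - 4 * v₀).toNat}

theorem eq_tag (v₀ : ℤ) (x : GolayPt → ℤ) (hn : ∑ i, x i ^ 2 = 32) :
    ((∑ i, (if i ∈ Cfsg.Agent.Helper3.gSupp 8388609 then tagEq v₀ (x i)
        else tagShift (x i)) : ℕ) : ℤ) =
      ∑ i, x i + 120 + (if x none = v₀ then 0 else 165) +
        (if x (some 0) = v₀ then 0 else 165) := by
  rw [gSupp_pair, Nat.cast_sum]
  have e : ∀ i : GolayPt, ((if i ∈ ({none, some 0} : Finset GolayPt) then tagEq v₀ (x i)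
      else tagShift (x i) : ℕ) : ℤ) =
      (x i + 5) + (if i ∈ ({none, some 0} : Finset GolayPt) then
        (if x i = v₀ then (0 : ℤ) else 165) else 0) := by
    intro i
    have h := abs_le_five hn i
    unfold tagEq tagShift
    by_cases hi : i ∈ ({none, some 0} : Finset GolayPt)
    · rw [if_pos hi, if_pos hi]
      split_ifs <;> push_cast <;> omega
    · rw [if_neg hi, if_neg hi]
      omega
  rw [Finset.sum_congr rfl (fun i _ => e i), Finset.sum_add_distrib, Finset.sum_add_distrib,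
    sum_const_golay, Finset.sum_ite_mem, Finset.univ_inter, Finset.sum_pair (by decide)]
  ring

theorem sum_low (x : GolayPt → ℤ) (hn : ∑ i, x i ^ 2 = 32) : 0 ≤ ∑ i, x i + 120 := by
  have h : ∑ _i : GolayPt, (-5 : ℤ) ≤ ∑ i, x i :=
    Finset.sum_le_sum (fun i _ => (abs_le_five hn i).1)
  rw [sum_const_golay] at h
  linarith

theorem tagSet_vals (v₀ : ℤ) (hv₀ : v₀ ∈ Finset.Icc (-5 : ℤ) 5) (x : GolayPt → ℤ)
    (hx : x ∈ tagSet v₀) :
    ∑ i, x i ^ 2 = 32 ∧ x none = v₀ ∧ x (some 0) = v₀ ∧ ∑ i, x i = 24 - 4 * v₀ := by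
  obtain ⟨⟨_, hn, _⟩, ht⟩ := hx
  have hn' : ∑ i, x i ^ 2 = 32 := by
    rw [hn]
    norm_num
  have h := eq_tag v₀ x hn'
  rw [ht] at h
  rw [Finset.mem_Icc] at hv₀
  have hlow := sum_low x hn'
  have h1 : x none = v₀ := by
    by_contra hne
    rw [if_neg hne] at h
    split_ifs at h <;> omega
  have h2 : x (some 0) = v₀ := by
    by_contra hne
    rw [if_neg hne] at h
    split_ifs at h <;> omega
  rw [if_pos h1, if_pos h2] at h
  exact ⟨hn', h1, h2, by omega⟩

theorem std_iff (x : GolayPt → ℤ) :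
    x ∈ stdF ↔ ∃ v₀ ∈ Finset.Icc (-5 : ℤ) 5, x ∈ tagSet v₀ := by
  constructor
  · rintro ⟨hx, hn, h5, h0⟩
    have hn' : ∑ i, x i ^ 2 = 32 := hn
    rw [dot_five] at h5
    rw [dot_stdX] at h0
    have hb := abs_le_five hn' none
    refine ⟨x none, Finset.mem_Icc.2 hb, ⟨hx, by rw [hn']; norm_num,
      fun i => Finset.mem_Icc.2 (abs_le_five hn' i)⟩, ?_⟩
    have h := eq_tag (x none) x hn'
    rw [if_pos rfl, if_pos (by omega : x (some 0) = x none)] at h
    omega
  · rintro ⟨v₀, hv₀, hx⟩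
    obtain ⟨hn', h1, h2, h3⟩ := tagSet_vals v₀ hv₀ x hx
    refine ⟨hx.1.1, hn', ?_, ?_⟩
    · rw [dot_five]
      omega
    · rw [dot_stdX]
      omega

theorem tagSet_finite (v₀ : ℤ) : (tagSet v₀).Finite := by
  apply Set.Finite.subset
    (Finset.finite_toSet (Fintype.piFinset (fun _ : GolayPt => Finset.Icc (-5 : ℤ) 5)))
  rintro x ⟨⟨_, _, hA⟩, _⟩
  rw [Finset.mem_coe, Fintype.mem_piFinset]
  exact hA

theorem finite_biUnion_fin {α β : Type*} [DecidableEq β] (s : Finset β) (F : β → Set α)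
    (hfin : ∀ b ∈ s, (F b).Finite) : (⋃ b ∈ s, F b).Finite := by
  induction s using Finset.induction_on with
  | empty => simp
  | insert a s ha ih =>
    rw [Finset.set_biUnion_insert]
    exact Set.Finite.union (hfin a (Finset.mem_insert_self a s))
      (ih (fun b hb => hfin b (Finset.mem_insert_of_mem hb)))

theorem ncard_biUnion_fin {α β : Type*} [DecidableEq β] (s : Finset β) (F : β → Set α)
    (hfin : ∀ b ∈ s, (F b).Finite)
    (hdisj : ∀ b ∈ s, ∀ b' ∈ s, b ≠ b' → Disjoint (F b) (F b')) :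
    (⋃ b ∈ s, F b).ncard = ∑ b ∈ s, (F b).ncard := by
  induction s using Finset.induction_on with
  | empty => simp
  | insert a s ha ih =>
    have hd : Disjoint (F a) (⋃ b ∈ s, F b) := by
      rw [Set.disjoint_iUnion₂_right]
      intro b hb
      exact hdisj a (Finset.mem_insert_self a s) b (Finset.mem_insert_of_mem hb)
        (fun h => ha (h ▸ hb))
    rw [Finset.set_biUnion_insert, Finset.sum_insert ha,
      Set.ncard_union_eq hd (hfin a (Finset.mem_insert_self a s))
        (finite_biUnion_fin s F (fun b hb => hfin b (Finset.mem_insert_of_mem hb))),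
      ih (fun b hb => hfin b (Finset.mem_insert_of_mem hb))
        (fun b hb b' hb' hne => hdisj b (Finset.mem_insert_of_mem hb) b'
          (Finset.mem_insert_of_mem hb') hne)]

/-- the closed expression for the number of vectors with tag `v₀` -/
noncomputable def hsF (v₀ : ℤ) : ℕ :=
  ∑ kj ∈ ({0, 8, 12, 16, 24} : Finset ℕ) ×ˢ Finset.range 3,
    Cfsg.Agent.Helper3.gCountLt 4096 (fun n => decide (clsOf 8388609 n = kj)) *
      (dCnt (Finset.Icc (-5) 5) (tagEq v₀) tagShift (Cfsg.Agent.Helper3.gPopc 8388609) 0 32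
          (144 - 4 * v₀).toNat kj.1 kj.2 +
        dCnt (Finset.Icc (-5) 5) (tagEq v₀) tagShift (Cfsg.Agent.Helper3.gPopc 8388609) 1 32
          (144 - 4 * v₀).toNat kj.1 kj.2)

theorem hs_num : ∑ v₀ ∈ Finset.Icc (-5 : ℤ) 5, hsF v₀ = 100 := by
  decide +kernel

theorem tagSet_ncard (v₀ : ℤ) : (tagSet v₀).ncard = hsF v₀ :=
  count_tag (Finset.Icc (-5) 5) (Finset.Subset.refl _) 8388609 (tagEq v₀) tagShift 32
    (144 - 4 * v₀).toNat (by norm_num) _ census_T

theorem stdF_ncard : stdF.ncard = 100 := by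
  have hU : stdF = ⋃ v₀ ∈ Finset.Icc (-5 : ℤ) 5, tagSet v₀ := by
    ext x
    rw [std_iff, Set.mem_iUnion₂]
    constructor
    · rintro ⟨v₀, h1, h2⟩
      exact ⟨v₀, h1, h2⟩
    · rintro ⟨v₀, h1, h2⟩
      exact ⟨v₀, h1, h2⟩
  rw [hU, ncard_biUnion_fin _ _ (fun v₀ _ => tagSet_finite v₀) ?_,
    Finset.sum_congr rfl (fun v₀ _ => tagSet_ncard v₀)]
  · exact hs_num
  · intro a ha b hb hne
    rw [Set.disjoint_left]
    intro x hxa hxb
    exact hne ((tagSet_vals a ha x hxa).2.1.symm.trans (tagSet_vals b hb x hxb).2.1)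

theorem std_ncard : (dotSet2 stdU stdX 32 24 0).ncard = 100 := by
  rw [← Set.ncard_image_of_injective (dotSet2 stdU stdX 32 24 0) Subtype.val_injective]
  have e : Subtype.val '' dotSet2 stdU stdX 32 24 0 = stdF := by
    ext x
    constructor
    · rintro ⟨t, ⟨hn, h1, h2⟩, rfl⟩
      exact ⟨t.2, hn, h1, h2⟩
    · rintro ⟨hx, hn, h1, h2⟩
      exact ⟨⟨x, hx⟩, ⟨hn, h1, h2⟩, rfl⟩
  rw [e]
  exact stdF_ncard

theorem hs_aux (v w : leechLattice) (hv : sqNorm (v : GolayPt → ℤ) = 48)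
    (hw : sqNorm (w : GolayPt → ℤ) = 48)
    (hvw : dotInt (v : GolayPt → ℤ) (w : GolayPt → ℤ) = -32) :
    sqNorm ((-(v + w) : leechLattice) : GolayPt → ℤ) = 32 ∧
    dotInt (v : GolayPt → ℤ) ((-(v + w) : leechLattice) : GolayPt → ℤ) = -16 ∧
    ∀ t : leechLattice, dotInt ((-(v + w) : leechLattice) : GolayPt → ℤ) (t : GolayPt → ℤ) =
      -(dotInt (v : GolayPt → ℤ) (t : GolayPt → ℤ) +
        dotInt (w : GolayPt → ℤ) (t : GolayPt → ℤ)) := by
  refine ⟨?_, ?_, ?_⟩
  · rw [AddSubgroup.coe_neg, sqNorm_neg', AddSubgroup.coe_add, sqNorm_add, hv, hw, hvw]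
    norm_num
  · rw [AddSubgroup.coe_neg, dot_neg_right, AddSubgroup.coe_add, dot_add_right, dot_self, hv,
      hvw]
    norm_num
  · intro t
    rw [AddSubgroup.coe_neg, dot_neg_left, AddSubgroup.coe_add, dot_add_left]

/-- exactly 100 minimal vectors have inner products `24`, `-24` with two vectors of sum of
squares 48 and inner product `-32` -/
theorem hs_count (v w : leechLattice) (hv : sqNorm (v : GolayPt → ℤ) = 48)
    (hw : sqNorm (w : GolayPt → ℤ) = 48)
    (hvw : dotInt (v : GolayPt → ℤ) (w : GolayPt → ℤ) = -32) :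
    {x : leechLattice | sqNorm (x : GolayPt → ℤ) = 32 ∧
      dotInt (v : GolayPt → ℤ) (x : GolayPt → ℤ) = 24 ∧
      dotInt (w : GolayPt → ℤ) (x : GolayPt → ℤ) = -24}.ncard = 100 := by
  obtain ⟨hxn, h16, he⟩ := hs_aux v w hv hw hvw
  have hset : {x : leechLattice | sqNorm (x : GolayPt → ℤ) = 32 ∧
      dotInt (v : GolayPt → ℤ) (x : GolayPt → ℤ) = 24 ∧
      dotInt (w : GolayPt → ℤ) (x : GolayPt → ℤ) = -24} = dotSet2 v (-(v + w)) 32 24 0 := by
    ext t
    constructor
    · rintro ⟨h1, h2, h3⟩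
      exact ⟨h1, h2, by rw [he t, h2, h3]; norm_num⟩
    · rintro ⟨h1, h2, h3⟩
      refine ⟨h1, h2, ?_⟩
      rw [he t, h2] at h3
      linarith
  obtain ⟨g, e1, e2⟩ := pair_trans16 v (-(v + w)) stdU stdX hv stdU_norm hxn stdX_norm h16
    std_dot
  have e1' : (g : Equiv.Perm leechLattice) v = stdU := e1
  have e2' : (g : Equiv.Perm leechLattice) (-(v + w)) = stdX := e2
  rw [hset, ← Set.ncard_image_of_injective _ (g : Equiv.Perm leechLattice).injective,
    ← dotSet2_map, e1', e2']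
  exact std_ncard

/-- the joint stabiliser is transitive on the 100 vectors -/
theorem hs_trans100 (v w x x' : leechLattice) (hv : sqNorm (v : GolayPt → ℤ) = 48)
    (hw : sqNorm (w : GolayPt → ℤ) = 48)
    (hvw : dotInt (v : GolayPt → ℤ) (w : GolayPt → ℤ) = -32)
    (hx : sqNorm (x : GolayPt → ℤ) = 32 ∧ dotInt (v : GolayPt → ℤ) (x : GolayPt → ℤ) = 24 ∧
      dotInt (w : GolayPt → ℤ) (x : GolayPt → ℤ) = -24)
    (hx' : sqNorm (x' : GolayPt → ℤ) = 32 ∧
      dotInt (v : GolayPt → ℤ) (x' : GolayPt → ℤ) = 24 ∧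
      dotInt (w : GolayPt → ℤ) (x' : GolayPt → ℤ) = -24) :
    ∃ g : Co0, g • v = v ∧ g • w = w ∧ g • x = x' := by
  obtain ⟨hyn, h16, he⟩ := hs_aux v w hv hw hvw
  have h0 : dotInt ((-(v + w) : leechLattice) : GolayPt → ℤ) (x : GolayPt → ℤ) = 0 := by
    rw [he x, hx.2.1, hx.2.2]
    norm_num
  have h0' : dotInt ((-(v + w) : leechLattice) : GolayPt → ℤ) (x' : GolayPt → ℤ) = 0 := by
    rw [he x', hx'.2.1, hx'.2.2]
    norm_num
  obtain ⟨k1, k2, k3⟩ := triple_data v (-(v + w)) x hv hx.1 hx.2.1 h16 h0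
  obtain ⟨k1', k2', k3'⟩ := triple_data v (-(v + w)) x' hv hx'.1 hx'.2.1 h16 h0'
  obtain ⟨g, e1, e2, e3⟩ := triple_trans (-(v + w)) (v - x) x (-(v + w)) (v - x') x' hyn k1
    hx.1 hyn k1' hx'.1 h0 k2 k3 h0' k2' k3'
  have e1' : (g : Equiv.Perm leechLattice) (-(v + w)) = -(v + w) := e1
  have e2' : (g : Equiv.Perm leechLattice) (v - x) = v - x' := e2
  have e3' : (g : Equiv.Perm leechLattice) x = x' := e3
  have gv : (g : Equiv.Perm leechLattice) v = v := by
    have eu : v = (v - x) + x := by abel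
    conv_lhs => rw [eu]
    rw [g.2.1, e2', e3']
    abel
  have gw : (g : Equiv.Perm leechLattice) w = w := by
    rw [co0_map_neg, g.2.1, gv] at e1'
    exact add_left_cancel (neg_injective e1')
  exact ⟨g, gv, gw, e3⟩

end Cfsg.Agent.Helper28
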