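import Cfsg.Agent.Helper28.HSRank

/-!
An involution without fixed points on the 100 vectors: in the frame where the first vector of
sum of squares 48 is twice the indicator of a dodecad and the minimal vector `-(v + w)` is
supported on two points of the dodecad, the sign change on the complementary dodecad fixes both
and fixes none of the 100 vectors.
-/

set_option autoImplicit false

namespace Cfsg.Agent.Helper28

open Cfsg

/-- a dodecad word -/
def dodW : GolayPt → ZMod 2 := qrWord 0

theorem dodW_mem : dodW ∈ golayCode := Submodule.subset_span (Or.inl ⟨0, rfl⟩)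

theorem dodW_card : (support₂ dodW).card = 12 := by decide +kernel

theorem dodW_zero : dodW (some 0) ≠ 0 := by decide +kernel

theorem dodW_one : dodW (some 1) ≠ 0 := by decide +kernel

theorem dodW_none : dodW none = 0 := by decide +kernel

theorem mem_dodC (i : GolayPt) : i ∈ support₂ (1 + dodW) ↔ dodW i = 0 := by
  rw [mem_support₂, Pi.add_apply, Pi.one_apply]
  have key : ∀ a : ZMod 2, (1 + a ≠ 0 ↔ a = 0) := by decide
  exact key _

theorem LP_two {c : GolayPt → ZMod 2} (hc : c ∈ golayCode)
    (hmod : (4 : ℤ) ∣ ((support₂ c).card : ℤ)) :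
    LP golayCode (sgnVec 2 (support₂ c) ∅) 0 := by
  refine ⟨?_, ?_, ?_⟩
  · intro i
    unfold sgnVec
    split_ifs <;> decide
  · obtain ⟨k, hk⟩ := hmod
    rw [sgnVec_sum 2 (Finset.empty_subset _), Finset.card_empty, hk]
    unfold Int.ModEq
    push_cast
    omega
  · have e : halfWord (sgnVec 2 (support₂ c) ∅) 0 = c := by
      ext i
      simp only [halfWord, sub_zero]
      unfold sgnVec
      rw [if_neg (Finset.notMem_empty i)]
      by_cases hiU : i ∈ support₂ c
      · rw [if_pos hiU]
        have h1 : c i = 1 := zmod2_eq_one_of_ne _ ((mem_support₂ c i).1 hiU)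
        rw [h1, intCast_zmod2_eq_one]
        norm_num
      · rw [if_neg hiU]
        have h0 : c i = 0 := by
          by_contra hne
          exact hiU ((mem_support₂ c i).2 hne)
        rw [h0]
        simp
    rw [e]
    exact hc

/-- twice the indicator of the dodecad -/
def dodV : leechLattice :=
  ⟨sgnVec 2 (support₂ dodW) ∅, mem_of_LP (LP_two dodW_mem (by rw [dodW_card]; decide))⟩

/-- the minimal vector `(-4, -4, 0, …)` on two points of the dodecad -/
def dodX : leechLattice :=
  ⟨sgnVec 4 {some 0, some 1} {some 0, some 1},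
    (sgn4_min (some 0) (some 1) (by decide) {some 0, some 1} (Finset.Subset.refl _)).1⟩

/-- the second vector of sum of squares 48 -/
def dodWv : leechLattice := -(dodV + dodX)

theorem dodV_norm : sqNorm (dodV : GolayPt → ℤ) = 48 := by
  show ∑ i, sgnVec 2 (support₂ dodW) ∅ i ^ 2 = 48
  rw [sgnVec_sq 2 (Finset.empty_subset _), dodW_card]
  norm_num

theorem dodX_norm : sqNorm (dodX : GolayPt → ℤ) = 32 :=
  (sgn4_min (some 0) (some 1) (by decide) {some 0, some 1} (Finset.Subset.refl _)).2

theorem dodV_val {i : GolayPt} (hi : dodW i ≠ 0) : (dodV : GolayPt → ℤ) i = 2 :=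
  sgnVec_of_mem_sdiff (Finset.mem_sdiff.2 ⟨(mem_support₂ dodW i).2 hi, Finset.notMem_empty _⟩)

theorem dodV_val0 {i : GolayPt} (hi : dodW i = 0) : (dodV : GolayPt → ℤ) i = 0 := by
  show sgnVec 2 (support₂ dodW) ∅ i = 0
  have hnot : i ∉ support₂ dodW := by
    rw [mem_support₂]
    exact fun h => h hi
  unfold sgnVec
  rw [if_neg (Finset.notMem_empty i), if_neg hnot]

theorem dodVX : dotInt (dodV : GolayPt → ℤ) (dodX : GolayPt → ℤ) = -16 := by
  show dotInt (dodV : GolayPt → ℤ) (sgnVec 4 {some 0, some 1} {some 0, some 1}) = -16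
  have v1 : sgnVec 4 ({some 0, some 1} : Finset GolayPt) {some 0, some 1} (some 0) = -4 := by
    decide
  have v2 : sgnVec 4 ({some 0, some 1} : Finset GolayPt) {some 0, some 1} (some 1) = -4 := by
    decide
  rw [dot_sgnVec_pair _ 4 (some 0) (some 1) (by decide) {some 0, some 1}
    (Finset.Subset.refl _), v1, v2, dodV_val dodW_zero, dodV_val dodW_one]
  norm_num

theorem dodC_mem : support₂ (1 + dodW) ∈ supports (golayCode : Set (GolayPt → ZMod 2)) :=
  ⟨1 + dodW, golayCode.add_mem one_mem_golay dodW_mem, rfl⟩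

/-- the sign change on the complementary dodecad -/
def dodG : Co0 := co0Sign (support₂ (1 + dodW)) dodC_mem

theorem dodG_apply (y : leechLattice) (i : GolayPt) :
    (((dodG : Equiv.Perm leechLattice) y : leechLattice) : GolayPt → ℤ) i =
      if dodW i = 0 then -(y : GolayPt → ℤ) i else (y : GolayPt → ℤ) i := by
  show (((co0Sign (support₂ (1 + dodW)) dodC_mem : Equiv.Perm leechLattice) y :
      leechLattice) : GolayPt → ℤ) i = _
  rw [co0Sign_apply]
  by_cases hi : dodW i = 0
  · rw [if_pos ((mem_dodC i).2 hi), if_pos hi]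
  · rw [if_neg (fun h => hi ((mem_dodC i).1 h)), if_neg hi]

theorem dodG_fix (y : leechLattice) (h : ∀ i, dodW i = 0 → (y : GolayPt → ℤ) i = 0) :
    (dodG : Equiv.Perm leechLattice) y = y := by
  apply Subtype.ext
  funext i
  rw [dodG_apply]
  by_cases hi : dodW i = 0
  · rw [if_pos hi, h i hi, neg_zero]
  · rw [if_neg hi]

theorem dodG_fixV : (dodG : Equiv.Perm leechLattice) dodV = dodV :=
  dodG_fix dodV (fun _ hi => dodV_val0 hi)

theorem dodG_fixX : (dodG : Equiv.Perm leechLattice) dodX = dodX := by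
  apply dodG_fix
  intro i hi
  have hi0 : i ≠ some 0 := by
    intro h
    rw [h] at hi
    exact dodW_zero hi
  have hi1 : i ≠ some 1 := by
    intro h
    rw [h] at hi
    exact dodW_one hi
  show sgnVec 4 {some 0, some 1} {some 0, some 1} i = 0
  unfold sgnVec
  simp [hi0, hi1]

theorem dodG_fixW : (dodG : Equiv.Perm leechLattice) dodWv = dodWv := by
  show (dodG : Equiv.Perm leechLattice) (-(dodV + dodX)) = -(dodV + dodX)
  rw [co0_map_neg, dodG.2.1, dodG_fixV, dodG_fixX]

theorem dodG_sq : dodG * dodG = 1 := by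
  apply Subtype.ext
  apply Equiv.ext
  intro y
  apply Subtype.ext
  funext i
  show (((dodG : Equiv.Perm leechLattice) ((dodG : Equiv.Perm leechLattice) y) : leechLattice) :
    GolayPt → ℤ) i = (y : GolayPt → ℤ) i
  rw [dodG_apply, dodG_apply]
  by_cases hi : dodW i = 0
  · rw [if_pos hi, if_pos hi, neg_neg]
  · rw [if_neg hi, if_neg hi]

/-- no minimal vector of inner product 24 with `dodV` is fixed -/
theorem dod_nofix (t : leechLattice) (ht : sqNorm (t : GolayPt → ℤ) = 32)
    (h24 : dotInt (dodV : GolayPt → ℤ) (t : GolayPt → ℤ) = 24) :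
    (dodG : Equiv.Perm leechLattice) t ≠ t := by
  intro hfix
  have hz : ∀ i, dodW i = 0 → (t : GolayPt → ℤ) i = 0 := by
    intro i hi
    have h := congrFun (congrArg Subtype.val hfix) i
    rw [dodG_apply, if_pos hi] at h
    omega
  have hsum : ∑ i, (t : GolayPt → ℤ) i = 12 := by
    have e : ∀ i : GolayPt, (dodV : GolayPt → ℤ) i * (t : GolayPt → ℤ) i =
        2 * (t : GolayPt → ℤ) i := by
      intro i
      by_cases hi : dodW i = 0
      · rw [hz i hi]
        ring
      · rw [dodV_val hi]
    unfold dotInt at h24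
    rw [Finset.sum_congr rfl (fun i _ => e i), ← Finset.mul_sum] at h24
    omega
  have hnone := hz none dodW_none
  rcases classify golayCode golayLike one_mem_golay (mem_leechSetOf.1 t.2) ht with
    ⟨U, V, hVU, hU, e⟩ | ⟨c, hc, hc8, V, hV, hVe, e⟩ | ⟨p, c, hc, e⟩
  · rw [e, sgnVec_sum 4 hVU, hU] at hsum
    push_cast at hsum
    omega
  · have hcard : (support₂ c).card = 8 := by rw [← hammingNorm_eq_card, hc8]
    rw [e, sgnVec_sum 2 hV, hcard] at hsum
    obtain ⟨k, hk⟩ := hVe
    rw [hk] at hsum
    push_cast at hsum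
    omega
  · rw [e] at hnone
    have h := oddMin_odd p c none
    rw [hnone] at h
    norm_num at h

/-- some involution of the joint stabiliser has no fixed point among the 100 vectors -/
theorem hs_invol (v w : leechLattice) (hv : sqNorm (v : GolayPt → ℤ) = 48)
    (hw : sqNorm (w : GolayPt → ℤ) = 48)
    (hvw : dotInt (v : GolayPt → ℤ) (w : GolayPt → ℤ) = -32) :
    ∃ g : Co0, g • v = v ∧ g • w = w ∧ orderOf g = 2 ∧ ∀ x ∈ hsSet v w, g • x ≠ x := by
  obtain ⟨hxn, h16, he⟩ := hs_aux v w hv hw hvw
  obtain ⟨h, e1, e2⟩ := pair_trans16 v (-(v + w)) dodV dodX hv dodV_norm hxn dodX_norm h16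
    dodVX
  have e1' : (h : Equiv.Perm leechLattice) v = dodV := e1
  have e2' : (h : Equiv.Perm leechLattice) (-(v + w)) = dodX := e2
  have e3 : (h : Equiv.Perm leechLattice) w = dodWv := by
    rw [co0_map_neg, h.2.1, e1'] at e2'
    show (h : Equiv.Perm leechLattice) w = -(dodV + dodX)
    rw [← e2']
    abel
  have hnofix : ∀ x ∈ hsSet v w, (h⁻¹ * dodG * h) • x ≠ x := by
    intro x hx hfix
    have hfix' : ((h⁻¹ : Co0) : Equiv.Perm leechLattice) ((dodG : Equiv.Perm leechLattice)
      ((h : Equiv.Perm leechLattice) x)) = x := hfix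
    have h2 := congrArg (h : Equiv.Perm leechLattice) hfix'
    have h3 : (h : Equiv.Perm leechLattice) (((h⁻¹ : Co0) : Equiv.Perm leechLattice)
        ((dodG : Equiv.Perm leechLattice) ((h : Equiv.Perm leechLattice) x))) =
        (dodG : Equiv.Perm leechLattice) ((h : Equiv.Perm leechLattice) x) :=
      Equiv.apply_symm_apply (h : Equiv.Perm leechLattice) _
    rw [h3] at h2
    exact dod_nofix ((h : Equiv.Perm leechLattice) x) ((h.2.2 x).trans hx.1)
      ((dot_map h v dodV x e1').trans hx.2.1) h2
  have h100 : (hsSet v w).ncard = 100 := hs_count v w hv hw hvw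
  obtain ⟨x₀, hx₀⟩ : (hsSet v w).Nonempty := by
    apply Set.nonempty_of_ncard_ne_zero
    rw [h100]
    norm_num
  refine ⟨h⁻¹ * dodG * h, ?_, ?_, ?_, hnofix⟩
  · show ((h⁻¹ : Co0) : Equiv.Perm leechLattice) ((dodG : Equiv.Perm leechLattice)
      ((h : Equiv.Perm leechLattice) v)) = v
    rw [e1', dodG_fixV, ← e1']
    exact Equiv.symm_apply_apply (h : Equiv.Perm leechLattice) v
  · show ((h⁻¹ : Co0) : Equiv.Perm leechLattice) ((dodG : Equiv.Perm leechLattice)
      ((h : Equiv.Perm leechLattice) w)) = w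
    rw [e3, dodG_fixW, ← e3]
    exact Equiv.symm_apply_apply (h : Equiv.Perm leechLattice) w
  · apply orderOf_eq_prime
    · rw [pow_two]
      have e : h⁻¹ * dodG * h * (h⁻¹ * dodG * h) = h⁻¹ * (dodG * dodG) * h := by group
      rw [e, dodG_sq]
      group
    · intro h1
      apply hnofix x₀ hx₀
      rw [h1]
      exact one_smul _ x₀

end Cfsg.Agent.Helper28
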