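import Cfsg.Agent.Helper28.McLTrans

/-!
The rank 3 action on the 100 minimal vectors attached to two vectors of sum of squares 48 with
inner product `-32`: in the standard frame the 100 vectors are `(4,4,0,…)`, the 22 vectors
`(1,1,…,-3,…)` and the 77 vectors `2·1_O` for the octads `O` through the two base points, and
the permutations of the code fixing the two base points act transitively on the last two
families.
-/

set_option autoImplicit false

namespace Cfsg.Agent.Helper28

open Cfsg
open scoped Pointwise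

/-- the 100 vectors -/
def hsSet (v w : leechLattice) : Set leechLattice :=
  {x | sqNorm (x : GolayPt → ℤ) = 32 ∧ dotInt (v : GolayPt → ℤ) (x : GolayPt → ℤ) = 24 ∧
    dotInt (w : GolayPt → ℤ) (x : GolayPt → ℤ) = -24}

theorem dot_map (g : Co0) (a b t : leechLattice) (e : (g : Equiv.Perm leechLattice) a = b) :
    dotInt (b : GolayPt → ℤ) (((g : Equiv.Perm leechLattice) t : leechLattice) : GolayPt → ℤ) =
      dotInt (a : GolayPt → ℤ) (t : GolayPt → ℤ) := by
  rw [← e]
  exact co0_dot (g : Equiv.Perm leechLattice) g.2 a t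

theorem dot_inv (g : Co0) (a b y : leechLattice) (e : (g : Equiv.Perm leechLattice) a = b) :
    dotInt (a : GolayPt → ℤ)
      ((((g⁻¹ : Co0) : Equiv.Perm leechLattice) y : leechLattice) : GolayPt → ℤ) =
      dotInt (b : GolayPt → ℤ) (y : GolayPt → ℤ) := by
  have e3 : (g : Equiv.Perm leechLattice) (((g⁻¹ : Co0) : Equiv.Perm leechLattice) y) = y :=
    Equiv.apply_symm_apply (g : Equiv.Perm leechLattice) y
  have h := co0_dot (g : Equiv.Perm leechLattice) g.2 a
    (((g⁻¹ : Co0) : Equiv.Perm leechLattice) y)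
  rw [e3, e] at h
  exact h.symm

/-- all configurations `(v, w, x)` are conjugate -/
theorem hs_conj (v w x v' w' x' : leechLattice) (hv : sqNorm (v : GolayPt → ℤ) = 48)
    (hw : sqNorm (w : GolayPt → ℤ) = 48)
    (hvw : dotInt (v : GolayPt → ℤ) (w : GolayPt → ℤ) = -32) (hx : x ∈ hsSet v w)
    (hv' : sqNorm (v' : GolayPt → ℤ) = 48) (hw' : sqNorm (w' : GolayPt → ℤ) = 48)
    (hvw' : dotInt (v' : GolayPt → ℤ) (w' : GolayPt → ℤ) = -32) (hx' : x' ∈ hsSet v' w') :
    ∃ g : Co0, (g : Equiv.Perm leechLattice) v = v' ∧ (g : Equiv.Perm leechLattice) w = w' ∧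
      (g : Equiv.Perm leechLattice) x = x' := by
  obtain ⟨hyn, h16, he⟩ := hs_aux v w hv hw hvw
  obtain ⟨hyn', h16', he'⟩ := hs_aux v' w' hv' hw' hvw'
  have h0 : dotInt ((-(v + w) : leechLattice) : GolayPt → ℤ) (x : GolayPt → ℤ) = 0 := by
    rw [he x, hx.2.1, hx.2.2]
    norm_num
  have h0' : dotInt ((-(v' + w') : leechLattice) : GolayPt → ℤ) (x' : GolayPt → ℤ) = 0 := by
    rw [he' x', hx'.2.1, hx'.2.2]
    norm_num
  obtain ⟨k1, k2, k3⟩ := triple_data v (-(v + w)) x hv hx.1 hx.2.1 h16 h0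
  obtain ⟨k1', k2', k3'⟩ := triple_data v' (-(v' + w')) x' hv' hx'.1 hx'.2.1 h16' h0'
  obtain ⟨g, e1, e2, e3⟩ := triple_trans (-(v + w)) (v - x) x (-(v' + w')) (v' - x') x' hyn k1
    hx.1 hyn' k1' hx'.1 h0 k2 k3 h0' k2' k3'
  have e1' : (g : Equiv.Perm leechLattice) (-(v + w)) = -(v' + w') := e1
  have e2' : (g : Equiv.Perm leechLattice) (v - x) = v' - x' := e2
  have e3' : (g : Equiv.Perm leechLattice) x = x' := e3
  have gv : (g : Equiv.Perm leechLattice) v = v' := by
    have eu : v = (v - x) + x := by abel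
    conv_lhs => rw [eu]
    rw [g.2.1, e2', e3']
    abel
  have gw : (g : Equiv.Perm leechLattice) w = w' := by
    rw [co0_map_neg, g.2.1, gv] at e1'
    exact add_left_cancel (neg_injective e1')
  exact ⟨g, gv, gw, e3'⟩

/-! ### the standard configuration -/

/-- the second standard vector of sum of squares 48 -/
def stdW : leechLattice := -(stdU + stdX)

theorem stdW_norm : sqNorm (stdW : GolayPt → ℤ) = 48 := by
  show sqNorm ((-(stdU + stdX) : leechLattice) : GolayPt → ℤ) = 48
  rw [AddSubgroup.coe_neg, sqNorm_neg', AddSubgroup.coe_add, sqNorm_add, stdU_norm, stdX_norm,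
    std_dot]
  norm_num

theorem stdUW : dotInt (stdU : GolayPt → ℤ) (stdW : GolayPt → ℤ) = -32 := by
  show dotInt (stdU : GolayPt → ℤ) ((-(stdU + stdX) : leechLattice) : GolayPt → ℤ) = -32
  rw [AddSubgroup.coe_neg, dot_neg_right, AddSubgroup.coe_add, dot_add_right, dot_self,
    stdU_norm, std_dot]
  norm_num

theorem stdW_dot (t : leechLattice) :
    dotInt (stdW : GolayPt → ℤ) (t : GolayPt → ℤ) =
      -(dotInt (stdU : GolayPt → ℤ) (t : GolayPt → ℤ) +
        dotInt (stdX : GolayPt → ℤ) (t : GolayPt → ℤ)) := by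
  show dotInt ((-(stdU + stdX) : leechLattice) : GolayPt → ℤ) (t : GolayPt → ℤ) = _
  rw [AddSubgroup.coe_neg, dot_neg_left, AddSubgroup.coe_add, dot_add_left]

theorem std_mem_iff (t : leechLattice) :
    t ∈ hsSet stdU stdW ↔ sqNorm (t : GolayPt → ℤ) = 32 ∧
      dotInt (fiveVec none) (t : GolayPt → ℤ) = 24 ∧
      dotInt (sgnVec 4 {none, some 0} {none}) (t : GolayPt → ℤ) = 0 := by
  constructor
  · rintro ⟨h1, h2, h3⟩
    rw [stdW_dot t, h2] at h3
    have h3' : dotInt (stdX : GolayPt → ℤ) (t : GolayPt → ℤ) = 0 := by linarith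
    exact ⟨h1, h2, h3'⟩
  · rintro ⟨h1, h2, h3⟩
    have h2' : dotInt (stdU : GolayPt → ℤ) (t : GolayPt → ℤ) = 24 := h2
    have h3' : dotInt (stdX : GolayPt → ℤ) (t : GolayPt → ℤ) = 0 := h3
    refine ⟨h1, h2', ?_⟩
    rw [stdW_dot t, h2', h3']
    norm_num

theorem mclV_mem : mclV ∈ hsSet stdU stdW := by
  rw [std_mem_iff]
  have v1 : sgnVec 4 ({none, some 0} : Finset GolayPt) ∅ none = 4 := by decide
  have v2 : sgnVec 4 ({none, some 0} : Finset GolayPt) ∅ (some 0) = 4 := by decide
  have hc2 : ({none, some 0} : Finset GolayPt).card = 2 := Finset.card_pair (by decide)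
  refine ⟨mclV_norm, ?_, ?_⟩
  · show dotInt (fiveVec none) (sgnVec 4 {none, some 0} ∅) = 24
    rw [dot_five, v1, sgnVec_sum 4 (Finset.empty_subset _), hc2, Finset.card_empty]
    norm_num
  · show dotInt (sgnVec 4 {none, some 0} {none}) (sgnVec 4 {none, some 0} ∅) = 0
    rw [dot_stdX, v1, v2]
    norm_num

/-- the three shapes of the 100 vectors in the standard frame -/
theorem std_class (y : GolayPt → ℤ) (hy : y ∈ leechLattice) (hn : sqNorm y = 32)
    (h5 : dotInt (fiveVec none) y = 24)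
    (h0 : dotInt (sgnVec 4 {none, some 0} {none}) y = 0) :
    y = sgnVec 4 {none, some 0} ∅ ∨
    (∃ p : GolayPt, p ≠ none ∧ p ≠ some 0 ∧ y = oddMin p 0) ∨
    (∃ c ∈ golayCode, hammingNorm c = 8 ∧ none ∈ support₂ c ∧ some 0 ∈ support₂ c ∧
      y = sgnVec 2 (support₂ c) ∅) := by
  rw [dot_five] at h5
  rw [dot_stdX] at h0
  rcases classify golayCode golayLike one_mem_golay (mem_leechSetOf.1 hy) hn with
    ⟨U, V, hVU, hU, rfl⟩ | ⟨c, hc, hc8, V, hV, hVe, rfl⟩ | ⟨p, c, hc, rfl⟩
  · left
    have hs := sgnVec_sum 4 hVU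
    rw [hU] at hs
    push_cast at hs
    have hval : sgnVec 4 U V none = 4 := by
      rcases sgnVec_vals 4 U V none with h | h | h
      · exfalso
        rw [h] at h5
        omega
      · exact h
      · exfalso
        rw [h] at h5
        omega
    rw [hval] at h5 h0
    have hval0 : sgnVec 4 U V (some 0) = 4 := by omega
    have hVc : V.card = 0 := by omega
    have hV0 : V = ∅ := Finset.card_eq_zero.1 hVc
    subst hV0
    have hnU : none ∈ U := by
      by_contra hnot
      unfold sgnVec at hval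
      rw [if_neg (Finset.notMem_empty _), if_neg hnot] at hval
      norm_num at hval
    have h0U : some 0 ∈ U := by
      by_contra hnot
      unfold sgnVec at hval0
      rw [if_neg (Finset.notMem_empty _), if_neg hnot] at hval0
      norm_num at hval0
    have hc2 : ({none, some 0} : Finset GolayPt).card = 2 := Finset.card_pair (by decide)
    have hUeq : ({none, some 0} : Finset GolayPt) = U := by
      apply Finset.eq_of_subset_of_card_le
      · intro i hi
        rcases Finset.mem_insert.1 hi with h | h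
        · rw [h]
          exact hnU
        · rw [Finset.mem_singleton.1 h]
          exact h0U
      · rw [hU, hc2]
    rw [hUeq]
  · right
    right
    have hcard : (support₂ c).card = 8 := by rw [← hammingNorm_eq_card, hc8]
    have hs := sgnVec_sum 2 hV
    rw [hcard] at hs
    push_cast at hs
    have hval : sgnVec 2 (support₂ c) V none = 2 := by
      rcases sgnVec_vals 2 (support₂ c) V none with h | h | h
      · exfalso
        rw [h] at h5
        omega
      · exact h
      · exfalso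
        rw [h] at h5
        omega
    rw [hval] at h5 h0
    have hval0 : sgnVec 2 (support₂ c) V (some 0) = 2 := by omega
    have hVc : V.card = 0 := by omega
    have hV0 : V = ∅ := Finset.card_eq_zero.1 hVc
    subst hV0
    have hnU : none ∈ support₂ c := by
      by_contra hnot
      unfold sgnVec at hval
      rw [if_neg (Finset.notMem_empty _), if_neg hnot] at hval
      norm_num at hval
    have h0U : some 0 ∈ support₂ c := by
      by_contra hnot
      unfold sgnVec at hval0
      rw [if_neg (Finset.notMem_empty _), if_neg hnot] at hval0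
      norm_num at hval0
    exact ⟨c, hc, hc8, hnU, h0U, rfl⟩
  · right
    left
    rw [oddMin_sum Cfsg.Agent.Helper3.card_golayPt p c] at h5
    have hpn : p ≠ none := by
      intro hp
      subst hp
      have hne : (some 0 : GolayPt) ≠ none := by decide
      have ha : oddMin none c none = if c none = 0 then -3 else 3 := by
        unfold oddMin
        rw [if_pos rfl]
      have hb : oddMin none c (some 0) = if c (some 0) = 0 then 1 else -1 := by
        unfold oddMin
        rw [if_neg hne]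
      rw [ha, hb] at h0
      split_ifs at h0 <;> omega
    have hp0 : p ≠ some 0 := by
      intro hp
      subst hp
      have hne : (none : GolayPt) ≠ some 0 := by decide
      have ha : oddMin (some 0) c none = if c none = 0 then 1 else -1 := by
        unfold oddMin
        rw [if_neg hne]
      have hb : oddMin (some 0) c (some 0) = if c (some 0) = 0 then -3 else 3 := by
        unfold oddMin
        rw [if_pos rfl]
      rw [ha, hb] at h0
      split_ifs at h0 <;> omega
    have ha : oddMin p c none = if c none = 0 then 1 else -1 := by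
      unfold oddMin
      rw [if_neg (fun h => hpn h.symm)]
    rw [ha] at h5
    have hc0 : c = 0 := by
      apply hammingNorm_eq_zero.1
      by_cases hcn : c none = 0
      · rw [if_pos hcn] at h5
        by_cases hcp : c p = 0
        · have hcp' : ¬ c p ≠ 0 := fun h => h hcp
          rw [if_neg hcp'] at h5
          omega
        · have hcp' : c p ≠ 0 := hcp
          rw [if_pos hcp'] at h5
          rcases golayLike.hwt c hc with hw | hw | hw | hw | hw <;> omega
      · exfalso
        rw [if_neg hcn] at h5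
        have hpos : hammingNorm c ≠ 0 := by
          intro h
          rw [hammingNorm_eq_zero.1 h] at hcn
          exact hcn rfl
        by_cases hcp : c p = 0
        · have hcp' : ¬ c p ≠ 0 := fun h => h hcp
          rw [if_neg hcp'] at h5
          omega
        · have hcp' : c p ≠ 0 := hcp
          rw [if_pos hcp'] at h5
          omega
    exact ⟨p, hpn, hp0, by rw [hc0]⟩

theorem dot_mclV_odd (p : GolayPt) (hp1 : p ≠ none) (hp2 : p ≠ some 0) :
    4 * oddMin p (0 : GolayPt → ZMod 2) none + 4 * oddMin p (0 : GolayPt → ZMod 2) (some 0) =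
      8 := by
  rw [oddMin_zero, oddMin_zero, if_neg (Ne.symm hp1), if_neg (Ne.symm hp2)]
  norm_num

theorem dot_mclV_oct (c : GolayPt → ZMod 2) (hcn : none ∈ support₂ c)
    (hc0 : some 0 ∈ support₂ c) :
    4 * sgnVec 2 (support₂ c) ∅ none + 4 * sgnVec 2 (support₂ c) ∅ (some 0) = 16 := by
  rw [sgnVec_of_mem_sdiff (Finset.mem_sdiff.2 ⟨hcn, Finset.notMem_empty _⟩),
    sgnVec_of_mem_sdiff (Finset.mem_sdiff.2 ⟨hc0, Finset.notMem_empty _⟩)]
  norm_num

/-! ### permutations fixing the two base points -/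

theorem five_with_base (O : Finset GolayPt) (hn : none ∈ O) (h0 : some 0 ∈ O)
    (hcard : O.card = 8) :
    ∃ x : ℕ → GolayPt, x 0 = none ∧ x 1 = some 0 ∧ (∀ i < 5, x i ∈ O) ∧
      (∀ i < 5, ∀ j < 5, x i = x j → i = j) := by
  have h6 := Finset.le_card_sdiff ({none, some 0} : Finset GolayPt) O
  have h2c : ({none, some 0} : Finset GolayPt).card = 2 := Finset.card_pair (by decide)
  rw [hcard, h2c] at h6
  obtain ⟨p1, hp1, p2, hp2, p3, hp3, h12, h13, h23⟩ :=
    exists_three (O \ {none, some 0}) (by omega)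
  rw [Finset.mem_sdiff, Finset.mem_insert, Finset.mem_singleton] at hp1 hp2 hp3
  push Not at hp1 hp2 hp3
  obtain ⟨m1, n1, z1⟩ := hp1
  obtain ⟨m2, n2, z2⟩ := hp2
  obtain ⟨m3, n3, z3⟩ := hp3
  refine ⟨fun i => if i = 0 then none else if i = 1 then some 0 else if i = 2 then p1
    else if i = 3 then p2 else p3, by simp, by simp, ?_, ?_⟩
  · intro i hi
    interval_cases i <;> simp [hn, h0, m1, m2, m3]
  · intro i hi j hj hij
    interval_cases i <;> interval_cases j <;> simp_all

/-- the permutations of the code fixing the two base points are transitive on the octads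
through them -/
theorem m24_fix2_oct (O O' : Finset GolayPt) (hO : O ∈ octads) (hO' : O' ∈ octads)
    (hn : none ∈ O) (h0 : some 0 ∈ O) (hn' : none ∈ O') (h0' : some 0 ∈ O') :
    ∃ σ ∈ M24, σ none = none ∧ σ (some 0) = some 0 ∧ σ • O' = O := by
  obtain ⟨x, hx0, hx1, hxm, hxi⟩ := five_with_base O hn h0 hO.2
  obtain ⟨y, hy0, hy1, hym, hyi⟩ := five_with_base O' hn' h0' hO'.2
  obtain ⟨g, hg, hgx⟩ := Cfsg.Agent.Helper3.M24_trans 5 le_rfl x hxi
  obtain ⟨g', hg', hgy⟩ := Cfsg.Agent.Helper3.M24_trans 5 le_rfl y hyi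
  have hmem : g * g'⁻¹ ∈ M24 := M24.mul_mem hg (M24.inv_mem hg')
  have hmap : ∀ i < 5, (g * g'⁻¹) (y i) = x i := by
    intro i hi
    rw [Equiv.Perm.mul_apply, ← hgy i hi, Cfsg.Agent.Helper3.perm_inv_apply, hgx i hi]
  refine ⟨g * g'⁻¹, hmem, ?_, ?_, ?_⟩
  · have h := hmap 0 (by norm_num)
    rw [hy0, hx0] at h
    exact h
  · have h := hmap 1 (by norm_num)
    rw [hy1, hx1] at h
    exact h
  · apply Cfsg.Agent.Helper3.octad_eq_of_inter (Cfsg.Agent.Helper3.smul_mem_octads hmem hO') hO
    have hsub : Finset.image x (Finset.range 5) ⊆ (g * g'⁻¹) • O' ∩ O := by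
      intro p hp
      obtain ⟨i, hi, rfl⟩ := Finset.mem_image.1 hp
      rw [Finset.mem_range] at hi
      rw [Finset.mem_inter]
      refine ⟨?_, hxm i hi⟩
      have h1 : x i = (g * g'⁻¹) • y i := (hmap i hi).symm
      rw [h1]
      exact (Finset.smul_mem_smul_finset_iff _).2 (hym i hi)
    have hcard : (Finset.image x (Finset.range 5)).card = 5 := by
      rw [Finset.card_image_of_injOn, Finset.card_range]
      intro i hi j hj h
      exact hxi i (Finset.mem_range.1 hi) j (Finset.mem_range.1 hj) h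
    rw [← hcard]
    exact Finset.card_le_card hsub

theorem perm_fix_stdU (σ : Equiv.Perm GolayPt) (hσ : σ ∈ M24) (e1 : σ none = none) :
    (co0Perm σ hσ : Equiv.Perm leechLattice) stdU = stdU := by
  apply Subtype.ext
  funext i
  rw [co0Perm_apply]
  show (if σ i = none then (5 : ℤ) else 1) = if i = none then (5 : ℤ) else 1
  by_cases hi : i = none
  · rw [if_pos hi, if_pos (by rw [hi, e1])]
  · rw [if_neg hi, if_neg (fun h => hi (σ.injective (h.trans e1.symm)))]

theorem perm_fix_stdX (σ : Equiv.Perm GolayPt) (hσ : σ ∈ M24) (e1 : σ none = none)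
    (e2 : σ (some 0) = some 0) :
    (co0Perm σ hσ : Equiv.Perm leechLattice) stdX = stdX := by
  apply fixBase_perm σ hσ e1 e2
  intro i hi1 hi2
  show sgnVec 4 {none, some 0} {none} i = 0
  unfold sgnVec
  simp [hi1, hi2]

theorem perm_fix_stdW (σ : Equiv.Perm GolayPt) (hσ : σ ∈ M24) (e1 : σ none = none)
    (e2 : σ (some 0) = some 0) :
    (co0Perm σ hσ : Equiv.Perm leechLattice) stdW = stdW := by
  show (co0Perm σ hσ : Equiv.Perm leechLattice) (-(stdU + stdX)) = -(stdU + stdX)
  rw [co0_map_neg, (co0Perm σ hσ).2.1, perm_fix_stdU σ hσ e1, perm_fix_stdX σ hσ e1 e2]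

theorem perm_fix_mclV (σ : Equiv.Perm GolayPt) (hσ : σ ∈ M24) (e1 : σ none = none)
    (e2 : σ (some 0) = some 0) :
    (co0Perm σ hσ : Equiv.Perm leechLattice) mclV = mclV :=
  fixBase_std (fixBase_perm σ hσ e1 e2) mclV rfl

/-- transitivity in the standard frame -/
theorem std_stab_trans (a b : leechLattice) (ha : a ∈ hsSet stdU stdW)
    (hb : b ∈ hsSet stdU stdW) (hane : a ≠ mclV) (hbne : b ≠ mclV)
    (hiff : dotInt (mclV : GolayPt → ℤ) (a : GolayPt → ℤ) = 8 ↔
      dotInt (mclV : GolayPt → ℤ) (b : GolayPt → ℤ) = 8) :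
    ∃ σ : Equiv.Perm GolayPt, ∃ hσ : σ ∈ M24, σ none = none ∧ σ (some 0) = some 0 ∧
      (co0Perm σ hσ : Equiv.Perm leechLattice) a = b := by
  obtain ⟨an, a5, a0⟩ := (std_mem_iff a).1 ha
  obtain ⟨bn, b5, b0⟩ := (std_mem_iff b).1 hb
  have da : dotInt (mclV : GolayPt → ℤ) (a : GolayPt → ℤ) =
      4 * (a : GolayPt → ℤ) none + 4 * (a : GolayPt → ℤ) (some 0) := base_dot _
  have db : dotInt (mclV : GolayPt → ℤ) (b : GolayPt → ℤ) =
      4 * (b : GolayPt → ℤ) none + 4 * (b : GolayPt → ℤ) (some 0) := base_dot _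
  rcases std_class _ a.2 an a5 a0 with ea | ⟨p, hp1, hp2, ea⟩ | ⟨c, hc, hc8, hcn, hc0, ea⟩
  · exact absurd (Subtype.ext ea) hane
  · have da8 : dotInt (mclV : GolayPt → ℤ) (a : GolayPt → ℤ) = 8 := by
      rw [da, ea]
      exact dot_mclV_odd p hp1 hp2
    rcases std_class _ b.2 bn b5 b0 with
      eb | ⟨p', hp1', hp2', eb⟩ | ⟨c', hc', hc8', hcn', hc0', eb⟩
    · exact absurd (Subtype.ext eb) hbne
    · obtain ⟨σ, hσ, e1, e2, e3⟩ := m24_fix2 p p' hp1 hp2 hp1' hp2'
      refine ⟨σ, hσ, e1, e2, ?_⟩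
      apply Subtype.ext
      funext i
      rw [co0Perm_apply, ea, eb, oddMin_zero, oddMin_zero]
      by_cases hi : i = p'
      · rw [if_pos hi, if_pos (by rw [hi, e3])]
      · rw [if_neg hi, if_neg (fun h => hi (σ.injective (h.trans e3.symm)))]
    · exfalso
      have h8 := hiff.1 da8
      rw [db, eb, dot_mclV_oct c' hcn' hc0'] at h8
      norm_num at h8
  · have da16 : dotInt (mclV : GolayPt → ℤ) (a : GolayPt → ℤ) = 16 := by
      rw [da, ea]
      exact dot_mclV_oct c hcn hc0
    rcases std_class _ b.2 bn b5 b0 with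
      eb | ⟨p', hp1', hp2', eb⟩ | ⟨c', hc', hc8', hcn', hc0', eb⟩
    · exact absurd (Subtype.ext eb) hbne
    · exfalso
      have db8 : dotInt (mclV : GolayPt → ℤ) (b : GolayPt → ℤ) = 8 := by
        rw [db, eb]
        exact dot_mclV_odd p' hp1' hp2'
      have h8 := hiff.2 db8
      rw [da16] at h8
      norm_num at h8
    · obtain ⟨σ, hσ, e1, e2, e3⟩ := m24_fix2_oct (support₂ c) (support₂ c')
        ⟨⟨c, hc, rfl⟩, by rw [← hammingNorm_eq_card, hc8]⟩
        ⟨⟨c', hc', rfl⟩, by rw [← hammingNorm_eq_card, hc8']⟩ hcn hc0 hcn' hc0'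
      refine ⟨σ, hσ, e1, e2, ?_⟩
      apply Subtype.ext
      funext i
      rw [co0Perm_apply, ea, eb]
      have hiff2 : σ i ∈ support₂ c ↔ i ∈ support₂ c' := by
        rw [← e3]
        have hsm : σ i = σ • i := rfl
        rw [hsm]
        exact Finset.smul_mem_smul_finset_iff σ
      unfold sgnVec
      by_cases hi : i ∈ support₂ c'
      · rw [if_neg (Finset.notMem_empty (σ i)), if_pos (hiff2.2 hi),
          if_neg (Finset.notMem_empty i), if_pos hi]
      · rw [if_neg (Finset.notMem_empty (σ i)), if_neg (fun h => hi (hiff2.1 h)),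
          if_neg (Finset.notMem_empty i), if_neg hi]

/-! ### the counts -/

theorem pts22 : (Finset.univ.filter (fun p : GolayPt => p ≠ none ∧ p ≠ some 0)).card = 22 := by
  decide +kernel

theorem std_sub_ncard :
    {y : leechLattice | y ∈ hsSet stdU stdW ∧
      dotInt (mclV : GolayPt → ℤ) (y : GolayPt → ℤ) = 8}.ncard = 22 := by
  have hmem : ∀ p : GolayPt, oddMin p (0 : GolayPt → ZMod 2) ∈ leechLattice :=
    fun p => mem_of_LP (LP_oddMin golayCode golayLike golayCode.zero_mem p)
  have hinj : Function.Injective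
      (fun p : GolayPt => (⟨oddMin p 0, hmem p⟩ : leechLattice)) := by
    intro p q hpq
    exact (oddMin_inj (congrArg Subtype.val hpq)).1
  have hset : {y : leechLattice | y ∈ hsSet stdU stdW ∧
      dotInt (mclV : GolayPt → ℤ) (y : GolayPt → ℤ) = 8} =
      (fun p : GolayPt => (⟨oddMin p 0, hmem p⟩ : leechLattice)) ''
        ((Finset.univ.filter (fun p : GolayPt => p ≠ none ∧ p ≠ some 0) : Finset GolayPt) :
          Set GolayPt) := by
    ext y
    constructor
    · rintro ⟨hy, hd⟩
      obtain ⟨yn, y5, y0⟩ := (std_mem_iff y).1 hy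
      have dy : dotInt (mclV : GolayPt → ℤ) (y : GolayPt → ℤ) =
          4 * (y : GolayPt → ℤ) none + 4 * (y : GolayPt → ℤ) (some 0) := base_dot _
      rcases std_class _ y.2 yn y5 y0 with ey | ⟨p, hp1, hp2, ey⟩ | ⟨c, hc, hc8, hcn, hc0, ey⟩
      · exfalso
        have v1 : sgnVec 4 ({none, some 0} : Finset GolayPt) ∅ none = 4 := by decide
        have v2 : sgnVec 4 ({none, some 0} : Finset GolayPt) ∅ (some 0) = 4 := by decide
        rw [dy, ey, v1, v2] at hd
        norm_num at hd
      · refine ⟨p, ?_, Subtype.ext ey.symm⟩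
        rw [Finset.mem_coe, Finset.mem_filter]
        exact ⟨Finset.mem_univ p, hp1, hp2⟩
      · exfalso
        rw [dy, ey, dot_mclV_oct c hcn hc0] at hd
        norm_num at hd
    · rintro ⟨p, hp, rfl⟩
      rw [Finset.mem_coe, Finset.mem_filter] at hp
      obtain ⟨_, hp1, hp2⟩ := hp
      refine ⟨(std_mem_iff _).2 ⟨oddMin_sq Cfsg.Agent.Helper3.card_golayPt p 0, ?_, ?_⟩, ?_⟩
      · show dotInt (fiveVec none) (oddMin p (0 : GolayPt → ZMod 2)) = 24
        rw [dot_five, oddMin_zero, if_neg (Ne.symm hp1),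
          oddMin_sum Cfsg.Agent.Helper3.card_golayPt]
        have h0 : hammingNorm (0 : GolayPt → ZMod 2) = 0 := by simp
        rw [h0]
        simp
      · show dotInt (sgnVec 4 {none, some 0} {none}) (oddMin p (0 : GolayPt → ZMod 2)) = 0
        rw [dot_stdX, oddMin_zero, oddMin_zero, if_neg (Ne.symm hp1), if_neg (Ne.symm hp2)]
        norm_num
      · show dotInt (sgnVec 4 {none, some 0} ∅) (oddMin p (0 : GolayPt → ZMod 2)) = 8
        rw [base_dot]
        exact dot_mclV_odd p hp1 hp2
  rw [hset, Set.ncard_image_of_injective _ hinj, Set.ncard_coe_finset]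
  exact pts22

/-- the 22 vectors of inner product 8 with a given one of the 100 -/
theorem hs_sub_ncard (v w x : leechLattice) (hv : sqNorm (v : GolayPt → ℤ) = 48)
    (hw : sqNorm (w : GolayPt → ℤ) = 48)
    (hvw : dotInt (v : GolayPt → ℤ) (w : GolayPt → ℤ) = -32) (hx : x ∈ hsSet v w) :
    {y : leechLattice | y ∈ hsSet v w ∧
      dotInt (x : GolayPt → ℤ) (y : GolayPt → ℤ) = 8}.ncard = 22 := by
  obtain ⟨g, e1, e2, e3⟩ := hs_conj v w x stdU stdW mclV hv hw hvw hx stdU_norm stdW_norm stdUW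
    mclV_mem
  have himg : (g : Equiv.Perm leechLattice) '' {y : leechLattice | y ∈ hsSet v w ∧
      dotInt (x : GolayPt → ℤ) (y : GolayPt → ℤ) = 8} =
      {y : leechLattice | y ∈ hsSet stdU stdW ∧
        dotInt (mclV : GolayPt → ℤ) (y : GolayPt → ℤ) = 8} := by
    ext y
    constructor
    · rintro ⟨t, ⟨⟨t1, t2, t3⟩, t4⟩, rfl⟩
      exact ⟨⟨(g.2.2 t).trans t1, (dot_map g v stdU t e1).trans t2,
        (dot_map g w stdW t e2).trans t3⟩, (dot_map g x mclV t e3).trans t4⟩
    · rintro ⟨⟨y1, y2, y3⟩, y4⟩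
      exact ⟨((g⁻¹ : Co0) : Equiv.Perm leechLattice) y,
        ⟨⟨((g⁻¹ : Co0).2.2 y).trans y1, (dot_inv g v stdU y e1).trans y2,
          (dot_inv g w stdW y e2).trans y3⟩, (dot_inv g x mclV y e3).trans y4⟩,
        Equiv.apply_symm_apply (g : Equiv.Perm leechLattice) y⟩
  rw [← Set.ncard_image_of_injective _ (g : Equiv.Perm leechLattice).injective, himg]
  exact std_sub_ncard

/-- the 77 other vectors -/
theorem hs_rest_ncard (v w x : leechLattice) (hv : sqNorm (v : GolayPt → ℤ) = 48)
    (hw : sqNorm (w : GolayPt → ℤ) = 48)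
    (hvw : dotInt (v : GolayPt → ℤ) (w : GolayPt → ℤ) = -32) (hx : x ∈ hsSet v w) :
    {y : leechLattice | y ∈ hsSet v w ∧ y ≠ x ∧
      dotInt (x : GolayPt → ℤ) (y : GolayPt → ℤ) ≠ 8}.ncard = 77 := by
  have h100 : (hsSet v w).ncard = 100 := hs_count v w hv hw hvw
  have hfin : (hsSet v w).Finite := Set.finite_of_ncard_ne_zero (by rw [h100]; norm_num)
  have h22 := hs_sub_ncard v w x hv hw hvw hx
  have hxx : dotInt (x : GolayPt → ℤ) (x : GolayPt → ℤ) = 32 := by
    rw [dot_self]
    exact hx.1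
  have hsplit : hsSet v w = {y : leechLattice | y ∈ hsSet v w ∧
      dotInt (x : GolayPt → ℤ) (y : GolayPt → ℤ) = 8} ∪
      ({y : leechLattice | y ∈ hsSet v w ∧ y ≠ x ∧
        dotInt (x : GolayPt → ℤ) (y : GolayPt → ℤ) ≠ 8} ∪ {x}) := by
    ext y
    constructor
    · intro hy
      by_cases h8 : dotInt (x : GolayPt → ℤ) (y : GolayPt → ℤ) = 8
      · exact Or.inl ⟨hy, h8⟩
      · by_cases hyx : y = x
        · exact Or.inr (Or.inr hyx)
        · exact Or.inr (Or.inl ⟨hy, hyx, h8⟩)
    · rintro (h | h | h)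
      · exact h.1
      · exact h.1
      · have h' : y = x := h
        rw [h']
        exact hx
  have hfA : {y : leechLattice | y ∈ hsSet v w ∧
      dotInt (x : GolayPt → ℤ) (y : GolayPt → ℤ) = 8}.Finite :=
    hfin.subset (fun y hy => hy.1)
  have hfB : {y : leechLattice | y ∈ hsSet v w ∧ y ≠ x ∧
      dotInt (x : GolayPt → ℤ) (y : GolayPt → ℤ) ≠ 8}.Finite :=
    hfin.subset (fun y hy => hy.1)
  have hfx : ({x} : Set leechLattice).Finite := Set.finite_singleton x
  have hd1 : Disjoint {y : leechLattice | y ∈ hsSet v w ∧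
      dotInt (x : GolayPt → ℤ) (y : GolayPt → ℤ) = 8}
      ({y : leechLattice | y ∈ hsSet v w ∧ y ≠ x ∧
        dotInt (x : GolayPt → ℤ) (y : GolayPt → ℤ) ≠ 8} ∪ {x}) := by
    rw [Set.disjoint_left]
    rintro y hy (h | h)
    · exact h.2.2 hy.2
    · have h' : y = x := h
      have h8 := hy.2
      rw [h', hxx] at h8
      norm_num at h8
  have hd2 : Disjoint {y : leechLattice | y ∈ hsSet v w ∧ y ≠ x ∧
      dotInt (x : GolayPt → ℤ) (y : GolayPt → ℤ) ≠ 8} ({x} : Set leechLattice) := by
    rw [Set.disjoint_left]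
    intro y hy h
    exact hy.2.1 h
  rw [hsplit, Set.ncard_union_eq hd1 hfA (hfB.union hfx), Set.ncard_union_eq hd2 hfB hfx,
    Set.ncard_singleton, h22] at h100
  omega

/-- the stabiliser of one of the 100 vectors is transitive on each of the two classes of the
others -/
theorem hs_rank_trans (v w x y y' : leechLattice) (hv : sqNorm (v : GolayPt → ℤ) = 48)
    (hw : sqNorm (w : GolayPt → ℤ) = 48)
    (hvw : dotInt (v : GolayPt → ℤ) (w : GolayPt → ℤ) = -32) (hx : x ∈ hsSet v w)
    (hy : y ∈ hsSet v w) (hy' : y' ∈ hsSet v w) (hyx : y ≠ x) (hyx' : y' ≠ x)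
    (hiff : dotInt (x : GolayPt → ℤ) (y : GolayPt → ℤ) = 8 ↔
      dotInt (x : GolayPt → ℤ) (y' : GolayPt → ℤ) = 8) :
    ∃ g : Co0, g • v = v ∧ g • w = w ∧ g • x = x ∧ g • y = y' := by
  obtain ⟨g, e1, e2, e3⟩ := hs_conj v w x stdU stdW mclV hv hw hvw hx stdU_norm stdW_norm stdUW
    mclV_mem
  have my : (g : Equiv.Perm leechLattice) y ∈ hsSet stdU stdW :=
    ⟨(g.2.2 y).trans hy.1, (dot_map g v stdU y e1).trans hy.2.1,
      (dot_map g w stdW y e2).trans hy.2.2⟩
  have my' : (g : Equiv.Perm leechLattice) y' ∈ hsSet stdU stdW :=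
    ⟨(g.2.2 y').trans hy'.1, (dot_map g v stdU y' e1).trans hy'.2.1,
      (dot_map g w stdW y' e2).trans hy'.2.2⟩
  have ny : (g : Equiv.Perm leechLattice) y ≠ mclV :=
    fun h => hyx ((g : Equiv.Perm leechLattice).injective (h.trans e3.symm))
  have ny' : (g : Equiv.Perm leechLattice) y' ≠ mclV :=
    fun h => hyx' ((g : Equiv.Perm leechLattice).injective (h.trans e3.symm))
  have hiff' : dotInt (mclV : GolayPt → ℤ)
      (((g : Equiv.Perm leechLattice) y : leechLattice) : GolayPt → ℤ) = 8 ↔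
      dotInt (mclV : GolayPt → ℤ)
        (((g : Equiv.Perm leechLattice) y' : leechLattice) : GolayPt → ℤ) = 8 := by
    rw [dot_map g x mclV y e3, dot_map g x mclV y' e3]
    exact hiff
  obtain ⟨σ, hσ, s1, s2, s3⟩ := std_stab_trans _ _ my my' ny ny' hiff'
  have fU := perm_fix_stdU σ hσ s1
  have fW := perm_fix_stdW σ hσ s1 s2
  have fV := perm_fix_mclV σ hσ s1 s2
  refine ⟨g⁻¹ * co0Perm σ hσ * g, ?_, ?_, ?_, ?_⟩
  · show ((g⁻¹ : Co0) : Equiv.Perm leechLattice) ((co0Perm σ hσ : Equiv.Perm leechLattice)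
      ((g : Equiv.Perm leechLattice) v)) = v
    rw [e1, fU, ← e1]
    exact Equiv.symm_apply_apply (g : Equiv.Perm leechLattice) v
  · show ((g⁻¹ : Co0) : Equiv.Perm leechLattice) ((co0Perm σ hσ : Equiv.Perm leechLattice)
      ((g : Equiv.Perm leechLattice) w)) = w
    rw [e2, fW, ← e2]
    exact Equiv.symm_apply_apply (g : Equiv.Perm leechLattice) w
  · show ((g⁻¹ : Co0) : Equiv.Perm leechLattice) ((co0Perm σ hσ : Equiv.Perm leechLattice)
      ((g : Equiv.Perm leechLattice) x)) = x
    rw [e3, fV, ← e3]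
    exact Equiv.symm_apply_apply (g : Equiv.Perm leechLattice) x
  · show ((g⁻¹ : Co0) : Equiv.Perm leechLattice) ((co0Perm σ hσ : Equiv.Perm leechLattice)
      ((g : Equiv.Perm leechLattice) y)) = y'
    rw [s3]
    exact Equiv.symm_apply_apply (g : Equiv.Perm leechLattice) y'

end Cfsg.Agent.Helper28
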