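import Cfsg.Agent.Helper28.OctadAbs

/-!
The lattice built from a Golay-like code (abstract index type): the defining set is an
additive subgroup, and its non-zero vectors have sum of squares at least 32.
-/

set_option autoImplicit false
set_option linter.unusedSectionVars false

namespace Cfsg.Agent.Helper28

open Cfsg

theorem intCast_zmod2_eq_zero (n : ℤ) : ((n : ℤ) : ZMod 2) = 0 ↔ n % 2 = 0 := by
  rw [ZMod.intCast_zmod_eq_zero_iff_dvd]
  push_cast
  omega

theorem zmod2_add_one_ne_zero (a : ZMod 2) : a + 1 ≠ 0 ↔ a = 0 := by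
  revert a
  decide

section LeechAbs

variable {ι : Type*} [Fintype ι] [DecidableEq ι] (C : Submodule (ZMod 2) (ι → ZMod 2))

/-- the defining set of the lattice, for a general code -/
def leechSetOf : Set (ι → ℤ) :=
  {x | ∃ m : ℤ, (∀ i, x i ≡ m [ZMOD 2]) ∧ (∑ i, x i ≡ 4 * m [ZMOD 8]) ∧
    ∀ k : ℤ, (Finset.univ.filter fun i => x i ≡ k [ZMOD 4]) ∈
      supports (C : Set (ι → ZMod 2))}

/-- the word of half-differences -/
def halfWord (x : ι → ℤ) (m : ℤ) : ι → ZMod 2 := fun i => (((x i - m) / 2 : ℤ) : ZMod 2)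

/-- the lattice condition with parity representative `m` -/
def LP (x : ι → ℤ) (m : ℤ) : Prop :=
  (∀ i, x i ≡ m [ZMOD 2]) ∧ (∑ i, x i ≡ 4 * m [ZMOD 8]) ∧ halfWord x m ∈ C

theorem filter_eq_support (x : ι → ℤ) (m k : ℤ) (hpar : ∀ i, x i ≡ m [ZMOD 2])
    (hk : k ≡ m + 2 [ZMOD 4]) :
    (Finset.univ.filter fun i => x i ≡ k [ZMOD 4]) = support₂ (halfWord x m) := by
  ext i
  have h1 := hpar i
  simp only [Finset.mem_filter, Finset.mem_univ, true_and, mem_support₂, halfWord]
  rw [Ne, intCast_zmod2_eq_zero]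
  unfold Int.ModEq at *
  omega

theorem filter_eq_support_add (x : ι → ℤ) (m k : ℤ) (hpar : ∀ i, x i ≡ m [ZMOD 2])
    (hk : k ≡ m [ZMOD 4]) :
    (Finset.univ.filter fun i => x i ≡ k [ZMOD 4]) = support₂ (halfWord x m + 1) := by
  ext i
  have h1 := hpar i
  simp only [Finset.mem_filter, Finset.mem_univ, true_and, mem_support₂, Pi.add_apply,
    Pi.one_apply]
  rw [zmod2_add_one_ne_zero]
  simp only [halfWord]
  rw [intCast_zmod2_eq_zero]
  unfold Int.ModEq at *
  omega

theorem filter_eq_empty (x : ι → ℤ) (m k : ℤ) (hpar : ∀ i, x i ≡ m [ZMOD 2])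
    (hk : ¬ k ≡ m [ZMOD 2]) :
    (Finset.univ.filter fun i => x i ≡ k [ZMOD 4]) = ∅ := by
  ext i
  have h1 := hpar i
  simp only [Finset.mem_filter, Finset.mem_univ, true_and, Finset.notMem_empty, iff_false]
  unfold Int.ModEq at *
  omega

theorem leech_iff (h1 : (1 : ι → ZMod 2) ∈ C) (x : ι → ℤ) :
    x ∈ leechSetOf C ↔ ∃ m, LP C x m := by
  constructor
  · rintro ⟨m, hpar, hsum, hk⟩
    refine ⟨m, hpar, hsum, ?_⟩
    have h2 := hk (m + 2)
    rw [filter_eq_support x m (m + 2) hpar (Int.ModEq.refl _)] at h2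
    obtain ⟨c, hc, hcs⟩ := h2
    have e : c = halfWord x m := by rw [← ind_support₂ c, hcs, ind_support₂]
    rw [← e]
    exact hc
  · rintro ⟨m, hpar, hsum, ha⟩
    refine ⟨m, hpar, hsum, ?_⟩
    intro k
    by_cases h2 : k ≡ m [ZMOD 2]
    · by_cases h4 : k ≡ m [ZMOD 4]
      · rw [filter_eq_support_add x m k hpar h4]
        exact ⟨_, C.add_mem ha h1, rfl⟩
      · have h4' : k ≡ m + 2 [ZMOD 4] := by
          unfold Int.ModEq at *
          omega
        rw [filter_eq_support x m k hpar h4']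
        exact ⟨_, ha, rfl⟩
    · rw [filter_eq_empty x m k hpar h2]
      refine ⟨0, C.zero_mem, ?_⟩
      ext i
      simp [mem_support₂]

theorem LP_zero : LP C (0 : ι → ℤ) 0 := by
  refine ⟨fun i => Int.ModEq.refl _, ?_, ?_⟩
  · simp
  · have e : halfWord (0 : ι → ℤ) 0 = 0 := by
      ext i
      simp [halfWord]
    rw [e]
    exact C.zero_mem

theorem LP_add {x y : ι → ℤ} {m n : ℤ} (hx : LP C x m) (hy : LP C y n) :
    LP C (x + y) (m + n) := by
  obtain ⟨hpx, hsx, hax⟩ := hx
  obtain ⟨hpy, hsy, hay⟩ := hy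
  refine ⟨?_, ?_, ?_⟩
  · intro i
    have h1 := hpx i
    have h2 := hpy i
    simp only [Pi.add_apply]
    unfold Int.ModEq at *
    omega
  · simp only [Pi.add_apply, Finset.sum_add_distrib]
    unfold Int.ModEq at *
    omega
  · have e : halfWord (x + y) (m + n) = halfWord x m + halfWord y n := by
      ext i
      have h1 := hpx i
      have h2 := hpy i
      unfold Int.ModEq at h1 h2
      simp only [halfWord, Pi.add_apply]
      rw [← Int.cast_add]
      congr 1
      omega
    rw [e]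
    exact C.add_mem hax hay

theorem LP_neg {x : ι → ℤ} {m : ℤ} (hx : LP C x m) : LP C (-x) (-m) := by
  obtain ⟨hpx, hsx, hax⟩ := hx
  refine ⟨?_, ?_, ?_⟩
  · intro i
    have h1 := hpx i
    simp only [Pi.neg_apply]
    unfold Int.ModEq at *
    omega
  · simp only [Pi.neg_apply, Finset.sum_neg_distrib]
    unfold Int.ModEq at *
    omega
  · have e : halfWord (-x) (-m) = - halfWord x m := by
      ext i
      have h1 := hpx i
      unfold Int.ModEq at h1
      simp only [halfWord, Pi.neg_apply]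
      rw [← Int.cast_neg]
      congr 1
      omega
    rw [e]
    exact C.neg_mem hax

/-- the lattice as an additive subgroup -/
def leechSub (h1 : (1 : ι → ZMod 2) ∈ C) : AddSubgroup (ι → ℤ) where
  carrier := leechSetOf C
  zero_mem' := (leech_iff C h1 0).2 ⟨0, LP_zero C⟩
  add_mem' := by
    intro x y hx hy
    obtain ⟨m, hm⟩ := (leech_iff C h1 x).1 hx
    obtain ⟨n, hn⟩ := (leech_iff C h1 y).1 hy
    exact (leech_iff C h1 (x + y)).2 ⟨m + n, LP_add C hm hn⟩
  neg_mem' := by
    intro x hx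
    obtain ⟨m, hm⟩ := (leech_iff C h1 x).1 hx
    exact (leech_iff C h1 (-x)).2 ⟨-m, LP_neg C hm⟩

theorem closure_leechSetOf (h1 : (1 : ι → ZMod 2) ∈ C) :
    AddSubgroup.closure (leechSetOf C) = leechSub C h1 :=
  AddSubgroup.closure_eq (leechSub C h1)

theorem LP_mod (h1 : (1 : ι → ZMod 2) ∈ C) {x : ι → ℤ} {m : ℤ} (h : LP C x m) :
    LP C x (m % 2) := by
  obtain ⟨hpar, hsum, ha⟩ := h
  refine ⟨?_, ?_, ?_⟩
  · intro i
    have := hpar i
    unfold Int.ModEq at *
    omega
  · unfold Int.ModEq at *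
    omega
  · have e : halfWord x (m % 2) = halfWord x m + ((m / 2 : ℤ) : ZMod 2) • (1 : ι → ZMod 2) := by
      ext i
      have := hpar i
      unfold Int.ModEq at this
      simp only [halfWord, Pi.add_apply, Pi.smul_apply, Pi.one_apply, smul_eq_mul, mul_one]
      rw [← Int.cast_add]
      congr 1
      omega
    rw [e]
    exact C.add_mem ha (C.smul_mem _ h1)

theorem norm_even (h : GolayLike C) {x : ι → ℤ} (hx : LP C x 0) (h0 : x ≠ 0) :
    32 ≤ ∑ i, x i ^ 2 := by
  obtain ⟨hpar, hsum, ha⟩ := hx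
  have hev : ∀ i, x i % 2 = 0 := by
    intro i
    have := hpar i
    unfold Int.ModEq at this
    omega
  by_cases hz : halfWord x 0 = 0
  · have h4 : ∀ i, x i % 4 = 0 := by
      intro i
      have h5 := congrFun hz i
      simp only [halfWord, sub_zero, Pi.zero_apply] at h5
      rw [intCast_zmod2_eq_zero] at h5
      have := hev i
      omega
    have hd : ∀ i, (32 : ℤ) ∣ x i ^ 2 - 4 * x i := by
      intro i
      obtain ⟨y, hy⟩ : ∃ y, x i = 4 * y := ⟨x i / 4, by have := h4 i; omega⟩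
      obtain ⟨t, ht⟩ := Int.even_mul_pred_self y
      exact ⟨t, by rw [hy]; linear_combination 16 * ht⟩
    have hd2 : (32 : ℤ) ∣ ∑ i, (x i ^ 2 - 4 * x i) := Finset.dvd_sum (fun i _ => hd i)
    rw [Finset.sum_sub_distrib, ← Finset.mul_sum] at hd2
    have hs8 : (∑ i, x i) % 8 = 0 := by
      unfold Int.ModEq at hsum
      omega
    have hpos : 0 < ∑ i, x i ^ 2 := by
      obtain ⟨j, hj⟩ : ∃ j, x j ≠ 0 := by
        by_contra hcon
        push Not at hcon
        exact h0 (funext hcon)
      have h1 : x j ^ 2 ≤ ∑ i, x i ^ 2 :=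
        Finset.single_le_sum (fun i _ => sq_nonneg (x i)) (Finset.mem_univ j)
      have h2 : 0 < x j ^ 2 := lt_of_le_of_ne (sq_nonneg _) (Ne.symm (pow_ne_zero 2 hj))
      omega
    omega
  · have h8 := h.hmin _ ha hz
    rw [hammingNorm_eq_card] at h8
    have hge : ∀ i ∈ support₂ (halfWord x 0), (4 : ℤ) ≤ x i ^ 2 := by
      intro i hi
      rw [mem_support₂] at hi
      simp only [halfWord, sub_zero] at hi
      rw [Ne, intCast_zmod2_eq_zero] at hi
      have := hev i
      have h2 : x i ≤ -2 ∨ 2 ≤ x i := by omega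
      rcases h2 with h2 | h2 <;> nlinarith
    have hc8 : (8 : ℤ) ≤ ((support₂ (halfWord x 0)).card : ℤ) := by exact_mod_cast h8
    calc (32 : ℤ) ≤ (support₂ (halfWord x 0)).card • (4 : ℤ) := by
          rw [nsmul_eq_mul]
          linarith
      _ ≤ ∑ i ∈ support₂ (halfWord x 0), x i ^ 2 := Finset.card_nsmul_le_sum _ _ _ hge
      _ ≤ ∑ i, x i ^ 2 := Finset.sum_le_sum_of_subset_of_nonneg (Finset.subset_univ _)
          (fun i _ _ => sq_nonneg (x i))

theorem norm_odd (h : GolayLike C) {x : ι → ℤ} (hx : LP C x 1) : 32 ≤ ∑ i, x i ^ 2 := by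
  obtain ⟨hpar, hsum, ha⟩ := hx
  have hodd : ∀ i, x i % 2 = 1 := by
    intro i
    have := hpar i
    unfold Int.ModEq at this
    omega
  have hge1 : ∀ i, (1 : ℤ) ≤ x i ^ 2 := by
    intro i
    have := hodd i
    have h2 : x i ≤ -1 ∨ 1 ≤ x i := by omega
    rcases h2 with h2 | h2 <;> nlinarith
  by_cases hbig : ∃ j, 9 ≤ x j ^ 2
  · obtain ⟨j, hj⟩ := hbig
    have hsplit := Finset.add_sum_erase Finset.univ (fun i => x i ^ 2) (Finset.mem_univ j)
    have hrest : (Finset.univ.erase j).card • (1 : ℤ) ≤ ∑ i ∈ Finset.univ.erase j, x i ^ 2 :=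
      Finset.card_nsmul_le_sum _ _ _ (fun i _ => hge1 i)
    have hc : (Finset.univ.erase j).card = 23 := by
      rw [Finset.card_erase_of_mem (Finset.mem_univ j), Finset.card_univ, h.hcard]
    rw [hc] at hrest
    simp only [nsmul_eq_mul, Nat.cast_ofNat, mul_one] at hrest
    linarith
  · push Not at hbig
    have hpm : ∀ i, x i = 1 ∨ x i = -1 := by
      intro i
      have h9 := hbig i
      have := hodd i
      have h3 : -3 < x i ∧ x i < 3 := by
        constructor <;> nlinarith
      omega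
    have hsupp : ∀ i, (halfWord x 1 i ≠ 0 ↔ x i = -1) := by
      intro i
      simp only [halfWord]
      rw [Ne, intCast_zmod2_eq_zero]
      rcases hpm i with h' | h' <;> rw [h'] <;> norm_num
    have hsumx : ∑ i, x i = 24 - 2 * (hammingNorm (halfWord x 1) : ℤ) := by
      have e : ∀ i, x i = 1 - 2 * (if halfWord x 1 i ≠ 0 then 1 else 0) := by
        intro i
        by_cases hi : halfWord x 1 i ≠ 0
        · rw [if_pos hi, (hsupp i).1 hi]
          norm_num
        · rw [if_neg hi]
          rcases hpm i with h' | h'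
          · rw [h']
            norm_num
          · exact absurd ((hsupp i).2 h') hi
      rw [Finset.sum_congr rfl (fun i _ => e i), Finset.sum_sub_distrib, ← Finset.mul_sum,
        Finset.sum_boole]
      simp only [Finset.sum_const, Finset.card_univ, h.hcard, nsmul_eq_mul, mul_one]
      rfl
    have hw := h.hwt _ ha
    unfold Int.ModEq at hsum
    rw [hsumx] at hsum
    rcases hw with hw | hw | hw | hw | hw <;> rw [hw] at hsum <;> omega

/-- non-zero lattice vectors have sum of squares at least 32 -/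
theorem leech_min (h : GolayLike C) (h1 : (1 : ι → ZMod 2) ∈ C) (x : ι → ℤ)
    (hx : x ∈ leechSetOf C) (h0 : x ≠ 0) : 32 ≤ ∑ i, x i ^ 2 := by
  obtain ⟨m, hm⟩ := (leech_iff C h1 x).1 hx
  have hm' := LP_mod C h1 hm
  rcases Int.emod_two_eq_zero_or_one m with h2 | h2
  · rw [h2] at hm'
    exact norm_even C h hm' h0
  · rw [h2] at hm'
    exact norm_odd C h hm'

/-- two short vectors congruent modulo twice the lattice -/
theorem short_congruent (L : AddSubgroup (ι → ℤ))
    (hmin : ∀ z ∈ L, z ≠ 0 → 32 ≤ ∑ i, z i ^ 2)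
    (x y : ι → ℤ) (hx : x ∈ L) (hy : y ∈ L) (hxy : x ≠ y)
    (hxn : ∑ i, x i ^ 2 ≤ 64) (hyn : ∑ i, y i ^ 2 ≤ 64) (hc : ∃ z ∈ L, x - y = 2 • z) :
    x = -y ∨ (∑ i, x i ^ 2 = 64 ∧ ∑ i, y i ^ 2 = 64 ∧ ∑ i, x i * y i = 0) := by
  obtain ⟨z, hz, hzx⟩ := hc
  by_cases hneg : x = -y
  · exact Or.inl hneg
  · right
    have hz0 : z ≠ 0 := by
      intro h
      rw [h, smul_zero] at hzx
      exact hxy (sub_eq_zero.1 hzx)
    have hz' : z + y ∈ L := L.add_mem hz hy
    have hpt : ∀ i, x i - y i = 2 * z i := by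
      intro i
      have := congrFun hzx i
      simpa using this
    have hz'0 : z + y ≠ 0 := by
      intro h
      apply hneg
      funext i
      have h1 := congrFun h i
      have h2 := hpt i
      simp only [Pi.add_apply, Pi.zero_apply] at h1
      simp only [Pi.neg_apply]
      linarith
    have n1 := hmin z hz hz0
    have n2 := hmin _ hz' hz'0
    simp only [Pi.add_apply] at n2
    have e1 : ∑ i, (x i - y i) ^ 2 = 4 * ∑ i, z i ^ 2 := by
      rw [Finset.mul_sum]
      apply Finset.sum_congr rfl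
      intro i _
      rw [hpt i]
      ring
    have e2 : ∑ i, (x i + y i) ^ 2 = 4 * ∑ i, (z i + y i) ^ 2 := by
      rw [Finset.mul_sum]
      apply Finset.sum_congr rfl
      intro i _
      have := hpt i
      have e : x i + y i = 2 * (z i + y i) := by linarith
      rw [e]
      ring
    have e3 : ∑ i, (x i - y i) ^ 2 = ∑ i, x i ^ 2 + ∑ i, y i ^ 2 - 2 * ∑ i, x i * y i := by
      rw [Finset.mul_sum, ← Finset.sum_add_distrib, ← Finset.sum_sub_distrib]
      apply Finset.sum_congr rfl
      intro i _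
      ring
    have e4 : ∑ i, (x i + y i) ^ 2 = ∑ i, x i ^ 2 + ∑ i, y i ^ 2 + 2 * ∑ i, x i * y i := by
      rw [Finset.mul_sum, ← Finset.sum_add_distrib, ← Finset.sum_add_distrib]
      apply Finset.sum_congr rfl
      intro i _
      ring
    refine ⟨by linarith, by linarith, by linarith⟩

end LeechAbs

end Cfsg.Agent.Helper28
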