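import Cfsg.Agent.Helper28.Digits
import Cfsg.Agent.Helper28.Co0Trans34
import Cfsg.Agent.Helper3.Golay.Weights

/-!
The number of lattice vectors of a given sum of squares (at most 64) with coordinates in a
prescribed set, as an explicit natural number expression.
-/

set_option autoImplicit false
set_option linter.unusedSectionVars false

namespace Cfsg.Agent.Helper28

open Cfsg

section Abs

variable {ι : Type*} [Fintype ι] [DecidableEq ι] (C : Submodule (ZMod 2) (ι → ZMod 2))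

/-- the allowed coordinate values in a residue class modulo 4 -/
def valSet (A : Finset ℤ) (m t : ℤ) : Finset ℤ := A.filter (fun v => (v - m - t) % 4 = 0)

/-- the family of allowed value sets attached to a word -/
def valFam (A : Finset ℤ) (m : ℤ) (c : ι → ZMod 2) (i : ι) : Finset ℤ :=
  if c i = 0 then valSet A m 0 else valSet A m 2

/-- the number attached to a value set -/
def valP (A : Finset ℤ) (m t : ℤ) : ℕ := ∑ v ∈ valSet A m t, bigB ^ expo v

/-- the number of vectors of parity `m`, sum of squares `N`, with a given word of weight `k` -/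
def gCnt (A : Finset ℤ) (m k N : ℕ) : ℕ :=
  ∑ j ∈ Finset.range 22,
    (valP A (m : ℤ) 0 ^ (24 - k) * valP A (m : ℤ) 2 ^ k) /
      bigB ^ (256 * N + (8 * j + 4 * m)) % bigB

/-- the vectors with a given word -/
def fiberF (A : Finset ℤ) (m N : ℕ) (c : ι → ZMod 2) : Finset (ι → ℤ) :=
  (Fintype.piFinset (valFam A (m : ℤ) c)).filter
    (fun x => ∑ i, x i ^ 2 = (N : ℤ) ∧ (∑ i, x i) % 8 = ((4 * m : ℕ) : ℤ))

theorem valSet_card (A : Finset ℤ) (hA : A ⊆ Finset.Icc (-8) 8) (m : ℕ) (hm : m ≤ 1) (t : ℤ)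
    (ht : t = 0 ∨ t = 2) : (valSet A (m : ℤ) t).card ≤ 5 := by
  have h1 : (valSet A (m : ℤ) t).card ≤ (valSet (Finset.Icc (-8) 8) (m : ℤ) t).card :=
    Finset.card_le_card (Finset.filter_subset_filter _ hA)
  have h2 : (valSet (Finset.Icc (-8) 8) (m : ℤ) t).card ≤ 5 := by
    interval_cases m <;> rcases ht with rfl | rfl <;> decide +kernel
  exact h1.trans h2

theorem card_fiberF (hι : Fintype.card ι = 24) (A : Finset ℤ) (hA : A ⊆ Finset.Icc (-8) 8)
    (m N : ℕ) (hm : m ≤ 1) (c : ι → ZMod 2) :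
    (fiberF A m N c).card = gCnt A m (hammingNorm c) N := by
  unfold fiberF gCnt
  rw [fiber_card hι (valFam A (m : ℤ) c) (fun i => by
    unfold valFam
    split_ifs
    · exact valSet_card A hA m hm 0 (Or.inl rfl)
    · exact valSet_card A hA m hm 2 (Or.inr rfl)) N (4 * m) (by omega)]
  have hp : ∀ i, ∑ v ∈ valFam A (m : ℤ) c i, bigB ^ expo v =
      if c i = 0 then valP A (m : ℤ) 0 else valP A (m : ℤ) 2 := by
    intro i
    unfold valFam valP
    split_ifs <;> rfl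
  rw [Finset.prod_congr rfl (fun i _ => hp i), prod_ite_pow, hι]

theorem mem_valFam (A : Finset ℤ) (m : ℤ) (c : ι → ZMod 2) (x : ι → ℤ) (i : ι) :
    x i ∈ valFam A m c i ↔ x i ∈ A ∧ x i ≡ m [ZMOD 2] ∧ halfWord x m i = c i := by
  unfold valFam valSet
  simp only [halfWord]
  by_cases h : c i = 0
  · rw [if_pos h, Finset.mem_filter, h, intCast_zmod2_eq_zero]
    unfold Int.ModEq
    constructor
    · rintro ⟨h1, h2⟩
      exact ⟨h1, by omega, by omega⟩
    · rintro ⟨h1, h2, h3⟩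
      exact ⟨h1, by omega⟩
  · rw [if_neg h, Finset.mem_filter, zmod2_eq_one_of_ne _ h, intCast_zmod2_eq_one]
    unfold Int.ModEq
    constructor
    · rintro ⟨h1, h2⟩
      exact ⟨h1, by omega, by omega⟩
    · rintro ⟨h1, h2, h3⟩
      exact ⟨h1, by omega⟩

theorem mem_fiberF (A : Finset ℤ) (m N : ℕ) (c : ι → ZMod 2) (x : ι → ℤ) :
    x ∈ fiberF A m N c ↔
      ((∀ i, x i ∈ A) ∧ (∀ i, x i ≡ (m : ℤ) [ZMOD 2]) ∧ halfWord x (m : ℤ) = c) ∧
        ∑ i, x i ^ 2 = (N : ℤ) ∧ (∑ i, x i) % 8 = ((4 * m : ℕ) : ℤ) := by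
  unfold fiberF
  rw [Finset.mem_filter, Fintype.mem_piFinset]
  refine and_congr ?_ Iff.rfl
  constructor
  · intro h
    refine ⟨fun i => ((mem_valFam A m c x i).1 (h i)).1,
      fun i => ((mem_valFam A m c x i).1 (h i)).2.1, ?_⟩
    funext i
    exact ((mem_valFam A m c x i).1 (h i)).2.2
  · rintro ⟨h1, h2, h3⟩ i
    exact (mem_valFam A m c x i).2 ⟨h1 i, h2 i, congrFun h3 i⟩

theorem LP_set_eq (A : Finset ℤ) (m N : ℕ) (hm : m ≤ 1) (Cf : Finset (ι → ZMod 2))
    (hCf : ∀ c, c ∈ Cf ↔ c ∈ C) :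
    {x : ι → ℤ | LP C x (m : ℤ) ∧ ∑ i, x i ^ 2 = (N : ℤ) ∧ ∀ i, x i ∈ A} =
      ↑(Cf.biUnion (fiberF A m N)) := by
  ext x
  rw [Finset.mem_coe, Finset.mem_biUnion]
  constructor
  · rintro ⟨⟨hpar, hsum, hc⟩, hn, hA⟩
    refine ⟨halfWord x (m : ℤ), (hCf _).2 hc,
      (mem_fiberF A m N _ x).2 ⟨⟨hA, hpar, rfl⟩, hn, ?_⟩⟩
    unfold Int.ModEq at hsum
    push_cast
    omega
  · rintro ⟨c, hc, hx⟩
    obtain ⟨⟨hA, hpar, rfl⟩, hn, hs⟩ := (mem_fiberF A m N c x).1 hx
    refine ⟨⟨hpar, ?_, (hCf _).1 hc⟩, hn, hA⟩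
    unfold Int.ModEq
    push_cast at hs
    omega

/-- the number of lattice vectors of parity `m` -/
theorem count_LP (hι : Fintype.card ι = 24) (A : Finset ℤ) (hA : A ⊆ Finset.Icc (-8) 8)
    (m N : ℕ) (hm : m ≤ 1) (Cf : Finset (ι → ZMod 2)) (hCf : ∀ c, c ∈ Cf ↔ c ∈ C) :
    {x : ι → ℤ | LP C x (m : ℤ) ∧ ∑ i, x i ^ 2 = (N : ℤ) ∧ ∀ i, x i ∈ A}.ncard =
      ∑ c ∈ Cf, gCnt A m (hammingNorm c) N := by
  rw [LP_set_eq C A m N hm Cf hCf, Set.ncard_coe_finset, Finset.card_biUnion]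
  · exact Finset.sum_congr rfl (fun c _ => card_fiberF hι A hA m N hm c)
  · intro c _ c' _ hne
    refine Finset.disjoint_left.2 (fun x hx hx' => hne ?_)
    exact (((mem_fiberF A m N c x).1 hx).1.2.2).symm.trans
      ((mem_fiberF A m N c' x).1 hx').1.2.2

end Abs

open Classical in
/-- the code as a finite set -/
noncomputable def codeFin : Finset (GolayPt → ZMod 2) :=
  Finset.univ.filter (fun c => c ∈ golayCode)

theorem mem_codeFin (c : GolayPt → ZMod 2) : c ∈ codeFin ↔ c ∈ golayCode := by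
  unfold codeFin
  simp

theorem card_weight (k : ℕ) :
    (codeFin.filter (fun c => hammingNorm c = k)).card =
      (wordsOfWeight (golayCode : Set (GolayPt → ZMod 2)) k).ncard := by
  have e : wordsOfWeight (golayCode : Set (GolayPt → ZMod 2)) k =
      support₂ '' (↑(codeFin.filter (fun c => hammingNorm c = k)) :
        Set (GolayPt → ZMod 2)) := by
    ext b
    constructor
    · rintro ⟨⟨c, hc, rfl⟩, hb⟩
      refine ⟨c, ?_, rfl⟩
      rw [Finset.mem_coe, Finset.mem_filter, mem_codeFin]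
      exact ⟨hc, hb⟩
    · rintro ⟨c, hc, rfl⟩
      rw [Finset.mem_coe, Finset.mem_filter, mem_codeFin] at hc
      exact ⟨⟨c, hc.1, rfl⟩, hc.2⟩
  rw [e, Set.ncard_image_of_injective _
    (fun v w h => by rw [← ind_support₂ v, h, ind_support₂]), Set.ncard_coe_finset]

theorem gCount0 : Cfsg.Agent.Helper3.gCountLt 4096
    (fun k => Nat.beq (Cfsg.Agent.Helper3.gPopc (Cfsg.Agent.Helper3.gCw k)) 0) = 1 := by
  decide +kernel

theorem gCount16 : Cfsg.Agent.Helper3.gCountLt 4096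
    (fun k => Nat.beq (Cfsg.Agent.Helper3.gPopc (Cfsg.Agent.Helper3.gCw k)) 16) = 759 := by
  decide +kernel

theorem gCount24 : Cfsg.Agent.Helper3.gCountLt 4096
    (fun k => Nat.beq (Cfsg.Agent.Helper3.gPopc (Cfsg.Agent.Helper3.gCw k)) 24) = 1 := by
  decide +kernel

/-- the weight distribution of the code -/
theorem sum_weights (g : ℕ → ℕ) :
    ∑ c ∈ codeFin, g (hammingNorm c) =
      g 0 + 759 * g 8 + 2576 * g 12 + 759 * g 16 + g 24 := by
  have hmaps : ∀ c ∈ codeFin, hammingNorm c ∈ ({0, 8, 12, 16, 24} : Finset ℕ) := by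
    intro c hc
    have h := Cfsg.Agent.Helper3.golay_hammingNorm c ((mem_codeFin c).1 hc)
    simp only [Finset.mem_insert, Finset.mem_singleton]
    exact h
  have h := Finset.sum_fiberwise_of_maps_to hmaps (fun c => g (hammingNorm c))
  rw [← h]
  have hin : ∀ k ∈ ({0, 8, 12, 16, 24} : Finset ℕ),
      ∑ c ∈ codeFin.filter (fun c => hammingNorm c = k), g (hammingNorm c) =
        (wordsOfWeight (golayCode : Set (GolayPt → ZMod 2)) k).ncard * g k := by
    intro k _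
    rw [← card_weight k, ← smul_eq_mul, ← Finset.sum_const]
    exact Finset.sum_congr rfl (fun c hc => by rw [(Finset.mem_filter.1 hc).2])
  rw [Finset.sum_congr rfl hin, Finset.sum_insert (by decide), Finset.sum_insert (by decide),
    Finset.sum_insert (by decide), Finset.sum_insert (by decide), Finset.sum_singleton]
  simp only [Cfsg.Agent.Helper3.wordsOfWeight_golay_ncard, gCount0, gCount16, gCount24,
    Cfsg.Agent.Helper3.gCount8, Cfsg.Agent.Helper3.gCount12]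
  ring

/-- the number of lattice vectors of a given sum of squares with coordinates in a given set -/
theorem count_lattice (A : Finset ℤ) (hA : A ⊆ Finset.Icc (-8) 8) (N : ℕ) :
    {x : GolayPt → ℤ | x ∈ leechLattice ∧ ∑ i, x i ^ 2 = (N : ℤ) ∧ ∀ i, x i ∈ A}.ncard =
      (gCnt A 0 0 N + 759 * gCnt A 0 8 N + 2576 * gCnt A 0 12 N + 759 * gCnt A 0 16 N +
        gCnt A 0 24 N) +
      (gCnt A 1 0 N + 759 * gCnt A 1 8 N + 2576 * gCnt A 1 12 N + 759 * gCnt A 1 16 N +
        gCnt A 1 24 N) := by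
  have hset : {x : GolayPt → ℤ | x ∈ leechLattice ∧ ∑ i, x i ^ 2 = (N : ℤ) ∧ ∀ i, x i ∈ A} =
      {x : GolayPt → ℤ | LP golayCode x ((0 : ℕ) : ℤ) ∧ ∑ i, x i ^ 2 = (N : ℤ) ∧
        ∀ i, x i ∈ A} ∪
      {x : GolayPt → ℤ | LP golayCode x ((1 : ℕ) : ℤ) ∧ ∑ i, x i ^ 2 = (N : ℤ) ∧
        ∀ i, x i ∈ A} := by
    ext x
    constructor
    · rintro ⟨hx, hn, hA⟩
      rcases lp_cases hx with h | h
      · left
        refine ⟨?_, hn, hA⟩
        rw [Nat.cast_zero]
        exact h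
      · right
        refine ⟨?_, hn, hA⟩
        rw [Nat.cast_one]
        exact h
    · rintro (⟨h, hn, hA⟩ | ⟨h, hn, hA⟩)
      · exact ⟨(mem_leechLattice_iff x).2 ⟨_, h⟩, hn, hA⟩
      · exact ⟨(mem_leechLattice_iff x).2 ⟨_, h⟩, hn, hA⟩
  have hdisj : Disjoint
      {x : GolayPt → ℤ | LP golayCode x ((0 : ℕ) : ℤ) ∧ ∑ i, x i ^ 2 = (N : ℤ) ∧
        ∀ i, x i ∈ A}
      {x : GolayPt → ℤ | LP golayCode x ((1 : ℕ) : ℤ) ∧ ∑ i, x i ^ 2 = (N : ℤ) ∧
        ∀ i, x i ∈ A} := by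
    rw [Set.disjoint_left]
    rintro x ⟨h0, _, _⟩ ⟨h1, _, _⟩
    have e0 := h0.1 none
    have e1 := h1.1 none
    unfold Int.ModEq at e0 e1
    rw [Nat.cast_zero] at e0
    rw [Nat.cast_one] at e1
    omega
  have hf0 : {x : GolayPt → ℤ | LP golayCode x ((0 : ℕ) : ℤ) ∧ ∑ i, x i ^ 2 = (N : ℤ) ∧
        ∀ i, x i ∈ A}.Finite := by
    rw [LP_set_eq golayCode A 0 N (by norm_num) codeFin mem_codeFin]
    exact Finset.finite_toSet _
  have hf1 : {x : GolayPt → ℤ | LP golayCode x ((1 : ℕ) : ℤ) ∧ ∑ i, x i ^ 2 = (N : ℤ) ∧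
        ∀ i, x i ∈ A}.Finite := by
    rw [LP_set_eq golayCode A 1 N (by norm_num) codeFin mem_codeFin]
    exact Finset.finite_toSet _
  rw [hset, Set.ncard_union_eq hdisj hf0 hf1,
    count_LP golayCode golayLike.hcard A hA 0 N (by norm_num) codeFin mem_codeFin,
    count_LP golayCode golayLike.hcard A hA 1 N (by norm_num) codeFin mem_codeFin,
    sum_weights (fun k => gCnt A 0 k N), sum_weights (fun k => gCnt A 1 k N)]

end Cfsg.Agent.Helper28
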