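import Cfsg.Agent.Helper28.LeechMin

/-!
The lattice of a Golay-like code is generated by its vectors of sum of squares 32.
-/

set_option autoImplicit false
set_option linter.unusedSectionVars false

namespace Cfsg.Agent.Helper28

open Cfsg

section LeechGen

variable {ι : Type*} [Fintype ι] [DecidableEq ι] (C : Submodule (ZMod 2) (ι → ZMod 2))

theorem halfWord_add0 {x y : ι → ℤ} (hx : LP C x 0) (hy : LP C y 0) :
    halfWord (x + y) 0 = halfWord x 0 + halfWord y 0 := by
  ext i
  have h1 := hx.1 i
  have h2 := hy.1 i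
  unfold Int.ModEq at h1 h2
  simp only [halfWord, Pi.add_apply, sub_zero]
  rw [← Int.cast_add]
  congr 1
  omega

theorem halfWord_neg0 {x : ι → ℤ} (hx : LP C x 0) : halfWord (-x) 0 = halfWord x 0 := by
  ext i
  have h1 := hx.1 i
  unfold Int.ModEq at h1
  simp only [halfWord, Pi.neg_apply, sub_zero]
  have e : (-x i) / 2 = -(x i / 2) := by omega
  rw [e, Int.cast_neg, zmod2_neg]

/-- vectors with all coordinates divisible by 4 and coordinate sum divisible by 8 are sums of
vectors of shape `(±4, ±4, 0, ...)` -/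
theorem gen_four (M : AddSubgroup (ι → ℤ))
    (hA : ∀ U V : Finset ι, V ⊆ U → U.card = 2 → sgnVec 4 U V ∈ M)
    (hι : 2 ≤ Fintype.card ι)
    (x : ι → ℤ) (h4 : ∀ i, x i % 4 = 0) (h8 : (∑ i, x i) % 8 = 0) : x ∈ M := by
  obtain ⟨p, q, hpq⟩ := Fintype.exists_pair_of_one_lt_card (by omega : 1 < Fintype.card ι)
  have hD : ∀ i, (fun j => (if j = i then (4 : ℤ) else 0) - (if j = p then 4 else 0)) ∈ M := by
    intro i
    by_cases hi : i = p
    · have e : (fun j => (if j = i then (4 : ℤ) else 0) - (if j = p then 4 else 0)) = 0 := by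
        ext j
        rw [hi]
        simp
      rw [e]
      exact M.zero_mem
    · have e : (fun j => (if j = i then (4 : ℤ) else 0) - (if j = p then 4 else 0)) =
          sgnVec 4 {i, p} {p} := by
        ext j
        unfold sgnVec
        by_cases hjp : j = p
        · simp [hjp, Ne.symm hi]
        · by_cases hji : j = i
          · simp [hji, hi]
          · simp [hji, hjp]
      rw [e]
      exact hA _ _ (by simp) (Finset.card_pair hi)
  have hE : (fun j => if j = p then (8 : ℤ) else 0) ∈ M := by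
    have e : (fun j => if j = p then (8 : ℤ) else 0) =
        sgnVec 4 {q, p} ∅ + sgnVec 4 {q, p} {q} := by
      ext j
      simp only [Pi.add_apply]
      unfold sgnVec
      by_cases hjp : j = p
      · simp [hjp, hpq]
      · by_cases hjq : j = q
        · simp [hjq, Ne.symm hpq]
        · simp [hjp, hjq]
    rw [e]
    exact M.add_mem (hA _ _ (by simp) (Finset.card_pair (Ne.symm hpq)))
      (hA _ _ (by simp) (Finset.card_pair (Ne.symm hpq)))
  have hx : x = ∑ i, (x i / 4) •
      (fun j => (if j = i then (4 : ℤ) else 0) - (if j = p then 4 else 0)) +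
      ((∑ i, x i) / 8) • (fun j => if j = p then (8 : ℤ) else 0) := by
    ext j
    simp only [Pi.add_apply, Finset.sum_apply, Pi.smul_apply, smul_eq_mul]
    have e1 : ∑ i, x i / 4 * ((if j = i then (4 : ℤ) else 0) - (if j = p then 4 else 0)) =
        4 * (x j / 4) - (∑ i, x i / 4) * (if j = p then 4 else 0) := by
      have e1a : ∀ i, x i / 4 * ((if j = i then (4 : ℤ) else 0) - (if j = p then 4 else 0)) =
          (if j = i then 4 * (x i / 4) else 0) - x i / 4 * (if j = p then 4 else 0) := by
        intro i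
        by_cases hji : j = i
        · rw [if_pos hji, if_pos hji]
          ring
        · rw [if_neg hji, if_neg hji]
          ring
      rw [Finset.sum_congr rfl (fun i _ => e1a i), Finset.sum_sub_distrib, ← Finset.sum_mul,
        Finset.sum_ite_eq Finset.univ j (fun i => 4 * (x i / 4)), if_pos (Finset.mem_univ j)]
    have e2 : ∑ i, x i = 4 * ∑ i, x i / 4 := by
      rw [Finset.mul_sum]
      exact Finset.sum_congr rfl (fun i _ => by have := h4 i; omega)
    rw [e1]
    have e3 := h4 j
    rw [e2] at h8 ⊢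
    generalize (∑ i, x i / 4) = S at h8 ⊢
    by_cases hjp : j = p
    · rw [if_pos hjp, if_pos hjp]
      omega
    · rw [if_neg hjp, if_neg hjp]
      omega
  rw [hx]
  exact M.add_mem (M.sum_mem (fun i _ => M.zsmul_mem (hD i) _)) (M.zsmul_mem hE _)

/-- the lattice is generated by its minimal vectors -/
theorem gen_min (h : GolayLike C) (h1 : (1 : ι → ZMod 2) ∈ C) :
    AddSubgroup.closure {x : ι → ℤ | x ∈ leechSetOf C ∧ ∑ i, x i ^ 2 = 32} = leechSub C h1 := by
  apply le_antisymm
  · rw [AddSubgroup.closure_le]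
    intro x hx
    exact hx.1
  intro x hx
  obtain ⟨m, hm⟩ := (leech_iff C h1 x).1 hx
  have hgen : ∀ y : ι → ℤ, ∀ n : ℤ, LP C y n → ∑ i, y i ^ 2 = 32 →
      y ∈ AddSubgroup.closure {x : ι → ℤ | x ∈ leechSetOf C ∧ ∑ i, x i ^ 2 = 32} := by
    intro y n hy hn
    exact AddSubgroup.subset_closure ⟨(leech_iff C h1 y).2 ⟨n, hy⟩, hn⟩
  generalize AddSubgroup.closure {x : ι → ℤ | x ∈ leechSetOf C ∧ ∑ i, x i ^ 2 = 32} = M
    at hgen ⊢
  have hA : ∀ U V : Finset ι, V ⊆ U → U.card = 2 → sgnVec 4 U V ∈ M := by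
    intro U V hVU hU
    refine hgen _ 0 (LP_sgnVec4 C hVU hU) ?_
    rw [sgnVec_sq 4 hVU, hU]
    norm_num
  have hB : ∀ c ∈ C, hammingNorm c = 8 → twoLift c ∈ M := by
    intro c hc hc8
    have e : twoLift c = sgnVec 2 (support₂ c) ∅ := by
      ext i
      unfold twoLift sgnVec
      by_cases hi : c i = 0
      · rw [if_pos hi, if_neg (Finset.notMem_empty i), if_neg]
        rw [mem_support₂]
        exact fun h => h hi
      · rw [if_neg hi, if_neg (Finset.notMem_empty i), if_pos ((mem_support₂ c i).2 hi)]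
    rw [e]
    refine hgen _ 0 (LP_sgnVec2 C hc hc8 (Finset.empty_subset _) (by simp)) ?_
    rw [sgnVec_sq 2 (Finset.empty_subset _), ← hammingNorm_eq_card, hc8]
    norm_num
  obtain ⟨p⟩ : Nonempty ι := by
    rw [← Fintype.card_pos_iff, h.hcard]
    norm_num
  have hO : oddMin p (0 : ι → ZMod 2) ∈ M :=
    hgen _ 1 (LP_oddMin C h C.zero_mem p) (oddMin_sq h.hcard p 0)
  have hzero : ∀ y : ι → ℤ, LP C y 0 → halfWord y 0 = 0 → y ∈ M := by
    intro y hy h0
    apply gen_four M hA (by rw [h.hcard]; norm_num) y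
    · intro i
      have h2 := hy.1 i
      have h3 := congrFun h0 i
      simp only [halfWord, sub_zero, Pi.zero_apply] at h3
      rw [intCast_zmod2_eq_zero] at h3
      unfold Int.ModEq at h2
      omega
    · have := hy.2.1
      unfold Int.ModEq at this
      omega
  have hspan : ∀ c ∈ Submodule.span (ZMod 2) {w : ι → ZMod 2 | w ∈ C ∧ hammingNorm w = 8},
      ∃ y ∈ M, LP C y 0 ∧ halfWord y 0 = c := by
    intro c hc
    refine Submodule.span_induction (p := fun c _ => ∃ y ∈ M, LP C y 0 ∧ halfWord y 0 = c)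
      ?_ ?_ ?_ ?_ hc
    · intro w hw
      exact ⟨twoLift w, hB w hw.1 hw.2, LP_twoLift C h hw.1, halfWord_twoLift w⟩
    · refine ⟨0, M.zero_mem, LP_zero C, ?_⟩
      ext i
      simp [halfWord]
    · rintro a b _ _ ⟨y, hyM, hy, rfl⟩ ⟨z, hzM, hz, rfl⟩
      refine ⟨y + z, M.add_mem hyM hzM, ?_, halfWord_add0 C hy hz⟩
      have := LP_add C hy hz
      rwa [add_zero] at this
    · rintro a b _ ⟨y, hyM, hy, rfl⟩
      have ha : a = 0 ∨ a = 1 := by
        revert a
        decide
      rcases ha with rfl | rfl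
      · refine ⟨0, M.zero_mem, LP_zero C, ?_⟩
        rw [zero_smul]
        ext i
        simp [halfWord]
      · exact ⟨y, hyM, hy, by rw [one_smul]⟩
  have heven : ∀ y : ι → ℤ, LP C y 0 → y ∈ M := by
    intro y hy
    have hc : halfWord y 0 ∈
        Submodule.span (ZMod 2) {w : ι → ZMod 2 | w ∈ C ∧ hammingNorm w = 8} := by
      rw [span_octads C h.hcard h.hdim h.hmin]
      exact hy.2.2
    obtain ⟨z, hzM, hz, hzc⟩ := hspan _ hc
    have hnz : LP C (-z) 0 := by
      have := LP_neg C hz
      rwa [neg_zero] at this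
    have hyz : LP C (y + -z) 0 := by
      have := LP_add C hy hnz
      rwa [add_zero] at this
    have h0 : halfWord (y + -z) 0 = 0 := by
      rw [halfWord_add0 C hy hnz, halfWord_neg0 C hz, hzc]
      exact funext fun i => zmod2_add_self _
    have := M.add_mem (hzero _ hyz h0) hzM
    rwa [neg_add_cancel_right] at this
  have hm2 := LP_mod C h1 hm
  rcases Int.emod_two_eq_zero_or_one m with h0 | h0
  · rw [h0] at hm2
    exact heven x hm2
  · rw [h0] at hm2
    have h3 : LP C (x + -oddMin p 0) 0 := by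
      have := LP_add C hm2 (LP_neg C (LP_oddMin C h C.zero_mem p))
      have e : (1 : ℤ) + -1 = 0 := by norm_num
      rwa [e] at this
    have := M.add_mem (heven _ h3) hO
    rwa [neg_add_cancel_right] at this

end LeechGen

end Cfsg.Agent.Helper28
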