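import Cfsg.Agent.Helper28.LeechIdx

/-!
The index of the lattice of a Golay-like code in the full integer lattice, through the chain
`L4 ≤ A ≤ L` and `L4 ≤ M4` (abstract index type).
-/

set_option autoImplicit false
set_option linter.unusedSectionVars false

namespace Cfsg.Agent.Helper28

open Cfsg

theorem intCast_zmod4_eq_zero (n : ℤ) : ((n : ℤ) : ZMod 4) = 0 ↔ n % 4 = 0 := by
  rw [ZMod.intCast_zmod_eq_zero_iff_dvd]
  push_cast
  omega

section LeechIdx2

variable {ι : Type*} [Fintype ι] [DecidableEq ι] (C : Submodule (ZMod 2) (ι → ZMod 2))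

/-- vectors with all coordinates divisible by four -/
def subM4 (ι : Type*) : AddSubgroup (ι → ℤ) where
  carrier := {x | ∀ i, x i % 4 = 0}
  zero_mem' := by
    intro i
    simp
  add_mem' := by
    intro x y hx hy i
    have h1 := hx i
    have h2 := hy i
    simp only [Pi.add_apply]
    omega
  neg_mem' := by
    intro x hx i
    have h1 := hx i
    simp only [Pi.neg_apply]
    omega

/-- vectors with all coordinates divisible by four and sum divisible by eight -/
def subL4 (ι : Type*) [Fintype ι] : AddSubgroup (ι → ℤ) where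
  carrier := {x | (∀ i, x i % 4 = 0) ∧ (∑ i, x i) % 8 = 0}
  zero_mem' := ⟨fun i => by simp, by simp⟩
  add_mem' := by
    rintro x y ⟨hx, hxs⟩ ⟨hy, hys⟩
    refine ⟨fun i => ?_, ?_⟩
    · have h1 := hx i
      have h2 := hy i
      simp only [Pi.add_apply]
      omega
    · simp only [Pi.add_apply, Finset.sum_add_distrib]
      omega
  neg_mem' := by
    rintro x ⟨hx, hxs⟩
    refine ⟨fun i => ?_, ?_⟩
    · have h1 := hx i
      simp only [Pi.neg_apply]
      omega
    · simp only [Pi.neg_apply, Finset.sum_neg_distrib]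
      omega

/-- even vectors constant modulo four with sum divisible by eight -/
def subA (p : ι) : AddSubgroup (ι → ℤ) where
  carrier := {x | x p % 2 = 0 ∧ (∀ i, x i % 4 = x p % 4) ∧ (∑ i, x i) % 8 = 0}
  zero_mem' := ⟨by simp, fun i => by simp, by simp⟩
  add_mem' := by
    rintro x y ⟨hx, hx4, hxs⟩ ⟨hy, hy4, hys⟩
    refine ⟨?_, fun i => ?_, ?_⟩
    · simp only [Pi.add_apply]
      omega
    · have h1 := hx4 i
      have h2 := hy4 i
      simp only [Pi.add_apply]
      omega
    · simp only [Pi.add_apply, Finset.sum_add_distrib]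
      omega
  neg_mem' := by
    rintro x ⟨hx, hx4, hxs⟩
    refine ⟨?_, fun i => ?_, ?_⟩
    · simp only [Pi.neg_apply]
      omega
    · have h1 := hx4 i
      simp only [Pi.neg_apply]
      omega
    · simp only [Pi.neg_apply, Finset.sum_neg_distrib]
      omega

theorem subL4_le_subM4 : subL4 ι ≤ subM4 ι := fun _ hx => hx.1

theorem subL4_le_subA (p : ι) : subL4 ι ≤ subA p := by
  rintro x ⟨hx, hxs⟩
  refine ⟨?_, fun i => ?_, hxs⟩
  · have := hx p
    omega
  · rw [hx i, hx p]

theorem subA_le_leechSub (h1 : (1 : ι → ZMod 2) ∈ C) (p : ι) : subA p ≤ leechSub C h1 := by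
  rintro x ⟨hx, hx4, hxs⟩
  refine (leech_iff C h1 x).2 ⟨0, ?_, ?_, ?_⟩
  · intro i
    have := hx4 i
    unfold Int.ModEq
    omega
  · unfold Int.ModEq
    omega
  · have e : halfWord x 0 = ((x p / 2 : ℤ) : ZMod 2) • (1 : ι → ZMod 2) := by
      ext i
      simp only [halfWord, sub_zero, Pi.smul_apply, Pi.one_apply, smul_eq_mul, mul_one]
      rw [ZMod.intCast_eq_intCast_iff]
      have := hx4 i
      unfold Int.ModEq
      push_cast
      omega
    rw [e]
    exact C.smul_mem _ h1

theorem index_subM4 (hι : Fintype.card ι = 24) : (subM4 ι).index = 4 ^ 24 := by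
  let f : (ι → ℤ) →+ (ι → ZMod 4) := AddMonoidHom.compLeft (Int.castAddHom (ZMod 4)) ι
  have hf : ∀ x i, f x i = ((x i : ℤ) : ZMod 4) := fun x i => rfl
  have hker : f.ker = subM4 ι := by
    ext x
    rw [AddMonoidHom.mem_ker]
    constructor
    · intro h i
      have h4 := congrFun h i
      rw [hf, Pi.zero_apply, intCast_zmod4_eq_zero] at h4
      exact h4
    · intro h
      funext i
      rw [hf, Pi.zero_apply, intCast_zmod4_eq_zero]
      exact h i
  have hsurj : Function.Surjective f := by
    intro a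
    refine ⟨fun i => ((a i).val : ℤ), ?_⟩
    funext i
    rw [hf]
    simp
  rw [← hker, AddSubgroup.index_ker, AddMonoidHom.range_eq_top.2 hsurj,
    Nat.card_congr AddSubgroup.topEquiv.toEquiv, Nat.card_eq_fintype_card, Fintype.card_fun,
    ZMod.card, hι]

theorem sum_dvd_of_M4 {x : ι → ℤ} (hx : ∀ i, x i % 4 = 0) : (∑ i, x i) % 4 = 0 := by
  have h : (4 : ℤ) ∣ ∑ i, x i := Finset.dvd_sum (fun i _ => by have := hx i; omega)
  omega

theorem card_range_zmod2 {G : Type*} [AddGroup G] (g : G →+ ZMod 2) (x : G) (hx : g x = 1) :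
    Nat.card g.range = 2 := by
  have hsurj : Function.Surjective g := by
    intro a
    have ha : a = 0 ∨ a = 1 := by
      revert a
      decide
    rcases ha with rfl | rfl
    · exact ⟨0, map_zero g⟩
    · exact ⟨x, hx⟩
  rw [AddMonoidHom.range_eq_top.2 hsurj, Nat.card_congr AddSubgroup.topEquiv.toEquiv,
    Nat.card_eq_fintype_card, ZMod.card]

theorem relindex_subL4_subM4 (p : ι) : (subL4 ι).relIndex (subM4 ι) = 2 := by
  let g : subM4 ι →+ ZMod 2 :=
    { toFun := fun x => (((∑ i, (x : ι → ℤ) i) / 4 : ℤ) : ZMod 2)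
      map_zero' := by simp
      map_add' := by
        intro x y
        have h1 := sum_dvd_of_M4 x.2
        have h2 := sum_dvd_of_M4 y.2
        simp only [AddSubgroup.coe_add, Pi.add_apply, Finset.sum_add_distrib]
        rw [← Int.cast_add]
        congr 1
        omega }
  have hg : ∀ x : subM4 ι, g x = (((∑ i, (x : ι → ℤ) i) / 4 : ℤ) : ZMod 2) := fun x => rfl
  have hker : (subL4 ι).addSubgroupOf (subM4 ι) = g.ker := by
    ext x
    rw [AddSubgroup.mem_addSubgroupOf, AddMonoidHom.mem_ker, hg, intCast_zmod2_eq_zero]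
    have h1 := sum_dvd_of_M4 x.2
    constructor
    · rintro ⟨_, hs⟩
      omega
    · intro h
      exact ⟨x.2, by omega⟩
  show ((subL4 ι).addSubgroupOf (subM4 ι)).index = 2
  rw [hker, AddSubgroup.index_ker]
  have hmem : (Pi.single p 4 : ι → ℤ) ∈ subM4 ι := by
    intro i
    by_cases hi : i = p
    · rw [hi, Pi.single_eq_same]
      rfl
    · rw [Pi.single_eq_of_ne hi]
      rfl
  refine card_range_zmod2 g ⟨Pi.single p 4, hmem⟩ ?_
  rw [hg]
  show (((∑ i, (Pi.single p 4 : ι → ℤ) i) / 4 : ℤ) : ZMod 2) = 1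
  rw [Finset.sum_pi_single']
  simp

theorem relindex_subL4_subA (hι : Fintype.card ι = 24) (p : ι) :
    (subL4 ι).relIndex (subA p) = 2 := by
  let g : subA p →+ ZMod 2 :=
    { toFun := fun x => ((((x : ι → ℤ) p) / 2 : ℤ) : ZMod 2)
      map_zero' := by simp
      map_add' := by
        intro x y
        have h1 := x.2.1
        have h2 := y.2.1
        simp only [AddSubgroup.coe_add, Pi.add_apply]
        rw [← Int.cast_add]
        congr 1
        omega }
  have hg : ∀ x : subA p, g x = ((((x : ι → ℤ) p) / 2 : ℤ) : ZMod 2) := fun x => rfl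
  have hker : (subL4 ι).addSubgroupOf (subA p) = g.ker := by
    ext x
    rw [AddSubgroup.mem_addSubgroupOf, AddMonoidHom.mem_ker, hg, intCast_zmod2_eq_zero]
    obtain ⟨h1, h4, hs⟩ := x.2
    constructor
    · rintro ⟨h, _⟩
      have := h p
      omega
    · intro h
      refine ⟨fun i => ?_, hs⟩
      have := h4 i
      omega
  show ((subL4 ι).addSubgroupOf (subA p)).index = 2
  rw [hker, AddSubgroup.index_ker]
  have hsum : ∑ i, (2 * oddVec p i) = 40 := by
    rw [← Finset.mul_sum, sum_oddVec hι p]
    norm_num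
  have hmem : (fun i => 2 * oddVec p i) ∈ subA p := by
    refine ⟨?_, fun i => ?_, ?_⟩
    · show (2 * oddVec p p) % 2 = 0
      omega
    · show (2 * oddVec p i) % 4 = (2 * oddVec p p) % 4
      simp only [oddVec, if_true]
      split_ifs <;> norm_num
    · show (∑ i, (2 * oddVec p i)) % 8 = 0
      rw [hsum]
      norm_num
  refine card_range_zmod2 g ⟨fun i => 2 * oddVec p i, hmem⟩ ?_
  rw [hg]
  show (((2 * oddVec p p) / 2 : ℤ) : ZMod 2) = 1
  simp only [oddVec, if_true]
  decide

theorem relindex_subA_leechSub (h : GolayLike C) (h1 : (1 : ι → ZMod 2) ∈ C) (p : ι) :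
    (subA p).relIndex (leechSub C h1) = Nat.card C := by
  have hLP : ∀ x ∈ leechSub C h1, ∃ m, LP C x m := fun x hx => (leech_iff C h1 x).1 hx
  let φ : leechSub C h1 →+ (ι → ZMod 2) :=
    { toFun := fun x => lword p (x : ι → ℤ)
      map_zero' := by
        ext i
        simp [lword, halfWord]
      map_add' := by
        intro x y
        obtain ⟨m, hm⟩ := hLP x x.2
        obtain ⟨n, hn⟩ := hLP y y.2
        exact lword_add C hm hn p }
  have hφ : ∀ x : leechSub C h1, φ x = lword p (x : ι → ℤ) := fun x => rfl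
  have hrange : (φ.range : Set (ι → ZMod 2)) = (C : Set (ι → ZMod 2)) := by
    ext c
    constructor
    · rintro ⟨x, rfl⟩
      obtain ⟨m, hm⟩ := hLP x x.2
      exact lword_mem C h1 hm p
    · intro hc
      by_cases hp : c p = 0
      · exact ⟨⟨twoLift c, (leech_iff C h1 _).2 ⟨0, LP_twoLift C h hc⟩⟩, lword_twoLift p hp⟩
      · have hc' : c + 1 ∈ C := C.add_mem hc h1
        have hp' : (c + 1) p = 0 := by
          simp only [Pi.add_apply, Pi.one_apply]
          revert hp
          generalize c p = a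
          revert a
          decide
        have hL1 := LP_oddVec C h.hcard p
        have hL2 := LP_twoLift C h hc'
        refine ⟨⟨oddVec p + twoLift (c + 1), (leech_iff C h1 _).2 ⟨_, LP_add C hL1 hL2⟩⟩, ?_⟩
        rw [hφ]
        show lword p (oddVec p + twoLift (c + 1)) = c
        rw [lword_add C hL1 hL2 p, lword_oddVec, lword_twoLift p hp']
        ext i
        simp only [Pi.add_apply, Pi.one_apply]
        exact zmod2_add_add _
  have hker : (subA p).addSubgroupOf (leechSub C h1) = φ.ker := by
    ext x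
    rw [AddSubgroup.mem_addSubgroupOf, AddMonoidHom.mem_ker, hφ]
    obtain ⟨m, hm⟩ := hLP x x.2
    constructor
    · rintro ⟨hx, hx4, _⟩
      ext i
      simp only [lword, halfWord, Pi.add_apply, Pi.smul_apply, Pi.one_apply, smul_eq_mul, mul_one,
        Pi.zero_apply]
      rw [(intCast_zmod2_eq_zero _).2 hx, add_zero, intCast_zmod2_eq_zero]
      have := hx4 i
      omega
    · intro h0
      obtain ⟨hp2, h4⟩ := lword_eq_zero C hm p h0
      refine ⟨hp2, h4, ?_⟩
      have h5 := hm.2.1
      have h6 := hm.1 p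
      unfold Int.ModEq at h5 h6
      omega
  show ((subA p).addSubgroupOf (leechSub C h1)).index = Nat.card C
  rw [hker, AddSubgroup.index_ker]
  exact Nat.card_congr (Equiv.setCongr hrange)

/-- the index of the lattice -/
theorem index_leechSub (h : GolayLike C) (h1 : (1 : ι → ZMod 2) ∈ C) (p : ι) :
    Nat.card C * (leechSub C h1).index = 4 ^ 24 := by
  have e1 := AddSubgroup.relIndex_mul_index (subL4_le_subM4 (ι := ι))
  have e2 := AddSubgroup.relIndex_mul_index (subL4_le_subA p)
  have e3 := AddSubgroup.relIndex_mul_index (subA_le_leechSub C h1 p)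
  rw [relindex_subL4_subM4 p, index_subM4 h.hcard] at e1
  rw [relindex_subL4_subA h.hcard p, ← e1] at e2
  rw [relindex_subA_leechSub C h h1 p] at e3
  rw [e3]
  exact Nat.eq_of_mul_eq_mul_left (by norm_num) e2

end LeechIdx2

end Cfsg.Agent.Helper28
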