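import Cfsg.Agent.Helper28.LeechIdx
import Cfsg.Agent.Helper28.SignedPerm

/-!
Classification and count of the vectors of sum of squares 32 in the lattice of a Golay-like
code (abstract index type).
-/

set_option autoImplicit false
set_option linter.unusedSectionVars false

namespace Cfsg.Agent.Helper28

open Cfsg

theorem intCast_zmod2_eq_one (n : ℤ) : ((n : ℤ) : ZMod 2) = 1 ↔ n % 2 = 1 := by
  rw [← sub_eq_zero, ← Int.cast_one, ← Int.cast_sub, intCast_zmod2_eq_zero]
  omega

theorem odd_sq_cases (a : ℤ) (h : a % 2 = 1) : a ^ 2 = 1 ∨ 9 ≤ a ^ 2 := by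
  have h2 : a = 1 ∨ a = -1 ∨ 3 ≤ a ∨ a ≤ -3 := by omega
  rcases h2 with h2 | h2 | h2 | h2
  · left
    rw [h2]
    norm_num
  · left
    rw [h2]
    norm_num
  · right
    nlinarith
  · right
    nlinarith

section LeechMin

variable {ι : Type*} [Fintype ι] [DecidableEq ι] (C : Submodule (ZMod 2) (ι → ZMod 2))

/-- the vector with entries `-a` on `V`, `a` on `U \ V`, and zero elsewhere -/
def sgnVec (a : ℤ) (U V : Finset ι) : ι → ℤ :=
  fun i => if i ∈ V then -a else if i ∈ U then a else 0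

/-- the odd minimal vector attached to a point and a word -/
def oddMin (p : ι) (c : ι → ZMod 2) : ι → ℤ :=
  fun i => if i = p then (if c p = 0 then -3 else 3) else (if c i = 0 then 1 else -1)

theorem sgnVec_eq (a : ℤ) {U V : Finset ι} (hVU : V ⊆ U) (i : ι) :
    sgnVec a U V i = a * ((if i ∈ U then 1 else 0) - 2 * (if i ∈ V then 1 else 0)) := by
  unfold sgnVec
  by_cases hV : i ∈ V
  · rw [if_pos hV, if_pos (hVU hV), if_pos hV]
    ring
  · rw [if_neg hV, if_neg hV]
    by_cases hU : i ∈ U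
    · rw [if_pos hU, if_pos hU]
      ring
    · rw [if_neg hU, if_neg hU]
      ring

theorem sum_ind_mem (U : Finset ι) : ∑ i, (if i ∈ U then (1 : ℤ) else 0) = U.card := by
  rw [Finset.sum_boole]
  simp

theorem sgnVec_sum (a : ℤ) {U V : Finset ι} (hVU : V ⊆ U) :
    ∑ i, sgnVec a U V i = a * ((U.card : ℤ) - 2 * V.card) := by
  rw [Finset.sum_congr rfl (fun i _ => sgnVec_eq a hVU i), ← Finset.mul_sum,
    Finset.sum_sub_distrib, ← Finset.mul_sum, sum_ind_mem, sum_ind_mem]

theorem sgnVec_sq (a : ℤ) {U V : Finset ι} (hVU : V ⊆ U) :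
    ∑ i, sgnVec a U V i ^ 2 = a ^ 2 * U.card := by
  have e : ∀ i, sgnVec a U V i ^ 2 = a ^ 2 * (if i ∈ U then 1 else 0) := by
    intro i
    unfold sgnVec
    by_cases hV : i ∈ V
    · rw [if_pos hV, if_pos (hVU hV)]
      ring
    · rw [if_neg hV]
      by_cases hU : i ∈ U
      · rw [if_pos hU, if_pos hU]
        ring
      · rw [if_neg hU, if_neg hU]
        ring
  rw [Finset.sum_congr rfl (fun i _ => e i), ← Finset.mul_sum, sum_ind_mem]

theorem sgnVec_ne_zero {a : ℤ} (ha : 0 < a) {U V : Finset ι} (hVU : V ⊆ U) (i : ι) :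
    sgnVec a U V i ≠ 0 ↔ i ∈ U := by
  unfold sgnVec
  by_cases hV : i ∈ V
  · rw [if_pos hV]
    constructor
    · intro _
      exact hVU hV
    · intro _
      omega
  · rw [if_neg hV]
    by_cases hU : i ∈ U
    · rw [if_pos hU]
      constructor
      · intro _
        exact hU
      · intro _
        omega
    · rw [if_neg hU]
      constructor
      · intro h
        exact absurd rfl h
      · intro h
        exact absurd h hU

theorem sgnVec_neg {a : ℤ} (ha : 0 < a) (U V : Finset ι) (i : ι) :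
    sgnVec a U V i < 0 ↔ i ∈ V := by
  unfold sgnVec
  by_cases hV : i ∈ V
  · rw [if_pos hV]
    constructor
    · intro _
      exact hV
    · intro _
      omega
  · rw [if_neg hV]
    constructor
    · intro h
      exfalso
      split_ifs at h <;> omega
    · intro h
      exact absurd h hV

theorem sgnVec_inj {a : ℤ} (ha : 0 < a) {U V U' V' : Finset ι} (hVU : V ⊆ U) (hVU' : V' ⊆ U')
    (h : sgnVec a U V = sgnVec a U' V') : U = U' ∧ V = V' := by
  constructor
  · ext i
    rw [← sgnVec_ne_zero ha hVU i, ← sgnVec_ne_zero ha hVU' i, h]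
  · ext i
    rw [← sgnVec_neg ha U V i, ← sgnVec_neg ha U' V' i, h]

theorem LP_sgnVec4 {U V : Finset ι} (hVU : V ⊆ U) (hU : U.card = 2) :
    LP C (sgnVec 4 U V) 0 := by
  refine ⟨?_, ?_, ?_⟩
  · intro i
    unfold sgnVec
    split_ifs <;> decide
  · rw [sgnVec_sum 4 hVU, hU]
    unfold Int.ModEq
    push_cast
    omega
  · have e : halfWord (sgnVec 4 U V) 0 = 0 := by
      ext i
      simp only [halfWord, sub_zero, Pi.zero_apply]
      rw [intCast_zmod2_eq_zero]
      unfold sgnVec
      split_ifs <;> norm_num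
    rw [e]
    exact C.zero_mem

theorem LP_sgnVec2 {c : ι → ZMod 2} (hc : c ∈ C) (hc8 : hammingNorm c = 8) {V : Finset ι}
    (hV : V ⊆ support₂ c) (hev : Even V.card) : LP C (sgnVec 2 (support₂ c) V) 0 := by
  refine ⟨?_, ?_, ?_⟩
  · intro i
    unfold sgnVec
    split_ifs <;> decide
  · rw [sgnVec_sum 2 hV, ← hammingNorm_eq_card, hc8]
    obtain ⟨k, hk⟩ := hev
    rw [hk]
    unfold Int.ModEq
    push_cast
    omega
  · have e : halfWord (sgnVec 2 (support₂ c) V) 0 = c := by
      ext i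
      simp only [halfWord, sub_zero]
      unfold sgnVec
      by_cases hiV : i ∈ V
      · rw [if_pos hiV]
        have h1 : c i = 1 := zmod2_eq_one_of_ne _ ((mem_support₂ c i).1 (hV hiV))
        rw [h1, intCast_zmod2_eq_one]
        norm_num
      · rw [if_neg hiV]
        by_cases hiU : i ∈ support₂ c
        · rw [if_pos hiU]
          have h1 : c i = 1 := zmod2_eq_one_of_ne _ ((mem_support₂ c i).1 hiU)
          rw [h1, intCast_zmod2_eq_one]
          norm_num
        · rw [if_neg hiU]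
          have h0 : c i = 0 := by
            by_contra hne
            exact hiU ((mem_support₂ c i).2 hne)
          rw [h0]
          simp
    rw [e]
    exact hc

theorem oddMin_eq (p : ι) (c : ι → ZMod 2) (i : ι) :
    oddMin p c i = (1 - 2 * (if c i ≠ 0 then 1 else 0)) +
      (if i = p then (-4 + 8 * (if c p ≠ 0 then 1 else 0)) else 0) := by
  unfold oddMin
  by_cases hi : i = p
  · rw [if_pos hi, if_pos hi, hi]
    by_cases hc : c p = 0
    · simp [hc]
    · simp [hc]
  · rw [if_neg hi, if_neg hi]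
    by_cases hc : c i = 0
    · simp [hc]
    · simp [hc]

theorem oddMin_sum (hι : Fintype.card ι = 24) (p : ι) (c : ι → ZMod 2) :
    ∑ i, oddMin p c i =
      20 - 2 * (hammingNorm c : ℤ) + 8 * (if c p ≠ 0 then 1 else 0) := by
  have e : ∑ i, (if c i ≠ 0 then (1 : ℤ) else 0) = (hammingNorm c : ℤ) := by
    rw [Finset.sum_boole]
    rfl
  rw [Finset.sum_congr rfl (fun i _ => oddMin_eq p c i), Finset.sum_add_distrib,
    Finset.sum_sub_distrib, ← Finset.mul_sum, e,
    Finset.sum_ite_eq' Finset.univ p (fun _ => (-4 + 8 * (if c p ≠ 0 then 1 else 0) : ℤ)),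
    if_pos (Finset.mem_univ p)]
  simp only [Finset.sum_const, Finset.card_univ, hι, nsmul_eq_mul, mul_one]
  push_cast
  ring

theorem oddMin_sq (hι : Fintype.card ι = 24) (p : ι) (c : ι → ZMod 2) :
    ∑ i, oddMin p c i ^ 2 = 32 := by
  have e : ∀ i, oddMin p c i ^ 2 = 1 + (if i = p then 8 else 0) := by
    intro i
    unfold oddMin
    by_cases hi : i = p
    · rw [if_pos hi, if_pos hi]
      split_ifs <;> norm_num
    · rw [if_neg hi, if_neg hi]
      split_ifs <;> norm_num
  rw [Finset.sum_congr rfl (fun i _ => e i), Finset.sum_add_distrib,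
    Finset.sum_ite_eq' Finset.univ p (fun _ => (8 : ℤ)), if_pos (Finset.mem_univ p)]
  simp [hι]

theorem LP_oddMin (h : GolayLike C) {c : ι → ZMod 2} (hc : c ∈ C) (p : ι) :
    LP C (oddMin p c) 1 := by
  refine ⟨?_, ?_, ?_⟩
  · intro i
    unfold oddMin
    split_ifs <;> decide
  · rw [oddMin_sum h.hcard]
    unfold Int.ModEq
    rcases h.hwt c hc with hw | hw | hw | hw | hw <;> rw [hw] <;> split_ifs <;> norm_num
  · have e : halfWord (oddMin p c) 1 = c := by
      ext i
      simp only [halfWord]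
      unfold oddMin
      by_cases hi : i = p
      · rw [if_pos hi, hi]
        by_cases hc0 : c p = 0
        · rw [if_pos hc0, hc0, intCast_zmod2_eq_zero]
          norm_num
        · rw [if_neg hc0, zmod2_eq_one_of_ne _ hc0, intCast_zmod2_eq_one]
          norm_num
      · rw [if_neg hi]
        by_cases hc0 : c i = 0
        · rw [if_pos hc0, hc0, intCast_zmod2_eq_zero]
          norm_num
        · rw [if_neg hc0, zmod2_eq_one_of_ne _ hc0, intCast_zmod2_eq_one]
          norm_num
    rw [e]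
    exact hc

theorem sq_le_of_sum {x : ι → ℤ} {N : ℤ} (hn : ∑ i, x i ^ 2 = N) (i : ι) : x i ^ 2 ≤ N := by
  rw [← hn]
  exact Finset.single_le_sum (f := fun i => x i ^ 2) (fun i _ => sq_nonneg _) (Finset.mem_univ i)

theorem abs_le_five {x : ι → ℤ} (hn : ∑ i, x i ^ 2 = 32) (i : ι) : -5 ≤ x i ∧ x i ≤ 5 := by
  have h := sq_le_of_sum hn i
  constructor <;> nlinarith

theorem classify_zero {x : ι → ℤ} (hx : LP C x 0) (hn : ∑ i, x i ^ 2 = 32)
    (hz : halfWord x 0 = 0) :
    ∃ U V : Finset ι, V ⊆ U ∧ U.card = 2 ∧ x = sgnVec 4 U V := by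
  obtain ⟨hpar, hsum, ha⟩ := hx
  have hval : ∀ i, x i = 0 ∨ x i = 4 ∨ x i = -4 := by
    intro i
    have h5 := congrFun hz i
    simp only [halfWord, sub_zero, Pi.zero_apply] at h5
    rw [intCast_zmod2_eq_zero] at h5
    have h2 := hpar i
    unfold Int.ModEq at h2
    have h3 := abs_le_five hn i
    omega
  refine ⟨Finset.univ.filter (fun i => x i ≠ 0), Finset.univ.filter (fun i => x i < 0),
    ?_, ?_, ?_⟩
  · intro i hi
    rw [Finset.mem_filter] at hi ⊢
    exact ⟨hi.1, by omega⟩
  · have e : ∀ i, x i ^ 2 = 16 * (if x i ≠ 0 then 1 else 0) := by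
      intro i
      rcases hval i with h0 | h0 | h0 <;> rw [h0] <;> norm_num
    rw [Finset.sum_congr rfl (fun i _ => e i), ← Finset.mul_sum, Finset.sum_boole] at hn
    have h2 : ((Finset.univ.filter (fun i => x i ≠ 0)).card : ℤ) = 2 := by linarith
    exact_mod_cast h2
  · funext i
    unfold sgnVec
    simp only [Finset.mem_filter, Finset.mem_univ, true_and]
    rcases hval i with h0 | h0 | h0 <;> rw [h0] <;> norm_num

theorem classify_even (h : GolayLike C) {x : ι → ℤ} (hx : LP C x 0) (hn : ∑ i, x i ^ 2 = 32)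
    (hz : halfWord x 0 ≠ 0) :
    ∃ c ∈ C, hammingNorm c = 8 ∧ ∃ V : Finset ι, V ⊆ support₂ c ∧ Even V.card ∧
      x = sgnVec 2 (support₂ c) V := by
  obtain ⟨hpar, hsum, ha⟩ := hx
  have h8 := h.hmin _ ha hz
  have hin : ∀ i, i ∈ support₂ (halfWord x 0) → (x i = 2 ∨ x i = -2) := by
    intro i hi
    rw [mem_support₂] at hi
    simp only [halfWord, sub_zero] at hi
    rw [Ne, intCast_zmod2_eq_zero] at hi
    have h2 := hpar i
    unfold Int.ModEq at h2
    have h3 := abs_le_five hn i
    omega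
  have e : ∀ i, x i ^ 2 = 4 * (if i ∈ support₂ (halfWord x 0) then 1 else 0) +
      (if i ∈ support₂ (halfWord x 0) then 0 else x i ^ 2) := by
    intro i
    by_cases hi : i ∈ support₂ (halfWord x 0)
    · rw [if_pos hi, if_pos hi]
      rcases hin i hi with h0 | h0 <;> rw [h0] <;> norm_num
    · rw [if_neg hi, if_neg hi]
      ring
  have hnn : ∀ i ∈ Finset.univ,
      (0 : ℤ) ≤ (if i ∈ support₂ (halfWord x 0) then 0 else x i ^ 2) := by
    intro i _
    split_ifs
    · exact le_refl _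
    · exact sq_nonneg _
  have hn2 := hn
  rw [Finset.sum_congr rfl (fun i _ => e i), Finset.sum_add_distrib, ← Finset.mul_sum,
    sum_ind_mem] at hn2
  have hs0 := Finset.sum_nonneg hnn
  rw [hammingNorm_eq_card] at h8
  have hc8 : (8 : ℤ) ≤ ((support₂ (halfWord x 0)).card : ℤ) := by exact_mod_cast h8
  have hcard : (support₂ (halfWord x 0)).card = 8 := by
    have h2 : ((support₂ (halfWord x 0)).card : ℤ) = 8 := by linarith
    exact_mod_cast h2
  have hzero : ∑ i, (if i ∈ support₂ (halfWord x 0) then 0 else x i ^ 2) = 0 := by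
    rw [hcard] at hn2
    push_cast at hn2
    linarith
  have hout0 : ∀ i, i ∉ support₂ (halfWord x 0) → x i = 0 := by
    intro i hi
    have h2 := (Finset.sum_eq_zero_iff_of_nonneg hnn).1 hzero i (Finset.mem_univ i)
    rw [if_neg hi] at h2
    exact pow_eq_zero_iff (two_ne_zero) |>.1 h2
  have hxe : x = sgnVec 2 (support₂ (halfWord x 0)) (Finset.univ.filter (fun i => x i < 0)) := by
    funext i
    unfold sgnVec
    simp only [Finset.mem_filter, Finset.mem_univ, true_and]
    by_cases hi : i ∈ support₂ (halfWord x 0)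
    · rcases hin i hi with h0 | h0
      · rw [if_neg (by omega), if_pos hi, h0]
      · rw [if_pos (by omega), h0]
    · have h0 := hout0 i hi
      rw [if_neg (by omega), if_neg hi, h0]
  have hVsub : Finset.univ.filter (fun i => x i < 0) ⊆ support₂ (halfWord x 0) := by
    intro i hi
    rw [Finset.mem_filter] at hi
    by_contra hni
    have h0 := hout0 i hni
    omega
  refine ⟨halfWord x 0, ha, by rw [hammingNorm_eq_card, hcard], _, hVsub, ?_, hxe⟩
  have hs := sgnVec_sum 2 hVsub
  rw [← hxe, hcard] at hs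
  unfold Int.ModEq at hsum
  rw [hs] at hsum
  push_cast at hsum
  exact Nat.even_iff.2 (by omega)

theorem classify_odd (h : GolayLike C) {x : ι → ℤ} (hx : LP C x 1) (hn : ∑ i, x i ^ 2 = 32) :
    ∃ p, ∃ c ∈ C, x = oddMin p c := by
  obtain ⟨hpar, hsum, ha⟩ := hx
  have hodd : ∀ i, x i % 2 = 1 := by
    intro i
    have := hpar i
    unfold Int.ModEq at this
    omega
  have hge1 : ∀ i, (1 : ℤ) ≤ x i ^ 2 := by
    intro i
    rcases odd_sq_cases (x i) (hodd i) with h0 | h0 <;> omega
  obtain ⟨p, hp⟩ : ∃ p, x p ^ 2 ≠ 1 := by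
    by_contra hcon
    push Not at hcon
    rw [Finset.sum_congr rfl (fun i _ => hcon i)] at hn
    simp [h.hcard] at hn
  have hp9 : 9 ≤ x p ^ 2 := by
    rcases odd_sq_cases (x p) (hodd p) with h0 | h0
    · exact absurd h0 hp
    · exact h0
  have hsplit := Finset.add_sum_erase Finset.univ (fun i => x i ^ 2) (Finset.mem_univ p)
  have hrest : (Finset.univ.erase p).card • (1 : ℤ) ≤ ∑ i ∈ Finset.univ.erase p, x i ^ 2 :=
    Finset.card_nsmul_le_sum _ _ _ (fun i _ => hge1 i)
  have hc : (Finset.univ.erase p).card = 23 := by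
    rw [Finset.card_erase_of_mem (Finset.mem_univ p), Finset.card_univ, h.hcard]
  rw [hc] at hrest
  simp only [nsmul_eq_mul, Nat.cast_ofNat, mul_one] at hrest
  rw [hn] at hsplit
  have hp9' : x p ^ 2 = 9 := by linarith
  have hone : ∀ i, i ≠ p → x i ^ 2 = 1 := by
    intro i hi
    rcases odd_sq_cases (x i) (hodd i) with h0 | h9
    · exact h0
    · exfalso
      have hmem : i ∈ Finset.univ.erase p := Finset.mem_erase.2 ⟨hi, Finset.mem_univ i⟩
      have hsplit2 := Finset.add_sum_erase (Finset.univ.erase p) (fun i => x i ^ 2) hmem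
      have hrest2 : ((Finset.univ.erase p).erase i).card • (1 : ℤ) ≤
          ∑ j ∈ (Finset.univ.erase p).erase i, x j ^ 2 :=
        Finset.card_nsmul_le_sum _ _ _ (fun j _ => hge1 j)
      have hc2 : ((Finset.univ.erase p).erase i).card = 22 := by
        rw [Finset.card_erase_of_mem hmem, hc]
      rw [hc2] at hrest2
      simp only [nsmul_eq_mul, Nat.cast_ofNat, mul_one] at hrest2
      linarith
  have hpv : x p = 3 ∨ x p = -3 := by
    have h' : (x p - 3) * (x p + 3) = 0 := by linear_combination hp9'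
    rcases mul_eq_zero.1 h' with h4 | h4
    · left
      linarith
    · right
      linarith
  have hiv : ∀ i, i ≠ p → (x i = 1 ∨ x i = -1) := by
    intro i hi
    have h' : (x i - 1) * (x i + 1) = 0 := by linear_combination hone i hi
    rcases mul_eq_zero.1 h' with h4 | h4
    · left
      linarith
    · right
      linarith
  refine ⟨p, halfWord x 1, ha, ?_⟩
  funext i
  unfold oddMin
  by_cases hi : i = p
  · rw [if_pos hi, hi]
    rcases hpv with h0 | h0
    · have hc1 : halfWord x 1 p ≠ 0 := by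
        simp only [halfWord]
        rw [Ne, intCast_zmod2_eq_zero, h0]
        norm_num
      rw [if_neg hc1, h0]
    · have hc0 : halfWord x 1 p = 0 := by
        simp only [halfWord]
        rw [intCast_zmod2_eq_zero, h0]
        norm_num
      rw [if_pos hc0, h0]
  · rw [if_neg hi]
    rcases hiv i hi with h0 | h0
    · have hc0 : halfWord x 1 i = 0 := by
        simp only [halfWord]
        rw [intCast_zmod2_eq_zero, h0]
        norm_num
      rw [if_pos hc0, h0]
    · have hc1 : halfWord x 1 i ≠ 0 := by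
        simp only [halfWord]
        rw [Ne, intCast_zmod2_eq_zero, h0]
        norm_num
      rw [if_neg hc1, h0]

/-- the three shapes of vectors of sum of squares 32 -/
theorem classify (h : GolayLike C) (h1 : (1 : ι → ZMod 2) ∈ C) {x : ι → ℤ}
    (hx : x ∈ leechSetOf C) (hn : ∑ i, x i ^ 2 = 32) :
    (∃ U V : Finset ι, V ⊆ U ∧ U.card = 2 ∧ x = sgnVec 4 U V) ∨
    (∃ c ∈ C, hammingNorm c = 8 ∧ ∃ V : Finset ι, V ⊆ support₂ c ∧ Even V.card ∧
      x = sgnVec 2 (support₂ c) V) ∨
    (∃ p, ∃ c ∈ C, x = oddMin p c) := by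
  obtain ⟨m, hm⟩ := (leech_iff C h1 x).1 hx
  have hm' := LP_mod C h1 hm
  rcases Int.emod_two_eq_zero_or_one m with h2 | h2
  · rw [h2] at hm'
    by_cases hz : halfWord x 0 = 0
    · exact Or.inl (classify_zero C hm' hn hz)
    · exact Or.inr (Or.inl (classify_even C h hm' hn hz))
  · rw [h2] at hm'
    exact Or.inr (Or.inr (classify_odd C h hm' hn))

theorem card_even_subsets (U : Finset ι) (hU : U.card = 8) :
    (U.powerset.filter (fun V => Even V.card)).card = 128 := by
  have hne : U.Nonempty := Finset.card_pos.1 (by omega)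
  have h1 := Finset.sum_powerset_neg_one_pow_card_of_nonempty hne
  have h2 := Finset.sum_filter_add_sum_filter_not U.powerset (fun V => Even V.card)
    (fun V => (-1 : ℤ) ^ V.card)
  rw [h1] at h2
  have h3 : ∑ V ∈ U.powerset.filter (fun V => Even V.card), (-1 : ℤ) ^ V.card =
      (U.powerset.filter (fun V => Even V.card)).card := by
    rw [Finset.sum_congr rfl (fun V hV => Even.neg_one_pow (Finset.mem_filter.1 hV).2)]
    simp
  have h4 : ∑ V ∈ U.powerset.filter (fun V => ¬ Even V.card), (-1 : ℤ) ^ V.card =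
      -((U.powerset.filter (fun V => ¬ Even V.card)).card : ℤ) := by
    rw [Finset.sum_congr rfl (fun V hV =>
      Odd.neg_one_pow (Nat.not_even_iff_odd.1 (Finset.mem_filter.1 hV).2))]
    simp
  have h5 := Finset.card_filter_add_card_filter_not (s := U.powerset)
    (fun V => Even V.card)
  rw [Finset.card_powerset, hU] at h5
  rw [h3, h4] at h2
  omega

/-- parameters of the vectors of the first shape -/
def paramA (ι : Type*) [Fintype ι] [DecidableEq ι] : Finset (Σ _ : Finset ι, Finset ι) :=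
  (Finset.powersetCard 2 Finset.univ).sigma (fun U => U.powerset)

theorem mem_paramA (U V : Finset ι) :
    (⟨U, V⟩ : Σ _ : Finset ι, Finset ι) ∈ paramA ι ↔ U.card = 2 ∧ V ⊆ U := by
  unfold paramA
  rw [Finset.mem_sigma, Finset.mem_powersetCard, Finset.mem_powerset]
  simp

/-- parameters of the vectors of the second shape -/
noncomputable def paramB : Finset (Σ _ : Finset ι, Finset ι) :=
  ((Set.toFinite (Oct C)).toFinset).sigma (fun U => U.powerset.filter (fun V => Even V.card))

theorem mem_paramB (U V : Finset ι) :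
    (⟨U, V⟩ : Σ _ : Finset ι, Finset ι) ∈ paramB C ↔ U ∈ Oct C ∧ V ⊆ U ∧ Even V.card := by
  unfold paramB
  rw [Finset.mem_sigma, Set.Finite.mem_toFinset, Finset.mem_filter, Finset.mem_powerset]

theorem card_paramA (hι : Fintype.card ι = 24) : (paramA ι).card = 1104 := by
  unfold paramA
  rw [Finset.card_sigma, Finset.sum_congr rfl (fun U hU => by
    rw [Finset.card_powerset, (Finset.mem_powersetCard.1 hU).2]),
    Finset.sum_const, Finset.card_powersetCard, Finset.card_univ, hι]
  decide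

theorem card_paramB : (paramB C).card = (Oct C).ncard * 128 := by
  unfold paramB
  rw [Finset.card_sigma, Finset.sum_congr rfl (fun U hU =>
    card_even_subsets U (octad_card U ((Set.Finite.mem_toFinset _).1 hU))),
    Finset.sum_const, smul_eq_mul, Set.ncard_eq_toFinset_card (Oct C) (Set.toFinite (Oct C))]

theorem oddMin_inj {p p' : ι} {c c' : ι → ZMod 2} (heq : oddMin p c = oddMin p' c') :
    p = p' ∧ c = c' := by
  have hp : p = p' := by
    by_contra hne
    have h2 := congrFun heq p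
    unfold oddMin at h2
    rw [if_pos rfl, if_neg hne] at h2
    split_ifs at h2 <;> omega
  subst hp
  refine ⟨rfl, ?_⟩
  funext i
  have h2 := congrFun heq i
  unfold oddMin at h2
  by_cases hi : i = p
  · rw [if_pos hi, if_pos hi] at h2
    rw [hi]
    by_cases h0 : c p = 0 <;> by_cases h0' : c' p = 0
    · rw [h0, h0']
    · rw [if_pos h0, if_neg h0'] at h2
      omega
    · rw [if_neg h0, if_pos h0'] at h2
      omega
    · rw [zmod2_eq_one_of_ne _ h0, zmod2_eq_one_of_ne _ h0']
  · rw [if_neg hi, if_neg hi] at h2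
    by_cases h0 : c i = 0 <;> by_cases h0' : c' i = 0
    · rw [h0, h0']
    · rw [if_pos h0, if_neg h0'] at h2
      omega
    · rw [if_neg h0, if_pos h0'] at h2
      omega
    · rw [zmod2_eq_one_of_ne _ h0, zmod2_eq_one_of_ne _ h0']

/-- the number of vectors of sum of squares 32 -/
theorem count_min (h : GolayLike C) (h1 : (1 : ι → ZMod 2) ∈ C) :
    {x : ι → ℤ | x ∈ leechSetOf C ∧ ∑ i, x i ^ 2 = 32}.ncard =
      1104 + (Oct C).ncard * 128 + 24 * Nat.card C := by
  have hS : {x : ι → ℤ | x ∈ leechSetOf C ∧ ∑ i, x i ^ 2 = 32} =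
      ((fun q : (Σ _ : Finset ι, Finset ι) => sgnVec 4 q.1 q.2) '' ↑(paramA ι) ∪
        (fun q : (Σ _ : Finset ι, Finset ι) => sgnVec 2 q.1 q.2) '' ↑(paramB C)) ∪
      Set.range (fun q : ι × C => oddMin q.1 (q.2 : ι → ZMod 2)) := by
    ext x
    constructor
    · rintro ⟨hx, hn⟩
      rcases classify C h h1 hx hn with ⟨U, V, hVU, hU, rfl⟩ | ⟨c, hc, hc8, V, hV, hev, rfl⟩ |
        ⟨p, c, hc, rfl⟩
      · left
        left
        exact ⟨⟨U, V⟩, Finset.mem_coe.2 ((mem_paramA U V).2 ⟨hU, hVU⟩), rfl⟩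
      · left
        right
        exact ⟨⟨support₂ c, V⟩, Finset.mem_coe.2 ((mem_paramB C _ V).2
          ⟨(mem_octads _).2 ⟨c, hc, rfl, hc8⟩, hV, hev⟩), rfl⟩
      · right
        exact ⟨(p, ⟨c, hc⟩), rfl⟩
    · rintro ((⟨⟨U, V⟩, hq, rfl⟩ | ⟨⟨U, V⟩, hq, rfl⟩) | ⟨⟨p, c⟩, rfl⟩)
      · obtain ⟨hU2, hVU⟩ := (mem_paramA U V).1 (Finset.mem_coe.1 hq)
        refine ⟨(leech_iff C h1 _).2 ⟨0, LP_sgnVec4 C hVU hU2⟩, ?_⟩
        show ∑ i, sgnVec 4 U V i ^ 2 = 32
        rw [sgnVec_sq 4 hVU, hU2]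
        norm_num
      · obtain ⟨hU, hVU, hev⟩ := (mem_paramB C U V).1 (Finset.mem_coe.1 hq)
        obtain ⟨c, hc, rfl, hc8⟩ := (mem_octads _).1 hU
        refine ⟨(leech_iff C h1 _).2 ⟨0, LP_sgnVec2 C hc hc8 hVU hev⟩, ?_⟩
        show ∑ i, sgnVec 2 (support₂ c) V i ^ 2 = 32
        rw [sgnVec_sq 2 hVU, ← hammingNorm_eq_card, hc8]
        norm_num
      · exact ⟨(leech_iff C h1 _).2 ⟨1, LP_oddMin C h c.2 p⟩, oddMin_sq h.hcard p _⟩
  have hAinj : Set.InjOn (fun q : (Σ _ : Finset ι, Finset ι) => sgnVec 4 q.1 q.2)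
      ↑(paramA ι) := by
    rintro ⟨U, V⟩ hq ⟨U', V'⟩ hq' heq
    obtain ⟨_, hVU⟩ := (mem_paramA U V).1 (Finset.mem_coe.1 hq)
    obtain ⟨_, hVU'⟩ := (mem_paramA U' V').1 (Finset.mem_coe.1 hq')
    obtain ⟨rfl, rfl⟩ := sgnVec_inj (by norm_num) hVU hVU' heq
    rfl
  have hBinj : Set.InjOn (fun q : (Σ _ : Finset ι, Finset ι) => sgnVec 2 q.1 q.2)
      ↑(paramB C) := by
    rintro ⟨U, V⟩ hq ⟨U', V'⟩ hq' heq
    obtain ⟨_, hVU, _⟩ := (mem_paramB C U V).1 (Finset.mem_coe.1 hq)
    obtain ⟨_, hVU', _⟩ := (mem_paramB C U' V').1 (Finset.mem_coe.1 hq')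
    obtain ⟨rfl, rfl⟩ := sgnVec_inj (by norm_num) hVU hVU' heq
    rfl
  have hCinj : Function.Injective (fun q : ι × C => oddMin q.1 (q.2 : ι → ZMod 2)) := by
    rintro ⟨p, c⟩ ⟨p', c'⟩ heq
    obtain ⟨hp, hc⟩ := oddMin_inj heq
    have hp' : p = p' := hp
    have hc' : c = c' := Subtype.ext hc
    rw [hp', hc']
  have hdAB : Disjoint
      ((fun q : (Σ _ : Finset ι, Finset ι) => sgnVec 4 q.1 q.2) '' ↑(paramA ι))
      ((fun q : (Σ _ : Finset ι, Finset ι) => sgnVec 2 q.1 q.2) '' ↑(paramB C)) := by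
    rw [Set.disjoint_left]
    rintro x ⟨⟨U, V⟩, hq, rfl⟩ ⟨⟨U', V'⟩, hq', heq⟩
    obtain ⟨hU', hVU', _⟩ := (mem_paramB C U' V').1 (Finset.mem_coe.1 hq')
    have hcard : U'.card = 8 := octad_card U' hU'
    obtain ⟨i, hi⟩ : U'.Nonempty := Finset.card_pos.1 (by omega)
    have h2 := congrFun heq i
    simp only [sgnVec] at h2
    rw [if_pos hi] at h2
    split_ifs at h2 <;> omega
  have hdC : Disjoint
      ((fun q : (Σ _ : Finset ι, Finset ι) => sgnVec 4 q.1 q.2) '' ↑(paramA ι) ∪
        (fun q : (Σ _ : Finset ι, Finset ι) => sgnVec 2 q.1 q.2) '' ↑(paramB C))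
      (Set.range (fun q : ι × C => oddMin q.1 (q.2 : ι → ZMod 2))) := by
    rw [Set.disjoint_left]
    rintro x hx ⟨⟨p, c⟩, heq⟩
    have hodd : x p % 2 = 1 := by
      rw [← heq]
      simp only [oddMin]
      split_ifs <;> norm_num
    rcases hx with ⟨⟨U, V⟩, _, rfl⟩ | ⟨⟨U, V⟩, _, rfl⟩
    · simp only [sgnVec] at hodd
      split_ifs at hodd <;> omega
    · simp only [sgnVec] at hodd
      split_ifs at hodd <;> omega
  have hfinA : ((fun q : (Σ _ : Finset ι, Finset ι) => sgnVec 4 q.1 q.2) ''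
      ↑(paramA ι)).Finite := (Finset.finite_toSet _).image _
  have hfinB : ((fun q : (Σ _ : Finset ι, Finset ι) => sgnVec 2 q.1 q.2) ''
      ↑(paramB C)).Finite := (Finset.finite_toSet _).image _
  have hfinC : (Set.range (fun q : ι × C => oddMin q.1 (q.2 : ι → ZMod 2))).Finite :=
    Set.finite_range _
  have hC : (Set.range (fun q : ι × C => oddMin q.1 (q.2 : ι → ZMod 2))).ncard =
      24 * Nat.card C := by
    rw [← Set.image_univ, Set.ncard_image_of_injective _ hCinj, Set.ncard_univ, Nat.card_prod,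
      Nat.card_eq_fintype_card, h.hcard]
  rw [hS, Set.ncard_union_eq hdC (hfinA.union hfinB) hfinC, Set.ncard_union_eq hdAB hfinA hfinB,
    hAinj.ncard_image, hBinj.ncard_image, Set.ncard_coe_finset,
    Set.ncard_coe_finset, card_paramA h.hcard, card_paramB, hC]

end LeechMin

end Cfsg.Agent.Helper28
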