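import Cfsg.Agent.Helper28.LeechCount
import Cfsg.Agent.Helper3.Golay.Octads

/-!
Counting lattice vectors of a given sum of squares subject to a linear condition on the
coordinates (a "tag"), by signed digit extraction.
-/

set_option autoImplicit false

namespace Cfsg.Agent.Helper28

open Cfsg

/-- the sign attached to a coordinate value -/
def sgn8 (v : ℤ) : ℤ := if v % 8 < 4 then 1 else -1

/-- the sign bit -/
def bit8 (v : ℤ) : ℕ := if v % 8 < 4 then 0 else 1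

theorem sgn8_eq (v : ℤ) : sgn8 v = (-1) ^ bit8 v := by
  unfold sgn8 bit8
  split_ifs <;> norm_num

theorem neg_one_pow_nat (T : ℕ) : (-1 : ℤ) ^ T = if T % 2 = 0 then 1 else -1 := by
  rcases Nat.even_or_odd T with h | h
  · rw [h.neg_one_pow, if_pos (Nat.even_iff.1 h)]
  · rw [h.neg_one_pow, if_neg (by rw [Nat.odd_iff.1 h]; norm_num)]

theorem neg_one_pow_eq_iff (T m : ℕ) : (-1 : ℤ) ^ T = (-1) ^ m ↔ T % 2 = m % 2 := by
  rw [neg_one_pow_nat T, neg_one_pow_nat m]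
  by_cases hT : T % 2 = 0
  · by_cases hm : m % 2 = 0
    · rw [if_pos hT, if_pos hm]
      exact ⟨fun _ => by omega, fun _ => rfl⟩
    · rw [if_pos hT, if_neg hm]
      exact ⟨fun h => by norm_num at h, fun h => by omega⟩
  · by_cases hm : m % 2 = 0
    · rw [if_neg hT, if_pos hm]
      exact ⟨fun h => by norm_num at h, fun h => by omega⟩
    · rw [if_neg hT, if_neg hm]
      exact ⟨fun _ => by omega, fun _ => rfl⟩

theorem prod_sgn8 {ι : Type*} [Fintype ι] (x : ι → ℤ) :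
    ∏ i, sgn8 (x i) = (-1) ^ ∑ i, bit8 (x i) := by
  rw [← Finset.prod_pow_eq_pow_sum]
  exact Finset.prod_congr rfl (fun i _ => sgn8_eq _)

/-- signed digit extraction -/
theorem signed_digit {ι : Type*} [Fintype ι] [DecidableEq ι] (V : ι → Finset ℤ)
    (e : ι → ℤ → ℕ) (B : ℕ) (hB : (Fintype.piFinset V).card < B) (s : ℤ)
    (hs : s = 1 ∨ s = -1) (E : ℕ) :
    ((((∏ i, ∑ v ∈ V i, B ^ e i v : ℕ) : ℤ) +
        s * ∏ i, ∑ v ∈ V i, sgn8 v * (B : ℤ) ^ e i v) / 2).toNat / B ^ E % B =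
      ((Fintype.piFinset V).filter
        (fun x => ∏ i, sgn8 (x i) = s ∧ ∑ i, e i (x i) = E)).card := by
  have h1 : (∏ i, ∑ v ∈ V i, B ^ e i v : ℕ) =
      ∑ x ∈ Fintype.piFinset V, B ^ ∑ i, e i (x i) := by
    rw [Finset.prod_univ_sum]
    exact Finset.sum_congr rfl (fun x _ => Finset.prod_pow_eq_pow_sum _ _ _)
  have h2 : ∏ i, ∑ v ∈ V i, sgn8 v * (B : ℤ) ^ e i v =
      ∑ x ∈ Fintype.piFinset V, (∏ i, sgn8 (x i)) * (B : ℤ) ^ ∑ i, e i (x i) := by
    rw [Finset.prod_univ_sum]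
    exact Finset.sum_congr rfl
      (fun x _ => by rw [Finset.prod_mul_distrib, Finset.prod_pow_eq_pow_sum])
  have hsign : ∀ x : ι → ℤ, ∏ i, sgn8 (x i) = 1 ∨ ∏ i, sgn8 (x i) = -1 := by
    intro x
    rw [prod_sgn8, neg_one_pow_nat]
    split_ifs
    · exact Or.inl rfl
    · exact Or.inr rfl
  have hL : ((∏ i, ∑ v ∈ V i, B ^ e i v : ℕ) : ℤ) +
      s * ∏ i, ∑ v ∈ V i, sgn8 v * (B : ℤ) ^ e i v =
      ∑ x ∈ Fintype.piFinset V, ((B : ℤ) ^ (∑ i, e i (x i)) +
        s * ((∏ i, sgn8 (x i)) * (B : ℤ) ^ ∑ i, e i (x i))) := by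
    rw [h1, h2, Nat.cast_sum, Finset.mul_sum, ← Finset.sum_add_distrib]
    exact Finset.sum_congr rfl (fun x _ => by rw [Nat.cast_pow])
  have hR : 2 * ((∑ x ∈ (Fintype.piFinset V).filter (fun x => ∏ i, sgn8 (x i) = s),
      B ^ ∑ i, e i (x i) : ℕ) : ℤ) =
      ∑ x ∈ Fintype.piFinset V,
        (if ∏ i, sgn8 (x i) = s then 2 * (B : ℤ) ^ (∑ i, e i (x i)) else 0) := by
    rw [Nat.cast_sum, Finset.mul_sum, Finset.sum_filter]
    refine Finset.sum_congr rfl (fun x _ => ?_)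
    split_ifs
    · rw [Nat.cast_pow]
    · rfl
  have hterm : ∀ x : ι → ℤ, (B : ℤ) ^ (∑ i, e i (x i)) +
        s * ((∏ i, sgn8 (x i)) * (B : ℤ) ^ ∑ i, e i (x i)) =
      (if ∏ i, sgn8 (x i) = s then 2 * (B : ℤ) ^ (∑ i, e i (x i)) else 0) := by
    intro x
    rcases hsign x with hx | hx <;> rcases hs with rfl | rfl <;> rw [hx] <;> norm_num <;> ring
  have hsum : ((∏ i, ∑ v ∈ V i, B ^ e i v : ℕ) : ℤ) +
      s * ∏ i, ∑ v ∈ V i, sgn8 v * (B : ℤ) ^ e i v =
      2 * ((∑ x ∈ (Fintype.piFinset V).filter (fun x => ∏ i, sgn8 (x i) = s),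
        B ^ ∑ i, e i (x i) : ℕ) : ℤ) := by
    rw [hL, hR]
    exact Finset.sum_congr rfl (fun x _ => hterm x)
  rw [hsum, Int.mul_ediv_cancel_left _ (by norm_num : (2 : ℤ) ≠ 0), Int.toNat_natCast,
    digit_count _ _ B (lt_of_le_of_lt (Finset.card_filter_le _ _) hB) E, Finset.filter_filter]

/-- the tagged exponent -/
def expoT (τ : GolayPt → ℤ → ℕ) (i : GolayPt) (v : ℤ) : ℕ := (v ^ 2).toNat + 601 * τ i v

theorem tag_decode (A : Finset ℤ) (hA : A ⊆ Finset.Icc (-5) 5) (m : ℕ) (hm : m ≤ 1)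
    (c : GolayPt → ZMod 2) (hc : hammingNorm c % 4 = 0) (τ : GolayPt → ℤ → ℕ) (N t : ℕ)
    (hN : N ≤ 600) (x : GolayPt → ℤ) (hx : x ∈ Fintype.piFinset (valFam A (m : ℤ) c)) :
    (∑ i, x i ^ 2 = (N : ℤ) ∧ (∑ i, x i) % 8 = ((4 * m : ℕ) : ℤ) ∧ ∑ i, τ i (x i) = t) ↔
      (∏ i, sgn8 (x i) = (-1) ^ m ∧ ∑ i, expoT τ i (x i) = N + 601 * t) := by
  have hmem : ∀ i, x i ∈ valFam A (m : ℤ) c i := fun i => (Fintype.mem_piFinset.1 hx) i
  have hres : ∀ i, x i % 8 =
      (m : ℤ) + (if c i ≠ 0 then 2 else 0) + 4 * (bit8 (x i) : ℤ) := by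
    intro i
    have h := hmem i
    unfold valFam valSet at h
    unfold bit8
    by_cases hci : c i = 0
    · rw [if_pos hci, Finset.mem_filter] at h
      rw [if_neg (not_not.2 hci)]
      split_ifs <;> push_cast <;> omega
    · rw [if_neg hci, Finset.mem_filter] at h
      rw [if_pos hci]
      split_ifs <;> push_cast <;> omega
  have hbnd : ∀ i, (x i ^ 2).toNat ≤ 25 := by
    intro i
    have h := hmem i
    have hA' : x i ∈ Finset.Icc (-5 : ℤ) 5 := hA (by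
      unfold valFam valSet at h
      split_ifs at h
      · exact (Finset.mem_filter.1 h).1
      · exact (Finset.mem_filter.1 h).1)
    rw [Finset.mem_Icc] at hA'
    have h25 : x i ^ 2 ≤ 25 := by nlinarith
    omega
  have hexp : ∑ i, expoT τ i (x i) = ∑ i, (x i ^ 2).toNat + 601 * ∑ i, τ i (x i) := by
    unfold expoT
    rw [Finset.sum_add_distrib, ← Finset.mul_sum]
  have hn : ((∑ i, (x i ^ 2).toNat : ℕ) : ℤ) = ∑ i, x i ^ 2 := by
    rw [Nat.cast_sum]
    exact Finset.sum_congr rfl (fun i _ => Int.toNat_of_nonneg (sq_nonneg _))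
  have hnle : ∑ i, (x i ^ 2).toNat ≤ 600 := by
    have h := Finset.sum_le_card_nsmul (Finset.univ : Finset GolayPt)
      (fun i => (x i ^ 2).toNat) 25 (fun i _ => hbnd i)
    rw [Finset.card_univ, golayLike.hcard, smul_eq_mul] at h
    omega
  have hsumres : ∑ i, ((m : ℤ) + (if c i ≠ 0 then 2 else 0) + 4 * (bit8 (x i) : ℤ)) =
      24 * (m : ℤ) + (hammingNorm c : ℤ) * 2 + 4 * ((∑ i, bit8 (x i) : ℕ) : ℤ) := by
    rw [Finset.sum_add_distrib, Finset.sum_add_distrib, Finset.sum_const, Finset.card_univ,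
      golayLike.hcard, sum_ind_const c 2, ← Finset.mul_sum, ← Nat.cast_sum, nsmul_eq_mul]
    simp only [Nat.cast_ofNat]
  have hs8 : (∑ i, x i) % 8 =
      (24 * (m : ℤ) + (hammingNorm c : ℤ) * 2 + 4 * ((∑ i, bit8 (x i) : ℕ) : ℤ)) % 8 := by
    rw [Finset.sum_int_mod, Finset.sum_congr rfl (fun i _ => hres i), hsumres]
  rw [hexp, prod_sgn8, neg_one_pow_eq_iff, ← hn, hs8]
  generalize (∑ i, (x i ^ 2).toNat) = n at hnle
  generalize (∑ i, bit8 (x i)) = T
  generalize (∑ i, τ i (x i)) = tt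
  generalize hammingNorm c = W at hc
  push_cast
  constructor
  · rintro ⟨h1, h2, h3⟩
    constructor <;> omega
  · rintro ⟨h1, h2⟩
    refine ⟨by omega, by omega, by omega⟩

theorem card_fiberT (A : Finset ℤ) (hA : A ⊆ Finset.Icc (-5) 5) (m : ℕ) (hm : m ≤ 1)
    (c : GolayPt → ZMod 2) (hc : hammingNorm c % 4 = 0) (τ : GolayPt → ℤ → ℕ) (N t : ℕ)
    (hN : N ≤ 600) :
    ((Fintype.piFinset (valFam A (m : ℤ) c)).filter (fun x => ∑ i, x i ^ 2 = (N : ℤ) ∧
        (∑ i, x i) % 8 = ((4 * m : ℕ) : ℤ) ∧ ∑ i, τ i (x i) = t)).card =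
      ((((∏ i, ∑ v ∈ valFam A (m : ℤ) c i, bigB ^ expoT τ i v : ℕ) : ℤ) +
        (-1) ^ m * ∏ i, ∑ v ∈ valFam A (m : ℤ) c i, sgn8 v * (bigB : ℤ) ^ expoT τ i v) /
          2).toNat / bigB ^ (N + 601 * t) % bigB := by
  have hA8 : A ⊆ Finset.Icc (-8) 8 :=
    hA.trans (Finset.Icc_subset_Icc (by norm_num) (by norm_num))
  have hcard : (Fintype.piFinset (valFam A (m : ℤ) c)).card < bigB := by
    rw [Fintype.card_piFinset]
    calc ∏ i, (valFam A (m : ℤ) c i).card ≤ ∏ _i : GolayPt, 5 :=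
          Finset.prod_le_prod (fun i _ => Nat.zero_le _) (fun i _ => by
            unfold valFam
            split_ifs
            · exact valSet_card A hA8 m hm 0 (Or.inl rfl)
            · exact valSet_card A hA8 m hm 2 (Or.inr rfl))
      _ = 5 ^ 24 := by rw [Finset.prod_const, Finset.card_univ, golayLike.hcard]
      _ < bigB := by unfold bigB; norm_num
  have hs : ((-1 : ℤ) ^ m = 1) ∨ ((-1 : ℤ) ^ m = -1) := by
    rw [neg_one_pow_nat]
    split_ifs
    · exact Or.inl rfl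
    · exact Or.inr rfl
  rw [signed_digit (valFam A (m : ℤ) c) (expoT τ) bigB hcard ((-1) ^ m) hs (N + 601 * t)]
  congr 1
  exact Finset.filter_congr (fun x hx => tag_decode A hA m hm c hc τ N t hN x hx)

/-- a product of a four-valued family -/
theorem prod_ite_ite {M : Type*} [CommMonoid M] (Sp : Finset GolayPt) (c : GolayPt → ZMod 2)
    (a b a' b' : M) :
    ∏ i, (if i ∈ Sp then (if c i = 0 then a else b) else (if c i = 0 then a' else b')) =
      a ^ (Sp.card - (support₂ c ∩ Sp).card) * b ^ (support₂ c ∩ Sp).card *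
        (a' ^ (24 - Sp.card - (hammingNorm c - (support₂ c ∩ Sp).card)) *
          b' ^ (hammingNorm c - (support₂ c ∩ Sp).card)) := by
  rw [Finset.prod_ite, Finset.prod_ite, Finset.prod_ite, Finset.prod_const, Finset.prod_const,
    Finset.prod_const, Finset.prod_const]
  have hS := Finset.card_filter_add_card_filter_not
    (s := (Finset.univ.filter (fun i => i ∈ Sp))) (fun i => c i = 0)
  have hR := Finset.card_filter_add_card_filter_not
    (s := (Finset.univ.filter (fun i => ¬ i ∈ Sp))) (fun i => c i = 0)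
  have hU := Finset.card_filter_add_card_filter_not
    (s := (Finset.univ : Finset GolayPt)) (fun i => i ∈ Sp)
  rw [Finset.filter_univ_mem] at hS hU
  rw [Finset.card_univ, golayLike.hcard] at hU
  have e2 : ((Finset.univ.filter (fun i => i ∈ Sp)).filter (fun i => ¬ c i = 0)) =
      support₂ c ∩ Sp := by
    ext i
    simp only [Finset.mem_filter, Finset.mem_univ, true_and, Finset.mem_inter, mem_support₂]
    exact and_comm
  have e4 : ((Finset.univ.filter (fun i => ¬ i ∈ Sp)).filter (fun i => ¬ c i = 0)) =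
      support₂ c \ Sp := by
    ext i
    simp only [Finset.mem_filter, Finset.mem_univ, true_and, Finset.mem_sdiff, mem_support₂]
    exact and_comm
  have hw := Finset.card_inter_add_card_sdiff (support₂ c) Sp
  rw [← hammingNorm_eq_card] at hw
  rw [Finset.filter_univ_mem] at e2 ⊢
  rw [e2] at hS ⊢
  rw [e4] at hR ⊢
  refine congrArg₂ (· * ·) (congrArg₂ (· * ·) (congrArg _ ?_) rfl)
    (congrArg₂ (· * ·) (congrArg _ ?_) (congrArg _ ?_))
  · omega
  · omega
  · omega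

/-- the unsigned value sum -/
def tP (A : Finset ℤ) (m : ℕ) (τ : ℤ → ℕ) (t : ℤ) : ℕ :=
  ∑ v ∈ valSet A (m : ℤ) t, bigB ^ ((v ^ 2).toNat + 601 * τ v)

/-- the signed value sum -/
def tM (A : Finset ℤ) (m : ℕ) (τ : ℤ → ℕ) (t : ℤ) : ℤ :=
  ∑ v ∈ valSet A (m : ℤ) t, sgn8 v * (bigB : ℤ) ^ ((v ^ 2).toNat + 601 * τ v)

/-- the number of vectors with a given word of weight `k` meeting the special set (of `σ`
points) in `j` points -/
def dCnt (A : Finset ℤ) (τS τR : ℤ → ℕ) (σ m N t k j : ℕ) : ℕ :=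
  ((((tP A m τS 0 ^ (σ - j) * tP A m τS 2 ^ j *
      (tP A m τR 0 ^ (24 - σ - (k - j)) * tP A m τR 2 ^ (k - j)) : ℕ) : ℤ) +
    (-1) ^ m * (tM A m τS 0 ^ (σ - j) * tM A m τS 2 ^ j *
      (tM A m τR 0 ^ (24 - σ - (k - j)) * tM A m τR 2 ^ (k - j)))) / 2).toNat /
        bigB ^ (N + 601 * t) % bigB

/-- the tagged fibre over a word -/
def fiberT (A : Finset ℤ) (m N : ℕ) (Sp : Finset GolayPt) (τS τR : ℤ → ℕ) (t : ℕ)
    (c : GolayPt → ZMod 2) : Finset (GolayPt → ℤ) :=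
  (fiberF A m N c).filter (fun x => ∑ i, (if i ∈ Sp then τS (x i) else τR (x i)) = t)

theorem card_fiberT' (A : Finset ℤ) (hA : A ⊆ Finset.Icc (-5) 5) (m : ℕ) (hm : m ≤ 1)
    (c : GolayPt → ZMod 2) (hc : hammingNorm c % 4 = 0) (Sp : Finset GolayPt)
    (τS τR : ℤ → ℕ) (N t : ℕ) (hN : N ≤ 600) :
    (fiberT A m N Sp τS τR t c).card =
      dCnt A τS τR Sp.card m N t (hammingNorm c) (support₂ c ∩ Sp).card := by
  have h := card_fiberT A hA m hm c hc (fun i v => if i ∈ Sp then τS v else τR v) N t hN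
  have hp : ∀ i, ∑ v ∈ valFam A (m : ℤ) c i,
      bigB ^ expoT (fun i v => if i ∈ Sp then τS v else τR v) i v =
      if i ∈ Sp then (if c i = 0 then tP A m τS 0 else tP A m τS 2)
        else (if c i = 0 then tP A m τR 0 else tP A m τR 2) := by
    intro i
    unfold valFam tP expoT
    by_cases hi : i ∈ Sp
    · simp only [if_pos hi]
      split_ifs <;> rfl
    · simp only [if_neg hi]
      split_ifs <;> rfl
  have hq : ∀ i, ∑ v ∈ valFam A (m : ℤ) c i,
      sgn8 v * (bigB : ℤ) ^ expoT (fun i v => if i ∈ Sp then τS v else τR v) i v =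
      if i ∈ Sp then (if c i = 0 then tM A m τS 0 else tM A m τS 2)
        else (if c i = 0 then tM A m τR 0 else tM A m τR 2) := by
    intro i
    unfold valFam tM expoT
    by_cases hi : i ∈ Sp
    · simp only [if_pos hi]
      split_ifs <;> rfl
    · simp only [if_neg hi]
      split_ifs <;> rfl
  rw [Finset.prod_congr rfl (fun i _ => hp i), Finset.prod_congr rfl (fun i _ => hq i),
    prod_ite_ite, prod_ite_ite] at h
  unfold dCnt
  rw [← h]
  unfold fiberT fiberF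
  rw [Finset.filter_filter]
  congr 1
  exact Finset.filter_congr (fun x _ => and_assoc)

theorem inter_mask (m M : ℕ) :
    (Cfsg.Agent.Helper3.gSupp m ∩ Cfsg.Agent.Helper3.gSupp M).card =
      Cfsg.Agent.Helper3.gPopc (Nat.land m M) := by
  rw [← Cfsg.Agent.Helper3.gSupp_and, Cfsg.Agent.Helper3.gSupp_card]
  rfl

/-- a sum over the code as a sum over the 4096 masks -/
theorem sum_code (f : (GolayPt → ZMod 2) → ℕ) :
    ∑ c ∈ codeFin, f c =
      ∑ n ∈ Finset.range 4096, f (Cfsg.Agent.Helper3.gDec (Cfsg.Agent.Helper3.gCw n)) := by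
  classical
  have himg : codeFin = (Finset.range 4096).image
      (fun n => Cfsg.Agent.Helper3.gDec (Cfsg.Agent.Helper3.gCw n)) := by
    ext c
    rw [mem_codeFin, Cfsg.Agent.Helper3.mem_golayCode_iff, Finset.mem_image]
    constructor
    · rintro ⟨k, hk, rfl⟩
      exact ⟨k, Finset.mem_range.2 hk, rfl⟩
    · rintro ⟨k, hk, rfl⟩
      exact ⟨k, Finset.mem_range.1 hk, rfl⟩
  rw [himg, Finset.sum_image]
  intro k hk k' hk' h
  exact Cfsg.Agent.Helper3.gDec_gCw_inj (Finset.mem_range.1 hk) (Finset.mem_range.1 hk') h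

/-- grouping a sum over an initial segment by the values of a function -/
theorem sum_classes {α : Type*} [DecidableEq α] (n : ℕ) (g : ℕ → α) (T : Finset α)
    (hT : Cfsg.Agent.Helper3.gAllLt n (fun k => decide (g k ∈ T)) = true) (F : α → ℕ) :
    ∑ k ∈ Finset.range n, F (g k) =
      ∑ a ∈ T, Cfsg.Agent.Helper3.gCountLt n (fun k => decide (g k = a)) * F a := by
  have hmaps : ∀ k ∈ Finset.range n, g k ∈ T := by
    intro k hk
    have h := (Cfsg.Agent.Helper3.gAllLt_iff _ _).1 hT k (Finset.mem_range.1 hk)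
    exact of_decide_eq_true h
  have h := Finset.sum_fiberwise_of_maps_to hmaps (fun k => F (g k))
  rw [← h]
  refine Finset.sum_congr rfl (fun a _ => ?_)
  rw [Cfsg.Agent.Helper3.gCountLt_eq, ← smul_eq_mul, ← Finset.sum_const]
  have hf : (Finset.range n).filter (fun k => decide (g k = a) = true) =
      (Finset.range n).filter (fun k => g k = a) :=
    Finset.filter_congr (fun k _ => by simp)
  rw [hf]
  exact Finset.sum_congr rfl (fun k hk => by rw [(Finset.mem_filter.1 hk).2])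

/-- the class of a mask: its weight and the weight of its intersection with `M` -/
def clsOf (M n : ℕ) : ℕ × ℕ :=
  (Cfsg.Agent.Helper3.gPopc (Cfsg.Agent.Helper3.gCw n),
    Cfsg.Agent.Helper3.gPopc (Nat.land (Cfsg.Agent.Helper3.gCw n) M))

/-- the number of lattice vectors of parity `m` with a given sum of squares and tag -/
theorem count_LP_tag (A : Finset ℤ) (hA : A ⊆ Finset.Icc (-5) 5) (m : ℕ) (hm : m ≤ 1)
    (M : ℕ) (τS τR : ℤ → ℕ) (N t : ℕ) (hN : N ≤ 600) :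
    {x : GolayPt → ℤ | (LP golayCode x (m : ℤ) ∧ ∑ i, x i ^ 2 = (N : ℤ) ∧ ∀ i, x i ∈ A) ∧
      ∑ i, (if i ∈ Cfsg.Agent.Helper3.gSupp M then τS (x i) else τR (x i)) = t}.ncard =
      ∑ n ∈ Finset.range 4096, dCnt A τS τR (Cfsg.Agent.Helper3.gPopc M) m N t
        (clsOf M n).1 (clsOf M n).2 := by
  have hset : {x : GolayPt → ℤ | (LP golayCode x (m : ℤ) ∧ ∑ i, x i ^ 2 = (N : ℤ) ∧
      ∀ i, x i ∈ A) ∧
      ∑ i, (if i ∈ Cfsg.Agent.Helper3.gSupp M then τS (x i) else τR (x i)) = t} =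
      ↑(codeFin.biUnion (fiberT A m N (Cfsg.Agent.Helper3.gSupp M) τS τR t)) := by
    ext x
    have h0 : x ∈ {x : GolayPt → ℤ | LP golayCode x (m : ℤ) ∧ ∑ i, x i ^ 2 = (N : ℤ) ∧
        ∀ i, x i ∈ A} ↔ x ∈ (↑(codeFin.biUnion (fiberF A m N)) : Set (GolayPt → ℤ)) := by
      rw [LP_set_eq golayCode A m N hm codeFin mem_codeFin]
    rw [Finset.mem_coe, Finset.mem_biUnion] at h0
    rw [Finset.mem_coe, Finset.mem_biUnion]
    constructor
    · rintro ⟨h1, h2⟩
      obtain ⟨c, hc, hx⟩ := h0.1 h1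
      exact ⟨c, hc, Finset.mem_filter.2 ⟨hx, h2⟩⟩
    · rintro ⟨c, hc, hx⟩
      have hx' := Finset.mem_filter.1 hx
      exact ⟨h0.2 ⟨c, hc, hx'.1⟩, hx'.2⟩
  rw [hset, Set.ncard_coe_finset, Finset.card_biUnion]
  · have hcard : ∀ c ∈ codeFin,
        (fiberT A m N (Cfsg.Agent.Helper3.gSupp M) τS τR t c).card =
          dCnt A τS τR (Cfsg.Agent.Helper3.gPopc M) m N t (hammingNorm c)
            (support₂ c ∩ Cfsg.Agent.Helper3.gSupp M).card := by
      intro c hc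
      have hw := Cfsg.Agent.Helper3.golay_hammingNorm c ((mem_codeFin c).1 hc)
      rw [card_fiberT' A hA m hm c (by omega) _ τS τR N t hN, Cfsg.Agent.Helper3.gSupp_card]
    rw [Finset.sum_congr rfl hcard, sum_code]
    refine Finset.sum_congr rfl (fun n _ => ?_)
    dsimp only [clsOf]
    rw [Cfsg.Agent.Helper3.hammingNorm_gDec, Cfsg.Agent.Helper3.support₂_gDec, inter_mask]
  · intro c _ c' _ hne
    refine Finset.disjoint_left.2 (fun x hx hx' => hne ?_)
    have h1 := (Finset.mem_filter.1 hx).1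
    have h2 := (Finset.mem_filter.1 hx').1
    exact (((mem_fiberF A m N c x).1 h1).1.2.2).symm.trans
      ((mem_fiberF A m N c' x).1 h2).1.2.2

/-- the number of lattice vectors with a given sum of squares and tag -/
theorem count_tag (A : Finset ℤ) (hA : A ⊆ Finset.Icc (-5) 5) (M : ℕ) (τS τR : ℤ → ℕ)
    (N t : ℕ) (hN : N ≤ 600) (T : Finset (ℕ × ℕ))
    (hT : Cfsg.Agent.Helper3.gAllLt 4096 (fun n => decide (clsOf M n ∈ T)) = true) :
    {x : GolayPt → ℤ | (x ∈ leechLattice ∧ ∑ i, x i ^ 2 = (N : ℤ) ∧ ∀ i, x i ∈ A) ∧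
      ∑ i, (if i ∈ Cfsg.Agent.Helper3.gSupp M then τS (x i) else τR (x i)) = t}.ncard =
      ∑ kj ∈ T, Cfsg.Agent.Helper3.gCountLt 4096 (fun n => decide (clsOf M n = kj)) *
        (dCnt A τS τR (Cfsg.Agent.Helper3.gPopc M) 0 N t kj.1 kj.2 +
          dCnt A τS τR (Cfsg.Agent.Helper3.gPopc M) 1 N t kj.1 kj.2) := by
  have hset : {x : GolayPt → ℤ | (x ∈ leechLattice ∧ ∑ i, x i ^ 2 = (N : ℤ) ∧
      ∀ i, x i ∈ A) ∧
      ∑ i, (if i ∈ Cfsg.Agent.Helper3.gSupp M then τS (x i) else τR (x i)) = t} =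
      {x : GolayPt → ℤ | (LP golayCode x ((0 : ℕ) : ℤ) ∧ ∑ i, x i ^ 2 = (N : ℤ) ∧
        ∀ i, x i ∈ A) ∧
        ∑ i, (if i ∈ Cfsg.Agent.Helper3.gSupp M then τS (x i) else τR (x i)) = t} ∪
      {x : GolayPt → ℤ | (LP golayCode x ((1 : ℕ) : ℤ) ∧ ∑ i, x i ^ 2 = (N : ℤ) ∧
        ∀ i, x i ∈ A) ∧
        ∑ i, (if i ∈ Cfsg.Agent.Helper3.gSupp M then τS (x i) else τR (x i)) = t} := by
    ext x
    constructor
    · rintro ⟨⟨hx, hn, hA'⟩, ht⟩
      rcases lp_cases hx with h | h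
      · left
        refine ⟨⟨?_, hn, hA'⟩, ht⟩
        rw [Nat.cast_zero]
        exact h
      · right
        refine ⟨⟨?_, hn, hA'⟩, ht⟩
        rw [Nat.cast_one]
        exact h
    · rintro (⟨⟨h, hn, hA'⟩, ht⟩ | ⟨⟨h, hn, hA'⟩, ht⟩)
      · exact ⟨⟨(mem_leechLattice_iff x).2 ⟨_, h⟩, hn, hA'⟩, ht⟩
      · exact ⟨⟨(mem_leechLattice_iff x).2 ⟨_, h⟩, hn, hA'⟩, ht⟩
  have hdisj : Disjoint
      {x : GolayPt → ℤ | (LP golayCode x ((0 : ℕ) : ℤ) ∧ ∑ i, x i ^ 2 = (N : ℤ) ∧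
        ∀ i, x i ∈ A) ∧
        ∑ i, (if i ∈ Cfsg.Agent.Helper3.gSupp M then τS (x i) else τR (x i)) = t}
      {x : GolayPt → ℤ | (LP golayCode x ((1 : ℕ) : ℤ) ∧ ∑ i, x i ^ 2 = (N : ℤ) ∧
        ∀ i, x i ∈ A) ∧
        ∑ i, (if i ∈ Cfsg.Agent.Helper3.gSupp M then τS (x i) else τR (x i)) = t} := by
    rw [Set.disjoint_left]
    rintro x ⟨⟨h0, _, _⟩, _⟩ ⟨⟨h1, _, _⟩, _⟩
    have e0 := h0.1 none
    have e1 := h1.1 none
    unfold Int.ModEq at e0 e1
    rw [Nat.cast_zero] at e0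
    rw [Nat.cast_one] at e1
    omega
  have hfin : ∀ m : ℕ, m ≤ 1 →
      {x : GolayPt → ℤ | (LP golayCode x (m : ℤ) ∧ ∑ i, x i ^ 2 = (N : ℤ) ∧
        ∀ i, x i ∈ A) ∧
        ∑ i, (if i ∈ Cfsg.Agent.Helper3.gSupp M then τS (x i) else τR (x i)) = t}.Finite := by
    intro m hm
    have hbase : {x : GolayPt → ℤ | LP golayCode x (m : ℤ) ∧ ∑ i, x i ^ 2 = (N : ℤ) ∧
        ∀ i, x i ∈ A}.Finite := by
      rw [LP_set_eq golayCode A m N hm codeFin mem_codeFin]
      exact Finset.finite_toSet _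
    exact hbase.subset (fun x hx => hx.1)
  rw [hset, Set.ncard_union_eq hdisj (hfin 0 (by norm_num)) (hfin 1 (by norm_num)),
    count_LP_tag A hA 0 (by norm_num) M τS τR N t hN,
    count_LP_tag A hA 1 (by norm_num) M τS τR N t hN, ← Finset.sum_add_distrib]
  exact sum_classes 4096 (clsOf M) T hT
    (fun kj => dCnt A τS τR (Cfsg.Agent.Helper3.gPopc M) 0 N t kj.1 kj.2 +
      dCnt A τS τR (Cfsg.Agent.Helper3.gPopc M) 1 N t kj.1 kj.2)

end Cfsg.Agent.Helper28
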