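import Cfsg.Agent.Helper28.HSRank
import Cfsg.Agent.Helper3.Golay.OctStab
import Cfsg.Agent.Helper3.Golay.DodPairs

/-!
The rank 3 action on the 275 minimal vectors `x` attached to a vector `u` of sum of squares 48
and a decomposition `u = v + w` into minimal vectors.  Two of the 275 have inner product 8 or
16.  For inner product 16 the difference is a minimal vector orthogonal to `v` and `w`, which
gives a normal form of the quadruple; for inner product 8 a third vector of the 275 with inner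
product 16 with both exists by counting, and reduces to the first case.  The number 112 of
vectors with inner product 8 is found in a standard frame.
-/

set_option autoImplicit false

namespace Cfsg.Agent.Helper28

open Cfsg
open scoped Pointwise

/-! ### generalities -/

theorem dot_sub_right (a b c : GolayPt → ℤ) : dotInt a (b - c) = dotInt a b - dotInt a c := by
  rw [sub_eq_add_neg, dot_add_right, dot_neg_right, sub_eq_add_neg]

theorem dot_sub_left (a b c : GolayPt → ℤ) : dotInt (a - b) c = dotInt a c - dotInt b c := by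
  rw [sub_eq_add_neg, dot_add_left, dot_neg_left, sub_eq_add_neg]

theorem oddMin_at (p : GolayPt) (c : GolayPt → ZMod 2) (i : GolayPt) (hi : i ≠ p) :
    oddMin p c i = if c i = 0 then 1 else -1 := by
  unfold oddMin
  rw [if_neg hi]

theorem oddMin_self (p : GolayPt) (c : GolayPt → ZMod 2) :
    oddMin p c p = if c p = 0 then -3 else 3 := by
  unfold oddMin
  rw [if_pos rfl]

theorem oddMin_sum' (p : GolayPt) (c : GolayPt → ZMod 2) :
    ∑ i, oddMin p c i =
      if c p = 0 then 20 - 2 * (hammingNorm c : ℤ) else 28 - 2 * (hammingNorm c : ℤ) := by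
  rw [oddMin_sum Cfsg.Agent.Helper3.card_golayPt]
  by_cases h : c p = 0
  · rw [if_pos h, if_neg (not_not.2 h)]
    ring
  · rw [if_neg h, if_pos h]
    ring

/-- composition of a normal form and the inverse of another -/
theorem move2 (g₁ g₂ : Co0) (a b : leechLattice)
    (h : (g₁ : Equiv.Perm leechLattice) a = (g₂ : Equiv.Perm leechLattice) b) :
    (g₂⁻¹ * g₁) • a = b := by
  show ((g₂⁻¹ : Co0) : Equiv.Perm leechLattice) ((g₁ : Equiv.Perm leechLattice) a) = b
  rw [h]
  exact Equiv.symm_apply_apply (g₂ : Equiv.Perm leechLattice) b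

theorem move3 (g₁ g₂ n : Co0) (a b c c' : leechLattice)
    (h1 : (g₁ : Equiv.Perm leechLattice) a = c) (h2 : (g₂ : Equiv.Perm leechLattice) b = c')
    (hn : (n : Equiv.Perm leechLattice) c = c') :
    (g₂⁻¹ * (n * g₁)) • a = b := by
  show ((g₂⁻¹ : Co0) : Equiv.Perm leechLattice)
    ((n : Equiv.Perm leechLattice) ((g₁ : Equiv.Perm leechLattice) a)) = b
  rw [h1, hn, ← h2]
  exact Equiv.symm_apply_apply (g₂ : Equiv.Perm leechLattice) b

theorem fix_u (h : Co0) (u v : leechLattice) (hv : h • v = v) (hw : h • (u - v) = u - v) :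
    h • u = u := by
  have hv' : (h : Equiv.Perm leechLattice) v = v := hv
  have hw' : (h : Equiv.Perm leechLattice) (u - v) = u - v := hw
  show (h : Equiv.Perm leechLattice) u = u
  have eu : u = v + (u - v) := by abel
  conv_lhs => rw [eu]
  rw [h.2.1, hv', hw']
  abel

/-! ### the standard vectors -/

/-- the vector with coordinate `3` at the point `1` and `-1` elsewhere -/
def mclW1 : leechLattice :=
  -⟨oddMin (some 1) 0, mem_of_LP (LP_oddMin golayCode golayLike golayCode.zero_mem (some 1))⟩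

/-- the vector `(4, 0, 4, 0, …)` -/
def mclX1 : leechLattice :=
  ⟨sgnVec 4 {none, some 1} ∅, (sgn4_min none (some 1) (by decide) ∅ (Finset.empty_subset _)).1⟩

/-- the vector `(0, 4, 4, 0, …)` -/
def mclX : leechLattice :=
  ⟨sgnVec 4 {some 0, some 1} ∅,
    (sgn4_min (some 0) (some 1) (by decide) ∅ (Finset.empty_subset _)).1⟩

theorem mclX1_norm : sqNorm (mclX1 : GolayPt → ℤ) = 32 :=
  (sgn4_min none (some 1) (by decide) ∅ (Finset.empty_subset _)).2

theorem mclW1_apply (i : GolayPt) :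
    (mclW1 : GolayPt → ℤ) i = -(oddMin (some 1) (0 : GolayPt → ZMod 2) i) := rfl

theorem dot_T_raw (x : GolayPt → ℤ) :
    dotInt (sgnVec 4 {none, some 0} {some 0}) x = 4 * x none - 4 * x (some 0) := by
  rw [dot_comm', dot_sgnVec_pair x 4 none (some 0) (by decide) {some 0} (by simp)]
  have h1 : sgnVec 4 ({none, some 0} : Finset GolayPt) {some 0} none = 4 := by decide
  have h2 : sgnVec 4 ({none, some 0} : Finset GolayPt) {some 0} (some 0) = -4 := by decide
  rw [h1, h2]
  ring

theorem dot_X1_raw (x : GolayPt → ℤ) :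
    dotInt (sgnVec 4 {none, some 1} ∅) x = 4 * x none + 4 * x (some 1) := by
  rw [dot_comm', dot_sgnVec_pair x 4 none (some 1) (by decide) ∅ (Finset.empty_subset _)]
  have h1 : sgnVec 4 ({none, some 1} : Finset GolayPt) ∅ none = 4 := by decide
  have h2 : sgnVec 4 ({none, some 1} : Finset GolayPt) ∅ (some 1) = 4 := by decide
  rw [h1, h2]
  ring

theorem dot_X_raw (x : GolayPt → ℤ) :
    dotInt (sgnVec 4 {some 0, some 1} ∅) x = 4 * x (some 0) + 4 * x (some 1) := by
  rw [dot_comm', dot_sgnVec_pair x 4 (some 0) (some 1) (by decide) ∅ (Finset.empty_subset _)]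
  have h1 : sgnVec 4 ({some 0, some 1} : Finset GolayPt) ∅ (some 0) = 4 := by decide
  have h2 : sgnVec 4 ({some 0, some 1} : Finset GolayPt) ∅ (some 1) = 4 := by decide
  rw [h1, h2]
  ring

theorem dot_W1_raw (x : GolayPt → ℤ) :
    dotInt (-(oddMin (some 1) (0 : GolayPt → ZMod 2))) x = -(∑ i, x i - 4 * x (some 1)) := by
  rw [dot_neg_left, dot_comm', dot_odd0]

theorem dot_W1 (x : GolayPt → ℤ) :
    dotInt (mclW1 : GolayPt → ℤ) x = -(∑ i, x i - 4 * x (some 1)) := dot_W1_raw x

theorem dot_X1 (x : GolayPt → ℤ) :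
    dotInt (mclX1 : GolayPt → ℤ) x = 4 * x none + 4 * x (some 1) := dot_X1_raw x

/-- a minimal vector with coordinate `4` at the first base point and the right inner product
with the second standard vector -/
theorem four_std5 (y : leechLattice) (hn : sqNorm (y : GolayPt → ℤ) = 32)
    (h1 : (y : GolayPt → ℤ) none = 4)
    (h3 : ∑ i, (y : GolayPt → ℤ) i = 4 * (y : GolayPt → ℤ) (some 1) - 8) :
    (y : GolayPt → ℤ) = sgnVec 4 {none, some 1} ∅ := by
  by_contra hne
  have hne' : y ≠ mclX1 := fun h => hne (congrArg Subtype.val h)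
  have hle := dot_min_le y mclX1 hn mclX1_norm hne'
  rw [dot_comm', dot_X1, h1] at hle
  have hne2 : y ≠ -mclW := by
    intro h
    have h' : (y : GolayPt → ℤ) none = -((mclW : GolayPt → ℤ) none) := by
      rw [h]
      rfl
    rw [h1, mclW_none] at h'
    norm_num at h'
  have hnw : sqNorm ((-mclW : leechLattice) : GolayPt → ℤ) = 32 := by
    rw [AddSubgroup.coe_neg, sqNorm_neg']
    exact mclW_norm
  have hle2 := dot_min_le y (-mclW) hn hnw hne2
  rw [AddSubgroup.coe_neg, dot_neg_right] at hle2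
  have e2 : dotInt (y : GolayPt → ℤ) (mclW : GolayPt → ℤ) =
      ∑ i, (y : GolayPt → ℤ) i - 4 * (y : GolayPt → ℤ) none := dot_odd0 _ none
  rw [e2, h1] at hle2
  omega

/-- a minimal vector with coordinates `-1` at the two base points is moved to the standard one
by an automorphism fixing the base vectors -/
theorem odd_move3 (y : leechLattice) (hn : sqNorm (y : GolayPt → ℤ) = 32)
    (h1 : (y : GolayPt → ℤ) none = -1) (h2 : (y : GolayPt → ℤ) (some 0) = -1) :
    ∃ n : Co0, FixBase n ∧ (n : Equiv.Perm leechLattice) y = mclW1 := by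
  rcases classify golayCode golayLike one_mem_golay (mem_leechSetOf.1 y.2) hn with
    ⟨U, V, hVU, hU, e⟩ | ⟨c, hc, hc8, V, hV, hVe, e⟩ | ⟨p, c, hc, e⟩
  · exfalso
    rw [e] at h1
    rcases sgnVec_vals 4 U V none with h | h | h <;> rw [h] at h1 <;> norm_num at h1
  · exfalso
    rw [e] at h1
    rcases sgnVec_vals 2 (support₂ c) V none with h | h | h <;> rw [h] at h1 <;>
      norm_num at h1
  · rw [e] at h1 h2
    have hp1 : p ≠ none := by
      intro hp
      rw [hp, oddMin_self] at h1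
      split_ifs at h1 <;> norm_num at h1
    have hp2 : p ≠ some 0 := by
      intro hp
      rw [hp, oddMin_self] at h2
      split_ifs at h2 <;> norm_num at h2
    rw [oddMin_at p c none (Ne.symm hp1)] at h1
    rw [oddMin_at p c (some 0) (Ne.symm hp2)] at h2
    have hcn : c none ≠ 0 := by
      intro h
      rw [if_pos h] at h1
      norm_num at h1
    have hc0 : c (some 0) ≠ 0 := by
      intro h
      rw [if_pos h] at h2
      norm_num at h2
    have hS : support₂ (c + 1) ∈ supports (golayCode : Set (GolayPt → ZMod 2)) :=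
      ⟨c + 1, golayCode.add_mem hc one_mem_golay, rfl⟩
    have hmemS : ∀ q : GolayPt, q ∈ support₂ (c + 1) ↔ c q = 0 := by
      intro q
      rw [mem_support₂, Pi.add_apply, Pi.one_apply]
      constructor
      · intro h
        by_contra hq
        rw [zmod2_eq_one_of_ne _ hq] at h
        exact h (by decide)
      · intro h
        rw [h]
        decide
    obtain ⟨σ, hσ, s1, s2, s3⟩ := m24_fix2 p (some 1) hp1 hp2 (by decide) (by decide)
    refine ⟨co0Perm σ hσ * co0Sign _ hS,
      fixBase_mul (fixBase_perm σ hσ s1 s2)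
        (fixBase_sign _ hS (fun h => hcn ((hmemS none).1 h))
          (fun h => hc0 ((hmemS (some 0)).1 h))), ?_⟩
    apply Subtype.ext
    funext i
    show ((((co0Perm σ hσ : Co0) : Equiv.Perm leechLattice)
      (((co0Sign (support₂ (c + 1)) hS : Co0) : Equiv.Perm leechLattice) y) : leechLattice) :
        GolayPt → ℤ) i = _
    rw [co0Perm_apply, co0Sign_apply, e, mclW1_apply, oddMin_zero]
    by_cases hi : i = some 1
    · have hσi : σ i = p := by
        rw [hi]
        exact s3
      rw [hσi, if_pos hi, oddMin_self]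
      by_cases hcp : c p = 0
      · rw [if_pos ((hmemS p).2 hcp), if_pos hcp] <;> norm_num
      · rw [if_neg (fun h => hcp ((hmemS p).1 h)), if_neg hcp] <;> norm_num
    · have hσi : σ i ≠ p := fun h => hi (σ.injective (h.trans s3.symm))
      rw [if_neg hi, oddMin_at p c (σ i) hσi]
      by_cases hcp : c (σ i) = 0
      · rw [if_pos ((hmemS (σ i)).2 hcp), if_pos hcp] <;> norm_num
      · rw [if_neg (fun h => hcp ((hmemS (σ i)).1 h)), if_neg hcp] <;> norm_num

/-- the normal form of a quadruple `(v, w, x, y)` of minimal vectors with inner products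
`v·w = -8`, `v·x = v·y = 16`, `w·x = w·y = 8`, `x·y = 16` -/
theorem norm16 (v w x y : leechLattice)
    (hv : sqNorm (v : GolayPt → ℤ) = 32) (hw : sqNorm (w : GolayPt → ℤ) = 32)
    (hx : sqNorm (x : GolayPt → ℤ) = 32) (hy : sqNorm (y : GolayPt → ℤ) = 32)
    (hvw : dotInt (v : GolayPt → ℤ) (w : GolayPt → ℤ) = -8)
    (hvx : dotInt (v : GolayPt → ℤ) (x : GolayPt → ℤ) = 16)
    (hvy : dotInt (v : GolayPt → ℤ) (y : GolayPt → ℤ) = 16)
    (hwx : dotInt (w : GolayPt → ℤ) (x : GolayPt → ℤ) = 8)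
    (hwy : dotInt (w : GolayPt → ℤ) (y : GolayPt → ℤ) = 8)
    (hxy : dotInt (x : GolayPt → ℤ) (y : GolayPt → ℤ) = 16) :
    ∃ g : Co0, (g : Equiv.Perm leechLattice) v = mclV ∧
      (g : Equiv.Perm leechLattice) w = mclW1 ∧
      (g : Equiv.Perm leechLattice) x = mclX1 ∧
      (((g : Equiv.Perm leechLattice) y : leechLattice) : GolayPt → ℤ) =
        sgnVec 4 {none, some 1} ∅ - sgnVec 4 {none, some 0} {some 0} := by
  have ht : sqNorm ((x - y : leechLattice) : GolayPt → ℤ) = 32 := by
    rw [AddSubgroup.coe_sub, sqNorm_sub, hx, hy, hxy]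
    norm_num
  have hvt : dotInt (v : GolayPt → ℤ) ((x - y : leechLattice) : GolayPt → ℤ) = 0 := by
    rw [AddSubgroup.coe_sub, dot_sub_right, hvx, hvy]
    norm_num
  have hwt : dotInt (w : GolayPt → ℤ) ((x - y : leechLattice) : GolayPt → ℤ) = 0 := by
    rw [AddSubgroup.coe_sub, dot_sub_right, hwx, hwy]
    norm_num
  have hxt : dotInt (x : GolayPt → ℤ) ((x - y : leechLattice) : GolayPt → ℤ) = 16 := by
    rw [AddSubgroup.coe_sub, dot_sub_right, dot_self, hx, hxy]
    norm_num
  obtain ⟨g₀, a1, a2⟩ := std_orth v (x - y) hv ht hvt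
  obtain ⟨c1, c2⟩ := std_coords v (x - y) w g₀ a1 a2
  rw [hvw] at c1
  rw [hwt] at c2
  obtain ⟨n, hn1, hn2⟩ := odd_move3 ((g₀ : Equiv.Perm leechLattice) w) ((g₀.2.2 w).trans hw)
    (by omega) (by omega)
  have b1 : ((((n * g₀ : Co0) : Equiv.Perm leechLattice) v : leechLattice) : GolayPt → ℤ) =
      sgnVec 4 {none, some 0} ∅ := by
    show (((n : Equiv.Perm leechLattice) ((g₀ : Equiv.Perm leechLattice) v) : leechLattice) :
      GolayPt → ℤ) = _
    rw [fixBase_std hn1 _ a1]
    exact a1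
  have b2 : ((((n * g₀ : Co0) : Equiv.Perm leechLattice) (x - y) : leechLattice) :
      GolayPt → ℤ) = sgnVec 4 {none, some 0} {some 0} := by
    show (((n : Equiv.Perm leechLattice) ((g₀ : Equiv.Perm leechLattice) (x - y)) :
      leechLattice) : GolayPt → ℤ) = _
    rw [hn1 _ (supp_base_two _ a2)]
    exact a2
  have b3 : ((n * g₀ : Co0) : Equiv.Perm leechLattice) w = mclW1 := hn2
  obtain ⟨k1, k2⟩ := std_coords v (x - y) x (n * g₀) b1 b2
  rw [hvx] at k1
  rw [hxt] at k2
  have hdw : dotInt (mclW1 : GolayPt → ℤ)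
      ((((n * g₀ : Co0) : Equiv.Perm leechLattice) x : leechLattice) : GolayPt → ℤ) = 8 :=
    (dot_map (n * g₀) w mclW1 x b3).trans hwx
  rw [dot_W1] at hdw
  have b4 : ((((n * g₀ : Co0) : Equiv.Perm leechLattice) x : leechLattice) : GolayPt → ℤ) =
      sgnVec 4 {none, some 1} ∅ :=
    four_std5 _ (((n * g₀ : Co0).2.2 x).trans hx) (by omega) (by omega)
  refine ⟨n * g₀, Subtype.ext b1, b3, Subtype.ext b4, ?_⟩
  have ey : y = x - (x - y) := by abel
  conv_lhs => rw [ey]
  rw [co0_map_sub, AddSubgroup.coe_sub, b4, b2]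

/-! ### permutations fixing three points -/

theorem five_with_pair (O : Finset GolayPt) (a b : GolayPt) (hab : a ≠ b) (ha : a ∈ O)
    (hb : b ∈ O) (hcard : O.card = 8) :
    ∃ x : ℕ → GolayPt, x 0 = a ∧ x 1 = b ∧ (∀ i < 5, x i ∈ O) ∧
      (∀ i < 5, ∀ j < 5, x i = x j → i = j) := by
  have h6 := Finset.le_card_sdiff ({a, b} : Finset GolayPt) O
  have h2c : ({a, b} : Finset GolayPt).card = 2 := Finset.card_pair hab
  rw [hcard, h2c] at h6
  obtain ⟨p1, hp1, p2, hp2, p3, hp3, h12, h13, h23⟩ :=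
    exists_three (O \ {a, b}) (by omega)
  rw [Finset.mem_sdiff, Finset.mem_insert, Finset.mem_singleton] at hp1 hp2 hp3
  push Not at hp1 hp2 hp3
  obtain ⟨m1, n1, z1⟩ := hp1
  obtain ⟨m2, n2, z2⟩ := hp2
  obtain ⟨m3, n3, z3⟩ := hp3
  refine ⟨fun i => if i = 0 then a else if i = 1 then b else if i = 2 then p1
    else if i = 3 then p2 else p3, by simp, by simp, ?_, ?_⟩
  · intro i hi
    interval_cases i <;> simp [ha, hb, m1, m2, m3]
  · intro i hi j hj hij
    interval_cases i <;> interval_cases j <;> simp_all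

/-- the permutations of the code fixing three points are transitive on the octads through the
first and third and not the second -/
theorem m24_fix3_oct (O O' : Finset GolayPt) (hO : O ∈ octads) (hO' : O' ∈ octads)
    (hn : none ∈ O) (h1 : some 1 ∈ O) (h0 : some 0 ∉ O)
    (hn' : none ∈ O') (h1' : some 1 ∈ O') (h0' : some 0 ∉ O') :
    ∃ σ ∈ M24, σ none = none ∧ σ (some 0) = some 0 ∧ σ (some 1) = some 1 ∧ σ • O' = O := by
  have hne : (none : GolayPt) ≠ some 1 := by decide
  obtain ⟨x, hx0, hx1, hxm, hxi⟩ := five_with_pair O none (some 1) hne hn h1 hO.2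
  obtain ⟨y, hy0, hy1, hym, hyi⟩ := five_with_pair O' none (some 1) hne hn' h1' hO'.2
  obtain ⟨g, hg, hgx⟩ := Cfsg.Agent.Helper3.M24_trans 5 le_rfl x hxi
  obtain ⟨g', hg', hgy⟩ := Cfsg.Agent.Helper3.M24_trans 5 le_rfl y hyi
  have hmem : g * g'⁻¹ ∈ M24 := M24.mul_mem hg (M24.inv_mem hg')
  have hmap : ∀ i < 5, (g * g'⁻¹) (y i) = x i := by
    intro i hi
    rw [Equiv.Perm.mul_apply, ← hgy i hi, Cfsg.Agent.Helper3.perm_inv_apply, hgx i hi]
  have t1 : (g * g'⁻¹) none = none := by
    have h := hmap 0 (by norm_num)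
    rw [hy0, hx0] at h
    exact h
  have t2 : (g * g'⁻¹) (some 1) = some 1 := by
    have h := hmap 1 (by norm_num)
    rw [hy1, hx1] at h
    exact h
  have t3 : (g * g'⁻¹) • O' = O := by
    apply Cfsg.Agent.Helper3.octad_eq_of_inter (Cfsg.Agent.Helper3.smul_mem_octads hmem hO') hO
    have hsub : Finset.image x (Finset.range 5) ⊆ (g * g'⁻¹) • O' ∩ O := by
      intro p hp
      obtain ⟨i, hi, rfl⟩ := Finset.mem_image.1 hp
      rw [Finset.mem_range] at hi
      rw [Finset.mem_inter]
      refine ⟨?_, hxm i hi⟩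
      have hxe : x i = (g * g'⁻¹) • y i := (hmap i hi).symm
      rw [hxe]
      exact (Finset.smul_mem_smul_finset_iff _).2 (hym i hi)
    have hcard : (Finset.image x (Finset.range 5)).card = 5 := by
      rw [Finset.card_image_of_injOn, Finset.card_range]
      intro i hi j hj h
      exact hxi i (Finset.mem_range.1 hi) j (Finset.mem_range.1 hj) h
    rw [← hcard]
    exact Finset.card_le_card hsub
  have hq : (g * g'⁻¹) (some 0) ∉ O := by
    intro hin
    rw [← t3] at hin
    have hsm : (g * g'⁻¹) (some 0) = (g * g'⁻¹) • (some 0 : GolayPt) := rfl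
    rw [hsm] at hin
    exact h0' ((Finset.smul_mem_smul_finset_iff (g * g'⁻¹)).1 hin)
  obtain ⟨a, ha, hafix, haq⟩ := Cfsg.Agent.Helper3.octFix_trans O hO _ (some 0) hq h0
  refine ⟨a * (g * g'⁻¹), M24.mul_mem ha hmem, ?_, ?_, ?_, ?_⟩
  · rw [Equiv.Perm.mul_apply, t1]
    exact hafix none hn
  · rw [Equiv.Perm.mul_apply]
    exact haq
  · rw [Equiv.Perm.mul_apply, t2]
    exact hafix (some 1) h1
  · rw [mul_smul, t3]
    ext p
    constructor
    · intro hp
      obtain ⟨q, hq', hqp⟩ := Finset.mem_smul_finset.1 hp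
      have e : a • q = q := hafix q hq'
      rw [← hqp, e]
      exact hq'
    · intro hp
      exact Finset.mem_smul_finset.2 ⟨p, hp, hafix p hp⟩

theorem perm_fix_W1 (σ : Equiv.Perm GolayPt) (hσ : σ ∈ M24) (e : σ (some 1) = some 1) :
    (co0Perm σ hσ : Equiv.Perm leechLattice) mclW1 = mclW1 := by
  apply Subtype.ext
  funext i
  rw [co0Perm_apply, mclW1_apply, mclW1_apply, oddMin_zero, oddMin_zero]
  by_cases hi : i = some 1
  · rw [if_pos hi, if_pos (by rw [hi, e])]
  · rw [if_neg hi, if_neg (fun h => hi (σ.injective (h.trans e.symm)))]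

theorem perm_fix_X1 (σ : Equiv.Perm GolayPt) (hσ : σ ∈ M24) (e1 : σ none = none)
    (e2 : σ (some 1) = some 1) :
    (co0Perm σ hσ : Equiv.Perm leechLattice) mclX1 = mclX1 := by
  apply Subtype.ext
  funext i
  rw [co0Perm_apply]
  show sgnVec 4 {none, some 1} ∅ (σ i) = sgnVec 4 {none, some 1} ∅ i
  have hiff : σ i ∈ ({none, some 1} : Finset GolayPt) ↔
      i ∈ ({none, some 1} : Finset GolayPt) := by
    rw [Finset.mem_insert, Finset.mem_singleton, Finset.mem_insert, Finset.mem_singleton]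
    constructor
    · rintro (h | h)
      · exact Or.inl (σ.injective (h.trans e1.symm))
      · exact Or.inr (σ.injective (h.trans e2.symm))
    · rintro (h | h)
      · rw [h]
        exact Or.inl e1
      · rw [h]
        exact Or.inr e2
  unfold sgnVec
  by_cases hi : i ∈ ({none, some 1} : Finset GolayPt)
  · rw [if_neg (Finset.notMem_empty (σ i)), if_pos (hiff.2 hi),
      if_neg (Finset.notMem_empty i), if_pos hi]
  · rw [if_neg (Finset.notMem_empty (σ i)), if_neg (fun h => hi (hiff.1 h)),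
      if_neg (Finset.notMem_empty i), if_neg hi]

/-! ### the vectors with inner product 8, in the frame of the first normal form -/

theorem oct_compl (c : GolayPt → ZMod 2) (hc : c ∈ golayCode) (h16 : hammingNorm c = 16) :
    (support₂ c)ᶜ ∈ octads := by
  refine ⟨Cfsg.Agent.Helper3.compl_mem_supports ⟨c, hc, rfl⟩, ?_⟩
  have h1 := Finset.card_compl (support₂ c)
  rw [Cfsg.Agent.Helper3.card_golayPt] at h1
  have h2 : (support₂ c).card = 16 := by rw [← hammingNorm_eq_card, h16]
  omega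

theorem odd16_class (z : GolayPt → ℤ) (hz : z ∈ leechLattice) (hn : sqNorm z = 32)
    (h1 : z none = 1) (h2 : z (some 0) = 3) (h3 : z (some 1) = 1) (h4 : ∑ i, z i = -4) :
    ∃ c ∈ golayCode, hammingNorm c = 16 ∧ c none = 0 ∧ c (some 0) ≠ 0 ∧ c (some 1) = 0 ∧
      z = oddMin (some 0) c := by
  rcases classify golayCode golayLike one_mem_golay (mem_leechSetOf.1 hz) hn with
    ⟨U, V, hVU, hU, rfl⟩ | ⟨c, hc, hc8, V, hV, hVe, rfl⟩ | ⟨p, c, hc, rfl⟩
  · exfalso
    rcases sgnVec_vals 4 U V none with h | h | h <;> rw [h] at h1 <;> norm_num at h1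
  · exfalso
    rcases sgnVec_vals 2 (support₂ c) V none with h | h | h <;> rw [h] at h1 <;>
      norm_num at h1
  · have hp : p = some 0 := by
      by_contra hp
      rw [oddMin_at p c (some 0) (Ne.symm hp)] at h2
      split_ifs at h2 <;> norm_num at h2
    subst hp
    rw [oddMin_self] at h2
    rw [oddMin_at (some 0) c none (by decide)] at h1
    rw [oddMin_at (some 0) c (some 1) (by decide)] at h3
    have hc0 : c (some 0) ≠ 0 := by
      intro h
      rw [if_pos h] at h2
      norm_num at h2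
    have hcn : c none = 0 := by
      by_contra h
      rw [if_neg h] at h1
      norm_num at h1
    have hc1 : c (some 1) = 0 := by
      by_contra h
      rw [if_neg h] at h3
      norm_num at h3
    rw [oddMin_sum', if_neg hc0] at h4
    exact ⟨c, hc, by omega, hcn, hc0, hc1, rfl⟩

/-- the coordinates forced by the four inner products -/
theorem z_coords (z : leechLattice)
    (d1 : dotInt (mclV : GolayPt → ℤ) (z : GolayPt → ℤ) = 16)
    (d2 : dotInt (mclW1 : GolayPt → ℤ) (z : GolayPt → ℤ) = 8)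
    (d3 : dotInt (mclX1 : GolayPt → ℤ) (z : GolayPt → ℤ) = 8)
    (d4 : dotInt (sgnVec 4 {none, some 1} ∅ - sgnVec 4 {none, some 0} {some 0})
      (z : GolayPt → ℤ) = 16) :
    (z : GolayPt → ℤ) none = 1 ∧ (z : GolayPt → ℤ) (some 0) = 3 ∧
      (z : GolayPt → ℤ) (some 1) = 1 ∧ ∑ i, (z : GolayPt → ℤ) i = -4 := by
  have e1 : dotInt (sgnVec 4 {none, some 0} ∅) (z : GolayPt → ℤ) = 16 := d1
  have e2 : dotInt (-(oddMin (some 1) (0 : GolayPt → ZMod 2))) (z : GolayPt → ℤ) = 8 := d2
  have e3 : dotInt (sgnVec 4 {none, some 1} ∅) (z : GolayPt → ℤ) = 8 := d3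
  rw [base_dot] at e1
  rw [dot_W1_raw] at e2
  rw [dot_X1_raw] at e3
  rw [dot_sub_left, dot_X1_raw, dot_T_raw] at d4
  refine ⟨by omega, by omega, by omega, by omega⟩

/-- transitivity in the standard frame -/
theorem std_move8 (z z' : leechLattice) (hz : sqNorm (z : GolayPt → ℤ) = 32)
    (hz' : sqNorm (z' : GolayPt → ℤ) = 32)
    (k1 : (z : GolayPt → ℤ) none = 1) (k2 : (z : GolayPt → ℤ) (some 0) = 3)
    (k3 : (z : GolayPt → ℤ) (some 1) = 1) (k4 : ∑ i, (z : GolayPt → ℤ) i = -4)
    (k1' : (z' : GolayPt → ℤ) none = 1) (k2' : (z' : GolayPt → ℤ) (some 0) = 3)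
    (k3' : (z' : GolayPt → ℤ) (some 1) = 1) (k4' : ∑ i, (z' : GolayPt → ℤ) i = -4) :
    ∃ σ : Equiv.Perm GolayPt, ∃ hσ : σ ∈ M24, σ none = none ∧ σ (some 0) = some 0 ∧
      σ (some 1) = some 1 ∧ (co0Perm σ hσ : Equiv.Perm leechLattice) z = z' := by
  obtain ⟨c, hc, h16, hcn, hc0, hc1, ez⟩ := odd16_class _ z.2 hz k1 k2 k3 k4
  obtain ⟨c', hc', h16', hcn', hc0', hc1', ez'⟩ := odd16_class _ z'.2 hz' k1' k2' k3' k4'
  have m1 : none ∈ (support₂ c)ᶜ := by
    rw [Finset.mem_compl, mem_support₂]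
    exact not_not.2 hcn
  have m2 : some 1 ∈ (support₂ c)ᶜ := by
    rw [Finset.mem_compl, mem_support₂]
    exact not_not.2 hc1
  have m3 : some 0 ∉ (support₂ c)ᶜ := by
    rw [Finset.mem_compl, mem_support₂]
    exact not_not.2 hc0
  have m1' : none ∈ (support₂ c')ᶜ := by
    rw [Finset.mem_compl, mem_support₂]
    exact not_not.2 hcn'
  have m2' : some 1 ∈ (support₂ c')ᶜ := by
    rw [Finset.mem_compl, mem_support₂]
    exact not_not.2 hc1'
  have m3' : some 0 ∉ (support₂ c')ᶜ := by
    rw [Finset.mem_compl, mem_support₂]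
    exact not_not.2 hc0'
  obtain ⟨σ, hσ, s1, s2, s3, s4⟩ := m24_fix3_oct _ _ (oct_compl c hc h16) (oct_compl c' hc' h16')
    m1 m2 m3 m1' m2' m3'
  refine ⟨σ, hσ, s1, s2, s3, ?_⟩
  apply Subtype.ext
  funext i
  rw [co0Perm_apply, ez, ez']
  by_cases hi : i = some 0
  · rw [hi, s2, oddMin_self, oddMin_self, if_neg hc0, if_neg hc0']
  · have hσi : σ i ≠ some 0 := fun h => hi (σ.injective (h.trans s2.symm))
    rw [oddMin_at (some 0) c (σ i) hσi, oddMin_at (some 0) c' i hi]
    have hiff : σ i ∈ support₂ c ↔ i ∈ support₂ c' := by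
      have hcompl : σ i ∈ (support₂ c)ᶜ ↔ i ∈ (support₂ c')ᶜ := by
        rw [← s4]
        have hsm : σ i = σ • i := rfl
        rw [hsm]
        exact Finset.smul_mem_smul_finset_iff σ
      rw [Finset.mem_compl, Finset.mem_compl] at hcompl
      exact not_iff_not.1 hcompl
    rw [mem_support₂, mem_support₂] at hiff
    by_cases hci : c (σ i) = 0
    · have hci' : c' i = 0 := by
        by_contra h
        exact (hiff.2 h) hci
      rw [if_pos hci, if_pos hci']
    · rw [if_neg hci, if_neg (hiff.1 hci)]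

/-! ### the count of the vectors with inner product 8 -/

/-- the masks of the octads through the first two base points and not the third -/
def bitB (m : ℕ) : Bool :=
  decide (Cfsg.Agent.Helper3.gPopc m = 8 ∧ m.testBit 23 = true ∧ m.testBit 0 = true ∧
    m.testBit 1 = false)

/-- the masks of the octads through the last two base points and not the first -/
def bitC (m : ℕ) : Bool :=
  decide (Cfsg.Agent.Helper3.gPopc m = 8 ∧ m.testBit 23 = false ∧ m.testBit 0 = true ∧
    m.testBit 1 = true)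

theorem bitB_num : Cfsg.Agent.Helper3.gCountLt 4096
    (fun n => bitB (Cfsg.Agent.Helper3.gCw n)) = 56 := by decide +kernel

theorem bitC_num : Cfsg.Agent.Helper3.gCountLt 4096
    (fun n => bitC (Cfsg.Agent.Helper3.gCw n)) = 56 := by decide +kernel

theorem code_count (P : ℕ → Bool) (Q : (GolayPt → ZMod 2) → Prop) [DecidablePred Q]
    (hPQ : ∀ m, Q (Cfsg.Agent.Helper3.gDec m) ↔ P m = true) :
    (codeFin.filter Q).card =
      Cfsg.Agent.Helper3.gCountLt 4096 (fun n => P (Cfsg.Agent.Helper3.gCw n)) := by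
  rw [Finset.card_filter, sum_code, Cfsg.Agent.Helper3.gCountLt_eq, Finset.card_filter]
  refine Finset.sum_congr rfl (fun n _ => ?_)
  by_cases h : P (Cfsg.Agent.Helper3.gCw n) = true
  · rw [if_pos ((hPQ _).2 h), if_pos h]
  · rw [if_neg (fun hq => h ((hPQ _).1 hq)), if_neg h]

theorem gDec_eq_zero_iff (m : ℕ) (p : GolayPt) :
    Cfsg.Agent.Helper3.gDec m p = 0 ↔ m.testBit (Cfsg.Agent.Helper3.gIdx p) = false := by
  have h := Cfsg.Agent.Helper3.gDec_ne_zero_iff m p
  constructor
  · intro h0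
    by_contra hb
    exact (h.2 (by simpa using hb)) h0
  · intro hb
    by_contra h0
    have h1 := h.1 h0
    rw [hb] at h1
    exact Bool.false_ne_true h1

theorem gIdx_none : Cfsg.Agent.Helper3.gIdx none = 23 := rfl

theorem gIdx_zero : Cfsg.Agent.Helper3.gIdx (some 0) = 0 := by decide

theorem gIdx_one : Cfsg.Agent.Helper3.gIdx (some 1) = 1 := by decide

/-- the octads through the first two base points and not the third, as words -/
noncomputable def idxB : Finset (GolayPt → ZMod 2) :=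
  codeFin.filter (fun c => hammingNorm c = 8 ∧ c none ≠ 0 ∧ c (some 0) ≠ 0 ∧ c (some 1) = 0)

/-- the octads through the last two base points and not the first, as words -/
noncomputable def idxC : Finset (GolayPt → ZMod 2) :=
  codeFin.filter (fun c => hammingNorm c = 8 ∧ c none = 0 ∧ c (some 0) ≠ 0 ∧ c (some 1) ≠ 0)

theorem idxB_card : idxB.card = 56 := by
  have hPQ : ∀ m, (hammingNorm (Cfsg.Agent.Helper3.gDec m) = 8 ∧
      Cfsg.Agent.Helper3.gDec m none ≠ 0 ∧ Cfsg.Agent.Helper3.gDec m (some 0) ≠ 0 ∧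
      Cfsg.Agent.Helper3.gDec m (some 1) = 0) ↔ bitB m = true := by
    intro m
    rw [Cfsg.Agent.Helper3.hammingNorm_gDec, Cfsg.Agent.Helper3.gDec_ne_zero_iff,
      Cfsg.Agent.Helper3.gDec_ne_zero_iff, gDec_eq_zero_iff, gIdx_none, gIdx_zero, gIdx_one]
    unfold bitB
    rw [decide_eq_true_iff]
  exact (code_count bitB (fun c => hammingNorm c = 8 ∧ c none ≠ 0 ∧ c (some 0) ≠ 0 ∧
    c (some 1) = 0) hPQ).trans bitB_num

theorem idxC_card : idxC.card = 56 := by
  have hPQ : ∀ m, (hammingNorm (Cfsg.Agent.Helper3.gDec m) = 8 ∧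
      Cfsg.Agent.Helper3.gDec m none = 0 ∧ Cfsg.Agent.Helper3.gDec m (some 0) ≠ 0 ∧
      Cfsg.Agent.Helper3.gDec m (some 1) ≠ 0) ↔ bitC m = true := by
    intro m
    rw [Cfsg.Agent.Helper3.hammingNorm_gDec, gDec_eq_zero_iff,
      Cfsg.Agent.Helper3.gDec_ne_zero_iff, Cfsg.Agent.Helper3.gDec_ne_zero_iff, gIdx_none,
      gIdx_zero, gIdx_one]
    unfold bitC
    rw [decide_eq_true_iff]
  exact (code_count bitC (fun c => hammingNorm c = 8 ∧ c none = 0 ∧ c (some 0) ≠ 0 ∧
    c (some 1) ≠ 0) hPQ).trans bitC_num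

theorem sgn2_inj (c c' : GolayPt → ZMod 2)
    (h : sgnVec 2 (support₂ c) ∅ = sgnVec 2 (support₂ c') ∅) : c = c' := by
  apply Cfsg.Agent.Helper3.support₂_inj
  ext i
  have hi := congrFun h i
  unfold sgnVec at hi
  rw [if_neg (Finset.notMem_empty i), if_neg (Finset.notMem_empty i)] at hi
  constructor
  · intro hm
    by_contra hnot
    rw [if_pos hm, if_neg hnot] at hi
    norm_num at hi
  · intro hm
    by_contra hnot
    rw [if_neg hnot, if_pos hm] at hi
    norm_num at hi

/-- the vectors with inner product 8 with the third standard vector, in coordinates -/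
def std8 : Set (GolayPt → ℤ) :=
  {y | y ∈ leechLattice ∧ sqNorm y = 32 ∧ y none + y (some 0) = 4 ∧
    ∑ i, y i = 8 + 4 * y none ∧ y (some 0) + y (some 1) = 2}

theorem std8_eq : std8 =
    (fun c : GolayPt → ZMod 2 => sgnVec 2 (support₂ c) ∅) '' (↑idxB : Set (GolayPt → ZMod 2)) ∪
      (fun c : GolayPt → ZMod 2 => oddMin (some 0) c) '' (↑idxC : Set (GolayPt → ZMod 2)) := by
  ext y
  constructor
  · rintro ⟨hy, hn, h1, h2, h3⟩
    rcases classify golayCode golayLike one_mem_golay (mem_leechSetOf.1 hy) hn with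
      ⟨U, V, hVU, hU, rfl⟩ | ⟨c, hc, hc8, V, hV, hVe, rfl⟩ | ⟨p, c, hc, rfl⟩
    · exfalso
      rcases sgnVec_vals 4 U V (some 0) with a | a | a <;>
        rcases sgnVec_vals 4 U V (some 1) with b | b | b <;> omega
    · left
      have hcard : (support₂ c).card = 8 := by rw [← hammingNorm_eq_card, hc8]
      have e12 : sgnVec 2 (support₂ c) V none = 2 ∧ sgnVec 2 (support₂ c) V (some 0) = 2 := by
        rcases sgnVec_vals 2 (support₂ c) V none with a | a | a <;>
          rcases sgnVec_vals 2 (support₂ c) V (some 0) with b | b | b <;>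
          first | exact ⟨a, b⟩ | (exfalso; omega)
      obtain ⟨ea, eb⟩ := e12
      have e3 : sgnVec 2 (support₂ c) V (some 1) = 0 := by omega
      have hs := sgnVec_sum 2 hV
      rw [hs, ea, hcard] at h2
      have hV0 : V = ∅ := by
        apply Finset.card_eq_zero.1
        push_cast at h2
        omega
      subst hV0
      refine ⟨c, ?_, rfl⟩
      rw [Finset.mem_coe]
      unfold idxB
      rw [Finset.mem_filter, mem_codeFin]
      refine ⟨hc, hc8, ?_, ?_, ?_⟩
      · intro h0
        have hnot : none ∉ support₂ c := by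
          rw [mem_support₂]
          exact not_not.2 h0
        unfold sgnVec at ea
        rw [if_neg (Finset.notMem_empty _), if_neg hnot] at ea
        norm_num at ea
      · intro h0
        have hnot : some 0 ∉ support₂ c := by
          rw [mem_support₂]
          exact not_not.2 h0
        unfold sgnVec at eb
        rw [if_neg (Finset.notMem_empty _), if_neg hnot] at eb
        norm_num at eb
      · by_contra h0
        have hin : some 1 ∈ support₂ c := (mem_support₂ c (some 1)).2 h0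
        unfold sgnVec at e3
        rw [if_neg (Finset.notMem_empty _), if_pos hin] at e3
        norm_num at e3
    · right
      have hp : p = some 0 := by
        by_contra hp
        by_cases hpn : p = none
        · subst hpn
          rw [oddMin_self, oddMin_at none c (some 0) (by decide)] at h1
          rw [oddMin_sum', oddMin_self] at h2
          rcases golayLike.hwt c hc with hw | hw | hw | hw | hw <;>
            split_ifs at h1 h2 <;> omega
        · rw [oddMin_at p c none (Ne.symm hpn), oddMin_at p c (some 0) (Ne.symm hp)] at h1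
          split_ifs at h1 <;> omega
      subst hp
      rw [oddMin_at (some 0) c none (by decide), oddMin_self] at h1
      rw [oddMin_self, oddMin_at (some 0) c (some 1) (by decide)] at h3
      rw [oddMin_sum', oddMin_at (some 0) c none (by decide)] at h2
      have hcn : c none = 0 := by
        by_contra h
        rw [if_neg h] at h1
        split_ifs at h1 <;> omega
      have hc0 : c (some 0) ≠ 0 := by
        intro h
        rw [if_pos h] at h1
        split_ifs at h1 <;> omega
      have hc1 : c (some 1) ≠ 0 := by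
        intro h
        rw [if_pos h, if_neg hc0] at h3
        norm_num at h3
      rw [if_neg hc0, if_pos hcn] at h2
      have h8 : hammingNorm c = 8 := by omega
      refine ⟨c, ?_, rfl⟩
      rw [Finset.mem_coe]
      unfold idxC
      rw [Finset.mem_filter, mem_codeFin]
      exact ⟨hc, h8, hcn, hc0, hc1⟩
  · rintro (⟨c, hc, rfl⟩ | ⟨c, hc, rfl⟩)
    · rw [Finset.mem_coe] at hc
      unfold idxB at hc
      rw [Finset.mem_filter, mem_codeFin] at hc
      obtain ⟨hc, h8, hn, h0, h1⟩ := hc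
      have hcard : (support₂ c).card = 8 := by rw [← hammingNorm_eq_card, h8]
      have e1 : sgnVec 2 (support₂ c) ∅ none = 2 :=
        sgnVec_of_mem_sdiff (Finset.mem_sdiff.2
          ⟨(mem_support₂ c none).2 hn, Finset.notMem_empty _⟩)
      have e2 : sgnVec 2 (support₂ c) ∅ (some 0) = 2 :=
        sgnVec_of_mem_sdiff (Finset.mem_sdiff.2
          ⟨(mem_support₂ c (some 0)).2 h0, Finset.notMem_empty _⟩)
      have e3 : sgnVec 2 (support₂ c) ∅ (some 1) = 0 := by
        unfold sgnVec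
        rw [if_neg (Finset.notMem_empty _),
          if_neg (fun h => (mem_support₂ c (some 1)).1 h h1)]
      refine ⟨mem_of_LP (LP_sgnVec2 golayCode hc h8 (Finset.empty_subset _) (by simp)),
        ?_, ?_, ?_, ?_⟩
      · show ∑ i, sgnVec 2 (support₂ c) ∅ i ^ 2 = 32
        rw [sgnVec_sq 2 (Finset.empty_subset _), hcard]
        norm_num
      · show sgnVec 2 (support₂ c) ∅ none + sgnVec 2 (support₂ c) ∅ (some 0) = 4
        rw [e1, e2]
        norm_num
      · show ∑ i, sgnVec 2 (support₂ c) ∅ i = 8 + 4 * sgnVec 2 (support₂ c) ∅ none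
        rw [sgnVec_sum 2 (Finset.empty_subset _), e1, hcard, Finset.card_empty]
        norm_num
      · show sgnVec 2 (support₂ c) ∅ (some 0) + sgnVec 2 (support₂ c) ∅ (some 1) = 2
        rw [e2, e3]
        norm_num
    · rw [Finset.mem_coe] at hc
      unfold idxC at hc
      rw [Finset.mem_filter, mem_codeFin] at hc
      obtain ⟨hc, h8, hn, h0, h1⟩ := hc
      have e1 : oddMin (some 0) c none = 1 := by
        rw [oddMin_at (some 0) c none (by decide), if_pos hn]
      have e2 : oddMin (some 0) c (some 0) = 3 := by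
        rw [oddMin_self, if_neg h0]
      have e3 : oddMin (some 0) c (some 1) = -1 := by
        rw [oddMin_at (some 0) c (some 1) (by decide), if_neg h1]
      refine ⟨mem_of_LP (LP_oddMin golayCode golayLike hc (some 0)),
        oddMin_sq Cfsg.Agent.Helper3.card_golayPt (some 0) c, ?_, ?_, ?_⟩
      · show oddMin (some 0) c none + oddMin (some 0) c (some 0) = 4
        rw [e1, e2]
        norm_num
      · show ∑ i, oddMin (some 0) c i = 8 + 4 * oddMin (some 0) c none
        rw [oddMin_sum', if_neg h0, e1, h8]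
        norm_num
      · show oddMin (some 0) c (some 0) + oddMin (some 0) c (some 1) = 2
        rw [e2, e3]
        norm_num

theorem std8_ncard : std8.ncard = 112 := by
  have hinjB : Function.Injective (fun c : GolayPt → ZMod 2 => sgnVec 2 (support₂ c) ∅) :=
    fun c c' h => sgn2_inj c c' h
  have hinjC : Function.Injective (fun c : GolayPt → ZMod 2 => oddMin (some 0) c) :=
    fun c c' h => (oddMin_inj h).2
  have hdisj : Disjoint
      ((fun c : GolayPt → ZMod 2 => sgnVec 2 (support₂ c) ∅) ''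
        (↑idxB : Set (GolayPt → ZMod 2)))
      ((fun c : GolayPt → ZMod 2 => oddMin (some 0) c) '' (↑idxC : Set (GolayPt → ZMod 2))) := by
    rw [Set.disjoint_left]
    rintro y ⟨c, _, rfl⟩ ⟨c', _, h⟩
    have h0 : oddMin (some 0) c' none = sgnVec 2 (support₂ c) ∅ none := congrFun h none
    have hodd := oddMin_odd (some 0) c' none
    rw [h0] at hodd
    rcases sgnVec_vals 2 (support₂ c) ∅ none with e | e | e <;> rw [e] at hodd <;>
      norm_num at hodd
  rw [std8_eq, Set.ncard_union_eq hdisj ((Finset.finite_toSet _).image _)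
    ((Finset.finite_toSet _).image _), Set.ncard_image_of_injective _ hinjB,
    Set.ncard_image_of_injective _ hinjC, Set.ncard_coe_finset, Set.ncard_coe_finset,
    idxB_card, idxC_card]

theorem std8sub_ncard :
    {y : leechLattice | sqNorm (y : GolayPt → ℤ) = 32 ∧
      dotInt (mclV : GolayPt → ℤ) (y : GolayPt → ℤ) = 16 ∧
      dotInt (mclW : GolayPt → ℤ) (y : GolayPt → ℤ) = 8 ∧
      dotInt (mclX : GolayPt → ℤ) (y : GolayPt → ℤ) = 8}.ncard = 112 := by
  rw [← Set.ncard_image_of_injective _ Subtype.val_injective]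
  have e : Subtype.val '' {y : leechLattice | sqNorm (y : GolayPt → ℤ) = 32 ∧
      dotInt (mclV : GolayPt → ℤ) (y : GolayPt → ℤ) = 16 ∧
      dotInt (mclW : GolayPt → ℤ) (y : GolayPt → ℤ) = 8 ∧
      dotInt (mclX : GolayPt → ℤ) (y : GolayPt → ℤ) = 8} = std8 := by
    ext y
    constructor
    · rintro ⟨t, ⟨t1, t2, t3, t4⟩, rfl⟩
      have e2 : dotInt (sgnVec 4 {none, some 0} ∅) (t : GolayPt → ℤ) = 16 := t2
      have e3 : dotInt (oddMin none (0 : GolayPt → ZMod 2)) (t : GolayPt → ℤ) = 8 := t3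
      have e4 : dotInt (sgnVec 4 {some 0, some 1} ∅) (t : GolayPt → ℤ) = 8 := t4
      rw [base_dot] at e2
      rw [dot_comm', dot_odd0] at e3
      rw [dot_X_raw] at e4
      exact ⟨t.2, t1, by omega, by omega, by omega⟩
    · rintro ⟨hy, hn, c1, c2, c3⟩
      refine ⟨⟨y, hy⟩, ⟨hn, ?_, ?_, ?_⟩, rfl⟩
      · show dotInt (sgnVec 4 {none, some 0} ∅) y = 16
        rw [base_dot]
        omega
      · show dotInt (oddMin none (0 : GolayPt → ZMod 2)) y = 8
        rw [dot_comm', dot_odd0]
        omega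
      · show dotInt (sgnVec 4 {some 0, some 1} ∅) y = 8
        rw [dot_X_raw]
        omega
  rw [e]
  exact std8_ncard

/-! ### the configuration -/

theorem mcl_gram (u v y : leechLattice) (hu : sqNorm (u : GolayPt → ℤ) = 48)
    (hy : y ∈ mclSet u v 16) :
    dotInt ((u - v : leechLattice) : GolayPt → ℤ) (y : GolayPt → ℤ) = 8 := by
  have h24 := dot24 u y hu hy.1 hy.2.1
  rw [AddSubgroup.coe_sub, dot_sub_left, h24, hy.2.2]
  norm_num

theorem mcl_base (u v : leechLattice) (hu : sqNorm (u : GolayPt → ℤ) = 48)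
    (hv : sqNorm (v : GolayPt → ℤ) = 32 ∧
      sqNorm ((u : GolayPt → ℤ) - (v : GolayPt → ℤ)) = 32) :
    sqNorm ((u - v : leechLattice) : GolayPt → ℤ) = 32 ∧
      dotInt (v : GolayPt → ℤ) ((u - v : leechLattice) : GolayPt → ℤ) = -8 := by
  have huv : dotInt (u : GolayPt → ℤ) (v : GolayPt → ℤ) = 24 := dot24 u v hu hv.1 hv.2
  refine ⟨?_, ?_⟩
  · rw [AddSubgroup.coe_sub]
    exact hv.2
  · rw [AddSubgroup.coe_sub, dot_sub_right, dot_self, hv.1,
      dot_comm' (v : GolayPt → ℤ) (u : GolayPt → ℤ), huv]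
    norm_num

theorem mem_mcl_of (u v y : leechLattice) (hu : sqNorm (u : GolayPt → ℤ) = 48)
    (hn : sqNorm (y : GolayPt → ℤ) = 32)
    (h1 : dotInt (v : GolayPt → ℤ) (y : GolayPt → ℤ) = 16)
    (h2 : dotInt ((u - v : leechLattice) : GolayPt → ℤ) (y : GolayPt → ℤ) = 8) :
    y ∈ mclSet u v 16 := by
  refine ⟨hn, ?_, h1⟩
  rw [AddSubgroup.coe_sub, dot_sub_left, h1] at h2
  rw [sqNorm_sub, hu, hn]
  omega

/-- the 112 vectors of inner product 8 with a given one of the 275 -/
theorem mcl_sub8 (u v x : leechLattice) (hu : sqNorm (u : GolayPt → ℤ) = 48)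
    (hv : sqNorm (v : GolayPt → ℤ) = 32 ∧
      sqNorm ((u : GolayPt → ℤ) - (v : GolayPt → ℤ)) = 32)
    (hx : x ∈ mclSet u v 16) :
    {y : leechLattice | y ∈ mclSet u v 16 ∧
      dotInt (x : GolayPt → ℤ) (y : GolayPt → ℤ) = 8}.ncard = 112 := by
  obtain ⟨hwn, hvw⟩ := mcl_base u v hu hv
  obtain ⟨g, a1, a2, a3⟩ := mcl_norm v (u - v) x hv.1 hwn hx.1 hvw hx.2.2
    (mcl_gram u v x hu hx)
  have e1 : (g : Equiv.Perm leechLattice) v = mclV := Subtype.ext a1
  have e2 : (g : Equiv.Perm leechLattice) (u - v) = mclW := Subtype.ext a2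
  have e3 : (g : Equiv.Perm leechLattice) x = mclX := Subtype.ext a3
  have himg : (g : Equiv.Perm leechLattice) '' {y : leechLattice | y ∈ mclSet u v 16 ∧
      dotInt (x : GolayPt → ℤ) (y : GolayPt → ℤ) = 8} =
      {y : leechLattice | sqNorm (y : GolayPt → ℤ) = 32 ∧
        dotInt (mclV : GolayPt → ℤ) (y : GolayPt → ℤ) = 16 ∧
        dotInt (mclW : GolayPt → ℤ) (y : GolayPt → ℤ) = 8 ∧
        dotInt (mclX : GolayPt → ℤ) (y : GolayPt → ℤ) = 8} := by
    ext y
    constructor
    · rintro ⟨t, ⟨ht, t4⟩, rfl⟩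
      exact ⟨(g.2.2 t).trans ht.1, (dot_map g v mclV t e1).trans ht.2.2,
        (dot_map g (u - v) mclW t e2).trans (mcl_gram u v t hu ht),
        (dot_map g x mclX t e3).trans t4⟩
    · rintro ⟨y1, y2, y3, y4⟩
      exact ⟨((g⁻¹ : Co0) : Equiv.Perm leechLattice) y,
        ⟨mem_mcl_of u v _ hu (((g⁻¹ : Co0).2.2 y).trans y1)
          ((dot_inv g v mclV y e1).trans y2) ((dot_inv g (u - v) mclW y e2).trans y3),
          (dot_inv g x mclX y e3).trans y4⟩,
        Equiv.apply_symm_apply (g : Equiv.Perm leechLattice) y⟩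
  rw [← Set.ncard_image_of_injective _ (g : Equiv.Perm leechLattice).injective, himg]
  exact std8sub_ncard

/-- two of the 275 vectors have inner product 8 or 16 -/
theorem mcl_dich (u v x y : leechLattice) (hu : sqNorm (u : GolayPt → ℤ) = 48)
    (hv : sqNorm (v : GolayPt → ℤ) = 32 ∧
      sqNorm ((u : GolayPt → ℤ) - (v : GolayPt → ℤ)) = 32)
    (hx : x ∈ mclSet u v 16) (hy : y ∈ mclSet u v 16) (hne : y ≠ x) :
    dotInt (x : GolayPt → ℤ) (y : GolayPt → ℤ) = 8 ∨
      dotInt (x : GolayPt → ℤ) (y : GolayPt → ℤ) = 16 := by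
  have hle := dot_min_le x y hx.1 hy.1 (Ne.symm hne)
  have huv : dotInt (u : GolayPt → ℤ) (v : GolayPt → ℤ) = 24 := dot24 u v hu hv.1 hv.2
  have hn2 : sqNorm ((u - x : leechLattice) : GolayPt → ℤ) = 32 := by
    rw [AddSubgroup.coe_sub]
    exact hx.2.1
  have hne2 : u - x ≠ y := by
    intro h
    have h1 := hy.2.2
    rw [← h, AddSubgroup.coe_sub, dot_sub_right,
      dot_comm' (v : GolayPt → ℤ) (u : GolayPt → ℤ), huv, hx.2.2] at h1
    norm_num at h1
  have hle2 := dot_min_le (u - x) y hn2 hy.1 hne2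
  rw [AddSubgroup.coe_sub, dot_sub_left, dot24 u y hu hy.1 hy.2.1] at hle2
  have hdvd := leech_dot_dvd _ _ x.2 y.2
  omega

/-- the 162 other vectors -/
theorem mcl_sub16 (u v x : leechLattice) (hu : sqNorm (u : GolayPt → ℤ) = 48)
    (hv : sqNorm (v : GolayPt → ℤ) = 32 ∧
      sqNorm ((u : GolayPt → ℤ) - (v : GolayPt → ℤ)) = 32)
    (hx : x ∈ mclSet u v 16) :
    {y : leechLattice | y ∈ mclSet u v 16 ∧ y ≠ x ∧
      dotInt (x : GolayPt → ℤ) (y : GolayPt → ℤ) = 16}.ncard = 162 := by
  have h275 := mcl_count u v hu hv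
  have hfin : (mclSet u v 16).Finite := Set.finite_of_ncard_ne_zero (by rw [h275]; norm_num)
  have h112 := mcl_sub8 u v x hu hv hx
  have hxx : dotInt (x : GolayPt → ℤ) (x : GolayPt → ℤ) = 32 := by
    rw [dot_self]
    exact hx.1
  have hsplit : mclSet u v 16 = {y : leechLattice | y ∈ mclSet u v 16 ∧
      dotInt (x : GolayPt → ℤ) (y : GolayPt → ℤ) = 8} ∪
      ({y : leechLattice | y ∈ mclSet u v 16 ∧ y ≠ x ∧
        dotInt (x : GolayPt → ℤ) (y : GolayPt → ℤ) = 16} ∪ {x}) := by
    ext y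
    constructor
    · intro hy
      by_cases hyx : y = x
      · exact Or.inr (Or.inr hyx)
      · rcases mcl_dich u v x y hu hv hx hy hyx with h | h
        · exact Or.inl ⟨hy, h⟩
        · exact Or.inr (Or.inl ⟨hy, hyx, h⟩)
    · rintro (h | h | h)
      · exact h.1
      · exact h.1
      · have h' : y = x := h
        rw [h']
        exact hx
  have hfA : {y : leechLattice | y ∈ mclSet u v 16 ∧
      dotInt (x : GolayPt → ℤ) (y : GolayPt → ℤ) = 8}.Finite :=
    hfin.subset (fun y hy => hy.1)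
  have hfB : {y : leechLattice | y ∈ mclSet u v 16 ∧ y ≠ x ∧
      dotInt (x : GolayPt → ℤ) (y : GolayPt → ℤ) = 16}.Finite :=
    hfin.subset (fun y hy => hy.1)
  have hfx : ({x} : Set leechLattice).Finite := Set.finite_singleton x
  have hd1 : Disjoint {y : leechLattice | y ∈ mclSet u v 16 ∧
      dotInt (x : GolayPt → ℤ) (y : GolayPt → ℤ) = 8}
      ({y : leechLattice | y ∈ mclSet u v 16 ∧ y ≠ x ∧
        dotInt (x : GolayPt → ℤ) (y : GolayPt → ℤ) = 16} ∪ {x}) := by
    rw [Set.disjoint_left]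
    rintro y hy (h | h)
    · have h8 := hy.2
      rw [h.2.2] at h8
      norm_num at h8
    · have h' : y = x := h
      have h8 := hy.2
      rw [h', hxx] at h8
      norm_num at h8
  have hd2 : Disjoint {y : leechLattice | y ∈ mclSet u v 16 ∧ y ≠ x ∧
      dotInt (x : GolayPt → ℤ) (y : GolayPt → ℤ) = 16} ({x} : Set leechLattice) := by
    rw [Set.disjoint_left]
    intro y hy h
    exact hy.2.1 h
  rw [hsplit, Set.ncard_union_eq hd1 hfA (hfB.union hfx), Set.ncard_union_eq hd2 hfB hfx,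
    Set.ncard_singleton, h112] at h275
  omega

/-- two of the 275 with inner product 8 have a common non-neighbour -/
theorem mcl_ex_a (u v x y : leechLattice) (hu : sqNorm (u : GolayPt → ℤ) = 48)
    (hv : sqNorm (v : GolayPt → ℤ) = 32 ∧
      sqNorm ((u : GolayPt → ℤ) - (v : GolayPt → ℤ)) = 32)
    (hx : x ∈ mclSet u v 16) (hy : y ∈ mclSet u v 16)
    (hxy : dotInt (x : GolayPt → ℤ) (y : GolayPt → ℤ) = 8) :
    ∃ a : leechLattice, a ∈ mclSet u v 16 ∧
      dotInt (x : GolayPt → ℤ) (a : GolayPt → ℤ) = 16 ∧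
      dotInt (y : GolayPt → ℤ) (a : GolayPt → ℤ) = 16 := by
  by_contra hno
  have h275 := mcl_count u v hu hv
  have hfin : (mclSet u v 16).Finite := Set.finite_of_ncard_ne_zero (by rw [h275]; norm_num)
  have hA := mcl_sub8 u v x hu hv hx
  have hB := mcl_sub8 u v y hu hv hy
  have hsub : mclSet u v 16 ⊆ {a : leechLattice | a ∈ mclSet u v 16 ∧
      dotInt (x : GolayPt → ℤ) (a : GolayPt → ℤ) = 8} ∪
      {a : leechLattice | a ∈ mclSet u v 16 ∧
        dotInt (y : GolayPt → ℤ) (a : GolayPt → ℤ) = 8} := by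
    intro a ha
    by_cases hax : a = x
    · right
      refine ⟨ha, ?_⟩
      rw [hax, dot_comm']
      exact hxy
    by_cases hay : a = y
    · left
      refine ⟨ha, ?_⟩
      rw [hay]
      exact hxy
    rcases mcl_dich u v x a hu hv hx ha hax with h | h
    · exact Or.inl ⟨ha, h⟩
    · rcases mcl_dich u v y a hu hv hy ha hay with h' | h'
      · exact Or.inr ⟨ha, h'⟩
      · exact absurd ⟨a, ha, h, h'⟩ hno
  have hfA : {a : leechLattice | a ∈ mclSet u v 16 ∧
      dotInt (x : GolayPt → ℤ) (a : GolayPt → ℤ) = 8}.Finite :=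
    hfin.subset (fun a ha => ha.1)
  have hfB : {a : leechLattice | a ∈ mclSet u v 16 ∧
      dotInt (y : GolayPt → ℤ) (a : GolayPt → ℤ) = 8}.Finite :=
    hfin.subset (fun a ha => ha.1)
  have hle := Set.ncard_le_ncard hsub (hfA.union hfB)
  have hun := Set.ncard_union_le {a : leechLattice | a ∈ mclSet u v 16 ∧
      dotInt (x : GolayPt → ℤ) (a : GolayPt → ℤ) = 8}
    {a : leechLattice | a ∈ mclSet u v 16 ∧
      dotInt (y : GolayPt → ℤ) (a : GolayPt → ℤ) = 8}
  rw [h275] at hle
  rw [hA, hB] at hun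
  omega

/-- the stabiliser of one of the 275 vectors is transitive on each of the two classes of the
others -/
theorem mcl_rank_trans (u v x y y' : leechLattice) (hu : sqNorm (u : GolayPt → ℤ) = 48)
    (hv : sqNorm (v : GolayPt → ℤ) = 32 ∧
      sqNorm ((u : GolayPt → ℤ) - (v : GolayPt → ℤ)) = 32)
    (hx : x ∈ mclSet u v 16) (hy : y ∈ mclSet u v 16) (hy' : y' ∈ mclSet u v 16)
    (hyx : y ≠ x) (hyx' : y' ≠ x)
    (heq : dotInt (x : GolayPt → ℤ) (y : GolayPt → ℤ) =
      dotInt (x : GolayPt → ℤ) (y' : GolayPt → ℤ)) :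
    ∃ g : Co0, g • u = u ∧ g • v = v ∧ g • x = x ∧ g • y = y' := by
  obtain ⟨hwn, hvw⟩ := mcl_base u v hu hv
  have gx := mcl_gram u v x hu hx
  rcases mcl_dich u v x y hu hv hx hy hyx with h8 | h16
  · have h8' : dotInt (x : GolayPt → ℤ) (y' : GolayPt → ℤ) = 8 := by
      rw [← heq]
      exact h8
    obtain ⟨a, ha, hxa, hya⟩ := mcl_ex_a u v x y hu hv hx hy h8
    obtain ⟨a', ha', hxa', hya'⟩ := mcl_ex_a u v x y' hu hv hx hy' h8'
    obtain ⟨g₁, p1, p2, p3, p4⟩ := norm16 v (u - v) x a hv.1 hwn hx.1 ha.1 hvw hx.2.2 ha.2.2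
      gx (mcl_gram u v a hu ha) hxa
    obtain ⟨g₂, q1, q2, q3, q4⟩ := norm16 v (u - v) x a' hv.1 hwn hx.1 ha'.1 hvw hx.2.2
      ha'.2.2 gx (mcl_gram u v a' hu ha') hxa'
    have zc := z_coords ((g₁ : Equiv.Perm leechLattice) y)
      ((dot_map g₁ v mclV y p1).trans hy.2.2)
      ((dot_map g₁ (u - v) mclW1 y p2).trans (mcl_gram u v y hu hy))
      ((dot_map g₁ x mclX1 y p3).trans h8)
      (by
        rw [← p4]
        exact (co0_dot (g₁ : Equiv.Perm leechLattice) g₁.2 a y).trans
          ((dot_comm' _ _).trans hya))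
    have zc' := z_coords ((g₂ : Equiv.Perm leechLattice) y')
      ((dot_map g₂ v mclV y' q1).trans hy'.2.2)
      ((dot_map g₂ (u - v) mclW1 y' q2).trans (mcl_gram u v y' hu hy'))
      ((dot_map g₂ x mclX1 y' q3).trans h8')
      (by
        rw [← q4]
        exact (co0_dot (g₂ : Equiv.Perm leechLattice) g₂.2 a' y').trans
          ((dot_comm' _ _).trans hya'))
    obtain ⟨σ, hσ, s1, s2, s3, hn⟩ := std_move8 ((g₁ : Equiv.Perm leechLattice) y)
      ((g₂ : Equiv.Perm leechLattice) y') ((g₁.2.2 y).trans hy.1) ((g₂.2.2 y').trans hy'.1)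
      zc.1 zc.2.1 zc.2.2.1 zc.2.2.2 zc'.1 zc'.2.1 zc'.2.2.1 zc'.2.2.2
    have fv : (g₂⁻¹ * (co0Perm σ hσ * g₁)) • v = v :=
      move3 g₁ g₂ (co0Perm σ hσ) v v mclV mclV p1 q1 (perm_fix_mclV σ hσ s1 s2)
    have fw : (g₂⁻¹ * (co0Perm σ hσ * g₁)) • (u - v) = u - v :=
      move3 g₁ g₂ (co0Perm σ hσ) (u - v) (u - v) mclW1 mclW1 p2 q2 (perm_fix_W1 σ hσ s3)
    exact ⟨g₂⁻¹ * (co0Perm σ hσ * g₁), fix_u _ u v fv fw, fv,
      move3 g₁ g₂ (co0Perm σ hσ) x x mclX1 mclX1 p3 q3 (perm_fix_X1 σ hσ s1 s3),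
      move3 g₁ g₂ (co0Perm σ hσ) y y' _ _ rfl rfl hn⟩
  · have h16' : dotInt (x : GolayPt → ℤ) (y' : GolayPt → ℤ) = 16 := by
      rw [← heq]
      exact h16
    obtain ⟨g₁, p1, p2, p3, p4⟩ := norm16 v (u - v) x y hv.1 hwn hx.1 hy.1 hvw hx.2.2 hy.2.2
      gx (mcl_gram u v y hu hy) h16
    obtain ⟨g₂, q1, q2, q3, q4⟩ := norm16 v (u - v) x y' hv.1 hwn hx.1 hy'.1 hvw hx.2.2
      hy'.2.2 gx (mcl_gram u v y' hu hy') h16'
    have fv : (g₂⁻¹ * g₁) • v = v := move2 g₁ g₂ v v (p1.trans q1.symm)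
    have fw : (g₂⁻¹ * g₁) • (u - v) = u - v := move2 g₁ g₂ _ _ (p2.trans q2.symm)
    exact ⟨g₂⁻¹ * g₁, fix_u _ u v fv fw, fv, move2 g₁ g₂ x x (p3.trans q3.symm),
      move2 g₁ g₂ y y' (Subtype.ext (p4.trans q4.symm))⟩

end Cfsg.Agent.Helper28
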