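import Cfsg.Agent.Helper28.HSCount

/-!
The configuration of 275 minimal vectors attached to a vector `u` of sum of squares 48 and a
decomposition `u = v + w` into minimal vectors: the count (by the symmetry `x ↦ u - x` of the
552 decompositions) and the transitivity of the joint stabiliser (frame method, with an
auxiliary minimal vector orthogonal to `v`).
-/

set_option autoImplicit false

namespace Cfsg.Agent.Helper28

open Cfsg
open scoped Pointwise

/-! ### three pairwise disjoint octads -/

/-- an octad disjoint from the base octad, not through the special point -/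
def trioA : GolayPt → ZMod 2 := qrWord 0 + qrWord 3 + qrWord 18

/-- the complement of the base octad and `trioA` -/
def trioB : GolayPt → ZMod 2 := 1 + baseOct + trioA

theorem trioA_mem : trioA ∈ golayCode :=
  golayCode.add_mem (golayCode.add_mem (Submodule.subset_span (Or.inl ⟨0, rfl⟩))
    (Submodule.subset_span (Or.inl ⟨3, rfl⟩))) (Submodule.subset_span (Or.inl ⟨18, rfl⟩))

theorem trioB_mem : trioB ∈ golayCode :=
  golayCode.add_mem (golayCode.add_mem one_mem_golay baseOct_mem) trioA_mem

theorem trioA_card : (support₂ trioA).card = 8 := by decide +kernel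

theorem trioB_card : (support₂ trioB).card = 8 := by decide +kernel

theorem trioA_disj : ∀ q : GolayPt, baseOct q ≠ 0 → trioA q = 0 := by decide +kernel

theorem trioB_disj : ∀ q : GolayPt, baseOct q ≠ 0 → trioB q = 0 := by decide +kernel

theorem trio_or : ∀ q : GolayPt, trioA q = 0 ∨ trioB q = 0 := by decide +kernel

theorem disj_aux (P : GolayPt → ZMod 2) (hP : P ∈ golayCode) (hP8 : (support₂ P).card = 8)
    (hPb : ∀ q : GolayPt, baseOct q ≠ 0 → P q = 0) (g : Equiv.Perm GolayPt) (hg : g ∈ M24)
    (hq : P (g⁻¹ none) = 0) :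
    ∃ d ∈ golayCode, hammingNorm d = 8 ∧ d none = 0 ∧
      ∀ i : GolayPt, baseOct (g⁻¹ i) ≠ 0 → d i = 0 := by
  refine ⟨fun p => P (g⁻¹ p), (Cfsg.Agent.Helper3.mem_M24_iff g).1 hg P hP, ?_, hq, ?_⟩
  · rw [hammingNorm_eq_card, ← Cfsg.Agent.Helper3.smul_support₂ g P, Finset.card_smul_finset]
    exact hP8
  · intro i hi
    exact hPb _ hi

/-- an octad not through the special point has a disjoint octad not through the special point -/
theorem disj_octad (c : GolayPt → ZMod 2) (hc : c ∈ golayCode) (hc8 : hammingNorm c = 8) :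
    ∃ d ∈ golayCode, hammingNorm d = 8 ∧ d none = 0 ∧ ∀ i : GolayPt, c i ≠ 0 → d i = 0 := by
  have hb : support₂ baseOct ∈ octads := ⟨⟨baseOct, baseOct_mem, rfl⟩, baseOct_card⟩
  have hco : support₂ c ∈ octads := ⟨⟨c, hc, rfl⟩, by rw [← hammingNorm_eq_card, hc8]⟩
  obtain ⟨g, hg, he⟩ := Cfsg.Agent.Helper3.M24_octad_trans _ _ hb hco
  rw [Cfsg.Agent.Helper3.smul_support₂] at he
  have hceq : (fun p => baseOct (g⁻¹ p)) = c := Cfsg.Agent.Helper3.support₂_inj he
  have key : ∀ i : GolayPt, c i = baseOct (g⁻¹ i) := fun i => (congrFun hceq i).symm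
  rcases trio_or (g⁻¹ none) with h | h
  · obtain ⟨d, hd, hd8, hdn, hdis⟩ := disj_aux trioA trioA_mem trioA_card trioA_disj g hg h
    exact ⟨d, hd, hd8, hdn, fun i hi => hdis i (by rw [← key i]; exact hi)⟩
  · obtain ⟨d, hd, hd8, hdn, hdis⟩ := disj_aux trioB trioB_mem trioB_card trioB_disj g hg h
    exact ⟨d, hd, hd8, hdn, fun i hi => hdis i (by rw [← key i]; exact hi)⟩

/-! ### the auxiliary vector in the standard frame -/

theorem z_zero (x : GolayPt → ℤ) (h0 : x none = 0) (h1 : x (some 0) = 4) :
    ∃ z ∈ leechLattice, sqNorm z = 32 ∧ dotInt (sgnVec 4 {none, some 0} ∅) z = 0 ∧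
      dotInt (oddMin none (0 : GolayPt → ZMod 2)) z = -16 ∧ dotInt x z = -16 := by
  have hsub : ({some 0} : Finset GolayPt) ⊆ {none, some 0} := by simp
  obtain ⟨hm, hn⟩ := sgn4_min none (some 0) (by decide) {some 0} hsub
  have v1 : sgnVec 4 ({none, some 0} : Finset GolayPt) {some 0} none = 4 := by decide
  have v2 : sgnVec 4 ({none, some 0} : Finset GolayPt) {some 0} (some 0) = -4 := by decide
  have hc2 : ({none, some 0} : Finset GolayPt).card = 2 := Finset.card_pair (by decide)
  refine ⟨_, hm, hn, ?_, ?_, ?_⟩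
  · rw [base_dot, v1, v2]
    norm_num
  · rw [dot_comm', dot_odd0, sgnVec_sum 4 hsub, v1, hc2, Finset.card_singleton]
    norm_num
  · rw [dot_sgnVec_pair x 4 none (some 0) (by decide) {some 0} hsub, v1, v2, h0, h1]
    norm_num

theorem ex_z_std (x : GolayPt → ℤ) (hx : x ∈ leechLattice) (hn : sqNorm x = 32)
    (h1 : dotInt (sgnVec 4 {none, some 0} ∅) x = 16)
    (h2 : dotInt (oddMin none (0 : GolayPt → ZMod 2)) x = 8) :
    ∃ z ∈ leechLattice, sqNorm z = 32 ∧ dotInt (sgnVec 4 {none, some 0} ∅) z = 0 ∧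
      dotInt (oddMin none (0 : GolayPt → ZMod 2)) z = -16 ∧ dotInt x z = -16 := by
  rw [base_dot] at h1
  rw [dot_comm', dot_odd0] at h2
  rcases classify golayCode golayLike one_mem_golay (mem_leechSetOf.1 hx) hn with
    ⟨U, V, hVU, hU, rfl⟩ | ⟨c, hc, hc8, V, hV, hVe, rfl⟩ | ⟨p, c, hc, rfl⟩
  · -- shape (±4, ±4)
    have hs := sgnVec_sum 4 hVU
    rw [hU] at hs
    push_cast at hs
    have hx0 : sgnVec 4 U V none = 0 := by
      rcases sgnVec_vals 4 U V none with h | h | h
      · exact h
      · exfalso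
        rw [h] at h2
        omega
      · exfalso
        rcases sgnVec_vals 4 U V (some 0) with h' | h' | h' <;> rw [h, h'] at h1 <;> omega
    exact z_zero _ hx0 (by omega)
  · -- shape (±2)^8
    have hcard : (support₂ c).card = 8 := by rw [← hammingNorm_eq_card, hc8]
    have hs := sgnVec_sum 2 hV
    rw [hcard] at hs
    push_cast at hs
    have hv1 : sgnVec 2 (support₂ c) V none = 2 ∧ sgnVec 2 (support₂ c) V (some 0) = 2 := by
      rcases sgnVec_vals 2 (support₂ c) V none with h | h | h <;>
        rcases sgnVec_vals 2 (support₂ c) V (some 0) with h' | h' | h' <;>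
        first | exact ⟨h, h'⟩ | (exfalso; rw [h, h'] at h1; omega)
    obtain ⟨hn2, h02⟩ := hv1
    rw [hn2] at h2
    have hVc : V.card = 0 := by omega
    have hVe' : V = ∅ := Finset.card_eq_zero.1 hVc
    subst hVe'
    have hnm : none ∈ support₂ c := by
      by_contra hnot
      unfold sgnVec at hn2
      rw [if_neg (Finset.notMem_empty _), if_neg hnot] at hn2
      norm_num at hn2
    have h0m : some 0 ∈ support₂ c := by
      by_contra hnot
      unfold sgnVec at h02
      rw [if_neg (Finset.notMem_empty _), if_neg hnot] at h02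
      norm_num at h02
    have hex : ∃ d ∈ support₂ c, d ≠ none ∧ d ≠ some 0 := by
      have h6 := Finset.le_card_sdiff ({none, some 0} : Finset GolayPt) (support₂ c)
      have h2c : ({none, some 0} : Finset GolayPt).card = 2 := Finset.card_pair (by decide)
      rw [hcard, h2c] at h6
      obtain ⟨d, hd⟩ := Finset.card_pos.1 (lt_of_lt_of_le (by norm_num : 0 < 8 - 2) h6)
      rw [Finset.mem_sdiff] at hd
      refine ⟨d, hd.1, ?_, ?_⟩
      · intro h
        exact hd.2 (by rw [h]; simp)
      · intro h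
        exact hd.2 (by rw [h]; simp)
    obtain ⟨d, hdm, hdn, hd0⟩ := hex
    have hW : support₂ c \ {none, d} ⊆ support₂ c := Finset.sdiff_subset
    have hpair : ({none, d} : Finset GolayPt) ⊆ support₂ c := by
      intro i hi
      rcases Finset.mem_insert.1 hi with h | h
      · rw [h]
        exact hnm
      · rw [Finset.mem_singleton.1 h]
        exact hdm
    have hWc : (support₂ c \ {none, d}).card = 6 := by
      rw [Finset.card_sdiff_of_subset hpair, hcard, Finset.card_pair (Ne.symm hdn)]
    have hzs := sgnVec_sum 2 hW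
    rw [hcard, hWc] at hzs
    have zn : sgnVec 2 (support₂ c) (support₂ c \ {none, d}) none = 2 :=
      sgnVec_of_mem_sdiff (Finset.mem_sdiff.2 ⟨hnm, fun h => (Finset.mem_sdiff.1 h).2 (by simp)⟩)
    have h0nd : some 0 ∉ ({none, d} : Finset GolayPt) := by
      intro h
      rcases Finset.mem_insert.1 h with h | h
      · exact absurd h (by decide)
      · exact hd0 (Finset.mem_singleton.1 h).symm
    have z0 : sgnVec 2 (support₂ c) (support₂ c \ {none, d}) (some 0) = -2 :=
      sgnVec_of_mem (Finset.mem_sdiff.2 ⟨h0m, h0nd⟩)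
    refine ⟨sgnVec 2 (support₂ c) (support₂ c \ {none, d}),
      mem_of_LP (LP_sgnVec2 golayCode hc hc8 hW (by rw [hWc]; exact ⟨3, rfl⟩)), ?_, ?_, ?_, ?_⟩
    · show ∑ i, sgnVec 2 (support₂ c) (support₂ c \ {none, d}) i ^ 2 = 32
      rw [sgnVec_sq 2 hW, hcard]
      norm_num
    · rw [base_dot, zn, z0]
      norm_num
    · rw [dot_comm', dot_odd0, hzs, zn]
      norm_num
    · unfold dotInt
      have e : ∀ i : GolayPt, sgnVec 2 (support₂ c) ∅ i *
          sgnVec 2 (support₂ c) (support₂ c \ {none, d}) i =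
          2 * sgnVec 2 (support₂ c) (support₂ c \ {none, d}) i := by
        intro i
        by_cases hi : i ∈ support₂ c
        · have h2i : sgnVec 2 (support₂ c) ∅ i = 2 :=
            sgnVec_of_mem_sdiff (Finset.mem_sdiff.2 ⟨hi, Finset.notMem_empty i⟩)
          rw [h2i]
        · have h0i : sgnVec 2 (support₂ c) (support₂ c \ {none, d}) i = 0 := by
            unfold sgnVec
            rw [if_neg (fun h => hi (hW h)), if_neg hi]
          rw [h0i]
          ring
      rw [Finset.sum_congr rfl (fun i _ => e i), ← Finset.mul_sum, hzs]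
      norm_num
  · -- odd shape
    rw [oddMin_sum Cfsg.Agent.Helper3.card_golayPt p c] at h2
    by_cases hp : p = none
    · exfalso
      subst hp
      have hne : (some 0 : GolayPt) ≠ none := by decide
      have ha : oddMin none c none = if c none = 0 then -3 else 3 := by
        unfold oddMin
        rw [if_pos rfl]
      have hb : oddMin none c (some 0) = if c (some 0) = 0 then 1 else -1 := by
        unfold oddMin
        rw [if_neg hne]
      rw [ha, hb] at h1
      rw [ha] at h2
      by_cases hcn : c none = 0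
      · rw [if_pos hcn] at h1
        split_ifs at h1 <;> omega
      · have hcn' : c none ≠ 0 := hcn
        rw [if_neg hcn] at h1 h2
        rw [if_pos hcn'] at h2
        rcases golayLike.hwt c hc with hw | hw | hw | hw | hw <;> omega
    · by_cases hp0 : p = some 0
      · subst hp0
        have hne : (none : GolayPt) ≠ some 0 := by decide
        have ha : oddMin (some 0) c none = if c none = 0 then 1 else -1 := by
          unfold oddMin
          rw [if_neg hne]
        have hb : oddMin (some 0) c (some 0) = if c (some 0) = 0 then -3 else 3 := by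
          unfold oddMin
          rw [if_pos rfl]
        rw [ha, hb] at h1
        rw [ha] at h2
        have hcn : c none = 0 := by
          by_contra hcn
          rw [if_neg hcn] at h1
          split_ifs at h1 <;> omega
        rw [if_pos hcn] at h1 h2
        have hc0 : c (some 0) ≠ 0 := by
          intro hc0
          rw [if_pos hc0] at h1
          omega
        rw [if_pos hc0] at h2
        have hc8 : hammingNorm c = 8 := by omega
        obtain ⟨d, hd, hd8, hdn, hdis⟩ := disj_octad c hc hc8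
        have hdcard : (support₂ d).card = 8 := by rw [← hammingNorm_eq_card, hd8]
        have hzs := sgnVec_sum 2 (Finset.Subset.refl (support₂ d))
        rw [hdcard] at hzs
        have hz0 : ∀ i : GolayPt, d i = 0 → sgnVec 2 (support₂ d) (support₂ d) i = 0 := by
          intro i hi
          have hnot : i ∉ support₂ d := by
            rw [mem_support₂]
            exact fun h => h hi
          unfold sgnVec
          rw [if_neg hnot, if_neg hnot]
        refine ⟨sgnVec 2 (support₂ d) (support₂ d),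
          mem_of_LP (LP_sgnVec2 golayCode hd hd8 (Finset.Subset.refl _)
            (by rw [hdcard]; exact ⟨4, rfl⟩)), ?_, ?_, ?_, ?_⟩
        · show ∑ i, sgnVec 2 (support₂ d) (support₂ d) i ^ 2 = 32
          rw [sgnVec_sq 2 (Finset.Subset.refl _), hdcard]
          norm_num
        · rw [base_dot, hz0 none hdn, hz0 (some 0) (hdis _ hc0)]
          norm_num
        · rw [dot_comm', dot_odd0, hzs, hz0 none hdn]
          norm_num
        · unfold dotInt
          have e : ∀ i : GolayPt, oddMin (some 0) c i * sgnVec 2 (support₂ d) (support₂ d) i =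
              sgnVec 2 (support₂ d) (support₂ d) i := by
            intro i
            by_cases hi : d i = 0
            · rw [hz0 i hi, mul_zero]
            · have hci : c i = 0 := by
                by_contra hci
                exact hi (hdis i hci)
              have hi0 : i ≠ some 0 := by
                intro h
                rw [h] at hci
                exact hc0 hci
              have h1i : oddMin (some 0) c i = 1 := by
                unfold oddMin
                rw [if_neg hi0, if_pos hci]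
              rw [h1i, one_mul]
          rw [Finset.sum_congr rfl (fun i _ => e i), hzs]
          norm_num
      · exfalso
        have ha : oddMin p c none = if c none = 0 then 1 else -1 := by
          unfold oddMin
          rw [if_neg (fun h => hp h.symm)]
        have hb : oddMin p c (some 0) = if c (some 0) = 0 then 1 else -1 := by
          unfold oddMin
          rw [if_neg (fun h => hp0 h.symm)]
        rw [ha, hb] at h1
        split_ifs at h1 <;> omega

/-! ### the standard pair -/

/-- the first standard vector `(4, 4, 0, …)` -/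
def mclV : leechLattice :=
  ⟨sgnVec 4 {none, some 0} ∅, (sgn4_min none (some 0) (by decide) ∅ (Finset.empty_subset _)).1⟩

/-- the second standard vector `(-3, 1, …, 1)` -/
def mclW : leechLattice :=
  ⟨oddMin none 0, mem_of_LP (LP_oddMin golayCode golayLike golayCode.zero_mem none)⟩

theorem mclV_norm : sqNorm (mclV : GolayPt → ℤ) = 32 :=
  (sgn4_min none (some 0) (by decide) ∅ (Finset.empty_subset _)).2

theorem mclW_norm : sqNorm (mclW : GolayPt → ℤ) = 32 :=
  oddMin_sq Cfsg.Agent.Helper3.card_golayPt none 0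

theorem mclW_none : (mclW : GolayPt → ℤ) none = -3 := by
  show oddMin none (0 : GolayPt → ZMod 2) none = -3
  rw [oddMin_zero, if_pos rfl]

theorem mclW_zero : (mclW : GolayPt → ℤ) (some 0) = 1 := by
  show oddMin none (0 : GolayPt → ZMod 2) (some 0) = 1
  have hne : (some 0 : GolayPt) ≠ none := by decide
  rw [oddMin_zero, if_neg hne]

theorem mclVW : dotInt (mclV : GolayPt → ℤ) (mclW : GolayPt → ℤ) = -8 := by
  have h := base_dot (mclW : GolayPt → ℤ)
  rw [mclW_none, mclW_zero] at h
  exact h.trans (by norm_num)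

/-- pairs of minimal vectors of inner product `-8` form one orbit -/
theorem pair_trans8 (v w v' w' : leechLattice) (hv : sqNorm (v : GolayPt → ℤ) = 32)
    (hw : sqNorm (w : GolayPt → ℤ) = 32) (hv' : sqNorm (v' : GolayPt → ℤ) = 32)
    (hw' : sqNorm (w' : GolayPt → ℤ) = 32)
    (hd : dotInt (v : GolayPt → ℤ) (w : GolayPt → ℤ) = -8)
    (hd' : dotInt (v' : GolayPt → ℤ) (w' : GolayPt → ℤ) = -8) :
    ∃ g : Co0, g • v = v' ∧ g • w = w' := by
  obtain ⟨hvm, g₀, e0⟩ := min_trans (v : GolayPt → ℤ) (v' : GolayPt → ℤ) v.2 hv v'.2 hv'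
  have e0' : (g₀ : Equiv.Perm leechLattice) v = v' := Subtype.ext e0
  have hd2 : dotInt (v' : GolayPt → ℤ)
      (((g₀ : Equiv.Perm leechLattice) w : leechLattice) : GolayPt → ℤ) = -8 := by
    rw [← e0']
    exact (co0_dot (g₀ : Equiv.Perm leechLattice) g₀.2 v w).trans hd
  obtain ⟨h, h1, h2⟩ := stab_trans_one v' ((g₀ : Equiv.Perm leechLattice) w) w' hv'
    ((g₀.2.2 w).trans hw) hw' hd2 hd'
  refine ⟨h * g₀, ?_, ?_⟩
  · show (h : Equiv.Perm leechLattice) ((g₀ : Equiv.Perm leechLattice) v) = v'
    rw [e0']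
    exact h1
  · exact h2

/-- the auxiliary minimal vector -/
theorem ex_z (v w x : leechLattice) (hv : sqNorm (v : GolayPt → ℤ) = 32)
    (hw : sqNorm (w : GolayPt → ℤ) = 32) (hx : sqNorm (x : GolayPt → ℤ) = 32)
    (h1 : dotInt (v : GolayPt → ℤ) (w : GolayPt → ℤ) = -8)
    (h2 : dotInt (v : GolayPt → ℤ) (x : GolayPt → ℤ) = 16)
    (h3 : dotInt (w : GolayPt → ℤ) (x : GolayPt → ℤ) = 8) :
    ∃ z : leechLattice, sqNorm (z : GolayPt → ℤ) = 32 ∧
      dotInt (v : GolayPt → ℤ) (z : GolayPt → ℤ) = 0 ∧
      dotInt (w : GolayPt → ℤ) (z : GolayPt → ℤ) = -16 ∧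
      dotInt (x : GolayPt → ℤ) (z : GolayPt → ℤ) = -16 := by
  obtain ⟨g, e1, e2⟩ := pair_trans8 v w mclV mclW hv hw mclV_norm mclW_norm h1 mclVW
  have e1' : (g : Equiv.Perm leechLattice) v = mclV := e1
  have e2' : (g : Equiv.Perm leechLattice) w = mclW := e2
  have d1 : dotInt (sgnVec 4 {none, some 0} ∅)
      (((g : Equiv.Perm leechLattice) x : leechLattice) : GolayPt → ℤ) = 16 := by
    have h := co0_dot (g : Equiv.Perm leechLattice) g.2 v x
    rw [e1', h2] at h
    exact h
  have d2 : dotInt (oddMin none (0 : GolayPt → ZMod 2))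
      (((g : Equiv.Perm leechLattice) x : leechLattice) : GolayPt → ℤ) = 8 := by
    have h := co0_dot (g : Equiv.Perm leechLattice) g.2 w x
    rw [e2', h3] at h
    exact h
  obtain ⟨z, hz, hzn, hz1, hz2, hz3⟩ := ex_z_std _ ((g : Equiv.Perm leechLattice) x).2
    ((g.2.2 x).trans hx) d1 d2
  have e3 : (g : Equiv.Perm leechLattice) (((g⁻¹ : Co0) : Equiv.Perm leechLattice) ⟨z, hz⟩) =
      ⟨z, hz⟩ := Equiv.apply_symm_apply (g : Equiv.Perm leechLattice) ⟨z, hz⟩
  refine ⟨((g⁻¹ : Co0) : Equiv.Perm leechLattice) ⟨z, hz⟩, ?_, ?_, ?_, ?_⟩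
  · exact ((g⁻¹ : Co0).2.2 ⟨z, hz⟩).trans hzn
  · have h := co0_dot (g : Equiv.Perm leechLattice) g.2 v
      (((g⁻¹ : Co0) : Equiv.Perm leechLattice) ⟨z, hz⟩)
    rw [e3, e1'] at h
    rw [← h]
    exact hz1
  · have h := co0_dot (g : Equiv.Perm leechLattice) g.2 w
      (((g⁻¹ : Co0) : Equiv.Perm leechLattice) ⟨z, hz⟩)
    rw [e3, e2'] at h
    rw [← h]
    exact hz2
  · have h := co0_dot (g : Equiv.Perm leechLattice) g.2 x
      (((g⁻¹ : Co0) : Equiv.Perm leechLattice) ⟨z, hz⟩)
    rw [e3] at h
    rw [← h]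
    exact hz3

/-! ### the normal form -/

/-- a minimal vector with coordinates `0, 4` at the base points and coordinate sum 8 -/
theorem four_std3 (y : GolayPt → ℤ) (hy : y ∈ leechLattice) (hn : sqNorm y = 32)
    (h1 : y none = 0) (h2 : y (some 0) = 4) (h3 : ∑ i, y i = 8) :
    ∃ c : GolayPt, c ≠ none ∧ c ≠ some 0 ∧ y = sgnVec 4 {some 0, c} ∅ := by
  rcases classify golayCode golayLike one_mem_golay (mem_leechSetOf.1 hy) hn with
    ⟨U, V, hVU, hU, rfl⟩ | ⟨c, hc, hc8, V, hV, hVe, rfl⟩ | ⟨p, c, hc, rfl⟩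
  · have hs := sgnVec_sum 4 hVU
    rw [hU, h3] at hs
    push_cast at hs
    have hVc : V.card = 0 := by omega
    have hV0 : V = ∅ := Finset.card_eq_zero.1 hVc
    subst hV0
    have h0U : some 0 ∈ U := by
      by_contra hnot
      unfold sgnVec at h2
      rw [if_neg (Finset.notMem_empty _), if_neg hnot] at h2
      norm_num at h2
    have hnU : none ∉ U := by
      intro hin
      unfold sgnVec at h1
      rw [if_neg (Finset.notMem_empty _), if_pos hin] at h1
      norm_num at h1
    obtain ⟨c, hc⟩ := Finset.card_eq_one.1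
      (show (U.erase (some 0)).card = 1 by rw [Finset.card_erase_of_mem h0U, hU])
    have hcU : c ∈ U.erase (some 0) := by
      rw [hc]
      exact Finset.mem_singleton_self c
    have hc0 : c ≠ some 0 := (Finset.mem_erase.1 hcU).1
    have hcU' : c ∈ U := (Finset.mem_erase.1 hcU).2
    have hcn : c ≠ none := by
      intro h
      rw [h] at hcU'
      exact hnU hcU'
    have hUeq : U = {some 0, c} := by
      ext i
      rw [Finset.mem_insert, Finset.mem_singleton]
      constructor
      · intro hi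
        by_cases hi0 : i = some 0
        · exact Or.inl hi0
        · have hie : i ∈ U.erase (some 0) := Finset.mem_erase.2 ⟨hi0, hi⟩
          rw [hc] at hie
          exact Or.inr (Finset.mem_singleton.1 hie)
      · rintro (h | h)
        · rw [h]
          exact h0U
        · rw [h]
          exact hcU'
    exact ⟨c, hcn, hc0, by rw [hUeq]⟩
  · exfalso
    rcases sgnVec_vals 2 (support₂ c) V (some 0) with h | h | h <;> rw [h] at h2 <;>
      norm_num at h2
  · exfalso
    have h := oddMin_odd p c none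
    rw [h1] at h
    norm_num at h

/-- the normal form of a triple `(v, w, x)` of minimal vectors with inner products
`v·w = -8`, `v·x = 16`, `w·x = 8` -/
theorem mcl_norm (v w x : leechLattice) (hv : sqNorm (v : GolayPt → ℤ) = 32)
    (hw : sqNorm (w : GolayPt → ℤ) = 32) (hx : sqNorm (x : GolayPt → ℤ) = 32)
    (h1 : dotInt (v : GolayPt → ℤ) (w : GolayPt → ℤ) = -8)
    (h2 : dotInt (v : GolayPt → ℤ) (x : GolayPt → ℤ) = 16)
    (h3 : dotInt (w : GolayPt → ℤ) (x : GolayPt → ℤ) = 8) :
    ∃ g : Co0, (((g : Equiv.Perm leechLattice) v : leechLattice) : GolayPt → ℤ) =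
        sgnVec 4 {none, some 0} ∅ ∧
      (((g : Equiv.Perm leechLattice) w : leechLattice) : GolayPt → ℤ) =
        oddMin none (0 : GolayPt → ZMod 2) ∧
      (((g : Equiv.Perm leechLattice) x : leechLattice) : GolayPt → ℤ) =
        sgnVec 4 {some 0, some 1} ∅ := by
  obtain ⟨z, hz, hz1, hz2, hz3⟩ := ex_z v w x hv hw hx h1 h2 h3
  obtain ⟨g₀, a1, a2⟩ := std_orth v z hv hz hz1
  obtain ⟨c1, c2⟩ := std_coords v z w g₀ a1 a2
  rw [h1] at c1
  rw [hz2] at c2
  obtain ⟨n, hn1, hn2⟩ := odd_move2 ((g₀ : Equiv.Perm leechLattice) w) mclW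
    ((g₀.2.2 w).trans hw) mclW_norm (by omega) mclW_none (by rw [mclW_zero]; omega)
  have b1 : ((((n * g₀ : Co0) : Equiv.Perm leechLattice) v : leechLattice) : GolayPt → ℤ) =
      sgnVec 4 {none, some 0} ∅ := by
    show (((n : Equiv.Perm leechLattice) ((g₀ : Equiv.Perm leechLattice) v) : leechLattice) :
      GolayPt → ℤ) = _
    rw [fixBase_std hn1 _ a1]
    exact a1
  have b2 : ((((n * g₀ : Co0) : Equiv.Perm leechLattice) z : leechLattice) : GolayPt → ℤ) =
      sgnVec 4 {none, some 0} {some 0} := by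
    show (((n : Equiv.Perm leechLattice) ((g₀ : Equiv.Perm leechLattice) z) : leechLattice) :
      GolayPt → ℤ) = _
    rw [hn1 _ (supp_base_two _ a2)]
    exact a2
  have b3 : ((n * g₀ : Co0) : Equiv.Perm leechLattice) w = mclW := hn2
  obtain ⟨k1, k2⟩ := std_coords v z x (n * g₀) b1 b2
  rw [h2] at k1
  rw [hz3] at k2
  have hsum : ∑ i, ((((n * g₀ : Co0) : Equiv.Perm leechLattice) x : leechLattice) :
      GolayPt → ℤ) i = 8 := by
    have h := co0_dot ((n * g₀ : Co0) : Equiv.Perm leechLattice) (n * g₀ : Co0).2 w x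
    rw [b3, h3] at h
    have h' : dotInt ((((n * g₀ : Co0) : Equiv.Perm leechLattice) x : leechLattice) :
        GolayPt → ℤ) (oddMin none (0 : GolayPt → ZMod 2)) = 8 := by
      rw [dot_comm']
      exact h
    rw [dot_odd0] at h'
    omega
  obtain ⟨c, hc1, hc2, hy⟩ := four_std3 _ (((n * g₀ : Co0) : Equiv.Perm leechLattice) x).2
    (((n * g₀ : Co0).2.2 x).trans hx) (by omega) (by omega) hsum
  obtain ⟨σ, hσ, e1, e2, e3⟩ := m24_fix2 c (some 1) hc1 hc2 (by decide) (by decide)
  refine ⟨co0Perm σ hσ * (n * g₀), ?_, ?_, ?_⟩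
  · show ((((co0Perm σ hσ : Co0) : Equiv.Perm leechLattice)
      (((n * g₀ : Co0) : Equiv.Perm leechLattice) v) : leechLattice) : GolayPt → ℤ) = _
    rw [fixBase_std (fixBase_perm σ hσ e1 e2) _ b1]
    exact b1
  · show ((((co0Perm σ hσ : Co0) : Equiv.Perm leechLattice)
      (((n * g₀ : Co0) : Equiv.Perm leechLattice) w) : leechLattice) : GolayPt → ℤ) = _
    rw [b3]
    funext i
    rw [co0Perm_apply]
    show oddMin none (0 : GolayPt → ZMod 2) (σ i) = oddMin none (0 : GolayPt → ZMod 2) i
    rw [oddMin_zero, oddMin_zero]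
    by_cases hi : i = none
    · rw [if_pos hi, if_pos (by rw [hi, e1])]
    · rw [if_neg hi, if_neg (fun h => hi (σ.injective (h.trans e1.symm)))]
  · show ((((co0Perm σ hσ : Co0) : Equiv.Perm leechLattice)
      (((n * g₀ : Co0) : Equiv.Perm leechLattice) x) : leechLattice) : GolayPt → ℤ) = _
    funext i
    rw [co0Perm_apply, hy]
    have hiff : σ i ∈ ({some 0, c} : Finset GolayPt) ↔
        i ∈ ({some 0, some 1} : Finset GolayPt) := by
      rw [Finset.mem_insert, Finset.mem_singleton, Finset.mem_insert, Finset.mem_singleton]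
      constructor
      · rintro (h | h)
        · exact Or.inl (σ.injective (h.trans e2.symm))
        · exact Or.inr (σ.injective (h.trans e3.symm))
      · rintro (h | h)
        · rw [h]
          exact Or.inl e2
        · rw [h]
          exact Or.inr e3
    unfold sgnVec
    by_cases hi : i ∈ ({some 0, some 1} : Finset GolayPt)
    · rw [if_neg (Finset.notMem_empty (σ i)), if_pos (hiff.2 hi),
        if_neg (Finset.notMem_empty i), if_pos hi]
    · rw [if_neg (Finset.notMem_empty (σ i)), if_neg (fun h => hi (hiff.1 h)),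
        if_neg (Finset.notMem_empty i), if_neg hi]

/-! ### the configuration -/

/-- the minimal vectors `x` with `u - x` minimal and given inner product with `v` -/
def mclSet (u v : leechLattice) (k : ℤ) : Set leechLattice :=
  {x | sqNorm (x : GolayPt → ℤ) = 32 ∧
    sqNorm ((u : GolayPt → ℤ) - (x : GolayPt → ℤ)) = 32 ∧
    dotInt (v : GolayPt → ℤ) (x : GolayPt → ℤ) = k}

theorem dot24 (u x : leechLattice) (hu : sqNorm (u : GolayPt → ℤ) = 48)
    (h1 : sqNorm (x : GolayPt → ℤ) = 32)
    (h2 : sqNorm ((u : GolayPt → ℤ) - (x : GolayPt → ℤ)) = 32) :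
    dotInt (u : GolayPt → ℤ) (x : GolayPt → ℤ) = 24 := by
  rw [sqNorm_sub, hu, h1] at h2
  omega

theorem dot_min_le (a b : leechLattice) (ha : sqNorm (a : GolayPt → ℤ) = 32)
    (hb : sqNorm (b : GolayPt → ℤ) = 32) (hne : a ≠ b) :
    dotInt (a : GolayPt → ℤ) (b : GolayPt → ℤ) ≤ 16 := by
  have h0 : (a : GolayPt → ℤ) - (b : GolayPt → ℤ) ≠ 0 := by
    intro h
    exact hne (Subtype.ext (sub_eq_zero.1 h))
  have h1 := leech_min_norm _ (leechLattice.sub_mem a.2 b.2) h0
  rw [sqNorm_sub, ha, hb] at h1
  omega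

theorem mcl_flip (u v x : leechLattice)
    (huv : dotInt (u : GolayPt → ℤ) (v : GolayPt → ℤ) = 24) (k k' : ℤ) (hk : k + k' = 24)
    (hx : x ∈ mclSet u v k) : u - x ∈ mclSet u v k' := by
  obtain ⟨h1, h2, h3⟩ := hx
  refine ⟨?_, ?_, ?_⟩
  · rw [AddSubgroup.coe_sub]
    exact h2
  · rw [AddSubgroup.coe_sub, sub_sub_cancel]
    exact h1
  · rw [AddSubgroup.coe_sub, sub_eq_add_neg, dot_add_right, dot_neg_right,
      dot_comm' (v : GolayPt → ℤ) (u : GolayPt → ℤ), huv, h3]
    omega

/-- the transitivity of the joint stabiliser on the configuration -/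
theorem mcl_trans (u v x x' : leechLattice) (hu : sqNorm (u : GolayPt → ℤ) = 48)
    (hv : sqNorm (v : GolayPt → ℤ) = 32 ∧
      sqNorm ((u : GolayPt → ℤ) - (v : GolayPt → ℤ)) = 32)
    (hx : x ∈ mclSet u v 16) (hx' : x' ∈ mclSet u v 16) :
    ∃ g : Co0, g • u = u ∧ g • v = v ∧ g • x = x' := by
  have huv : dotInt (u : GolayPt → ℤ) (v : GolayPt → ℤ) = 24 := dot24 u v hu hv.1 hv.2
  have hwn : sqNorm ((u - v : leechLattice) : GolayPt → ℤ) = 32 := by
    rw [AddSubgroup.coe_sub]
    exact hv.2
  have hvw : dotInt (v : GolayPt → ℤ) ((u - v : leechLattice) : GolayPt → ℤ) = -8 := by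
    rw [AddSubgroup.coe_sub, sub_eq_add_neg, dot_add_right, dot_neg_right, dot_self, hv.1,
      dot_comm' (v : GolayPt → ℤ) (u : GolayPt → ℤ), huv]
    norm_num
  have key : ∀ y : leechLattice, y ∈ mclSet u v 16 →
      dotInt ((u - v : leechLattice) : GolayPt → ℤ) (y : GolayPt → ℤ) = 8 := by
    intro y hy
    have h24 := dot24 u y hu hy.1 hy.2.1
    rw [AddSubgroup.coe_sub, sub_eq_add_neg, dot_add_left, dot_neg_left, h24, hy.2.2]
    norm_num
  obtain ⟨g₁, a1, a2, a3⟩ := mcl_norm v (u - v) x hv.1 hwn hx.1 hvw hx.2.2 (key x hx)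
  obtain ⟨g₂, b1, b2, b3⟩ := mcl_norm v (u - v) x' hv.1 hwn hx'.1 hvw hx'.2.2 (key x' hx')
  have ev : ((g₂⁻¹ * g₁ : Co0) : Equiv.Perm leechLattice) v = v := by
    show ((g₂⁻¹ : Co0) : Equiv.Perm leechLattice) ((g₁ : Equiv.Perm leechLattice) v) = v
    rw [show (g₁ : Equiv.Perm leechLattice) v = (g₂ : Equiv.Perm leechLattice) v from
      Subtype.ext (a1.trans b1.symm)]
    exact Equiv.symm_apply_apply (g₂ : Equiv.Perm leechLattice) v
  have ew : ((g₂⁻¹ * g₁ : Co0) : Equiv.Perm leechLattice) (u - v) = u - v := by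
    show ((g₂⁻¹ : Co0) : Equiv.Perm leechLattice) ((g₁ : Equiv.Perm leechLattice) (u - v)) =
      u - v
    rw [show (g₁ : Equiv.Perm leechLattice) (u - v) = (g₂ : Equiv.Perm leechLattice) (u - v)
      from Subtype.ext (a2.trans b2.symm)]
    exact Equiv.symm_apply_apply (g₂ : Equiv.Perm leechLattice) (u - v)
  refine ⟨g₂⁻¹ * g₁, ?_, ev, ?_⟩
  · show ((g₂⁻¹ * g₁ : Co0) : Equiv.Perm leechLattice) u = u
    have eu : u = v + (u - v) := by abel
    conv_lhs => rw [eu]
    rw [(g₂⁻¹ * g₁ : Co0).2.1, ev, ew]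
    abel
  · show ((g₂⁻¹ : Co0) : Equiv.Perm leechLattice) ((g₁ : Equiv.Perm leechLattice) x) = x'
    rw [show (g₁ : Equiv.Perm leechLattice) x = (g₂ : Equiv.Perm leechLattice) x' from
      Subtype.ext (a3.trans b3.symm)]
    exact Equiv.symm_apply_apply (g₂ : Equiv.Perm leechLattice) x'

/-- the configuration has 275 members -/
theorem mcl_count (u v : leechLattice) (hu : sqNorm (u : GolayPt → ℤ) = 48)
    (hv : sqNorm (v : GolayPt → ℤ) = 32 ∧
      sqNorm ((u : GolayPt → ℤ) - (v : GolayPt → ℤ)) = 32) :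
    (mclSet u v 16).ncard = 275 := by
  have huv : dotInt (u : GolayPt → ℤ) (v : GolayPt → ℤ) = 24 := dot24 u v hu hv.1 hv.2
  have hwn : sqNorm ((u - v : leechLattice) : GolayPt → ℤ) = 32 := by
    rw [AddSubgroup.coe_sub]
    exact hv.2
  have hvw : dotInt (v : GolayPt → ℤ) ((u - v : leechLattice) : GolayPt → ℤ) = -8 := by
    rw [AddSubgroup.coe_sub, sub_eq_add_neg, dot_add_right, dot_neg_right, dot_self, hv.1,
      dot_comm' (v : GolayPt → ℤ) (u : GolayPt → ℤ), huv]
    norm_num
  have hvv : dotInt (v : GolayPt → ℤ) (v : GolayPt → ℤ) = 32 := by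
    rw [dot_self]
    exact hv.1
  have hne : v ≠ u - v := by
    intro h
    have h' := hvw
    rw [← h, hvv] at h'
    norm_num at h'
  have hP := census48 u hu
  have hPfin : {x : leechLattice | sqNorm (x : GolayPt → ℤ) = 32 ∧
      sqNorm ((u : GolayPt → ℤ) - (x : GolayPt → ℤ)) = 32}.Finite :=
    Set.finite_of_ncard_ne_zero (by rw [hP]; norm_num)
  have hsub : ∀ k : ℤ, mclSet u v k ⊆ {x : leechLattice | sqNorm (x : GolayPt → ℤ) = 32 ∧
      sqNorm ((u : GolayPt → ℤ) - (x : GolayPt → ℤ)) = 32} := fun k x hx => ⟨hx.1, hx.2.1⟩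
  have hf16 := hPfin.subset (hsub 16)
  have hf8 := hPfin.subset (hsub 8)
  have himg : (fun x : leechLattice => u - x) '' mclSet u v 16 = mclSet u v 8 := by
    ext y
    constructor
    · rintro ⟨x, hx, rfl⟩
      exact mcl_flip u v x huv 16 8 (by norm_num) hx
    · intro hy
      refine ⟨u - y, mcl_flip u v y huv 8 16 (by norm_num) hy, ?_⟩
      show u - (u - y) = y
      abel
  have h8 : (mclSet u v 8).ncard = (mclSet u v 16).ncard := by
    rw [← himg]
    exact Set.ncard_image_of_injective _ sub_right_injective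
  have hsplit : {x : leechLattice | sqNorm (x : GolayPt → ℤ) = 32 ∧
      sqNorm ((u : GolayPt → ℤ) - (x : GolayPt → ℤ)) = 32} =
      mclSet u v 16 ∪ (mclSet u v 8 ∪ {v, u - v}) := by
    ext x
    constructor
    · rintro ⟨h1, h2⟩
      by_cases hxv : x = v
      · exact Or.inr (Or.inr (Or.inl hxv))
      by_cases hxw : x = u - v
      · exact Or.inr (Or.inr (Or.inr hxw))
      have h24 := dot24 u x hu h1 h2
      have hle1 := dot_min_le v x hv.1 h1 (Ne.symm hxv)
      have hle2 := dot_min_le (u - v) x hwn h1 (Ne.symm hxw)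
      rw [AddSubgroup.coe_sub, sub_eq_add_neg, dot_add_left, dot_neg_left, h24] at hle2
      have hdvd := leech_dot_dvd _ _ v.2 x.2
      have hcases : dotInt (v : GolayPt → ℤ) (x : GolayPt → ℤ) = 16 ∨
          dotInt (v : GolayPt → ℤ) (x : GolayPt → ℤ) = 8 := by omega
      rcases hcases with h | h
      · exact Or.inl ⟨h1, h2, h⟩
      · exact Or.inr (Or.inl ⟨h1, h2, h⟩)
    · rintro (h | h | h | h)
      · exact ⟨h.1, h.2.1⟩
      · exact ⟨h.1, h.2.1⟩
      · have h' : x = v := h
        rw [h']
        exact hv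
      · have h' : x = u - v := h
        rw [h']
        refine ⟨hwn, ?_⟩
        rw [AddSubgroup.coe_sub, sub_sub_cancel]
        exact hv.1
  have hd1 : Disjoint (mclSet u v 16) (mclSet u v 8 ∪ {v, u - v}) := by
    rw [Set.disjoint_left]
    rintro x hx (h | h | h)
    · have h' := hx.2.2.symm.trans h.2.2
      norm_num at h'
    · have h'' : x = v := h
      have h' := hx.2.2
      rw [h'', hvv] at h'
      norm_num at h'
    · have h'' : x = u - v := h
      have h' := hx.2.2
      rw [h'', hvw] at h'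
      norm_num at h'
  have hd2 : Disjoint (mclSet u v 8) ({v, u - v} : Set leechLattice) := by
    rw [Set.disjoint_left]
    rintro x hx (h | h)
    · have h'' : x = v := h
      have h' := hx.2.2
      rw [h'', hvv] at h'
      norm_num at h'
    · have h'' : x = u - v := h
      have h' := hx.2.2
      rw [h'', hvw] at h'
      norm_num at h'
  have hfpair : ({v, u - v} : Set leechLattice).Finite := Set.toFinite _
  rw [hsplit, Set.ncard_union_eq hd1 hf16 (hf8.union hfpair),
    Set.ncard_union_eq hd2 hf8 hfpair, Set.ncard_pair hne, h8] at hP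
  omega

end Cfsg.Agent.Helper28
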