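import Cfsg.Agent.Helper28.Co0Trans34
import Cfsg.Agent.Helper28.LeechGen
import Cfsg.Agent.Helper28.Co2Rep

/-!
Uniqueness of the invariant quadratic form on the lattice of the definitions modulo 2.
-/

set_option autoImplicit false
set_option linter.unusedSectionVars false
set_option linter.unnecessarySeqFocus false
set_option linter.unusedSimpArgs false

namespace Cfsg.Agent.Helper28

open Cfsg

theorem dot_add_left (x y w : GolayPt → ℤ) : dotInt (x + y) w = dotInt x w + dotInt y w := by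
  unfold dotInt
  rw [← Finset.sum_add_distrib]
  exact Finset.sum_congr rfl (fun i _ => by rw [Pi.add_apply]; ring)

theorem dot_neg_left (x w : GolayPt → ℤ) : dotInt (-x) w = -dotInt x w := by
  unfold dotInt
  rw [← Finset.sum_neg_distrib]
  exact Finset.sum_congr rfl (fun i _ => by rw [Pi.neg_apply]; ring)

theorem dot_comm' (x w : GolayPt → ℤ) : dotInt x w = dotInt w x := by
  unfold dotInt
  exact Finset.sum_congr rfl (fun i _ => mul_comm _ _)

theorem dot_add_right (x y w : GolayPt → ℤ) : dotInt x (y + w) = dotInt x y + dotInt x w := by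
  rw [dot_comm', dot_add_left, dot_comm' y x, dot_comm' w x]

theorem dot_neg_right (x w : GolayPt → ℤ) : dotInt x (-w) = -dotInt x w := by
  rw [dot_comm', dot_neg_left, dot_comm']

theorem dot_zero_left (w : GolayPt → ℤ) : dotInt 0 w = 0 := by
  unfold dotInt
  simp

theorem sqNorm_neg' (x : GolayPt → ℤ) : sqNorm (-x) = sqNorm x := by
  unfold sqNorm
  exact Finset.sum_congr rfl (fun i _ => by rw [Pi.neg_apply]; ring)

theorem leech_dot_dvd (x y : GolayPt → ℤ) (hx : x ∈ leechLattice) (hy : y ∈ leechLattice) :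
    (8 : ℤ) ∣ dotInt x y := by
  have h1 := Cfsg.Agent.Helper3.leech_norm_dvd (x + y) (leechLattice.add_mem hx hy)
  have h2 := Cfsg.Agent.Helper3.leech_norm_dvd x hx
  have h3 := Cfsg.Agent.Helper3.leech_norm_dvd y hy
  rw [sqNorm_add] at h1
  omega

theorem closure_min :
    AddSubgroup.closure {x : GolayPt → ℤ | x ∈ leechLattice ∧ sqNorm x = 32} = leechLattice := by
  have hset : {x : GolayPt → ℤ | x ∈ leechLattice ∧ sqNorm x = 32} =
      {x : GolayPt → ℤ | x ∈ leechSetOf golayCode ∧ ∑ i, x i ^ 2 = 32} := by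
    ext x
    simp only [Set.mem_ofPred_eq]
    rw [mem_leechLattice, leechSet_eq]
    rfl
  rw [hset, gen_min golayCode golayLike one_mem_golay, leechLattice_eq]

theorem leech_induction (P : ↥leechLattice → Prop) (h0 : P 0)
    (hmin : ∀ m : ↥leechLattice, sqNorm (m : GolayPt → ℤ) = 32 → P m)
    (hadd : ∀ x y, P x → P y → P (x + y)) (hneg : ∀ x, P x → P (-x)) : ∀ x, P x := by
  intro x
  have hle : ∀ a, a ∈ AddSubgroup.closure
      {x : GolayPt → ℤ | x ∈ leechLattice ∧ sqNorm x = 32} → a ∈ leechLattice := by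
    intro a ha
    rw [closure_min] at ha
    exact ha
  have hx : (x : GolayPt → ℤ) ∈ AddSubgroup.closure
      {x : GolayPt → ℤ | x ∈ leechLattice ∧ sqNorm x = 32} := by
    rw [closure_min]
    exact x.2
  have key : ∀ h : (x : GolayPt → ℤ) ∈ leechLattice, P ⟨(x : GolayPt → ℤ), h⟩ := by
    refine AddSubgroup.closure_induction
      (p := fun y _ => ∀ h : y ∈ leechLattice, P ⟨y, h⟩) ?_ ?_ ?_ ?_ hx
    · intro m hm h
      exact hmin ⟨m, h⟩ hm.2
    · intro h
      exact h0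
    · intro a b ha hb iha ihb h
      exact hadd ⟨a, hle a ha⟩ ⟨b, hle b hb⟩ (iha _) (ihb _)
    · intro a ha iha h
      exact hneg ⟨a, hle a ha⟩ (iha _)
  exact key x.2

theorem dot_sgnVec_pair (x : GolayPt → ℤ) (a : ℤ) (p q : GolayPt) (hpq : p ≠ q)
    (V : Finset GolayPt) (hV : V ⊆ {p, q}) :
    dotInt x (sgnVec a {p, q} V) = x p * sgnVec a {p, q} V p + x q * sgnVec a {p, q} V q := by
  unfold dotInt
  refine (Finset.sum_subset (Finset.subset_univ ({p, q} : Finset GolayPt)) ?_).symm.trans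
    (Finset.sum_pair hpq)
  intro i _ hi
  have h0 : sgnVec a {p, q} V i = 0 := by
    unfold sgnVec
    rw [if_neg (fun h => hi (hV h)), if_neg hi]
  rw [h0, mul_zero]

theorem sgn4_min (a b : GolayPt) (hab : a ≠ b) (V : Finset GolayPt) (hV : V ⊆ {a, b}) :
    sgnVec 4 {a, b} V ∈ leechLattice ∧ sqNorm (sgnVec 4 {a, b} V) = 32 := by
  refine ⟨mem_of_LP (LP_sgnVec4 golayCode hV (Finset.card_pair hab)), ?_⟩
  show ∑ i, sgnVec 4 {a, b} V i ^ 2 = 32
  rw [sgnVec_sq 4 hV, Finset.card_pair hab]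
  norm_num

/-- an invariant nonzero quadratic form on the lattice modulo 2 is the norm form -/
theorem quad_unique (Q : ↥leechLattice → ZMod 2)
    (hcoset : ∀ v w : ↥leechLattice, Q (v + (w + w)) = Q v)
    (hquad : ∀ u v w : ↥leechLattice,
      Q (u + v + w) + Q u + Q v + Q w = Q (u + v) + Q (u + w) + Q (v + w))
    (hinv : ∀ (g : ↥Co0) (v : ↥leechLattice), Q (g • v) = Q v)
    (hne : ∃ v : ↥leechLattice, Q v ≠ 0) (v : ↥leechLattice) :
    Q v = ((sqNorm (v : GolayPt → ℤ) / 16 : ℤ) : ZMod 2) := by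
  have hQ0 : Q 0 = 0 := by
    have h := hquad 0 0 0
    simp only [add_zero] at h
    generalize Q 0 = a at h ⊢
    revert a
    decide
  have hBadd : ∀ u v w : ↥leechLattice, Q (u + (v + w)) + Q u + Q (v + w) =
      (Q (u + v) + Q u + Q v) + (Q (u + w) + Q u + Q w) := by
    intro u v w
    have h := hquad u v w
    rw [add_assoc u v w] at h
    have key : ∀ a b c e f g h : ZMod 2, a + b + c + e = f + g + h →
        a + b + h = (f + b + c) + (g + b + e) := by decide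
    exact key _ _ _ _ _ _ _ h
  have hQneg : ∀ u : ↥leechLattice, Q (-u) = Q u := by
    intro u
    have h := hcoset u (-u)
    have e : u + (-u + -u) = -u := by abel
    rw [e] at h
    exact h
  obtain ⟨B, hB⟩ : ∃ B : ↥leechLattice → ↥leechLattice → ZMod 2,
      ∀ u v, B u v = Q (u + v) + Q u + Q v :=
    ⟨fun u v => Q (u + v) + Q u + Q v, fun _ _ => rfl⟩
  have hBr : ∀ u v w, B u (v + w) = B u v + B u w := by
    intro u v w
    rw [hB, hB, hB]
    exact hBadd u v w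
  have hBc : ∀ u v, B u v = B v u := by
    intro u v
    rw [hB, hB, add_comm u v]
    ring
  have hBl : ∀ u v w, B (u + v) w = B u w + B v w := by
    intro u v w
    rw [hBc, hBr, hBc w u, hBc w v]
  have hBneg : ∀ u v, B u (-v) = B u v := by
    intro u v
    have h := hcoset (u + v) (-v)
    have e : u + v + (-v + -v) = u + -v := by abel
    rw [e] at h
    rw [hB, hB, hQneg v, h]
  have hBnegl : ∀ u v, B (-u) v = B u v := by
    intro u v
    rw [hBc, hBneg, hBc]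
  have hB0l : ∀ w, B 0 w = 0 := by
    intro w
    rw [hB, zero_add, hQ0, add_zero]
    exact zmod2_add_self _
  have hconst : ∀ N : ℤ, (N = 32 ∨ N = 48 ∨ N = 64) → ∀ x y : ↥leechLattice,
      sqNorm (x : GolayPt → ℤ) = N → sqNorm (y : GolayPt → ℤ) = N → Q x = Q y := by
    intro N hN x y hx hy
    have hrel : CoRel (x : GolayPt → ℤ) (y : GolayPt → ℤ) := by
      rcases hN with rfl | rfl | rfl
      · exact min_trans _ _ x.2 hx y.2 hy
      · exact trans48 _ _ x.2 hx y.2 hy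
      · exact trans64 _ _ x.2 hx y.2 hy
    obtain ⟨hx', g, hg⟩ := hrel
    have e : g • x = y := Subtype.ext hg
    rw [← e, hinv]
  have hnadd : ∀ x y : ↥leechLattice, sqNorm ((x + y : ↥leechLattice) : GolayPt → ℤ) =
      sqNorm (x : GolayPt → ℤ) + sqNorm (y : GolayPt → ℤ) +
        2 * dotInt (x : GolayPt → ℤ) (y : GolayPt → ℤ) :=
    fun x y => sqNorm_add _ _
  have hnz : ∀ z : ↥leechLattice,
      sqNorm (z : GolayPt → ℤ) = 0 ∨ 32 ≤ sqNorm (z : GolayPt → ℤ) := by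
    intro z
    by_cases hz : (z : GolayPt → ℤ) = 0
    · left
      rw [hz]
      unfold sqNorm
      simp
    · right
      exact leech_min_norm _ z.2 hz
  have hz0 : ∀ z : ↥leechLattice, sqNorm (z : GolayPt → ℤ) = 0 → z = 0 := by
    intro z hz
    by_contra h
    have h1 : (z : GolayPt → ℤ) ≠ 0 := fun h2 => h (Subtype.ext h2)
    have h2 := leech_min_norm _ z.2 h1
    omega
  obtain ⟨p1, p2, p3, p4, h12, h13, h14, h23, h24, h34⟩ : ∃ p1 p2 p3 p4 : GolayPt,
      p1 ≠ p2 ∧ p1 ≠ p3 ∧ p1 ≠ p4 ∧ p2 ≠ p3 ∧ p2 ≠ p4 ∧ p3 ≠ p4 :=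
    ⟨none, some 0, some 1, some 2, by decide, by decide, by decide, by decide, by decide,
      by decide⟩
  -- first relation: the value on vectors of sum of squares 64
  obtain ⟨U, hU⟩ : ∃ U : ↥leechLattice, (U : GolayPt → ℤ) = sgnVec 4 {p1, p2} ∅ :=
    ⟨⟨_, (sgn4_min p1 p2 h12 ∅ (Finset.empty_subset _)).1⟩, rfl⟩
  obtain ⟨V, hV⟩ : ∃ V : ↥leechLattice, (V : GolayPt → ℤ) = sgnVec 4 {p1, p3} {p1} :=
    ⟨⟨_, (sgn4_min p1 p3 h13 {p1} (by simp)).1⟩, rfl⟩
  obtain ⟨W, hW⟩ : ∃ W : ↥leechLattice, (W : GolayPt → ℤ) = sgnVec 4 {p3, p4} {p3} :=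
    ⟨⟨_, (sgn4_min p3 p4 h34 {p3} (by simp)).1⟩, rfl⟩
  have nU : sqNorm (U : GolayPt → ℤ) = 32 := by
    rw [hU]
    exact (sgn4_min p1 p2 h12 ∅ (Finset.empty_subset _)).2
  have nV : sqNorm (V : GolayPt → ℤ) = 32 := by
    rw [hV]
    exact (sgn4_min p1 p3 h13 {p1} (by simp)).2
  have nW : sqNorm (W : GolayPt → ℤ) = 32 := by
    rw [hW]
    exact (sgn4_min p3 p4 h34 {p3} (by simp)).2
  have dUV : dotInt (U : GolayPt → ℤ) (V : GolayPt → ℤ) = -16 := by
    rw [hU, hV, dot_sgnVec_pair _ 4 p1 p3 h13 {p1} (by simp)]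
    simp [sgnVec, h12, h13, h23, h12.symm, h13.symm, h23.symm]
  have dVW : dotInt (V : GolayPt → ℤ) (W : GolayPt → ℤ) = -16 := by
    rw [hV, hW, dot_sgnVec_pair _ 4 p3 p4 h34 {p3} (by simp)]
    simp [sgnVec, h13, h14, h34, h13.symm, h14.symm, h34.symm]
  have dUW : dotInt (U : GolayPt → ℤ) (W : GolayPt → ℤ) = 0 := by
    rw [hU, hW, dot_sgnVec_pair _ 4 p3 p4 h34 {p3} (by simp)]
    simp [sgnVec, h13, h14, h23, h24, h34, h13.symm, h14.symm, h23.symm, h24.symm, h34.symm]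
  have dUVW : dotInt (U : GolayPt → ℤ) ((V + W : ↥leechLattice) : GolayPt → ℤ) = -16 := by
    show dotInt (U : GolayPt → ℤ) ((V : GolayPt → ℤ) + (W : GolayPt → ℤ)) = -16
    rw [dot_add_right, dUV, dUW]
    norm_num
  have n1 : sqNorm ((U + V : ↥leechLattice) : GolayPt → ℤ) = 32 := by
    rw [hnadd, nU, nV, dUV]
    norm_num
  have n2 : sqNorm ((V + W : ↥leechLattice) : GolayPt → ℤ) = 32 := by
    rw [hnadd, nV, nW, dVW]
    norm_num
  have n3 : sqNorm ((U + W : ↥leechLattice) : GolayPt → ℤ) = 64 := by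
    rw [hnadd, nU, nW, dUW]
    norm_num
  have n4 : sqNorm ((U + (V + W) : ↥leechLattice) : GolayPt → ℤ) = 32 := by
    rw [hnadd, nU, n2, dUVW]
    norm_num
  have hg0 : Q (U + W) = 0 := by
    have h := hBadd U V W
    rw [hconst 32 (Or.inl rfl) _ U n4 nU, hconst 32 (Or.inl rfl) _ U n2 nU,
      hconst 32 (Or.inl rfl) _ U n1 nU, hconst 32 (Or.inl rfl) V U nV nU,
      hconst 32 (Or.inl rfl) W U nW nU] at h
    have key : ∀ a g : ZMod 2, a + a + a = (a + a + a) + (g + a + a) → g = 0 := by decide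
    exact key _ _ h
  have hγ : ∀ x : ↥leechLattice, sqNorm (x : GolayPt → ℤ) = 64 → Q x = 0 :=
    fun x hx => (hconst 64 (Or.inr (Or.inr rfl)) x (U + W) hx n3).trans hg0
  -- second relation: the value on vectors of sum of squares 32
  obtain ⟨U', hU'⟩ : ∃ U' : ↥leechLattice, (U' : GolayPt → ℤ) = oddMin p1 0 :=
    ⟨⟨_, mem_of_LP (LP_oddMin golayCode golayLike golayCode.zero_mem p1)⟩, rfl⟩
  obtain ⟨W', hW'⟩ : ∃ W' : ↥leechLattice, (W' : GolayPt → ℤ) = sgnVec 4 {p2, p3} {p2, p3} :=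
    ⟨⟨_, (sgn4_min p2 p3 h23 {p2, p3} (Finset.Subset.refl _)).1⟩, rfl⟩
  have nU' : sqNorm (U' : GolayPt → ℤ) = 32 := by
    rw [hU']
    exact oddMin_sq golayLike.hcard p1 0
  have nW' : sqNorm (W' : GolayPt → ℤ) = 32 := by
    rw [hW']
    exact (sgn4_min p2 p3 h23 {p2, p3} (Finset.Subset.refl _)).2
  have dU'U : dotInt (U' : GolayPt → ℤ) (U : GolayPt → ℤ) = -8 := by
    rw [hU', hU, dot_sgnVec_pair _ 4 p1 p2 h12 ∅ (Finset.empty_subset _)]
    simp [sgnVec, oddMin, h12, h12.symm]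
  have dU'W' : dotInt (U' : GolayPt → ℤ) (W' : GolayPt → ℤ) = -8 := by
    rw [hU', hW', dot_sgnVec_pair _ 4 p2 p3 h23 {p2, p3} (Finset.Subset.refl _)]
    simp [sgnVec, oddMin, h12, h13, h23, h12.symm, h13.symm, h23.symm]
  have dUW' : dotInt (U : GolayPt → ℤ) (W' : GolayPt → ℤ) = -16 := by
    rw [hU, hW', dot_sgnVec_pair _ 4 p2 p3 h23 {p2, p3} (Finset.Subset.refl _)]
    simp [sgnVec, h12, h13, h23, h12.symm, h13.symm, h23.symm]
  have m1 : sqNorm ((U' + U : ↥leechLattice) : GolayPt → ℤ) = 48 := by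
    rw [hnadd, nU', nU, dU'U]
    norm_num
  have m2 : sqNorm ((U' + W' : ↥leechLattice) : GolayPt → ℤ) = 48 := by
    rw [hnadd, nU', nW', dU'W']
    norm_num
  have m3 : sqNorm ((U + W' : ↥leechLattice) : GolayPt → ℤ) = 32 := by
    rw [hnadd, nU, nW', dUW']
    norm_num
  have dm : dotInt (U' : GolayPt → ℤ) ((U + W' : ↥leechLattice) : GolayPt → ℤ) = -16 := by
    show dotInt (U' : GolayPt → ℤ) ((U : GolayPt → ℤ) + (W' : GolayPt → ℤ)) = -16
    rw [dot_add_right, dU'U, dU'W']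
    norm_num
  have m4 : sqNorm ((U' + (U + W') : ↥leechLattice) : GolayPt → ℤ) = 32 := by
    rw [hnadd, nU', m3, dm]
    norm_num
  have ha0 : Q U = 0 := by
    have h := hBadd U' U W'
    rw [hconst 32 (Or.inl rfl) _ U m4 nU, hconst 32 (Or.inl rfl) _ U m3 nU,
      hconst 32 (Or.inl rfl) U' U nU' nU, hconst 32 (Or.inl rfl) W' U nW' nU,
      hconst 48 (Or.inr (Or.inl rfl)) (U' + W') (U' + U) m2 m1] at h
    have key : ∀ a b : ZMod 2, a + a + a = (b + a + a) + (b + a + a) → a = 0 := by decide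
    exact key _ _ h
  have hα : ∀ x : ↥leechLattice, sqNorm (x : GolayPt → ℤ) = 32 → Q x = 0 :=
    fun x hx => (hconst 32 (Or.inl rfl) x U hx nU).trans ha0
  obtain ⟨β, hβdef⟩ : ∃ β : ZMod 2, β = Q (U' + U) := ⟨_, rfl⟩
  have hβ : ∀ x : ↥leechLattice, sqNorm (x : GolayPt → ℤ) = 48 → Q x = β := by
    intro x hx
    rw [hβdef]
    exact hconst 48 (Or.inr (Or.inl rfl)) x (U' + U) hx m1
  -- the polar form on pairs of minimal vectors
  have hmin : ∀ u w : ↥leechLattice, sqNorm (u : GolayPt → ℤ) = 32 →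
      sqNorm (w : GolayPt → ℤ) = 32 →
      (8 : ℤ) ∣ dotInt (u : GolayPt → ℤ) (w : GolayPt → ℤ) ∧
      B u w = β * (((dotInt (u : GolayPt → ℤ) (w : GolayPt → ℤ) / 8 : ℤ)) : ZMod 2) := by
    intro u w hu hw
    have hd8 := leech_dot_dvd _ _ u.2 w.2
    refine ⟨hd8, ?_⟩
    have hp := hnadd u w
    have hm := hnadd u (-w)
    have e1 : sqNorm ((-w : ↥leechLattice) : GolayPt → ℤ) = 32 := by
      show sqNorm (-(w : GolayPt → ℤ)) = 32
      rw [sqNorm_neg', hw]
    have e2 : dotInt (u : GolayPt → ℤ) ((-w : ↥leechLattice) : GolayPt → ℤ) =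
        -dotInt (u : GolayPt → ℤ) (w : GolayPt → ℤ) := by
      show dotInt (u : GolayPt → ℤ) (-(w : GolayPt → ℤ)) = _
      rw [dot_neg_right]
    rw [hu, hw] at hp
    rw [hu, e1, e2] at hm
    have hp0 := hnz (u + w)
    have hm0 := hnz (u + -w)
    have h16p := Cfsg.Agent.Helper3.leech_norm_dvd _ (u + w).2
    have h16m := Cfsg.Agent.Helper3.leech_norm_dvd _ (u + -w).2
    rw [hp] at h16p hp0
    rw [hm] at h16m hm0
    have hQu := hα u hu
    have hQw := hα w hw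
    have hQnw : Q (-w) = 0 := by rw [hQneg, hQw]
    have hBuw : B u w = Q (u + w) := by rw [hB, hQu, hQw, add_zero, add_zero]
    have hBuw' : B u w = Q (u + -w) := by
      rw [← hBneg u w, hB, hQu, hQnw, add_zero, add_zero]
    generalize dotInt (u : GolayPt → ℤ) (w : GolayPt → ℤ) = dd at hd8 hp hm h16p h16m hp0 hm0 ⊢
    have hcases : dd = -32 ∨ dd = -16 ∨ dd = -8 ∨ dd = 0 ∨ dd = 8 ∨ dd = 16 ∨ dd = 32 := by
      omega
    rcases hcases with h | h | h | h | h | h | h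
    · have hz : u + w = 0 := hz0 _ (by rw [hp, h]; norm_num)
      rw [hBuw, hz, hQ0, h]
      have c : (((-32 : ℤ) / 8 : ℤ) : ZMod 2) = 0 :=
        (intCast_zmod2_eq_zero _).2 (by norm_num)
      rw [c, mul_zero]
    · rw [hBuw, hα (u + w) (by rw [hp, h]; norm_num), h]
      have c : (((-16 : ℤ) / 8 : ℤ) : ZMod 2) = 0 :=
        (intCast_zmod2_eq_zero _).2 (by norm_num)
      rw [c, mul_zero]
    · rw [hBuw, hβ (u + w) (by rw [hp, h]; norm_num), h]
      have c : (((-8 : ℤ) / 8 : ℤ) : ZMod 2) = 1 :=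
        (intCast_zmod2_eq_one _).2 (by norm_num)
      rw [c, mul_one]
    · rw [hBuw, hγ (u + w) (by rw [hp, h]; norm_num), h]
      have c : (((0 : ℤ) / 8 : ℤ) : ZMod 2) = 0 :=
        (intCast_zmod2_eq_zero _).2 (by norm_num)
      rw [c, mul_zero]
    · rw [hBuw', hβ (u + -w) (by rw [hm, h]; norm_num), h]
      have c : (((8 : ℤ) / 8 : ℤ) : ZMod 2) = 1 :=
        (intCast_zmod2_eq_one _).2 (by norm_num)
      rw [c, mul_one]
    · rw [hBuw', hα (u + -w) (by rw [hm, h]; norm_num), h]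
      have c : (((16 : ℤ) / 8 : ℤ) : ZMod 2) = 0 :=
        (intCast_zmod2_eq_zero _).2 (by norm_num)
      rw [c, mul_zero]
    · have hz : u + -w = 0 := hz0 _ (by rw [hm, h]; norm_num)
      rw [hBuw', hz, hQ0, h]
      have c : (((32 : ℤ) / 8 : ℤ) : ZMod 2) = 0 :=
        (intCast_zmod2_eq_zero _).2 (by norm_num)
      rw [c, mul_zero]
  -- extension to all pairs
  obtain ⟨R, hR⟩ : ∃ R : ↥leechLattice → ↥leechLattice → Prop, ∀ x w, R x w ↔
      ((8 : ℤ) ∣ dotInt (x : GolayPt → ℤ) (w : GolayPt → ℤ) ∧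
        B x w = β * (((dotInt (x : GolayPt → ℤ) (w : GolayPt → ℤ) / 8 : ℤ)) : ZMod 2)) :=
    ⟨fun x w => ((8 : ℤ) ∣ dotInt (x : GolayPt → ℤ) (w : GolayPt → ℤ) ∧
        B x w = β * (((dotInt (x : GolayPt → ℤ) (w : GolayPt → ℤ) / 8 : ℤ)) : ZMod 2)),
      fun x w => Iff.rfl⟩
  have hR0 : ∀ w : ↥leechLattice, R 0 w := by
    intro w
    rw [hR]
    have e : dotInt ((0 : ↥leechLattice) : GolayPt → ℤ) (w : GolayPt → ℤ) = 0 :=
      dot_zero_left _
    rw [e, hB0l]
    refine ⟨dvd_zero _, ?_⟩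
    simp
  have hRadd : ∀ x y w, R x w → R y w → R (x + y) w := by
    intro x y w hx hy
    rw [hR] at hx hy ⊢
    obtain ⟨hx1, hx2⟩ := hx
    obtain ⟨hy1, hy2⟩ := hy
    have e : dotInt ((x + y : ↥leechLattice) : GolayPt → ℤ) (w : GolayPt → ℤ) =
        dotInt (x : GolayPt → ℤ) (w : GolayPt → ℤ) +
          dotInt (y : GolayPt → ℤ) (w : GolayPt → ℤ) :=
      dot_add_left _ _ _
    rw [e, hBl, hx2, hy2]
    refine ⟨dvd_add hx1 hy1, ?_⟩
    have e2 : (dotInt (x : GolayPt → ℤ) (w : GolayPt → ℤ) +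
        dotInt (y : GolayPt → ℤ) (w : GolayPt → ℤ)) / 8 =
        dotInt (x : GolayPt → ℤ) (w : GolayPt → ℤ) / 8 +
          dotInt (y : GolayPt → ℤ) (w : GolayPt → ℤ) / 8 := by omega
    rw [e2, Int.cast_add, mul_add]
  have hRneg : ∀ x w, R x w → R (-x) w := by
    intro x w hx
    rw [hR] at hx ⊢
    obtain ⟨hx1, hx2⟩ := hx
    have e : dotInt ((-x : ↥leechLattice) : GolayPt → ℤ) (w : GolayPt → ℤ) =
        -dotInt (x : GolayPt → ℤ) (w : GolayPt → ℤ) :=
      dot_neg_left _ _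
    rw [e, hBnegl, hx2]
    refine ⟨(dvd_neg).2 hx1, ?_⟩
    have e2 : (-dotInt (x : GolayPt → ℤ) (w : GolayPt → ℤ)) / 8 =
        -(dotInt (x : GolayPt → ℤ) (w : GolayPt → ℤ) / 8) := by omega
    rw [e2, Int.cast_neg, zmod2_neg]
  have hRsymm : ∀ x w, R x w → R w x := by
    intro x w hx
    rw [hR] at hx ⊢
    rw [dot_comm', hBc]
    exact hx
  have hRmin : ∀ m : ↥leechLattice, sqNorm (m : GolayPt → ℤ) = 32 → ∀ x, R x m := by
    intro m hm
    refine leech_induction (fun x => R x m) ?_ ?_ ?_ ?_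
    · exact hR0 m
    · intro m' hm'
      exact (hR m' m).2 (hmin m' m hm' hm)
    · intro x y hx hy
      exact hRadd x y m hx hy
    · intro x hx
      exact hRneg x m hx
  have hRall : ∀ x w, R x w := by
    intro x w
    apply hRsymm
    revert w
    refine leech_induction (fun w => R w x) ?_ ?_ ?_ ?_
    · exact hR0 x
    · intro m hm
      exact hRsymm _ _ (hRmin m hm x)
    · intro a b ha hb
      exact hRadd a b x ha hb
    · intro a ha
      exact hRneg a x ha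
  have hfinal : ∀ x : ↥leechLattice,
      Q x = β * (((sqNorm (x : GolayPt → ℤ) / 16 : ℤ)) : ZMod 2) := by
    refine leech_induction
      (fun x => Q x = β * (((sqNorm (x : GolayPt → ℤ) / 16 : ℤ)) : ZMod 2)) ?_ ?_ ?_ ?_
    · show Q 0 = β * (((sqNorm ((0 : ↥leechLattice) : GolayPt → ℤ) / 16 : ℤ)) : ZMod 2)
      have e : sqNorm ((0 : ↥leechLattice) : GolayPt → ℤ) = 0 := by
        show sqNorm (0 : GolayPt → ℤ) = 0
        unfold sqNorm
        simp
      rw [hQ0, e]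
      simp
    · intro m hm
      show Q m = β * (((sqNorm (m : GolayPt → ℤ) / 16 : ℤ)) : ZMod 2)
      rw [hα m hm, hm]
      have c : (((32 : ℤ) / 16 : ℤ) : ZMod 2) = 0 :=
        (intCast_zmod2_eq_zero _).2 (by norm_num)
      rw [c, mul_zero]
    · intro x y hx hy
      show Q (x + y) =
        β * (((sqNorm ((x + y : ↥leechLattice) : GolayPt → ℤ) / 16 : ℤ)) : ZMod 2)
      have hx' : Q x = β * (((sqNorm (x : GolayPt → ℤ) / 16 : ℤ)) : ZMod 2) := hx
      have hy' : Q y = β * (((sqNorm (y : GolayPt → ℤ) / 16 : ℤ)) : ZMod 2) := hy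
      obtain ⟨hr1, hr2⟩ := (hR x y).1 (hRall x y)
      have h16x := Cfsg.Agent.Helper3.leech_norm_dvd _ x.2
      have h16y := Cfsg.Agent.Helper3.leech_norm_dvd _ y.2
      have hQxy : Q (x + y) = B x y + Q x + Q y := by
        rw [hB]
        have key : ∀ a b c : ZMod 2, a = a + b + c + b + c := by decide
        exact key _ _ _
      rw [hQxy, hr2, hx', hy', hnadd]
      have e : (sqNorm (x : GolayPt → ℤ) + sqNorm (y : GolayPt → ℤ) +
          2 * dotInt (x : GolayPt → ℤ) (y : GolayPt → ℤ)) / 16 =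
          sqNorm (x : GolayPt → ℤ) / 16 + sqNorm (y : GolayPt → ℤ) / 16 +
            dotInt (x : GolayPt → ℤ) (y : GolayPt → ℤ) / 8 := by omega
      rw [e, Int.cast_add, Int.cast_add]
      ring
    · intro x hx
      show Q (-x) = β * (((sqNorm ((-x : ↥leechLattice) : GolayPt → ℤ) / 16 : ℤ)) : ZMod 2)
      have e : sqNorm ((-x : ↥leechLattice) : GolayPt → ℤ) = sqNorm (x : GolayPt → ℤ) :=
        sqNorm_neg' _
      rw [hQneg, e]
      exact hx
  obtain ⟨v₀, hv₀⟩ := hne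
  have hβ1 : β = 1 := by
    apply zmod2_eq_one_of_ne
    intro h0
    rw [hfinal v₀, h0, zero_mul] at hv₀
    exact hv₀ rfl
  rw [hfinal v, hβ1, one_mul]

end Cfsg.Agent.Helper28
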