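import Cfsg.Agent.Helper28.Co0Card
import Cfsg.Agent.Helper28.Count48
import Cfsg.Agent.Helper28.LeechIdx2
import Cfsg.Agent.Helper28.QuadForm

/-!
The lattice modulo twice the lattice has `2 ^ 24` classes, and every class contains a vector
of sum of squares 0, 32, 48 or 64.
-/

set_option autoImplicit false

namespace Cfsg.Agent.Helper28

open Cfsg

theorem leech_index : leechLattice.index = 2 ^ 36 := by
  rw [leechLattice_eq]
  have h := index_leechSub golayCode golayLike one_mem_golay none
  rw [Cfsg.Agent.Helper3.golayCode_natCard] at h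
  exact Nat.eq_of_mul_eq_mul_left (by norm_num : 0 < 4096)
    (h.trans (by norm_num : (4 : ℕ) ^ 24 = 4096 * 2 ^ 36))

theorem count32 : {x : GolayPt → ℤ | x ∈ leechLattice ∧ sqNorm x = 32}.ncard = 196560 := by
  have hset : {x : GolayPt → ℤ | x ∈ leechLattice ∧ sqNorm x = 32} =
      {x : GolayPt → ℤ | x ∈ leechSetOf golayCode ∧ ∑ i, x i ^ 2 = 32} := by
    ext x
    simp only [Set.mem_ofPred_eq]
    rw [mem_leechLattice, leechSet_eq]
    rfl
  rw [hset, count_min golayCode golayLike one_mem_golay, ← octads_eq_Oct,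
    Cfsg.Agent.Helper3.octads_ncard, Cfsg.Agent.Helper3.golayCode_natCard]

/-- doubling -/
def dblHom : (GolayPt → ℤ) →+ (GolayPt → ℤ) := nsmulAddMonoidHom 2

theorem dblHom_apply (x : GolayPt → ℤ) : dblHom x = 2 • x := rfl

theorem dblHom_injective : Function.Injective dblHom := by
  intro x y h
  funext i
  have h1 := congrFun h i
  simp only [dblHom_apply, Pi.smul_apply, nsmul_eq_mul, Nat.cast_ofNat] at h1
  omega

theorem index_range_dbl : dblHom.range.index = 2 ^ 24 := by
  let f : (GolayPt → ℤ) →+ (GolayPt → ZMod 2) :=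
    AddMonoidHom.compLeft (Int.castAddHom (ZMod 2)) GolayPt
  have hf : ∀ x i, f x i = ((x i : ℤ) : ZMod 2) := fun x i => rfl
  have hker : f.ker = dblHom.range := by
    ext x
    rw [AddMonoidHom.mem_ker, AddMonoidHom.mem_range]
    constructor
    · intro h
      refine ⟨fun i => x i / 2, ?_⟩
      funext i
      have h2 := congrFun h i
      rw [hf, Pi.zero_apply, intCast_zmod2_eq_zero] at h2
      simp only [dblHom_apply, Pi.smul_apply, nsmul_eq_mul, Nat.cast_ofNat]
      omega
    · rintro ⟨y, rfl⟩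
      funext i
      rw [hf, Pi.zero_apply, intCast_zmod2_eq_zero]
      simp only [dblHom_apply, Pi.smul_apply, nsmul_eq_mul, Nat.cast_ofNat]
      omega
  have hsurj : Function.Surjective f := by
    intro a
    refine ⟨fun i => ((a i).val : ℤ), ?_⟩
    funext i
    rw [hf]
    simp
  rw [← hker, AddSubgroup.index_ker, AddMonoidHom.range_eq_top.2 hsurj,
    Nat.card_congr AddSubgroup.topEquiv.toEquiv, Nat.card_eq_fintype_card, Fintype.card_fun,
    ZMod.card, golayLike.hcard]

/-- twice the lattice -/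
def twoL : AddSubgroup (GolayPt → ℤ) := leechLattice.map dblHom

theorem mem_twoL (x : GolayPt → ℤ) : x ∈ twoL ↔ ∃ z ∈ leechLattice, x = 2 • z := by
  unfold twoL
  rw [AddSubgroup.mem_map]
  constructor
  · rintro ⟨z, hz, rfl⟩
    exact ⟨z, hz, rfl⟩
  · rintro ⟨z, hz, rfl⟩
    exact ⟨z, hz, rfl⟩

theorem twoL_le : twoL ≤ leechLattice := by
  intro x hx
  obtain ⟨z, hz, rfl⟩ := (mem_twoL x).1 hx
  exact leechLattice.nsmul_mem hz 2

theorem relIndex_twoL : twoL.relIndex leechLattice = 2 ^ 24 := by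
  have h1 := AddSubgroup.relIndex_mul_index twoL_le
  have h2 : twoL.index = leechLattice.index * dblHom.range.index :=
    AddSubgroup.index_map_of_injective leechLattice dblHom_injective
  rw [h2, leech_index, index_range_dbl] at h1
  exact Nat.eq_of_mul_eq_mul_right (by norm_num : 0 < 2 ^ 36) (h1.trans (mul_comm _ _))

/-- the lattice modulo twice the lattice -/
abbrev LQ : Type := leechLattice ⧸ twoL.addSubgroupOf leechLattice

theorem card_LQ : Nat.card LQ = 2 ^ 24 := relIndex_twoL

/-- the class of a lattice vector -/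
def piQ (v : leechLattice) : LQ := QuotientAddGroup.mk v

theorem piQ_eq_iff (v w : leechLattice) : piQ v = piQ w ↔ ∃ z : leechLattice, v - w = 2 • z := by
  unfold piQ
  rw [QuotientAddGroup.eq, AddSubgroup.mem_addSubgroupOf, mem_twoL]
  constructor
  · rintro ⟨z, hz, e⟩
    refine ⟨-⟨z, hz⟩, Subtype.ext ?_⟩
    show (v : GolayPt → ℤ) - w = 2 • (-z)
    have e' : -(v : GolayPt → ℤ) + w = 2 • z := e
    rw [smul_neg, ← e']
    abel
  · rintro ⟨z, e⟩
    refine ⟨-z, (-z).2, ?_⟩
    have e' : (v : GolayPt → ℤ) - w = 2 • (z : GolayPt → ℤ) := congrArg Subtype.val e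
    show -(v : GolayPt → ℤ) + w = 2 • (-(z : GolayPt → ℤ))
    rw [smul_neg, ← e']
    abel

/-- the lattice vectors of a given sum of squares -/
def normSet (n : ℤ) : Set leechLattice := {v | sqNorm (v : GolayPt → ℤ) = n}

theorem normSet_ncard_eq (n : ℤ) : (normSet n).ncard =
    {x : GolayPt → ℤ | x ∈ leechLattice ∧ sqNorm x = n}.ncard := by
  rw [← Set.ncard_image_of_injective (normSet n) Subtype.val_injective]
  congr 1
  ext x
  constructor
  · rintro ⟨v, hv, rfl⟩
    exact ⟨v.2, hv⟩
  · rintro ⟨hx, hn⟩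
    exact ⟨⟨x, hx⟩, hn, rfl⟩

/-- counting an image through fibres of constant size -/
theorem ncard_image_mul {α β : Type*} (s : Set α) (hs : s.Finite) (f : α → β) (k : ℕ)
    (h : ∀ a ∈ s, {a' | a' ∈ s ∧ f a' = f a}.ncard = k) : (f '' s).ncard * k = s.ncard := by
  classical
  have himg : f '' s = ↑(hs.toFinset.image f) := by
    rw [Finset.coe_image, Set.Finite.coe_toFinset]
  have hfib : ∀ b ∈ hs.toFinset.image f, (hs.toFinset.filter (fun a => f a = b)).card = k := by
    intro b hb
    obtain ⟨a, ha, rfl⟩ := Finset.mem_image.1 hb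
    have ha' : a ∈ s := (Set.Finite.mem_toFinset hs).1 ha
    rw [← h a ha', ← Set.ncard_coe_finset]
    congr 1
    ext a'
    rw [Finset.mem_coe, Finset.mem_filter, Set.Finite.mem_toFinset]
    rfl
  rw [himg, Set.ncard_coe_finset, Set.ncard_eq_toFinset_card s hs,
    Finset.card_eq_sum_card_image f hs.toFinset, Finset.sum_congr rfl hfib, Finset.sum_const,
    smul_eq_mul]

theorem normSet_zero : normSet 0 = {0} := by
  ext v
  constructor
  · intro hv
    by_contra hne
    have h0 : (v : GolayPt → ℤ) ≠ 0 := fun h => hne (Subtype.ext h)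
    have h32 := leech_min_norm _ v.2 h0
    have hv' : sqNorm (v : GolayPt → ℤ) = 0 := hv
    omega
  · intro hv
    rw [Set.mem_singleton_iff] at hv
    rw [hv]
    show sqNorm ((0 : leechLattice) : GolayPt → ℤ) = 0
    unfold sqNorm
    exact Finset.sum_eq_zero (fun i _ => by simp)

/-- congruent short vectors -/
theorem short_cases {v w : leechLattice} (e : piQ w = piQ v)
    (hv : sqNorm (v : GolayPt → ℤ) ≤ 64) (hw : sqNorm (w : GolayPt → ℤ) ≤ 64) :
    w = v ∨ w = -v ∨ (sqNorm (w : GolayPt → ℤ) = 64 ∧ sqNorm (v : GolayPt → ℤ) = 64) := by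
  by_cases hwv : w = v
  · exact Or.inl hwv
  · right
    obtain ⟨z, hz⟩ := (piQ_eq_iff w v).1 e
    have h := short_congruent leechLattice leech_min_sum (w : GolayPt → ℤ) (v : GolayPt → ℤ)
      w.2 v.2 (fun h => hwv (Subtype.ext h)) hw hv ⟨z, z.2, congrArg Subtype.val hz⟩
    rcases h with h | ⟨h1, h2, _⟩
    · exact Or.inl (Subtype.ext h)
    · exact Or.inr ⟨h1, h2⟩

theorem fiber_pm (n : ℤ) (hn0 : 0 < n) (hn : n < 64) (v : leechLattice) (hv : v ∈ normSet n) :
    {w | w ∈ normSet n ∧ piQ w = piQ v}.ncard = 2 := by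
  have hv' : sqNorm (v : GolayPt → ℤ) = n := hv
  have hneg : sqNorm ((-v : leechLattice) : GolayPt → ℤ) = n := by
    rw [← hv']
    exact sqNorm_neg' _
  have hv0 : v ≠ -v := by
    intro h
    have h1 : (v : GolayPt → ℤ) = 0 := by
      funext i
      have h2 : (v : GolayPt → ℤ) i = -(v : GolayPt → ℤ) i :=
        congrFun (congrArg Subtype.val h) i
      rw [Pi.zero_apply]
      omega
    have h3 : sqNorm (v : GolayPt → ℤ) = 0 := by
      rw [h1]
      unfold sqNorm
      exact Finset.sum_eq_zero (fun i _ => by simp)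
    omega
  have hset : {w | w ∈ normSet n ∧ piQ w = piQ v} = {v, -v} := by
    ext w
    constructor
    · rintro ⟨hw, e⟩
      have hw' : sqNorm (w : GolayPt → ℤ) = n := hw
      rcases short_cases e (by omega) (by omega) with h | h | ⟨h1, _⟩
      · exact Or.inl h
      · exact Or.inr h
      · omega
    · rintro (h | h)
      · rw [h]
        exact ⟨hv, rfl⟩
      · rw [Set.mem_singleton_iff] at h
        rw [h]
        refine ⟨hneg, (piQ_eq_iff (-v) v).2 ⟨-v, ?_⟩⟩
        rw [smul_neg, two_nsmul]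
        abel
  rw [hset, Set.ncard_pair hv0]

theorem fiber_cross (v : leechLattice) (hv : v ∈ normSet 64) :
    {w | w ∈ normSet 64 ∧ piQ w = piQ v}.ncard = 48 := by
  have hv' : sqNorm (v : GolayPt → ℤ) = 64 := hv
  have hset : {w | w ∈ normSet 64 ∧ piQ w = piQ v} = crossSub v := by
    ext w
    constructor
    · rintro ⟨hw, e⟩
      have hw' : sqNorm (w : GolayPt → ℤ) = 64 := hw
      exact ⟨hw'.trans hv'.symm, (piQ_eq_iff v w).1 e.symm⟩
    · rintro ⟨hn, hz⟩
      exact ⟨hn.trans hv', ((piQ_eq_iff v w).2 hz).symm⟩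
  rw [hset, crossSub_ncard v hv']

theorem normSet_finite (n : ℤ) (k : ℕ) (hk : k ≠ 0)
    (h : {x : GolayPt → ℤ | x ∈ leechLattice ∧ sqNorm x = n}.ncard = k) :
    (normSet n).Finite :=
  Set.finite_of_ncard_ne_zero (by rw [normSet_ncard_eq, h]; exact hk)

theorem image32 : (piQ '' normSet 32).ncard = 98280 := by
  have h := ncard_image_mul (normSet 32) (normSet_finite 32 _ (by norm_num) count32) piQ 2
    (fun v hv => fiber_pm 32 (by norm_num) (by norm_num) v hv)
  rw [normSet_ncard_eq, count32] at h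
  omega

theorem image48 : (piQ '' normSet 48).ncard = 8386560 := by
  have h := ncard_image_mul (normSet 48) (normSet_finite 48 _ (by norm_num) count48) piQ 2
    (fun v hv => fiber_pm 48 (by norm_num) (by norm_num) v hv)
  rw [normSet_ncard_eq, count48] at h
  omega

theorem image64 : (piQ '' normSet 64).ncard = 8292375 := by
  have h := ncard_image_mul (normSet 64) (normSet_finite 64 _ (by norm_num) count64) piQ 48
    (fun v hv => fiber_cross v hv)
  rw [normSet_ncard_eq, count64] at h
  omega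

theorem image0 : (piQ '' normSet 0).ncard = 1 := by
  rw [normSet_zero, Set.image_singleton, Set.ncard_singleton]

theorem image_disjoint (n n' : ℤ) (hn : n ≤ 64) (hn' : n' ≤ 64) (hne : n ≠ n') :
    Disjoint (piQ '' normSet n) (piQ '' normSet n') := by
  rw [Set.disjoint_left]
  rintro q ⟨v, hv, rfl⟩ ⟨w, hw, e⟩
  have hv' : sqNorm (v : GolayPt → ℤ) = n := hv
  have hw' : sqNorm (w : GolayPt → ℤ) = n' := hw
  rcases short_cases e (by omega) (by omega) with h | h | ⟨h1, h2⟩
  · rw [h] at hw'
    omega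
  · rw [h] at hw'
    have h3 : sqNorm ((-v : leechLattice) : GolayPt → ℤ) = sqNorm (v : GolayPt → ℤ) :=
      sqNorm_neg' _
    omega
  · omega

/-- every class contains a vector of sum of squares 0, 32, 48 or 64 -/
theorem short_rep (q : LQ) :
    q ∈ piQ '' normSet 0 ∪ (piQ '' normSet 32 ∪ (piQ '' normSet 48 ∪ piQ '' normSet 64)) := by
  have hfinQ : Finite LQ := Nat.finite_of_card_ne_zero (by rw [card_LQ]; norm_num)
  have hd1 : Disjoint (piQ '' normSet 48) (piQ '' normSet 64) :=
    image_disjoint 48 64 (by norm_num) (by norm_num) (by norm_num)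
  have hd2 : Disjoint (piQ '' normSet 32) (piQ '' normSet 48 ∪ piQ '' normSet 64) :=
    Set.disjoint_union_right.2 ⟨image_disjoint 32 48 (by norm_num) (by norm_num) (by norm_num),
      image_disjoint 32 64 (by norm_num) (by norm_num) (by norm_num)⟩
  have hd3 : Disjoint (piQ '' normSet 0)
      (piQ '' normSet 32 ∪ (piQ '' normSet 48 ∪ piQ '' normSet 64)) :=
    Set.disjoint_union_right.2 ⟨image_disjoint 0 32 (by norm_num) (by norm_num) (by norm_num),
      Set.disjoint_union_right.2
        ⟨image_disjoint 0 48 (by norm_num) (by norm_num) (by norm_num),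
          image_disjoint 0 64 (by norm_num) (by norm_num) (by norm_num)⟩⟩
  have hcard : (piQ '' normSet 0 ∪
      (piQ '' normSet 32 ∪ (piQ '' normSet 48 ∪ piQ '' normSet 64))).ncard = Nat.card LQ := by
    rw [Set.ncard_union_eq hd3 (Set.toFinite _) (Set.toFinite _),
      Set.ncard_union_eq hd2 (Set.toFinite _) (Set.toFinite _),
      Set.ncard_union_eq hd1 (Set.toFinite _) (Set.toFinite _), image0, image32, image48,
      image64, card_LQ]
    norm_num
  rw [(Set.eq_univ_iff_ncard _).2 hcard]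
  exact Set.mem_univ q

/-- every lattice vector is congruent modulo twice the lattice to a short one -/
theorem exists_short (x : GolayPt → ℤ) (hx : x ∈ leechLattice) :
    ∃ y ∈ leechLattice, (sqNorm y = 0 ∨ sqNorm y = 32 ∨ sqNorm y = 48 ∨ sqNorm y = 64) ∧
      ∃ z ∈ leechLattice, x - y = 2 • z := by
  have key : ∀ n : ℤ, piQ ⟨x, hx⟩ ∈ piQ '' normSet n →
      ∃ y ∈ leechLattice, sqNorm y = n ∧ ∃ z ∈ leechLattice, x - y = 2 • z := by
    rintro n ⟨v, hv, e⟩
    obtain ⟨z, hz⟩ := (piQ_eq_iff ⟨x, hx⟩ v).1 e.symm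
    exact ⟨v, v.2, hv, z, z.2, congrArg Subtype.val hz⟩
  rcases short_rep (piQ ⟨x, hx⟩) with h | h | h | h
  · obtain ⟨y, hy, hn, hz⟩ := key 0 h
    exact ⟨y, hy, Or.inl hn, hz⟩
  · obtain ⟨y, hy, hn, hz⟩ := key 32 h
    exact ⟨y, hy, Or.inr (Or.inl hn), hz⟩
  · obtain ⟨y, hy, hn, hz⟩ := key 48 h
    exact ⟨y, hy, Or.inr (Or.inr (Or.inl hn)), hz⟩
  · obtain ⟨y, hy, hn, hz⟩ := key 64 h
    exact ⟨y, hy, Or.inr (Or.inr (Or.inr hn)), hz⟩

end Cfsg.Agent.Helper28
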