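import Cfsg.Agent.Helper28.Sextet

/-!
Octads of a Golay-like binary code (length 24, dimension 12, self-orthogonal, weights
0, 8, 12, 16, 24): intersections, sextets, and paths in the octad graph.
-/

set_option autoImplicit false
set_option linter.unusedSectionVars false

namespace Cfsg.Agent.Helper28

open Cfsg

/-- the hypotheses on the code -/
structure GolayLike {ι : Type*} [Fintype ι] (C : Submodule (ZMod 2) (ι → ZMod 2)) : Prop where
  hcard : Fintype.card ι = 24
  hdim : Module.finrank (ZMod 2) C = 12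
  horth : ∀ v ∈ C, ∀ w ∈ C, ∑ i, v i * w i = 0
  hwt : ∀ w ∈ C, hammingNorm w = 0 ∨ hammingNorm w = 8 ∨ hammingNorm w = 12 ∨
    hammingNorm w = 16 ∨ hammingNorm w = 24

section OctadAbs

variable {ι : Type*} [Fintype ι] [DecidableEq ι] {C : Submodule (ZMod 2) (ι → ZMod 2)}

theorem GolayLike.hmin (h : GolayLike C) : ∀ w ∈ C, w ≠ 0 → 8 ≤ hammingNorm w := by
  intro w hw h0
  rcases h.hwt w hw with h1 | h1 | h1 | h1 | h1
  · exact absurd (hammingNorm_eq_zero.1 h1) h0
  all_goals omega

/-- the octads of the code -/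
abbrev Oct (C : Submodule (ZMod 2) (ι → ZMod 2)) : Set (Finset ι) :=
  wordsOfWeight (C : Set (ι → ZMod 2)) 8

theorem mem_octads (o : Finset ι) :
    o ∈ Oct C ↔ ∃ c ∈ C, support₂ c = o ∧ hammingNorm c = 8 := by
  constructor
  · rintro ⟨⟨c, hc, rfl⟩, hcard⟩
    exact ⟨c, hc, rfl, hcard⟩
  · rintro ⟨c, hc, rfl, h8⟩
    exact ⟨⟨c, hc, rfl⟩, h8⟩

theorem octad_card (o : Finset ι) (ho : o ∈ Oct C) : o.card = 8 := ho.2

theorem octad_ne_of_disjoint (o a : Finset ι) (ho : o ∈ Oct C) (h : Disjoint o a) :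
    o ≠ a := by
  intro he
  rw [← he, Finset.disjoint_self_iff_empty] at h
  have := octad_card o ho
  rw [h] at this
  simp at this

theorem octad_inter_cases (h : GolayLike C) (o o' : Finset ι) (ho : o ∈ Oct C) (ho' : o' ∈ Oct C)
    (hne : o ≠ o') : (o ∩ o').card = 0 ∨ (o ∩ o').card = 2 ∨ (o ∩ o').card = 4 := by
  obtain ⟨c, hc, rfl, h8⟩ := (mem_octads o).1 ho
  obtain ⟨c', hc', rfl, h8'⟩ := (mem_octads o').1 ho'
  have hw := wt_add c c'
  have hne0 : c + c' ≠ 0 := by
    intro h
    apply hne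
    rw [← sub_eq_add₂] at h
    rw [sub_eq_zero.1 h]
  rcases h.hwt _ (C.add_mem hc hc') with h | h | h | h | h
  · exact absurd (hammingNorm_eq_zero.1 h) hne0
  all_goals omega

theorem octad_of_fib (h : GolayLike C) (v u u' : ι → ZMod 2) (hu : u ∈ fib C v)
    (hu' : u' ∈ fib C v) (hne : u ≠ u') : support₂ u ∪ support₂ u' ∈ Oct C := by
  obtain ⟨hmem, h8, hs⟩ := fib_add C h.hmin v u u' hu hu' hne
  exact (mem_octads _).2 ⟨u + u', hmem, hs, h8⟩

/-- a codeword of weight 8 plus a tetrad inside it is a tetrad of the same sextet -/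
theorem add_ind_mem_fib (c : ι → ZMod 2) (hc : c ∈ C) (h8 : hammingNorm c = 8)
    (T : Finset ι) (hT : T ⊆ support₂ c) (hT4 : T.card = 4) :
    c + ind T ∈ fib C (ind T) := by
  rw [mem_fib]
  refine ⟨by rw [add_sub_cancel_right]; exact hc, ?_⟩
  have hw := wt_add c (ind T)
  rw [support₂_ind, Finset.inter_eq_right.2 hT, wt_ind] at hw
  omega

/-- two octads meeting in four points have a common neighbour in the octad graph -/
theorem octad_common_nbr (h : GolayLike C) (o o' : Finset ι) (ho : o ∈ Oct C) (ho' : o' ∈ Oct C)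
    (h4 : (o ∩ o').card = 4) : ∃ a ∈ Oct C, Disjoint o a ∧ Disjoint a o' := by
  obtain ⟨c, hc, rfl, h8⟩ := (mem_octads o).1 ho
  obtain ⟨c', hc', rfl, h8'⟩ := (mem_octads o').1 ho'
  have hwv : hammingNorm (ind (support₂ c ∩ support₂ c')) = 4 := by rw [wt_ind]; exact h4
  have hvv : ind (support₂ c ∩ support₂ c') ∈ fib C (ind (support₂ c ∩ support₂ c')) :=
    self_mem_fib _ _ (by omega)
  have hu2 := add_ind_mem_fib c hc h8 _ Finset.inter_subset_left h4
  have hu3 := add_ind_mem_fib c' hc' h8' _ Finset.inter_subset_right h4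
  have hs1 : support₂ (ind (support₂ c ∩ support₂ c')) ⊆ support₂ c ∪ support₂ c' := by
    rw [support₂_ind]
    exact Finset.inter_subset_left.trans Finset.subset_union_left
  have hs2 : support₂ (c + ind (support₂ c ∩ support₂ c')) ⊆ support₂ c ∪ support₂ c' :=
    (support₂_add_subset _ _).trans (Finset.union_subset Finset.subset_union_left hs1)
  have hs3 : support₂ (c' + ind (support₂ c ∩ support₂ c')) ⊆ support₂ c ∪ support₂ c' :=
    (support₂_add_subset _ _).trans (Finset.union_subset Finset.subset_union_right hs1)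
  have hcard : (support₂ c ∪ support₂ c').card < 24 := by
    have := Finset.card_union_le (support₂ c) (support₂ c')
    rw [← hammingNorm_eq_card, ← hammingNorm_eq_card] at this
    omega
  obtain ⟨u4, hu4, x, hx, hxs⟩ := exists_fib_mem C h.hcard h.hdim h.hmin _ hwv _ hcard
  have h4w := fib_wt4 C h.hcard h.hdim h.hmin _ hwv u4 hu4
  have hcard' : (support₂ c ∪ support₂ c' ∪ support₂ u4).card < 24 := by
    have h1 := Finset.card_union_le (support₂ c ∪ support₂ c') (support₂ u4)
    have h2 := Finset.card_union_le (support₂ c) (support₂ c')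
    rw [← hammingNorm_eq_card, ← hammingNorm_eq_card] at h2
    rw [← hammingNorm_eq_card u4] at h1
    omega
  obtain ⟨u5, hu5, y, hy, hys⟩ := exists_fib_mem C h.hcard h.hdim h.hmin _ hwv _ hcard'
  have n41 : u4 ≠ ind (support₂ c ∩ support₂ c') := fun h => hxs (hs1 (h ▸ hx))
  have n42 : u4 ≠ c + ind (support₂ c ∩ support₂ c') := fun h => hxs (hs2 (h ▸ hx))
  have n43 : u4 ≠ c' + ind (support₂ c ∩ support₂ c') := fun h => hxs (hs3 (h ▸ hx))
  have n51 : u5 ≠ ind (support₂ c ∩ support₂ c') :=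
    fun h => hys (Finset.subset_union_left (hs1 (h ▸ hy)))
  have n52 : u5 ≠ c + ind (support₂ c ∩ support₂ c') :=
    fun h => hys (Finset.subset_union_left (hs2 (h ▸ hy)))
  have n53 : u5 ≠ c' + ind (support₂ c ∩ support₂ c') :=
    fun h => hys (Finset.subset_union_left (hs3 (h ▸ hy)))
  have n54 : u5 ≠ u4 := fun h => hys (Finset.subset_union_right (h ▸ hy))
  refine ⟨support₂ u4 ∪ support₂ u5, octad_of_fib h _ u4 u5 hu4 hu5 n54.symm, ?_, ?_⟩
  · rw [Finset.disjoint_union_right]
    exact ⟨disj_of_fib C h.hmin _ c u4 hvv hu2 hu4 n41 n42,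
      disj_of_fib C h.hmin _ c u5 hvv hu2 hu5 n51 n52⟩
  · rw [Finset.disjoint_union_left]
    exact ⟨(disj_of_fib C h.hmin _ c' u4 hvv hu3 hu4 n41 n43).symm,
      (disj_of_fib C h.hmin _ c' u5 hvv hu3 hu5 n51 n53).symm⟩

/-- two octads meeting in two points have no common neighbour in the octad graph -/
theorem octad_no_common_nbr (h : GolayLike C) (o o' a : Finset ι) (ho : o ∈ Oct C) (ho' : o' ∈ Oct C)
    (ha : a ∈ Oct C) (h2 : (o ∩ o').card = 2) (h1 : Disjoint o a) (h1' : Disjoint a o') :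
    False := by
  obtain ⟨c, hc, rfl, h8⟩ := (mem_octads o).1 ho
  obtain ⟨c', hc', rfl, h8'⟩ := (mem_octads o').1 ho'
  obtain ⟨e, he, rfl, h8e⟩ := (mem_octads a).1 ha
  have hw := wt_add c c'
  have hw2 := wt_add (c + c') e
  have hd : support₂ (c + c') ∩ support₂ e = ∅ := by
    rw [← Finset.disjoint_iff_inter_eq_empty]
    refine Disjoint.mono_left (support₂_add_subset c c') ?_
    rw [Finset.disjoint_union_left]
    exact ⟨h1, h1'.symm⟩
  rw [hd, Finset.card_empty] at hw2
  rcases h.hwt _ (C.add_mem (C.add_mem hc hc') he) with h | h | h | h | h <;>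
    omega

/-- two octads meeting in two points are joined by a path of length three -/
theorem octad_path3 (h : GolayLike C) (o o' : Finset ι) (ho : o ∈ Oct C) (ho' : o' ∈ Oct C)
    (h2 : (o ∩ o').card = 2) :
    ∃ a ∈ Oct C, ∃ b ∈ Oct C, Disjoint o a ∧ Disjoint a b ∧ Disjoint b o' := by
  obtain ⟨c, hc, rfl, h8⟩ := (mem_octads o).1 ho
  obtain ⟨c', hc', rfl, h8'⟩ := (mem_octads o').1 ho'
  -- two further points of the first octad
  have h6 : 2 ≤ (support₂ c \ support₂ c').card := by
    have := Finset.card_sdiff_add_card_inter (support₂ c) (support₂ c')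
    rw [← hammingNorm_eq_card c] at this
    omega
  obtain ⟨R, hR, hR2⟩ := Finset.exists_subset_card_eq h6
  have hRc : R ⊆ support₂ c := hR.trans Finset.sdiff_subset
  have hRd : Disjoint (support₂ c ∩ support₂ c') R := by
    rw [Finset.disjoint_left]
    intro x hx hxR
    exact (Finset.mem_sdiff.1 (hR hxR)).2 (Finset.mem_inter.1 hx).2
  have hT4 : ((support₂ c ∩ support₂ c') ∪ R).card = 4 := by
    rw [Finset.card_union_of_disjoint hRd, h2, hR2]
  have hTc : (support₂ c ∩ support₂ c') ∪ R ⊆ support₂ c :=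
    Finset.union_subset Finset.inter_subset_left hRc
  have hwv : hammingNorm (ind ((support₂ c ∩ support₂ c') ∪ R)) = 4 := by rw [wt_ind]; exact hT4
  have hvv := self_mem_fib C (ind ((support₂ c ∩ support₂ c') ∪ R)) (by omega)
  have hu2 := add_ind_mem_fib c hc h8 _ hTc hT4
  -- intersections with the second octad
  have hi1 : (support₂ c' ∩ support₂ (ind ((support₂ c ∩ support₂ c') ∪ R))).card = 2 := by
    rw [support₂_ind, ← h2]
    congr 1
    ext x
    simp only [Finset.mem_inter, Finset.mem_union]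
    constructor
    · rintro ⟨hx, hx' | hx'⟩
      · exact hx'
      · exact absurd hx (Finset.mem_sdiff.1 (hR hx')).2
    · rintro ⟨hx, hx'⟩
      exact ⟨hx', Or.inl ⟨hx, hx'⟩⟩
  have hi2 : support₂ c' ∩ support₂ (c + ind ((support₂ c ∩ support₂ c') ∪ R)) = ∅ := by
    rw [support₂_add, support₂_ind]
    ext x
    simp only [Finset.mem_inter, Finset.mem_symmDiff, Finset.mem_union, Finset.notMem_empty,
      iff_false]
    rintro ⟨hx', ⟨hx, hxn⟩ | ⟨hx, hxn⟩⟩
    · exact hxn (Or.inl ⟨hx, hx'⟩)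
    · rcases hx with ⟨h1, _⟩ | h1
      · exact hxn h1
      · exact hxn (hRc h1)
  have hpar : ∀ u ∈ fib C (ind ((support₂ c ∩ support₂ c') ∪ R)),
      (support₂ c' ∩ support₂ u).card % 2 = 0 := by
    intro u hu
    rw [fib_parity C h.hmin h.horth _ u _ hu hvv c' hc', hi1]
  have hsum := fib_sum_inter C h.hcard h.hdim h.hmin _ hwv (support₂ c')
  rw [← hammingNorm_eq_card c', h8'] at hsum
  -- a tetrad missing the second octad
  have hex : ∃ u6 ∈ fib C (ind ((support₂ c ∩ support₂ c') ∪ R)),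
      u6 ≠ ind ((support₂ c ∩ support₂ c') ∪ R) ∧
      u6 ≠ c + ind ((support₂ c ∩ support₂ c') ∪ R) ∧ (support₂ c' ∩ support₂ u6).card = 0 := by
    by_contra hcon
    push Not at hcon
    have hne12 : c + ind ((support₂ c ∩ support₂ c') ∪ R) ≠ ind ((support₂ c ∩ support₂ c') ∪ R) := by
      intro h
      rw [h] at hi2
      rw [hi2] at hi1
      simp at hi1
    have hmem2 : c + ind ((support₂ c ∩ support₂ c') ∪ R) ∈
        (fib C (ind ((support₂ c ∩ support₂ c') ∪ R))).erase
          (ind ((support₂ c ∩ support₂ c') ∪ R)) := Finset.mem_erase.2 ⟨hne12, hu2⟩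
    rw [← Finset.add_sum_erase _ _ hvv, ← Finset.add_sum_erase _ _ hmem2, hi1, hi2,
      Finset.card_empty] at hsum
    have hrest : (((fib C (ind ((support₂ c ∩ support₂ c') ∪ R))).erase
          (ind ((support₂ c ∩ support₂ c') ∪ R))).erase
            (c + ind ((support₂ c ∩ support₂ c') ∪ R))).card = 4 := by
      rw [Finset.card_erase_of_mem hmem2, Finset.card_erase_of_mem hvv,
        fib_card_six C h.hcard h.hdim h.hmin _ hwv]
    have hge := Finset.card_nsmul_le_sum
      (((fib C (ind ((support₂ c ∩ support₂ c') ∪ R))).erase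
          (ind ((support₂ c ∩ support₂ c') ∪ R))).erase
            (c + ind ((support₂ c ∩ support₂ c') ∪ R)))
      (fun u => (support₂ c' ∩ support₂ u).card) 2 (by
        intro u hu
        have hu' := Finset.mem_erase.1 hu
        have hu'' := Finset.mem_erase.1 hu'.2
        have h0 := hcon u hu''.2 hu''.1 hu'.1
        have hp := hpar u hu''.2
        omega)
    rw [hrest, smul_eq_mul] at hge
    omega
  obtain ⟨u6, hu6, n61, n62, hi6⟩ := hex
  have h6w := fib_wt4 C h.hcard h.hdim h.hmin _ hwv u6 hu6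
  have h2w := fib_wt4 C h.hcard h.hdim h.hmin _ hwv _ hu2
  -- two more tetrads
  have hcard : (support₂ (ind ((support₂ c ∩ support₂ c') ∪ R)) ∪
      support₂ (c + ind ((support₂ c ∩ support₂ c') ∪ R)) ∪ support₂ u6).card < 24 := by
    have h1 := Finset.card_union_le (support₂ (ind ((support₂ c ∩ support₂ c') ∪ R)) ∪
      support₂ (c + ind ((support₂ c ∩ support₂ c') ∪ R))) (support₂ u6)
    have h2 := Finset.card_union_le (support₂ (ind ((support₂ c ∩ support₂ c') ∪ R)))
      (support₂ (c + ind ((support₂ c ∩ support₂ c') ∪ R)))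
    rw [← hammingNorm_eq_card, ← hammingNorm_eq_card] at h2
    rw [← hammingNorm_eq_card u6] at h1
    omega
  obtain ⟨u3, hu3, x, hx, hxs⟩ := exists_fib_mem C h.hcard h.hdim h.hmin _ hwv _ hcard
  have h3w := fib_wt4 C h.hcard h.hdim h.hmin _ hwv u3 hu3
  have hcard' : (support₂ (ind ((support₂ c ∩ support₂ c') ∪ R)) ∪
      support₂ (c + ind ((support₂ c ∩ support₂ c') ∪ R)) ∪ support₂ u6 ∪ support₂ u3).card < 24 := by
    have h0 := Finset.card_union_le (support₂ (ind ((support₂ c ∩ support₂ c') ∪ R)) ∪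
      support₂ (c + ind ((support₂ c ∩ support₂ c') ∪ R)) ∪ support₂ u6) (support₂ u3)
    have h1 := Finset.card_union_le (support₂ (ind ((support₂ c ∩ support₂ c') ∪ R)) ∪
      support₂ (c + ind ((support₂ c ∩ support₂ c') ∪ R))) (support₂ u6)
    have h2 := Finset.card_union_le (support₂ (ind ((support₂ c ∩ support₂ c') ∪ R)))
      (support₂ (c + ind ((support₂ c ∩ support₂ c') ∪ R)))
    rw [← hammingNorm_eq_card, ← hammingNorm_eq_card] at h2
    rw [← hammingNorm_eq_card u6] at h1
    rw [← hammingNorm_eq_card u3] at h0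
    omega
  obtain ⟨u4, hu4, y, hy, hys⟩ := exists_fib_mem C h.hcard h.hdim h.hmin _ hwv _ hcard'
  have n31 : u3 ≠ ind ((support₂ c ∩ support₂ c') ∪ R) :=
    fun h => hxs (Finset.subset_union_left (Finset.subset_union_left (h ▸ hx)))
  have n32 : u3 ≠ c + ind ((support₂ c ∩ support₂ c') ∪ R) :=
    fun h => hxs (Finset.subset_union_left (Finset.subset_union_right (h ▸ hx)))
  have n36 : u3 ≠ u6 := fun h => hxs (Finset.subset_union_right (h ▸ hx))
  have n41 : u4 ≠ ind ((support₂ c ∩ support₂ c') ∪ R) :=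
    fun h => hys (Finset.subset_union_left (Finset.subset_union_left
      (Finset.subset_union_left (h ▸ hy))))
  have n42 : u4 ≠ c + ind ((support₂ c ∩ support₂ c') ∪ R) :=
    fun h => hys (Finset.subset_union_left (Finset.subset_union_left
      (Finset.subset_union_right (h ▸ hy))))
  have n46 : u4 ≠ u6 :=
    fun h => hys (Finset.subset_union_left (Finset.subset_union_right (h ▸ hy)))
  have n43 : u4 ≠ u3 := fun h => hys (Finset.subset_union_right (h ▸ hy))
  refine ⟨support₂ u3 ∪ support₂ u4, octad_of_fib h _ u3 u4 hu3 hu4 n43.symm,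
    support₂ (c + ind ((support₂ c ∩ support₂ c') ∪ R)) ∪ support₂ u6,
    octad_of_fib h _ _ u6 hu2 hu6 n62.symm, ?_, ?_, ?_⟩
  · rw [Finset.disjoint_union_right]
    exact ⟨disj_of_fib C h.hmin _ c u3 hvv hu2 hu3 n31 n32,
      disj_of_fib C h.hmin _ c u4 hvv hu2 hu4 n41 n42⟩
  · rw [Finset.disjoint_union_left, Finset.disjoint_union_right, Finset.disjoint_union_right]
    exact ⟨⟨fib_disj C h.hmin _ u3 _ hu3 hu2 n32, fib_disj C h.hmin _ u3 u6 hu3 hu6 n36⟩,
      ⟨fib_disj C h.hmin _ u4 _ hu4 hu2 n42, fib_disj C h.hmin _ u4 u6 hu4 hu6 n46⟩⟩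
  · rw [Finset.disjoint_union_left]
    constructor
    · rw [Finset.disjoint_iff_inter_eq_empty, Finset.inter_comm]
      exact hi2
    · rw [Finset.disjoint_iff_inter_eq_empty, Finset.inter_comm, ← Finset.card_eq_zero]
      exact hi6

end OctadAbs

end Cfsg.Agent.Helper28
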