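import Cfsg.Agent.Helper28.OctadAbs

/-!
The octad graph of a Golay-like code: connected, and distances 1, 2, 3 correspond to
intersections of sizes 0, 4, 2.
-/

set_option autoImplicit false
set_option linter.unusedSectionVars false

namespace Cfsg.Agent.Helper28

open Cfsg

theorem walk_mid {V : Type*} (G : SimpleGraph V) (x y : V) (p : G.Walk x y)
    (hp : p.length = 2) : ∃ z, G.Adj x z ∧ G.Adj z y := by
  cases p with
  | nil =>
    simp only [SimpleGraph.Walk.length_nil] at hp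
    omega
  | cons h1 p1 =>
    cases p1 with
    | nil =>
      simp only [SimpleGraph.Walk.length_cons, SimpleGraph.Walk.length_nil] at hp
      omega
    | cons h2 p2 =>
      cases p2 with
      | nil => exact ⟨_, h1, h2⟩
      | cons h3 p3 =>
        simp only [SimpleGraph.Walk.length_cons] at hp
        omega

section OctadGraph

variable {ι : Type*} [Fintype ι] [DecidableEq ι] {C : Submodule (ZMod 2) (ι → ZMod 2)}

theorem block_adj_iff (B : Set (Finset ι)) (x y : B) :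
    (blockGraph B).Adj x y ↔ x ≠ y ∧ Disjoint (x : Finset ι) (y : Finset ι) := by
  unfold blockGraph
  rw [SimpleGraph.fromRel_adj]
  constructor
  · rintro ⟨hne, h | h⟩
    · exact ⟨hne, h⟩
    · exact ⟨hne, h.symm⟩
  · rintro ⟨hne, h⟩
    exact ⟨hne, Or.inl h⟩

theorem oct_adj (u v : Oct C) (hd : Disjoint (u : Finset ι) (v : Finset ι)) :
    (blockGraph (Oct C)).Adj u v := by
  rw [block_adj_iff]
  refine ⟨?_, hd⟩
  intro he
  exact octad_ne_of_disjoint u.1 v.1 u.2 hd (congrArg Subtype.val he)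

theorem oct_reach (h : GolayLike C) (u v : Oct C) : (blockGraph (Oct C)).Reachable u v := by
  by_cases he : u = v
  · rw [he]
  · have hne : (u : Finset ι) ≠ v := fun h' => he (Subtype.ext h')
    rcases octad_inter_cases h u.1 v.1 u.2 v.2 hne with h0 | h2 | h4
    · exact (oct_adj u v (by
        rwa [Finset.disjoint_iff_inter_eq_empty, ← Finset.card_eq_zero])).reachable
    · obtain ⟨a, ha, b, hb, h1, h2', h3⟩ := octad_path3 h u.1 v.1 u.2 v.2 h2
      exact ((oct_adj u ⟨a, ha⟩ h1).reachable.trans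
        (oct_adj ⟨a, ha⟩ ⟨b, hb⟩ h2').reachable).trans (oct_adj ⟨b, hb⟩ v h3).reachable
    · obtain ⟨a, ha, h1, h2'⟩ := octad_common_nbr h u.1 v.1 u.2 v.2 h4
      exact (oct_adj u ⟨a, ha⟩ h1).reachable.trans (oct_adj ⟨a, ha⟩ v h2').reachable

theorem octad_graph (h : GolayLike C) (o o' : Finset ι) (ho : o ∈ Oct C) (ho' : o' ∈ Oct C)
    (hne : o ≠ o') :
    (blockGraph (Oct C)).Connected ∧
    ((blockGraph (Oct C)).dist ⟨o, ho⟩ ⟨o', ho'⟩ = 1 ↔ (o ∩ o').card = 0) ∧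
    ((blockGraph (Oct C)).dist ⟨o, ho⟩ ⟨o', ho'⟩ = 2 ↔ (o ∩ o').card = 4) ∧
    ((blockGraph (Oct C)).dist ⟨o, ho⟩ ⟨o', ho'⟩ = 3 ↔ (o ∩ o').card = 2) := by
  have hconn : (blockGraph (Oct C)).Connected :=
    (SimpleGraph.connected_iff _).2 ⟨fun u v => oct_reach h u v, ⟨⟨o, ho⟩⟩⟩
  have hxy : (⟨o, ho⟩ : Oct C) ≠ ⟨o', ho'⟩ := fun he => hne (congrArg Subtype.val he)
  have hreach := oct_reach h (⟨o, ho⟩ : Oct C) ⟨o', ho'⟩
  have hd0 : (blockGraph (Oct C)).dist ⟨o, ho⟩ ⟨o', ho'⟩ ≠ 0 := by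
    rw [Ne, hreach.dist_eq_zero_iff]
    exact hxy
  have hadj : (blockGraph (Oct C)).dist ⟨o, ho⟩ ⟨o', ho'⟩ = 1 ↔ (o ∩ o').card = 0 := by
    rw [SimpleGraph.dist_eq_one_iff_adj, block_adj_iff]
    constructor
    · rintro ⟨-, hd⟩
      rw [Finset.card_eq_zero, ← Finset.disjoint_iff_inter_eq_empty]
      exact hd
    · intro h0
      refine ⟨hxy, ?_⟩
      rw [Finset.disjoint_iff_inter_eq_empty, ← Finset.card_eq_zero]
      exact h0
  refine ⟨hconn, hadj, ?_⟩
  rcases octad_inter_cases h o o' ho ho' hne with h0 | h2 | h4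
  · have h1 := hadj.2 h0
    constructor <;> omega
  · -- distance three
    have hn1 : (blockGraph (Oct C)).dist ⟨o, ho⟩ ⟨o', ho'⟩ ≠ 1 := by
      intro h1
      have := hadj.1 h1
      omega
    have hn2 : (blockGraph (Oct C)).dist ⟨o, ho⟩ ⟨o', ho'⟩ ≠ 2 := by
      intro hd2
      obtain ⟨p, hp⟩ := hreach.exists_walk_length_eq_dist
      rw [hd2] at hp
      obtain ⟨z, hz1, hz2⟩ := walk_mid _ _ _ p hp
      rw [block_adj_iff] at hz1 hz2
      exact octad_no_common_nbr h o o' z.1 ho ho' z.2 h2 hz1.2 hz2.2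
    obtain ⟨a, ha, b, hb, h1, h2', h3⟩ := octad_path3 h o o' ho ho' h2
    have hle := SimpleGraph.dist_le
      (SimpleGraph.Walk.cons (oct_adj (⟨o, ho⟩ : Oct C) ⟨a, ha⟩ h1)
        (SimpleGraph.Walk.cons (oct_adj (⟨a, ha⟩ : Oct C) ⟨b, hb⟩ h2')
          (SimpleGraph.Walk.cons (oct_adj (⟨b, hb⟩ : Oct C) ⟨o', ho'⟩ h3) SimpleGraph.Walk.nil)))
    simp only [SimpleGraph.Walk.length_cons, SimpleGraph.Walk.length_nil] at hle
    constructor <;> omega
  · -- distance two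
    have hn1 : (blockGraph (Oct C)).dist ⟨o, ho⟩ ⟨o', ho'⟩ ≠ 1 := by
      intro h1
      have := hadj.1 h1
      omega
    obtain ⟨a, ha, h1, h2'⟩ := octad_common_nbr h o o' ho ho' h4
    have hle := SimpleGraph.dist_le
      (SimpleGraph.Walk.cons (oct_adj (⟨o, ho⟩ : Oct C) ⟨a, ha⟩ h1)
        (SimpleGraph.Walk.cons (oct_adj (⟨a, ha⟩ : Oct C) ⟨o', ho'⟩ h2') SimpleGraph.Walk.nil))
    simp only [SimpleGraph.Walk.length_cons, SimpleGraph.Walk.length_nil] at hle
    constructor <;> omega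

end OctadGraph

end Cfsg.Agent.Helper28
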