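import Cfsg.Agent.Helper28.CosetMove

/-!
Cosets of the length-24 binary code and the code of length 23 obtained by deleting the
extra coordinate: the coset leaders, and the fact that the shorter code is perfect.
-/

set_option autoImplicit false

namespace Cfsg.Agent.Helper28

open Cfsg

theorem coset_set_eq (w : GolayPt → ZMod 2) :
    {v : GolayPt → ZMod 2 | hammingNorm v ≤ 4 ∧ w - v ∈ golayCode} = ↑(fib golayCode w) := by
  ext v
  have hm := mem_fib golayCode w v
  constructor
  · rintro ⟨h1, h2⟩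
    refine Finset.mem_coe.2 (hm.2 ⟨?_, h1⟩)
    have h3 := golayCode.neg_mem h2
    rwa [neg_sub] at h3
  · intro h
    obtain ⟨h1, h2⟩ := hm.1 (Finset.mem_coe.1 h)
    refine ⟨h2, ?_⟩
    have h3 := golayCode.neg_mem h1
    rwa [neg_sub] at h3

/-- the words of weight at most 4 in a coset of the code -/
theorem coset_cases (w : GolayPt → ZMod 2) :
    ({v : GolayPt → ZMod 2 | hammingNorm v ≤ 4 ∧ w - v ∈ golayCode}.ncard = 1 ∧
      ∃ v : GolayPt → ZMod 2, hammingNorm v ≤ 3 ∧ w - v ∈ golayCode) ∨
    ({v : GolayPt → ZMod 2 | hammingNorm v ≤ 4 ∧ w - v ∈ golayCode}.ncard = 6 ∧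
      ∀ v : GolayPt → ZMod 2, w - v ∈ golayCode → hammingNorm v ≤ 4 → hammingNorm v = 4) := by
  rw [coset_set_eq, Set.ncard_coe_finset]
  rcases fib_structure golayCode golayLike.hcard golayLike.hdim golayLike.hmin w with
    ⟨u, hu, hu3⟩ | ⟨h6, h4⟩
  · left
    refine ⟨by rw [hu, Finset.card_singleton], u, hu3, ?_⟩
    have hmem : u ∈ fib golayCode w := by
      rw [hu]
      exact Finset.mem_singleton_self u
    have h1 := ((mem_fib golayCode w u).1 hmem).1
    have h3 := golayCode.neg_mem h1
    rwa [neg_sub] at h3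
  · right
    refine ⟨h6, fun v hv hv4 => ?_⟩
    have h1 : v - w ∈ golayCode := by
      have h3 := golayCode.neg_mem hv
      rwa [neg_sub] at h3
    exact (h4 v ((mem_fib golayCode w v).2 ⟨h1, hv4⟩)).1

/-- the weight of a word and of its restriction to the 23 residues -/
theorem wt_res (w : GolayPt → ZMod 2) :
    hammingNorm w =
      hammingNorm (fun x : ZMod 23 => w (some x)) + (if w none ≠ 0 then 1 else 0) := by
  unfold hammingNorm
  rw [Finset.card_filter, Finset.card_filter, Fintype.sum_option]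
  exact add_comm _ _

theorem dist_eq_wt (a b : ZMod 23 → ZMod 2) :
    hammingDist a b = hammingNorm (a - b) := by
  unfold hammingDist hammingNorm
  congr 1
  refine Finset.filter_congr (fun i _ => ?_)
  rw [Pi.sub_apply, sub_ne_zero]

theorem res_inj (w w' : GolayPt → ZMod 2) (hw : w ∈ golayCode) (hw' : w' ∈ golayCode)
    (h : hammingDist (fun x : ZMod 23 => w (some x)) (fun x : ZMod 23 => w' (some x)) ≤ 6) :
    w = w' := by
  by_contra hne
  have hsub : w - w' ∈ golayCode := golayCode.sub_mem hw hw'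
  have h8 := golayLike.hmin (w - w') hsub (sub_ne_zero.2 hne)
  have h1 := wt_res (w - w')
  rw [dist_eq_wt] at h
  have e : (fun x : ZMod 23 => w (some x)) - (fun x : ZMod 23 => w' (some x)) =
      fun x : ZMod 23 => (w - w') (some x) := rfl
  rw [e] at h
  have h2 : (if (w - w') none ≠ 0 then 1 else 0) ≤ 1 := by
    split_ifs <;> omega
  omega

/-- extension of a word of length 23 by zero -/
def ext0 (u : ZMod 23 → ZMod 2) : GolayPt → ZMod 2 := fun p => p.elim 0 u

theorem ext0_some (u : ZMod 23 → ZMod 2) (x : ZMod 23) : ext0 u (some x) = u x := rfl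

theorem punct_exists (u : ZMod 23 → ZMod 2) :
    ∃ w ∈ golayCode, hammingDist u (fun x : ZMod 23 => w (some x)) ≤ 3 := by
  obtain ⟨v, hv, hv4⟩ := exists_leader_fn (ext0 u)
  have key : ∃ t : GolayPt → ZMod 2, t - ext0 u ∈ golayCode ∧
      hammingNorm (fun x : ZMod 23 => t (some x)) ≤ 3 := by
    by_cases h4 : hammingNorm v = 4
    · have hcov := sextet_cover golayCode golayLike.hcard golayLike.hdim golayLike.hmin v
      obtain ⟨t, ht, hnt⟩ := hcov h4 none
      obtain ⟨ht1, ht2⟩ := (mem_fib golayCode v t).1 ht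
      refine ⟨t, ?_, ?_⟩
      · have e : t - ext0 u = (t - v) + (v - ext0 u) := by abel
        rw [e]
        exact golayCode.add_mem ht1 hv
      · have h1 := wt_res t
        have h2 : t none ≠ 0 := (mem_support₂ t none).1 hnt
        rw [if_pos h2] at h1
        omega
    · refine ⟨v, hv, ?_⟩
      have h1 := wt_res v
      omega
  obtain ⟨t, ht, ht3⟩ := key
  refine ⟨ext0 u - t, ?_, ?_⟩
  · have h3 := golayCode.neg_mem ht
    rwa [neg_sub] at h3
  · rw [dist_eq_wt]
    have e : u - (fun x : ZMod 23 => (ext0 u - t) (some x)) = fun x : ZMod 23 => t (some x) := by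
      funext x
      show u x - (u x - t (some x)) = t (some x)
      ring
    rw [e]
    exact ht3

/-- the code of length 23 is perfect -/
theorem punct_perfect (u : ZMod 23 → ZMod 2) :
    ∃! c : ZMod 23 → ZMod 2,
      c ∈ {u : ZMod 23 → ZMod 2 | ∃ w ∈ golayCode, ∀ x : ZMod 23, u x = w (some x)} ∧
        hammingDist u c ≤ 3 := by
  obtain ⟨w, hw, hd⟩ := punct_exists u
  refine ⟨fun x => w (some x), ⟨⟨w, hw, fun x => rfl⟩, hd⟩, ?_⟩
  rintro c' ⟨⟨w', hw', hc'⟩, hd'⟩
  have hc'e : c' = fun x => w' (some x) := funext hc'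
  rw [hc'e] at hd' ⊢
  have h6 : hammingDist (fun x : ZMod 23 => w' (some x)) (fun x : ZMod 23 => w (some x)) ≤ 6 := by
    have h1 := hammingDist_triangle (fun x : ZMod 23 => w' (some x)) u
      (fun x : ZMod 23 => w (some x))
    rw [hammingDist_comm (fun x : ZMod 23 => w' (some x)) u] at h1
    omega
  rw [res_inj w' w hw' hw h6]

end Cfsg.Agent.Helper28
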