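import Cfsg.Agent.Helper28.Punct
import Cfsg.Agent.Helper28.Census

/-!
The weight distribution of the code of length 23 obtained by deleting the extra coordinate.
-/

set_option autoImplicit false

namespace Cfsg.Agent.Helper28

open Cfsg

/-- restriction of a word to the 23 residues -/
def resW (w : GolayPt → ZMod 2) : ZMod 23 → ZMod 2 := fun x => w (some x)

theorem punct_set_eq :
    {u : ZMod 23 → ZMod 2 | ∃ w ∈ golayCode, ∀ x : ZMod 23, u x = w (some x)} =
      resW '' (↑codeFin : Set (GolayPt → ZMod 2)) := by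
  ext u
  constructor
  · rintro ⟨w, hw, hu⟩
    exact ⟨w, Finset.mem_coe.2 ((mem_codeFin w).2 hw), (funext hu).symm⟩
  · rintro ⟨w, hw, rfl⟩
    exact ⟨w, (mem_codeFin w).1 (Finset.mem_coe.1 hw), fun x => rfl⟩

theorem resW_injOn : Set.InjOn resW (↑codeFin : Set (GolayPt → ZMod 2)) := by
  intro w hw w' hw' h
  refine res_inj w w' ((mem_codeFin w).1 (Finset.mem_coe.1 hw))
    ((mem_codeFin w').1 (Finset.mem_coe.1 hw')) ?_
  have h' : (fun x : ZMod 23 => w (some x)) = (fun x : ZMod 23 => w' (some x)) := h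
  rw [h', hammingDist_self]
  exact Nat.zero_le 6

theorem punct_wt_set (k : ℕ) :
    {u : ZMod 23 → ZMod 2 | u ∈ {u : ZMod 23 → ZMod 2 | ∃ w ∈ golayCode,
        ∀ x : ZMod 23, u x = w (some x)} ∧ hammingNorm u = k} =
      resW '' (↑(codeFin.filter (fun c => hammingNorm (resW c) = k)) :
        Set (GolayPt → ZMod 2)) := by
  ext u
  constructor
  · rintro ⟨⟨w, hw, hu⟩, hk⟩
    have hu' : u = resW w := funext hu
    refine ⟨w, ?_, hu'.symm⟩
    rw [Finset.mem_coe, Finset.mem_filter, mem_codeFin]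
    rw [hu'] at hk
    exact ⟨hw, hk⟩
  · rintro ⟨w, hw, rfl⟩
    rw [Finset.mem_coe, Finset.mem_filter, mem_codeFin] at hw
    exact ⟨⟨w, hw.1, fun x => rfl⟩, hw.2⟩

theorem wt_resW_gDec (m : ℕ) :
    hammingNorm (resW (Cfsg.Agent.Helper3.gDec m)) =
      Cfsg.Agent.Helper3.gPopc m - Cfsg.Agent.Helper3.gPopc (Nat.land m 8388608) := by
  have h1 := wt_res (Cfsg.Agent.Helper3.gDec m)
  rw [Cfsg.Agent.Helper3.hammingNorm_gDec] at h1
  have h2 := inter_mask m 8388608
  rw [gSupp_single] at h2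
  have h3 : (Cfsg.Agent.Helper3.gSupp m ∩ {none}).card =
      if Cfsg.Agent.Helper3.gDec m none ≠ 0 then 1 else 0 := by
    by_cases hn : Cfsg.Agent.Helper3.gDec m none ≠ 0
    · have hmem : none ∈ Cfsg.Agent.Helper3.gSupp m := by
        rw [← Cfsg.Agent.Helper3.support₂_gDec]
        exact (mem_support₂ _ none).2 hn
      rw [if_pos hn, Finset.inter_singleton_of_mem hmem, Finset.card_singleton]
    · have hmem : none ∉ Cfsg.Agent.Helper3.gSupp m := by
        rw [← Cfsg.Agent.Helper3.support₂_gDec]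
        exact fun h => hn ((mem_support₂ _ none).1 h)
      rw [if_neg hn, Finset.inter_singleton_of_notMem hmem, Finset.card_empty]
  have h4 : hammingNorm (resW (Cfsg.Agent.Helper3.gDec m)) =
      hammingNorm (fun x : ZMod 23 => Cfsg.Agent.Helper3.gDec m (some x)) := rfl
  rw [h4]
  omega

theorem punct_count (k : ℕ) :
    {u : ZMod 23 → ZMod 2 | u ∈ {u : ZMod 23 → ZMod 2 | ∃ w ∈ golayCode,
        ∀ x : ZMod 23, u x = w (some x)} ∧ hammingNorm u = k}.ncard =
      Cfsg.Agent.Helper3.gCountLt 4096 (fun n => decide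
        (Cfsg.Agent.Helper3.gPopc (Cfsg.Agent.Helper3.gCw n) -
          Cfsg.Agent.Helper3.gPopc (Nat.land (Cfsg.Agent.Helper3.gCw n) 8388608) = k)) := by
  have hinj : Set.InjOn resW (↑(codeFin.filter (fun c => hammingNorm (resW c) = k)) :
      Set (GolayPt → ZMod 2)) :=
    resW_injOn.mono (Finset.coe_subset.2 (Finset.filter_subset _ _))
  rw [punct_wt_set, hinj.ncard_image, Set.ncard_coe_finset, Finset.card_filter,
    sum_code, Cfsg.Agent.Helper3.gCountLt_eq, Finset.card_filter]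
  refine Finset.sum_congr rfl (fun n _ => ?_)
  rw [wt_resW_gDec]
  simp

theorem punct_card :
    {u : ZMod 23 → ZMod 2 | ∃ w ∈ golayCode, ∀ x : ZMod 23, u x = w (some x)}.ncard = 4096 := by
  rw [punct_set_eq, resW_injOn.ncard_image, Set.ncard_coe_finset]
  have h := sum_code (fun _ => 1)
  rw [Finset.sum_const, Finset.sum_const, Finset.card_range] at h
  simpa using h

theorem punct_n7 : Cfsg.Agent.Helper3.gCountLt 4096 (fun n => decide
    (Cfsg.Agent.Helper3.gPopc (Cfsg.Agent.Helper3.gCw n) -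
      Cfsg.Agent.Helper3.gPopc (Nat.land (Cfsg.Agent.Helper3.gCw n) 8388608) = 7)) = 253 := by
  decide +kernel

theorem punct_n8 : Cfsg.Agent.Helper3.gCountLt 4096 (fun n => decide
    (Cfsg.Agent.Helper3.gPopc (Cfsg.Agent.Helper3.gCw n) -
      Cfsg.Agent.Helper3.gPopc (Nat.land (Cfsg.Agent.Helper3.gCw n) 8388608) = 8)) = 506 := by
  decide +kernel

theorem punct_n11 : Cfsg.Agent.Helper3.gCountLt 4096 (fun n => decide
    (Cfsg.Agent.Helper3.gPopc (Cfsg.Agent.Helper3.gCw n) -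
      Cfsg.Agent.Helper3.gPopc (Nat.land (Cfsg.Agent.Helper3.gCw n) 8388608) = 11)) = 1288 := by
  decide +kernel

theorem punct_n12 : Cfsg.Agent.Helper3.gCountLt 4096 (fun n => decide
    (Cfsg.Agent.Helper3.gPopc (Cfsg.Agent.Helper3.gCw n) -
      Cfsg.Agent.Helper3.gPopc (Nat.land (Cfsg.Agent.Helper3.gCw n) 8388608) = 12)) = 1288 := by
  decide +kernel

theorem punct_n15 : Cfsg.Agent.Helper3.gCountLt 4096 (fun n => decide
    (Cfsg.Agent.Helper3.gPopc (Cfsg.Agent.Helper3.gCw n) -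
      Cfsg.Agent.Helper3.gPopc (Nat.land (Cfsg.Agent.Helper3.gCw n) 8388608) = 15)) = 506 := by
  decide +kernel

theorem punct_n16 : Cfsg.Agent.Helper3.gCountLt 4096 (fun n => decide
    (Cfsg.Agent.Helper3.gPopc (Cfsg.Agent.Helper3.gCw n) -
      Cfsg.Agent.Helper3.gPopc (Nat.land (Cfsg.Agent.Helper3.gCw n) 8388608) = 16)) = 253 := by
  decide +kernel

theorem punct_min (u : ZMod 23 → ZMod 2)
    (hu : u ∈ {u : ZMod 23 → ZMod 2 | ∃ w ∈ golayCode, ∀ x : ZMod 23, u x = w (some x)})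
    (h0 : u ≠ 0) : 7 ≤ hammingNorm u := by
  obtain ⟨w, hw, hx⟩ := hu
  have hu' : u = fun x : ZMod 23 => w (some x) := funext hx
  have hw0 : w ≠ 0 := by
    rintro rfl
    exact h0 (by rw [hu']; rfl)
  have h8 := golayLike.hmin w hw hw0
  have h1 := wt_res w
  rw [← hu'] at h1
  have h2 : (if w none ≠ 0 then 1 else 0) ≤ 1 := by
    split_ifs <;> omega
  omega

/-- the weight distribution of the code of length 23 -/
theorem punct_dist :
    {u : ZMod 23 → ZMod 2 | ∃ w ∈ golayCode, ∀ x : ZMod 23, u x = w (some x)}.ncard = 4096 ∧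
    {u : ZMod 23 → ZMod 2 | u ∈ {u : ZMod 23 → ZMod 2 | ∃ w ∈ golayCode,
      ∀ x : ZMod 23, u x = w (some x)} ∧ hammingNorm u = 7}.ncard = 253 ∧
    {u : ZMod 23 → ZMod 2 | u ∈ {u : ZMod 23 → ZMod 2 | ∃ w ∈ golayCode,
      ∀ x : ZMod 23, u x = w (some x)} ∧ hammingNorm u = 8}.ncard = 506 ∧
    {u : ZMod 23 → ZMod 2 | u ∈ {u : ZMod 23 → ZMod 2 | ∃ w ∈ golayCode,
      ∀ x : ZMod 23, u x = w (some x)} ∧ hammingNorm u = 11}.ncard = 1288 ∧
    {u : ZMod 23 → ZMod 2 | u ∈ {u : ZMod 23 → ZMod 2 | ∃ w ∈ golayCode,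
      ∀ x : ZMod 23, u x = w (some x)} ∧ hammingNorm u = 12}.ncard = 1288 ∧
    {u : ZMod 23 → ZMod 2 | u ∈ {u : ZMod 23 → ZMod 2 | ∃ w ∈ golayCode,
      ∀ x : ZMod 23, u x = w (some x)} ∧ hammingNorm u = 15}.ncard = 506 ∧
    {u : ZMod 23 → ZMod 2 | u ∈ {u : ZMod 23 → ZMod 2 | ∃ w ∈ golayCode,
      ∀ x : ZMod 23, u x = w (some x)} ∧ hammingNorm u = 16}.ncard = 253 ∧
    ∀ u ∈ {u : ZMod 23 → ZMod 2 | ∃ w ∈ golayCode, ∀ x : ZMod 23, u x = w (some x)},
      u ≠ 0 → 7 ≤ hammingNorm u :=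
  ⟨punct_card, (punct_count 7).trans punct_n7, (punct_count 8).trans punct_n8,
    (punct_count 11).trans punct_n11, (punct_count 12).trans punct_n12,
    (punct_count 15).trans punct_n15, (punct_count 16).trans punct_n16, punct_min⟩

end Cfsg.Agent.Helper28
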