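import Cfsg.Agent.Helper28.Golay

/-!
Sextets of a binary code of length 24, dimension 12 and minimum weight at least 8:
further facts about the six tetrads in the coset of a word of weight 4.
-/

set_option autoImplicit false
set_option linter.unusedSectionVars false

namespace Cfsg.Agent.Helper28

open Cfsg

section Sextet

variable {ι : Type*} [Fintype ι] [DecidableEq ι] (C : Submodule (ZMod 2) (ι → ZMod 2))

theorem fib_card_six (hι : Fintype.card ι = 24) (hdim : Module.finrank (ZMod 2) C = 12)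
    (hmin : ∀ w ∈ C, w ≠ 0 → 8 ≤ hammingNorm w) (v : ι → ZMod 2) (hv : hammingNorm v = 4) :
    (fib C v).card = 6 := by
  have hvm : v ∈ fib C v := self_mem_fib C v (by omega)
  rcases fib_structure C hι hdim hmin v with ⟨u, hu, hu3⟩ | ⟨h6, -⟩
  · exfalso
    rw [hu, Finset.mem_singleton] at hvm
    rw [hvm] at hv
    omega
  · exact h6

theorem fib_wt4 (hι : Fintype.card ι = 24) (hdim : Module.finrank (ZMod 2) C = 12)
    (hmin : ∀ w ∈ C, w ≠ 0 → 8 ≤ hammingNorm w) (v : ι → ZMod 2) (hv : hammingNorm v = 4) :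
    ∀ u ∈ fib C v, hammingNorm u = 4 :=
  fib_all4 C hmin v (by rw [fib_card_six C hι hdim hmin v hv]; norm_num)

theorem fib_disj (hmin : ∀ w ∈ C, w ≠ 0 → 8 ≤ hammingNorm w) (v u u' : ι → ZMod 2)
    (hu : u ∈ fib C v) (hu' : u' ∈ fib C v) (hne : u ≠ u') :
    Disjoint (support₂ u) (support₂ u') :=
  (fib_pair C hmin v u u' hu hu' hne).2.2

theorem fib_add (hmin : ∀ w ∈ C, w ≠ 0 → 8 ≤ hammingNorm w) (v u u' : ι → ZMod 2)
    (hu : u ∈ fib C v) (hu' : u' ∈ fib C v) (hne : u ≠ u') :
    u + u' ∈ C ∧ hammingNorm (u + u') = 8 ∧ support₂ (u + u') = support₂ u ∪ support₂ u' := by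
  obtain ⟨h4, h4', hd⟩ := fib_pair C hmin v u u' hu hu' hne
  have hmem : u + u' ∈ C := by
    have h := C.sub_mem ((mem_fib C v u).1 hu).1 ((mem_fib C v u').1 hu').1
    rw [sub_sub_sub_cancel_right, sub_eq_add₂] at h
    exact h
  refine ⟨hmem, ?_, ?_⟩
  · have hw := wt_add u u'
    rw [Finset.disjoint_iff_inter_eq_empty.1 hd, Finset.card_empty] at hw
    omega
  · rw [support₂_add, hd.symmDiff_eq_sup]
    rfl

theorem fib_biUnion (hι : Fintype.card ι = 24) (hdim : Module.finrank (ZMod 2) C = 12)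
    (hmin : ∀ w ∈ C, w ≠ 0 → 8 ≤ hammingNorm w) (v : ι → ZMod 2) (hv : hammingNorm v = 4) :
    (fib C v).biUnion support₂ = Finset.univ := by
  have hcard : 1 < (fib C v).card := by
    rw [fib_card_six C hι hdim hmin v hv]
    norm_num
  apply Finset.eq_univ_of_card
  rw [fib_union_card C hmin v hcard, fib_card_six C hι hdim hmin v hv, hι]

theorem fib_sum_inter (hι : Fintype.card ι = 24) (hdim : Module.finrank (ZMod 2) C = 12)
    (hmin : ∀ w ∈ C, w ≠ 0 → 8 ≤ hammingNorm w) (v : ι → ZMod 2) (hv : hammingNorm v = 4)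
    (s : Finset ι) : ∑ u ∈ fib C v, (s ∩ support₂ u).card = s.card := by
  rw [← Finset.card_biUnion]
  · congr 1
    rw [← Finset.inter_biUnion, fib_biUnion C hι hdim hmin v hv, Finset.inter_univ]
  · intro u hu u' hu' hne
    exact (fib_disj C hmin v u u' (Finset.mem_coe.1 hu) (Finset.mem_coe.1 hu') hne).mono
      Finset.inter_subset_right Finset.inter_subset_right

theorem fib_parity (hmin : ∀ w ∈ C, w ≠ 0 → 8 ≤ hammingNorm w)
    (horth : ∀ v ∈ C, ∀ w ∈ C, ∑ i, v i * w i = 0) (v u u' : ι → ZMod 2)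
    (hu : u ∈ fib C v) (hu' : u' ∈ fib C v) (c : ι → ZMod 2) (hc : c ∈ C) :
    (support₂ c ∩ support₂ u).card % 2 = (support₂ c ∩ support₂ u').card % 2 := by
  by_cases hne : u = u'
  · rw [hne]
  · obtain ⟨hmem, -, hsupp⟩ := fib_add C hmin v u u' hu hu' hne
    have hd := fib_disj C hmin v u u' hu hu' hne
    have h2 := even_inter_of_dot c (u + u') (horth c hc _ hmem)
    rw [hsupp, Finset.inter_union_distrib_left, Finset.card_union_of_disjoint
      (hd.mono Finset.inter_subset_right Finset.inter_subset_right)] at h2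
    omega

theorem exists_fib_mem (hι : Fintype.card ι = 24) (hdim : Module.finrank (ZMod 2) C = 12)
    (hmin : ∀ w ∈ C, w ≠ 0 → 8 ≤ hammingNorm w) (v : ι → ZMod 2) (hv : hammingNorm v = 4)
    (s : Finset ι) (hs : s.card < 24) : ∃ u ∈ fib C v, ∃ x ∈ support₂ u, x ∉ s := by
  have h : ∃ x, x ∉ s := by
    by_contra h
    push Not at h
    have h2 : s = Finset.univ := Finset.eq_univ_iff_forall.2 h
    rw [h2, Finset.card_univ, hι] at hs
    omega
  obtain ⟨x, hx⟩ := h
  obtain ⟨u, hu, hxu⟩ := sextet_cover C hι hdim hmin v hv x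
  exact ⟨u, hu, x, hxu, hx⟩

theorem support₂_add_subset (u v : ι → ZMod 2) :
    support₂ (u + v) ⊆ support₂ u ∪ support₂ v := by
  rw [support₂_add]
  intro x hx
  rw [Finset.mem_symmDiff] at hx
  rw [Finset.mem_union]
  tauto

/-- if `c + v` and `v` are tetrads of the sextet of `v`, every other tetrad is disjoint from `c` -/
theorem disj_of_fib (hmin : ∀ w ∈ C, w ≠ 0 → 8 ≤ hammingNorm w) (v c u : ι → ZMod 2)
    (hvv : v ∈ fib C v) (hcv : c + v ∈ fib C v) (hu : u ∈ fib C v) (hu1 : u ≠ v)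
    (hu2 : u ≠ c + v) : Disjoint (support₂ c) (support₂ u) := by
  have h1 : support₂ c ⊆ support₂ (c + v) ∪ support₂ v := by
    have e : c = (c + v) + v := by rw [add_assoc, add_self₂, add_zero]
    nth_rewrite 1 [e]
    exact support₂_add_subset _ _
  refine Disjoint.mono_left h1 ?_
  rw [Finset.disjoint_union_left]
  exact ⟨(fib_disj C hmin v u (c + v) hu hcv hu2).symm, (fib_disj C hmin v u v hu hvv hu1).symm⟩

end Sextet

end Cfsg.Agent.Helper28
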