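import Cfsg.Agent.Helper28.Census

/-!
The stabiliser of a minimal vector is transitive on the minimal vectors having a given
inner product with it: the frame method.  A pair of orthogonal minimal vectors `v, x` gives two
vectors `v + x`, `v - x` of one coordinate frame, and the frame can be moved to the standard one.
-/

set_option autoImplicit false

namespace Cfsg.Agent.Helper28

open Cfsg

theorem dot_self (x : GolayPt → ℤ) : dotInt x x = sqNorm x := by
  unfold dotInt sqNorm
  exact Finset.sum_congr rfl (fun i _ => (sq (x i)).symm)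

/-- a monomial automorphism fixing `8 e_none` and moving `± 8 e_j` to `8 e_0` -/
theorem std_fix (j : GolayPt) (hj : j ≠ none) (s : ℤ) (hs : s = 8 ∨ s = -8) (y : leechLattice)
    (hy : (y : GolayPt → ℤ) = Pi.single j s) :
    ∃ g : Co0, (g : Equiv.Perm leechLattice) (leechE none) = leechE none ∧
      (g : Equiv.Perm leechLattice) y = leechE (some 0) := by
  obtain ⟨σ, hσ, h1, h2⟩ := Cfsg.Agent.Helper3.M24_trans2 none (some 0) none j (by decide)
    (Ne.symm hj)
  have hfix : ∀ i : GolayPt, σ i = none ↔ i = none := by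
    intro i
    constructor
    · intro h
      exact σ.injective (h.trans h1.symm)
    · intro h
      rw [h, h1]
  have hj' : ∀ i : GolayPt, σ i = j ↔ i = some 0 := by
    intro i
    constructor
    · intro h
      exact σ.injective (h.trans h2.symm)
    · intro h
      rw [h, h2]
  have e1 : (co0Perm σ hσ : Equiv.Perm leechLattice) (leechE none) = leechE none := by
    apply Subtype.ext
    funext i
    rw [co0Perm_apply, leechE_apply, leechE_apply]
    by_cases hi : i = none
    · rw [if_pos hi, if_pos ((hfix i).2 hi)]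
    · rw [if_neg hi, if_neg (fun h => hi ((hfix i).1 h))]
  have e2 : ∀ i, (((co0Perm σ hσ : Equiv.Perm leechLattice) y : leechLattice) : GolayPt → ℤ) i =
      if i = some 0 then s else 0 := by
    intro i
    rw [co0Perm_apply, hy, Pi.single_apply]
    by_cases hi : i = some 0
    · rw [if_pos hi, if_pos ((hj' i).2 hi)]
    · rw [if_neg hi, if_neg (fun h => hi ((hj' i).1 h))]
  rcases hs with hs | hs
  · refine ⟨co0Perm σ hσ, e1, ?_⟩
    apply Subtype.ext
    funext i
    rw [e2 i, leechE_apply, hs]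
  · obtain ⟨c, hc, hcV⟩ := exists_code_inter none (some 0) (by decide) {some 0} (by simp)
    have hc0 : (some 0 : GolayPt) ∈ c := by
      have h : (some 0 : GolayPt) ∈ c ∩ {none, some 0} := by
        rw [hcV]
        simp
      exact (Finset.mem_inter.1 h).1
    have hcn : (none : GolayPt) ∉ c := by
      intro h
      have h' : (none : GolayPt) ∈ c ∩ {none, some 0} := Finset.mem_inter.2 ⟨h, by simp⟩
      rw [hcV] at h'
      simp at h'
    refine ⟨co0Sign c hc * co0Perm σ hσ, ?_, ?_⟩
    · show (co0Sign c hc : Equiv.Perm leechLattice)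
        ((co0Perm σ hσ : Equiv.Perm leechLattice) (leechE none)) = leechE none
      rw [e1]
      apply Subtype.ext
      funext i
      rw [co0Sign_apply, leechE_apply]
      by_cases hi : i = none
      · rw [hi, if_neg hcn]
      · rw [if_neg hi]
        simp
    · show (co0Sign c hc : Equiv.Perm leechLattice)
        ((co0Perm σ hσ : Equiv.Perm leechLattice) y) = leechE (some 0)
      apply Subtype.ext
      funext i
      rw [co0Sign_apply, e2 i, leechE_apply, hs]
      by_cases hi : i = some 0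
      · rw [if_pos hi, hi, if_pos hc0]
        norm_num
      · rw [if_neg hi, if_neg hi]
        simp

theorem dot_leechE_single (s : ℤ) :
    dotInt ((leechE none : leechLattice) : GolayPt → ℤ) (Pi.single none s) = 8 * s := by
  unfold dotInt
  rw [Finset.sum_eq_single (none : GolayPt)]
  · rw [leechE_apply, if_pos rfl, Pi.single_eq_same]
  · intro b _ hb
    rw [leechE_apply, if_neg hb, zero_mul]
  · intro h
    exact absurd (Finset.mem_univ _) h

/-- two orthogonal vectors of one frame can be moved to `8 e_none`, `8 e_0` -/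
theorem std_pair (z₁ z₂ : leechLattice) (h1 : sqNorm (z₁ : GolayPt → ℤ) = 64)
    (h2 : z₂ ∈ crossSub z₁) (hd : dotInt (z₁ : GolayPt → ℤ) (z₂ : GolayPt → ℤ) = 0) :
    ∃ g : Co0, (g : Equiv.Perm leechLattice) z₁ = leechE none ∧
      (g : Equiv.Perm leechLattice) z₂ = leechE (some 0) := by
  obtain ⟨hx, g₁, e⟩ := trans64 (z₁ : GolayPt → ℤ) (leechE none : GolayPt → ℤ) z₁.2 h1
    (leechE none).2 (sqNorm_leechE none)
  have e1 : (g₁ : Equiv.Perm leechLattice) z₁ = leechE none := Subtype.ext e
  have h3 : (g₁ : Equiv.Perm leechLattice) z₂ ∈ stdSub := by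
    have h := crossSub_map_mem g₁ h2
    rw [e1, crossSub_e8] at h
    exact h
  obtain ⟨j, s, hs, hy⟩ := h3
  have hj : j ≠ none := by
    intro hj
    subst hj
    have hdot := co0_dot (g₁ : Equiv.Perm leechLattice) g₁.2 z₁ z₂
    rw [hd, e1, hy, dot_leechE_single] at hdot
    rcases hs with hs | hs <;> rw [hs] at hdot <;> norm_num at hdot
  obtain ⟨g₂, e3, e4⟩ := std_fix j hj s hs _ hy
  refine ⟨g₂ * g₁, ?_, ?_⟩
  · show (g₂ : Equiv.Perm leechLattice) ((g₁ : Equiv.Perm leechLattice) z₁) = leechE none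
    rw [e1, e3]
  · exact e4

theorem half_vals (i : GolayPt) (p q : ℤ) (h1 : p + q = if i = none then 8 else 0)
    (h2 : p - q = if i = some 0 then 8 else 0) :
    p = sgnVec 4 {none, some 0} ∅ i ∧ q = sgnVec 4 {none, some 0} {some 0} i := by
  unfold sgnVec
  by_cases hi1 : i = none
  · subst hi1
    simp at h1 h2 ⊢
    omega
  · by_cases hi2 : i = some 0
    · subst hi2
      simp at h1 h2 ⊢
      omega
    · simp [hi1, hi2] at h1 h2 ⊢
      omega

/-- an orthogonal pair of minimal vectors can be moved to `(4,4,0,…)`, `(4,-4,0,…)` -/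
theorem std_orth (v x : leechLattice) (hv : sqNorm (v : GolayPt → ℤ) = 32)
    (hx : sqNorm (x : GolayPt → ℤ) = 32)
    (hd : dotInt (v : GolayPt → ℤ) (x : GolayPt → ℤ) = 0) :
    ∃ g : Co0, (((g : Equiv.Perm leechLattice) v : leechLattice) : GolayPt → ℤ) =
        sgnVec 4 {none, some 0} ∅ ∧
      (((g : Equiv.Perm leechLattice) x : leechLattice) : GolayPt → ℤ) =
        sgnVec 4 {none, some 0} {some 0} := by
  have hn1 : sqNorm ((v + x : leechLattice) : GolayPt → ℤ) = 64 := by
    rw [AddSubgroup.coe_add, sqNorm_add, hv, hx, hd]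
    norm_num
  have hn2 : sqNorm ((v - x : leechLattice) : GolayPt → ℤ) = 64 := by
    rw [AddSubgroup.coe_sub, sqNorm_sub, hv, hx, hd]
    norm_num
  have hc : v - x ∈ crossSub (v + x) := by
    refine ⟨hn2.trans hn1.symm, x, ?_⟩
    rw [two_nsmul]
    abel
  have hdot : dotInt ((v + x : leechLattice) : GolayPt → ℤ)
      ((v - x : leechLattice) : GolayPt → ℤ) = 0 := by
    rw [AddSubgroup.coe_add, AddSubgroup.coe_sub, sub_eq_add_neg, dot_add_left, dot_add_right,
      dot_add_right, dot_neg_right, dot_neg_right, dot_self, dot_self, hv, hx,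
      dot_comm' (x : GolayPt → ℤ) (v : GolayPt → ℤ), hd]
    norm_num
  obtain ⟨g, e1, e2⟩ := std_pair (v + x) (v - x) hn1 hc hdot
  have a1 : (g : Equiv.Perm leechLattice) v + (g : Equiv.Perm leechLattice) x = leechE none := by
    rw [← g.2.1, e1]
  have a2 : (g : Equiv.Perm leechLattice) v - (g : Equiv.Perm leechLattice) x =
      leechE (some 0) := by
    rw [← co0_map_sub, e2]
  have key : ∀ i, (((g : Equiv.Perm leechLattice) v : leechLattice) : GolayPt → ℤ) i =
        sgnVec 4 {none, some 0} ∅ i ∧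
      (((g : Equiv.Perm leechLattice) x : leechLattice) : GolayPt → ℤ) i =
        sgnVec 4 {none, some 0} {some 0} i := by
    intro i
    have b1 := congrFun (congrArg Subtype.val a1) i
    have b2 := congrFun (congrArg Subtype.val a2) i
    rw [AddSubgroup.coe_add, Pi.add_apply, leechE_apply] at b1
    rw [AddSubgroup.coe_sub, Pi.sub_apply, leechE_apply] at b2
    exact half_vals i _ _ b1 b2
  exact ⟨g, funext fun i => (key i).1, funext fun i => (key i).2⟩

/-- a vector of shape `(±4, ±4, 0, …)` away from the two base points -/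
theorem ex_pair (w : GolayPt → ℤ) (c d : GolayPt) (hcd : c ≠ d)
    (hc1 : c ≠ none) (hc2 : c ≠ some 0) (hd1 : d ≠ none) (hd2 : d ≠ some 0)
    (hsum : |w c| + |w d| = 4) :
    ∃ x ∈ leechLattice, sqNorm x = 32 ∧ dotInt (sgnVec 4 {none, some 0} ∅) x = 0 ∧
      dotInt w x = -16 := by
  have hV : ({c, d} : Finset GolayPt).filter (fun i => 0 < w i) ⊆ {c, d} :=
    Finset.filter_subset _ _
  obtain ⟨hm, hn⟩ := sgn4_min c d hcd _ hV
  refine ⟨_, hm, hn, ?_, ?_⟩
  · rw [dot_sgnVec_pair _ 4 c d hcd _ hV]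
    have e1 : sgnVec 4 ({none, some 0} : Finset GolayPt) ∅ c = 0 := by
      unfold sgnVec
      simp [hc1, hc2]
    have e2 : sgnVec 4 ({none, some 0} : Finset GolayPt) ∅ d = 0 := by
      unfold sgnVec
      simp [hd1, hd2]
    rw [e1, e2]
    ring
  · rw [dot_sgnVec_pair _ 4 c d hcd _ hV]
    have k : ∀ i ∈ ({c, d} : Finset GolayPt),
        w i * sgnVec 4 {c, d} (({c, d} : Finset GolayPt).filter (fun i => 0 < w i)) i =
          -4 * |w i| := by
      intro i hi
      unfold sgnVec
      by_cases hpos : 0 < w i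
      · rw [if_pos (Finset.mem_filter.2 ⟨hi, hpos⟩), abs_of_pos hpos]
        ring
      · have hnot : i ∉ ({c, d} : Finset GolayPt).filter (fun i => 0 < w i) :=
          fun h => hpos (Finset.mem_filter.1 h).2
        rw [if_neg hnot, if_pos hi, abs_of_nonpos (not_lt.1 hpos)]
        ring
    rw [k c (by simp), k d (by simp)]
    linarith

/-- an explicit octad avoiding the two base points -/
def baseOct : GolayPt → ZMod 2 := qrWord 0 + qrWord 1 + qrWord 5

theorem baseOct_mem : baseOct ∈ golayCode :=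
  golayCode.add_mem (golayCode.add_mem (Submodule.subset_span (Or.inl ⟨0, rfl⟩))
    (Submodule.subset_span (Or.inl ⟨1, rfl⟩))) (Submodule.subset_span (Or.inl ⟨5, rfl⟩))

theorem baseOct_card : (support₂ baseOct).card = 8 := by decide +kernel

theorem baseOct_none : baseOct none = 0 := by decide +kernel

theorem baseOct_zero : baseOct (some 0) = 0 := by decide +kernel

theorem baseOct_nine : baseOct (some 9) ≠ 0 := by decide +kernel

/-- the difference of a vector and its image under the sign change on the octad -/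
theorem ex_oct (w : GolayPt → ℤ) (hw : w ∈ leechLattice)
    (h1 : ∀ i, i ≠ none → i ≠ some 0 → w i ^ 2 = 1) :
    ∃ x ∈ leechLattice, sqNorm x = 32 ∧ dotInt (sgnVec 4 {none, some 0} ∅) x = 0 ∧
      dotInt w x = -16 := by
  have hc : support₂ baseOct ∈ supports (golayCode : Set (GolayPt → ZMod 2)) :=
    ⟨baseOct, baseOct_mem, rfl⟩
  have hO : ∀ i ∈ support₂ baseOct, i ≠ none ∧ i ≠ some 0 := by
    intro i hi
    rw [mem_support₂] at hi
    constructor
    · intro h
      rw [h] at hi
      exact hi baseOct_none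
    · intro h
      rw [h] at hi
      exact hi baseOct_zero
  have key : (((co0Sign _ hc : Equiv.Perm leechLattice) ⟨w, hw⟩ - ⟨w, hw⟩ : leechLattice) :
      GolayPt → ℤ) = fun i => if i ∈ support₂ baseOct then -2 * w i else 0 := by
    funext i
    rw [AddSubgroup.coe_sub, Pi.sub_apply, co0Sign_apply]
    by_cases hi : i ∈ support₂ baseOct
    · rw [if_pos hi, if_pos hi]
      show -w i - w i = -2 * w i
      ring
    · rw [if_neg hi, if_neg hi]
      show w i - w i = 0
      ring
  have hcard : ∑ i : GolayPt, (if i ∈ support₂ baseOct then (1 : ℤ) else 0) = 8 := by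
    rw [sum_ind_mem, baseOct_card]
    norm_num
  refine ⟨_, ((co0Sign _ hc : Equiv.Perm leechLattice) ⟨w, hw⟩ - ⟨w, hw⟩ : leechLattice).2,
    ?_, ?_, ?_⟩
  · rw [key]
    unfold sqNorm
    have e : ∀ i : GolayPt, (if i ∈ support₂ baseOct then -2 * w i else 0) ^ 2 =
        4 * (if i ∈ support₂ baseOct then (1 : ℤ) else 0) := by
      intro i
      by_cases hi : i ∈ support₂ baseOct
      · rw [if_pos hi, if_pos hi]
        have := h1 i (hO i hi).1 (hO i hi).2
        nlinarith
      · rw [if_neg hi, if_neg hi]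
        norm_num
    rw [Finset.sum_congr rfl (fun i _ => e i), ← Finset.mul_sum, hcard]
    norm_num
  · rw [key]
    unfold dotInt
    apply Finset.sum_eq_zero
    intro i _
    show sgnVec 4 ({none, some 0} : Finset GolayPt) ∅ i *
      (if i ∈ support₂ baseOct then -2 * w i else 0) = 0
    by_cases hi : i ∈ support₂ baseOct
    · have e : sgnVec 4 ({none, some 0} : Finset GolayPt) ∅ i = 0 := by
        unfold sgnVec
        simp [(hO i hi).1, (hO i hi).2]
      rw [e, zero_mul]
    · rw [if_neg hi, mul_zero]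
  · rw [key]
    unfold dotInt
    have e : ∀ i : GolayPt, w i * (if i ∈ support₂ baseOct then -2 * w i else 0) =
        -2 * (if i ∈ support₂ baseOct then (1 : ℤ) else 0) := by
      intro i
      by_cases hi : i ∈ support₂ baseOct
      · rw [if_pos hi, if_pos hi]
        have := h1 i (hO i hi).1 (hO i hi).2
        nlinarith
      · rw [if_neg hi, if_neg hi]
        norm_num
    rw [Finset.sum_congr rfl (fun i _ => e i), ← Finset.mul_sum, hcard]
    norm_num

/-- for the base vector and a minimal vector of inner product `-8` or `-16` with it, there is a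
minimal vector orthogonal to the first and of inner product `-16` with the second -/
theorem ex_x_std (w : GolayPt → ℤ) (hw : w ∈ leechLattice) (hn : sqNorm w = 32)
    (hd : dotInt (sgnVec 4 {none, some 0} ∅) w = -8 ∨
      dotInt (sgnVec 4 {none, some 0} ∅) w = -16) :
    ∃ x ∈ leechLattice, sqNorm x = 32 ∧ dotInt (sgnVec 4 {none, some 0} ∅) x = 0 ∧
      dotInt w x = -16 := by
  rw [base_dot] at hd
  by_cases hdiff : w none - w (some 0) = -4
  · obtain ⟨hm, hnx⟩ := sgn4_min none (some 0) (by decide) {some 0} (by simp)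
    have v1 : sgnVec 4 ({none, some 0} : Finset GolayPt) {some 0} none = 4 := by decide
    have v2 : sgnVec 4 ({none, some 0} : Finset GolayPt) {some 0} (some 0) = -4 := by decide
    refine ⟨_, hm, hnx, ?_, ?_⟩
    · rw [base_dot, v1, v2]
      norm_num
    · rw [dot_sgnVec_pair w 4 none (some 0) (by decide) {some 0} (by simp), v1, v2]
      linarith
  by_cases hdiff' : w none - w (some 0) = 4
  · obtain ⟨hm, hnx⟩ := sgn4_min none (some 0) (by decide) {none} (by simp)
    have v1 : sgnVec 4 ({none, some 0} : Finset GolayPt) {none} none = -4 := by decide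
    have v2 : sgnVec 4 ({none, some 0} : Finset GolayPt) {none} (some 0) = 4 := by decide
    refine ⟨_, hm, hnx, ?_, ?_⟩
    · rw [base_dot, v1, v2]
      norm_num
    · rw [dot_sgnVec_pair w 4 none (some 0) (by decide) {none} (by simp), v1, v2]
      linarith
  rcases classify golayCode golayLike one_mem_golay (mem_leechSetOf.1 hw) hn with
    ⟨U, V, hVU, hU, rfl⟩ | ⟨c, hc, hc8, V, hV, hVe, rfl⟩ | ⟨p, c, hc, rfl⟩
  · exfalso
    rcases sgnVec_vals 4 U V none with h1 | h1 | h1 <;>
      rcases sgnVec_vals 4 U V (some 0) with h2 | h2 | h2 <;>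
      rw [h1, h2] at hd hdiff hdiff' <;> omega
  · have hcard : 3 ≤ (support₂ c \ {none, some 0}).card := by
      have h1 := Finset.le_card_sdiff ({none, some 0} : Finset GolayPt) (support₂ c)
      have h2 : ({none, some 0} : Finset GolayPt).card = 2 := by decide
      rw [← hammingNorm_eq_card, hc8, h2] at h1
      omega
    obtain ⟨p1, hp1, p2, hp2, p3, hp3, h12, h13, h23⟩ := exists_three _ hcard
    rw [Finset.mem_sdiff] at hp1 hp2
    have hval : ∀ i ∈ support₂ c, |sgnVec 2 (support₂ c) V i| = 2 := by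
      intro i hi
      unfold sgnVec
      by_cases hiV : i ∈ V
      · rw [if_pos hiV]
        norm_num
      · rw [if_neg hiV, if_pos hi]
        norm_num
    have hne : ∀ i : GolayPt, i ∉ ({none, some 0} : Finset GolayPt) → i ≠ none ∧ i ≠ some 0 := by
      intro i hi
      constructor
      · intro h
        exact hi (by rw [h]; simp)
      · intro h
        exact hi (by rw [h]; simp)
    refine ex_pair _ p1 p2 h12 (hne p1 hp1.2).1 (hne p1 hp1.2).2 (hne p2 hp2.2).1
      (hne p2 hp2.2).2 ?_
    rw [hval p1 hp1.1, hval p2 hp2.1]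
    norm_num
  · by_cases hp : p = none ∨ p = some 0
    · apply ex_oct _ hw
      intro i hi1 hi2
      have hip : i ≠ p := by
        rcases hp with h | h
        · rw [h]
          exact hi1
        · rw [h]
          exact hi2
      unfold oddMin
      rw [if_neg hip]
      split_ifs <;> norm_num
    · push Not at hp
      obtain ⟨d, hd1, hd2, hd3⟩ : ∃ d : GolayPt, d ≠ none ∧ d ≠ some 0 ∧ d ≠ p := by
        by_cases h : p = some 1
        · exact ⟨some 2, by decide, by decide, by rw [h]; decide⟩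
        · exact ⟨some 1, by decide, by decide, fun h' => h h'.symm⟩
      refine ex_pair _ p d (Ne.symm hd3) hp.1 hp.2 hd1 hd2 ?_
      unfold oddMin
      rw [if_pos rfl, if_neg hd3]
      split_ifs <;> norm_num

/-- for minimal vectors `v, w` of inner product `-8` or `-16`, there is a minimal vector
orthogonal to `v` and of inner product `-16` with `w` -/
theorem ex_x (v w : leechLattice) (hv : sqNorm (v : GolayPt → ℤ) = 32)
    (hw : sqNorm (w : GolayPt → ℤ) = 32)
    (hd : dotInt (v : GolayPt → ℤ) (w : GolayPt → ℤ) = -8 ∨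
      dotInt (v : GolayPt → ℤ) (w : GolayPt → ℤ) = -16) :
    ∃ x : leechLattice, sqNorm (x : GolayPt → ℤ) = 32 ∧
      dotInt (v : GolayPt → ℤ) (x : GolayPt → ℤ) = 0 ∧
      dotInt (w : GolayPt → ℤ) (x : GolayPt → ℤ) = -16 := by
  have hb := sgn4_min none (some 0) (by decide) ∅ (Finset.empty_subset _)
  obtain ⟨hvm, g, e⟩ := min_trans (v : GolayPt → ℤ) (sgnVec 4 {none, some 0} ∅) v.2 hv hb.1 hb.2
  have e' : (((g : Equiv.Perm leechLattice) v : leechLattice) : GolayPt → ℤ) =
      sgnVec 4 {none, some 0} ∅ := e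
  have hdw : dotInt (sgnVec 4 {none, some 0} ∅)
      (((g : Equiv.Perm leechLattice) w : leechLattice) : GolayPt → ℤ) =
        dotInt (v : GolayPt → ℤ) (w : GolayPt → ℤ) := by
    rw [← e']
    exact co0_dot (g : Equiv.Perm leechLattice) g.2 v w
  obtain ⟨x, hx, hxn, hx1, hx2⟩ := ex_x_std _ ((g : Equiv.Perm leechLattice) w).2
    ((g.2.2 w).trans hw) (by rw [hdw]; exact hd)
  have e2 : (g : Equiv.Perm leechLattice) (((g⁻¹ : Co0) : Equiv.Perm leechLattice) ⟨x, hx⟩) =
      ⟨x, hx⟩ := Equiv.apply_symm_apply (g : Equiv.Perm leechLattice) ⟨x, hx⟩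
  refine ⟨((g⁻¹ : Co0) : Equiv.Perm leechLattice) ⟨x, hx⟩, ?_, ?_, ?_⟩
  · exact ((g⁻¹ : Co0).2.2 ⟨x, hx⟩).trans hxn
  · have h := co0_dot (g : Equiv.Perm leechLattice) g.2 v
      (((g⁻¹ : Co0) : Equiv.Perm leechLattice) ⟨x, hx⟩)
    rw [e2, e'] at h
    rw [← h]
    exact hx1
  · have h := co0_dot (g : Equiv.Perm leechLattice) g.2 w
      (((g⁻¹ : Co0) : Equiv.Perm leechLattice) ⟨x, hx⟩)
    rw [e2] at h
    rw [← h]
    exact hx2

/-- composing two normalisations with an automorphism of the normal form -/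
theorem comp_move (g₁ g₂ n : Co0) (v w w' : leechLattice)
    (h1 : (g₁ : Equiv.Perm leechLattice) v = (g₂ : Equiv.Perm leechLattice) v)
    (h3 : (n : Equiv.Perm leechLattice) ((g₁ : Equiv.Perm leechLattice) v) =
      (g₁ : Equiv.Perm leechLattice) v)
    (h6 : (n : Equiv.Perm leechLattice) ((g₁ : Equiv.Perm leechLattice) w) =
      (g₂ : Equiv.Perm leechLattice) w') :
    ∃ g : Co0, g • v = v ∧ g • w = w' := by
  refine ⟨g₂⁻¹ * n * g₁, ?_, ?_⟩
  · show ((g₂⁻¹ : Co0) : Equiv.Perm leechLattice) ((n : Equiv.Perm leechLattice)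
      ((g₁ : Equiv.Perm leechLattice) v)) = v
    rw [h3, h1]
    exact Equiv.symm_apply_apply (g₂ : Equiv.Perm leechLattice) v
  · show ((g₂⁻¹ : Co0) : Equiv.Perm leechLattice) ((n : Equiv.Perm leechLattice)
      ((g₁ : Equiv.Perm leechLattice) w)) = w'
    rw [h6]
    exact Equiv.symm_apply_apply (g₂ : Equiv.Perm leechLattice) w'

/-- the stabiliser of a minimal vector is transitive on the minimal vectors orthogonal to it -/
theorem stab_trans_orth (v w w' : leechLattice) (hv : sqNorm (v : GolayPt → ℤ) = 32)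
    (hw : sqNorm (w : GolayPt → ℤ) = 32) (hw' : sqNorm (w' : GolayPt → ℤ) = 32)
    (hd : dotInt (v : GolayPt → ℤ) (w : GolayPt → ℤ) = 0)
    (hd' : dotInt (v : GolayPt → ℤ) (w' : GolayPt → ℤ) = 0) :
    ∃ g : Co0, g • v = v ∧ g • w = w' := by
  obtain ⟨g₁, a1, a2⟩ := std_orth v w hv hw hd
  obtain ⟨g₂, b1, b2⟩ := std_orth v w' hv hw' hd'
  exact comp_move g₁ g₂ 1 v w w' (Subtype.ext (a1.trans b1.symm)) rfl
    (Subtype.ext (a2.trans b2.symm))

/-- coordinates at the two base points after normalisation -/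
theorem std_coords (v x w : leechLattice) (g : Co0)
    (a1 : (((g : Equiv.Perm leechLattice) v : leechLattice) : GolayPt → ℤ) =
      sgnVec 4 {none, some 0} ∅)
    (a2 : (((g : Equiv.Perm leechLattice) x : leechLattice) : GolayPt → ℤ) =
      sgnVec 4 {none, some 0} {some 0}) :
    4 * (((g : Equiv.Perm leechLattice) w : leechLattice) : GolayPt → ℤ) none +
        4 * (((g : Equiv.Perm leechLattice) w : leechLattice) : GolayPt → ℤ) (some 0) =
      dotInt (v : GolayPt → ℤ) (w : GolayPt → ℤ) ∧
    4 * (((g : Equiv.Perm leechLattice) w : leechLattice) : GolayPt → ℤ) none -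
        4 * (((g : Equiv.Perm leechLattice) w : leechLattice) : GolayPt → ℤ) (some 0) =
      dotInt (w : GolayPt → ℤ) (x : GolayPt → ℤ) := by
  constructor
  · have h := co0_dot (g : Equiv.Perm leechLattice) g.2 v w
    rw [a1, base_dot] at h
    exact h
  · have h := co0_dot (g : Equiv.Perm leechLattice) g.2 w x
    have v1 : sgnVec 4 ({none, some 0} : Finset GolayPt) {some 0} none = 4 := by decide
    have v2 : sgnVec 4 ({none, some 0} : Finset GolayPt) {some 0} (some 0) = -4 := by decide
    rw [a2, dot_sgnVec_pair _ 4 none (some 0) (by decide) {some 0} (by simp), v1, v2] at h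
    linarith

/-- automorphisms fixing every lattice vector supported on the two base points -/
def FixBase (n : Co0) : Prop :=
  ∀ u : leechLattice, (∀ i, i ≠ none → i ≠ some 0 → (u : GolayPt → ℤ) i = 0) →
    (n : Equiv.Perm leechLattice) u = u

theorem fixBase_mul {n m : Co0} (hn : FixBase n) (hm : FixBase m) : FixBase (n * m) := by
  intro u hu
  show (n : Equiv.Perm leechLattice) ((m : Equiv.Perm leechLattice) u) = u
  rw [hm u hu, hn u hu]

theorem fixBase_perm (σ : Equiv.Perm GolayPt) (hσ : σ ∈ M24) (h1 : σ none = none)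
    (h2 : σ (some 0) = some 0) : FixBase (co0Perm σ hσ) := by
  intro u hu
  apply Subtype.ext
  funext i
  rw [co0Perm_apply]
  by_cases hi1 : i = none
  · rw [hi1, h1]
  · by_cases hi2 : i = some 0
    · rw [hi2, h2]
    · rw [hu i hi1 hi2]
      apply hu
      · intro h
        exact hi1 (σ.injective (h.trans h1.symm))
      · intro h
        exact hi2 (σ.injective (h.trans h2.symm))

theorem fixBase_sign (S : Finset GolayPt)
    (hS : S ∈ supports (golayCode : Set (GolayPt → ZMod 2))) (h1 : none ∉ S)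
    (h2 : some 0 ∉ S) : FixBase (co0Sign S hS) := by
  intro u hu
  apply Subtype.ext
  funext i
  rw [co0Sign_apply]
  by_cases hi : i ∈ S
  · rw [if_pos hi]
    have h0 : (u : GolayPt → ℤ) i = 0 := by
      apply hu
      · intro h
        rw [h] at hi
        exact h1 hi
      · intro h
        rw [h] at hi
        exact h2 hi
    rw [h0]
    norm_num
  · rw [if_neg hi]

theorem fixBase_std {n : Co0} (hn : FixBase n) (y : leechLattice)
    (hy : (y : GolayPt → ℤ) = sgnVec 4 {none, some 0} ∅) :
    (n : Equiv.Perm leechLattice) y = y := by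
  apply hn
  intro i hi1 hi2
  rw [hy]
  unfold sgnVec
  simp [hi1, hi2]

/-- a minimal vector with coordinate `-3` at the first base point -/
theorem odd_std (y : GolayPt → ℤ) (hy : y ∈ leechLattice) (hn : sqNorm y = 32)
    (h1 : y none = -3) : ∃ c ∈ golayCode, c none = 0 ∧ y = oddMin none c := by
  rcases classify golayCode golayLike one_mem_golay (mem_leechSetOf.1 hy) hn with
    ⟨U, V, hVU, hU, rfl⟩ | ⟨c, hc, hc8, V, hV, hVe, rfl⟩ | ⟨p, c, hc, rfl⟩
  · exfalso
    rcases sgnVec_vals 4 U V none with h | h | h <;> rw [h] at h1 <;> norm_num at h1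
  · exfalso
    rcases sgnVec_vals 2 (support₂ c) V none with h | h | h <;> rw [h] at h1 <;>
      norm_num at h1
  · have hp : p = none := by
      by_contra hp
      unfold oddMin at h1
      rw [if_neg (fun h => hp h.symm)] at h1
      split_ifs at h1 <;> norm_num at h1
    subst hp
    refine ⟨c, hc, ?_, rfl⟩
    unfold oddMin at h1
    rw [if_pos rfl] at h1
    by_contra hc0
    rw [if_neg hc0] at h1
    norm_num at h1

/-- two minimal vectors with coordinates `-3, 1` at the base points differ by a sign change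
that fixes the base points -/
theorem odd_move (y y' : leechLattice) (hn : sqNorm (y : GolayPt → ℤ) = 32)
    (hn' : sqNorm (y' : GolayPt → ℤ) = 32)
    (h1 : (y : GolayPt → ℤ) none = -3) (h2 : (y : GolayPt → ℤ) (some 0) = 1)
    (h1' : (y' : GolayPt → ℤ) none = -3) (h2' : (y' : GolayPt → ℤ) (some 0) = 1) :
    ∃ n : Co0, FixBase n ∧ (n : Equiv.Perm leechLattice) y = y' := by
  obtain ⟨c₁, hc₁, hz₁, e₁⟩ := odd_std _ y.2 hn h1
  obtain ⟨c₂, hc₂, hz₂, e₂⟩ := odd_std _ y'.2 hn' h1'
  have hb : ∀ (c : GolayPt → ZMod 2), oddMin none c (some 0) = 1 → c (some 0) = 0 := by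
    intro c h
    unfold oddMin at h
    rw [if_neg (by decide)] at h
    by_contra hc
    rw [if_neg hc] at h
    norm_num at h
  have hb₁ : c₁ (some 0) = 0 := hb c₁ (by rw [← e₁]; exact h2)
  have hb₂ : c₂ (some 0) = 0 := hb c₂ (by rw [← e₂]; exact h2')
  have hS : support₂ (c₁ + c₂) ∈ supports (golayCode : Set (GolayPt → ZMod 2)) :=
    ⟨c₁ + c₂, golayCode.add_mem hc₁ hc₂, rfl⟩
  refine ⟨co0Sign _ hS, fixBase_sign _ hS ?_ ?_, ?_⟩
  · rw [mem_support₂, Pi.add_apply, hz₁, hz₂]
    simp
  · rw [mem_support₂, Pi.add_apply, hb₁, hb₂]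
    simp
  · apply Subtype.ext
    funext i
    rw [co0Sign_apply, e₁, e₂]
    have hmem : i ∈ support₂ (c₁ + c₂) ↔ c₁ i + c₂ i ≠ 0 := by
      rw [mem_support₂, Pi.add_apply]
    by_cases hi : i = none
    · have hnot : i ∉ support₂ (c₁ + c₂) := by
        rw [hmem, hi, hz₁, hz₂]
        simp
      rw [if_neg hnot]
      unfold oddMin
      rw [if_pos hi, if_pos hi, hz₁, hz₂]
    · unfold oddMin
      rw [if_neg hi, if_neg hi]
      by_cases k1 : c₁ i = 0 <;> by_cases k2 : c₂ i = 0
      · have hnot : i ∉ support₂ (c₁ + c₂) := by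
          rw [hmem, k1, k2]
          simp
        rw [if_neg hnot, if_pos k1, if_pos k2]
      · have hin : i ∈ support₂ (c₁ + c₂) := by
          rw [hmem, k1, zero_add]
          exact k2
        rw [if_pos hin, if_pos k1, if_neg k2]
      · have hin : i ∈ support₂ (c₁ + c₂) := by
          rw [hmem, k2, add_zero]
          exact k1
        rw [if_pos hin, if_neg k1, if_pos k2]
        norm_num
      · have hnot : i ∉ support₂ (c₁ + c₂) := by
          rw [hmem, zmod2_eq_one_of_ne _ k1, zmod2_eq_one_of_ne _ k2]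
          decide
        rw [if_neg hnot, if_neg k1, if_neg k2]

/-- the stabiliser of a minimal vector is transitive on the minimal vectors of inner product
`-8` with it -/
theorem stab_trans_one (v w w' : leechLattice) (hv : sqNorm (v : GolayPt → ℤ) = 32)
    (hw : sqNorm (w : GolayPt → ℤ) = 32) (hw' : sqNorm (w' : GolayPt → ℤ) = 32)
    (hd : dotInt (v : GolayPt → ℤ) (w : GolayPt → ℤ) = -8)
    (hd' : dotInt (v : GolayPt → ℤ) (w' : GolayPt → ℤ) = -8) :
    ∃ g : Co0, g • v = v ∧ g • w = w' := by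
  obtain ⟨x, hx, hx1, hx2⟩ := ex_x v w hv hw (Or.inl hd)
  obtain ⟨g₁, a1, a2⟩ := std_orth v x hv hx hx1
  obtain ⟨x', hx', hx1', hx2'⟩ := ex_x v w' hv hw' (Or.inl hd')
  obtain ⟨g₂, b1, b2⟩ := std_orth v x' hv hx' hx1'
  obtain ⟨c1, c2⟩ := std_coords v x w g₁ a1 a2
  obtain ⟨d1, d2⟩ := std_coords v x' w' g₂ b1 b2
  rw [hd] at c1
  rw [hx2] at c2
  rw [hd'] at d1
  rw [hx2'] at d2
  obtain ⟨n, hn1, hn2⟩ := odd_move ((g₁ : Equiv.Perm leechLattice) w)
    ((g₂ : Equiv.Perm leechLattice) w') ((g₁.2.2 w).trans hw) ((g₂.2.2 w').trans hw')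
    (by omega) (by omega) (by omega) (by omega)
  exact comp_move g₁ g₂ n v w w' (Subtype.ext (a1.trans b1.symm)) (fixBase_std hn1 _ a1) hn2

/-- three-fold transitivity with the two base points fixed -/
theorem m24_fix2 (c c' : GolayPt) (hc1 : c ≠ none) (hc2 : c ≠ some 0) (hc1' : c' ≠ none)
    (hc2' : c' ≠ some 0) :
    ∃ σ ∈ M24, σ none = none ∧ σ (some 0) = some 0 ∧ σ c' = c := by
  have key : ∀ d : GolayPt, d ≠ none → d ≠ some 0 →
      ∃ g ∈ M24, g (Cfsg.Agent.Helper3.gPt 0) = none ∧
        g (Cfsg.Agent.Helper3.gPt 1) = some 0 ∧ g (Cfsg.Agent.Helper3.gPt 2) = d := by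
    intro d hd1 hd2
    obtain ⟨g, hg, h⟩ := Cfsg.Agent.Helper3.M24_trans 3 (by norm_num)
      (fun i => if i = 0 then none else if i = 1 then some 0 else d) (by
        intro i hi j hj hij
        interval_cases i <;> interval_cases j <;> simp_all)
    exact ⟨g, hg, by simpa using h 0 (by norm_num), by simpa using h 1 (by norm_num),
      by simpa using h 2 (by norm_num)⟩
  obtain ⟨g, hg, h1, h2, h3⟩ := key c hc1 hc2
  obtain ⟨g', hg', h1', h2', h3'⟩ := key c' hc1' hc2'
  have i1 : g'⁻¹ none = Cfsg.Agent.Helper3.gPt 0 := by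
    rw [← h1', Cfsg.Agent.Helper3.perm_inv_apply]
  have i2 : g'⁻¹ (some 0) = Cfsg.Agent.Helper3.gPt 1 := by
    rw [← h2', Cfsg.Agent.Helper3.perm_inv_apply]
  have i3 : g'⁻¹ c' = Cfsg.Agent.Helper3.gPt 2 := by
    rw [← h3', Cfsg.Agent.Helper3.perm_inv_apply]
  refine ⟨g * g'⁻¹, M24.mul_mem hg (M24.inv_mem hg'), ?_, ?_, ?_⟩
  · rw [Equiv.Perm.mul_apply, i1, h1]
  · rw [Equiv.Perm.mul_apply, i2, h2]
  · rw [Equiv.Perm.mul_apply, i3, h3]

/-- a code word through a given point avoiding the two base points -/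
theorem code_sep3 (c : GolayPt) (hc1 : c ≠ none) (hc2 : c ≠ some 0) :
    ∃ S ∈ supports (golayCode : Set (GolayPt → ZMod 2)), c ∈ S ∧ none ∉ S ∧ some 0 ∉ S := by
  obtain ⟨τ, hτ, h1, h2, h3⟩ := m24_fix2 c (some 9) hc1 hc2 (by decide) (by decide)
  have i1 : τ⁻¹ none = none := by
    conv_lhs => rw [← h1]
    exact Cfsg.Agent.Helper3.perm_inv_apply τ none
  have i2 : τ⁻¹ (some 0) = some 0 := by
    conv_lhs => rw [← h2]
    exact Cfsg.Agent.Helper3.perm_inv_apply τ (some 0)
  have i3 : τ⁻¹ c = some 9 := by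
    rw [← h3, Cfsg.Agent.Helper3.perm_inv_apply]
  refine ⟨support₂ (fun p => baseOct (τ⁻¹ p)),
    ⟨_, (Cfsg.Agent.Helper3.mem_M24_iff τ).1 hτ _ baseOct_mem, rfl⟩, ?_, ?_, ?_⟩
  · rw [mem_support₂]
    show baseOct (τ⁻¹ c) ≠ 0
    rw [i3]
    exact baseOct_nine
  · rw [mem_support₂]
    show ¬ baseOct (τ⁻¹ none) ≠ 0
    rw [i1, baseOct_none]
    simp
  · rw [mem_support₂]
    show ¬ baseOct (τ⁻¹ (some 0)) ≠ 0
    rw [i2, baseOct_zero]
    simp

/-- a minimal vector with coordinates `-4, 0` at the base points -/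
theorem four_std (y : GolayPt → ℤ) (hy : y ∈ leechLattice) (hn : sqNorm y = 32)
    (h1 : y none = -4) (h2 : y (some 0) = 0) :
    ∃ c : GolayPt, ∃ s : ℤ, c ≠ none ∧ c ≠ some 0 ∧ (s = 4 ∨ s = -4) ∧
      y = fun i => if i = none then -4 else if i = c then s else 0 := by
  rcases classify golayCode golayLike one_mem_golay (mem_leechSetOf.1 hy) hn with
    ⟨U, V, hVU, hU, rfl⟩ | ⟨c, hc, hc8, V, hV, hVe, rfl⟩ | ⟨p, c, hc, rfl⟩
  · have hnV : none ∈ V := by
      by_contra hnV
      unfold sgnVec at h1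
      rw [if_neg hnV] at h1
      split_ifs at h1 <;> norm_num at h1
    have hnU : none ∈ U := hVU hnV
    obtain ⟨c, hc⟩ := Finset.card_eq_one.1
      (show (U.erase none).card = 1 by rw [Finset.card_erase_of_mem hnU, hU])
    have hcU : c ∈ U.erase none := by
      rw [hc]
      simp
    have hcn : c ≠ none := (Finset.mem_erase.1 hcU).1
    have hcU' : c ∈ U := (Finset.mem_erase.1 hcU).2
    have hU' : ∀ i, i ∈ U ↔ i = none ∨ i = c := by
      intro i
      constructor
      · intro hi
        by_cases hin : i = none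
        · exact Or.inl hin
        · have : i ∈ U.erase none := Finset.mem_erase.2 ⟨hin, hi⟩
          rw [hc] at this
          exact Or.inr (Finset.mem_singleton.1 this)
      · rintro (h | h)
        · rw [h]
          exact hnU
        · rw [h]
          exact hcU'
    have hc0 : c ≠ some 0 := by
      intro h
      rw [h] at hcU'
      unfold sgnVec at h2
      rw [if_pos hcU'] at h2
      split_ifs at h2 <;> norm_num at h2
    refine ⟨c, sgnVec 4 U V c, hcn, hc0, ?_, ?_⟩
    · unfold sgnVec
      by_cases hcV : c ∈ V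
      · rw [if_pos hcV]
        exact Or.inr rfl
      · rw [if_neg hcV, if_pos hcU']
        exact Or.inl rfl
    · funext i
      by_cases hi1 : i = none
      · rw [if_pos hi1, hi1]
        exact h1
      · rw [if_neg hi1]
        by_cases hi2 : i = c
        · rw [if_pos hi2, hi2]
        · rw [if_neg hi2]
          have hiU : i ∉ U := fun h => by
            rcases (hU' i).1 h with h' | h'
            · exact hi1 h'
            · exact hi2 h'
          unfold sgnVec
          rw [if_neg (fun h => hiU (hVU h)), if_neg hiU]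
  · exfalso
    rcases sgnVec_vals 2 (support₂ c) V none with h | h | h <;> rw [h] at h1 <;>
      norm_num at h1
  · exfalso
    have h := oddMin_odd p c none
    rw [h1] at h
    norm_num at h

/-- two minimal vectors `(-4, 0, …, ±4, …)` differ by a monomial automorphism fixing the base
points -/
theorem four_move (c c' : GolayPt) (s s' : ℤ) (hc1 : c ≠ none) (hc2 : c ≠ some 0)
    (hc1' : c' ≠ none) (hc2' : c' ≠ some 0) (hs : s = 4 ∨ s = -4) (hs' : s' = 4 ∨ s' = -4)
    (y y' : leechLattice)
    (hy : (y : GolayPt → ℤ) = fun i => if i = none then -4 else if i = c then s else 0)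
    (hy' : (y' : GolayPt → ℤ) = fun i => if i = none then -4 else if i = c' then s' else 0) :
    ∃ n : Co0, FixBase n ∧ (n : Equiv.Perm leechLattice) y = y' := by
  obtain ⟨σ, hσ, e1, e2, e3⟩ := m24_fix2 c c' hc1 hc2 hc1' hc2'
  have hfix : ∀ i : GolayPt, σ i = none ↔ i = none := by
    intro i
    constructor
    · intro h
      exact σ.injective (h.trans e1.symm)
    · intro h
      rw [h, e1]
  have hcc : ∀ i : GolayPt, σ i = c ↔ i = c' := by
    intro i
    constructor
    · intro h
      exact σ.injective (h.trans e3.symm)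
    · intro h
      rw [h, e3]
  have k1 : ∀ i, (((co0Perm σ hσ : Equiv.Perm leechLattice) y : leechLattice) : GolayPt → ℤ) i =
      if i = none then -4 else if i = c' then s else 0 := by
    intro i
    rw [co0Perm_apply, hy]
    show (if σ i = none then (-4 : ℤ) else if σ i = c then s else 0) = _
    by_cases hi1 : i = none
    · rw [if_pos hi1, if_pos ((hfix i).2 hi1)]
    · rw [if_neg hi1, if_neg (fun h => hi1 ((hfix i).1 h))]
      by_cases hi2 : i = c'
      · rw [if_pos hi2, if_pos ((hcc i).2 hi2)]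
      · rw [if_neg hi2, if_neg (fun h => hi2 ((hcc i).1 h))]
  by_cases hss : s' = s
  · refine ⟨co0Perm σ hσ, fixBase_perm σ hσ e1 e2, ?_⟩
    apply Subtype.ext
    funext i
    rw [k1 i, hy', hss]
  · have hneg : s' = -s := by
      rcases hs with h | h <;> rcases hs' with h' | h' <;> rw [h, h'] at hss ⊢ <;>
        first | rfl | exact absurd rfl hss | norm_num
    obtain ⟨S, hS, hcS, hnS, h0S⟩ := code_sep3 c' hc1' hc2'
    refine ⟨co0Sign S hS * co0Perm σ hσ,
      fixBase_mul (fixBase_sign S hS hnS h0S) (fixBase_perm σ hσ e1 e2), ?_⟩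
    show (co0Sign S hS : Equiv.Perm leechLattice)
      ((co0Perm σ hσ : Equiv.Perm leechLattice) y) = y'
    apply Subtype.ext
    funext i
    rw [co0Sign_apply, k1 i, hy', hneg]
    show (if i ∈ S then -(if i = none then (-4 : ℤ) else if i = c' then s else 0)
      else (if i = none then (-4 : ℤ) else if i = c' then s else 0)) =
      if i = none then (-4 : ℤ) else if i = c' then -s else 0
    by_cases hi1 : i = none
    · rw [hi1, if_neg hnS, if_pos rfl, if_pos rfl]
    · rw [if_neg hi1, if_neg hi1]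
      by_cases hi2 : i = c'
      · rw [hi2, if_pos hcS, if_pos rfl, if_pos rfl]
      · rw [if_neg hi2, if_neg hi2]
        simp

/-- the stabiliser of a minimal vector is transitive on the minimal vectors of inner product
`-16` with it -/
theorem stab_trans_two (v w w' : leechLattice) (hv : sqNorm (v : GolayPt → ℤ) = 32)
    (hw : sqNorm (w : GolayPt → ℤ) = 32) (hw' : sqNorm (w' : GolayPt → ℤ) = 32)
    (hd : dotInt (v : GolayPt → ℤ) (w : GolayPt → ℤ) = -16)
    (hd' : dotInt (v : GolayPt → ℤ) (w' : GolayPt → ℤ) = -16) :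
    ∃ g : Co0, g • v = v ∧ g • w = w' := by
  obtain ⟨x, hx, hx1, hx2⟩ := ex_x v w hv hw (Or.inr hd)
  obtain ⟨g₁, a1, a2⟩ := std_orth v x hv hx hx1
  obtain ⟨x', hx', hx1', hx2'⟩ := ex_x v w' hv hw' (Or.inr hd')
  obtain ⟨g₂, b1, b2⟩ := std_orth v x' hv hx' hx1'
  obtain ⟨c1, c2⟩ := std_coords v x w g₁ a1 a2
  obtain ⟨d1, d2⟩ := std_coords v x' w' g₂ b1 b2
  rw [hd] at c1
  rw [hx2] at c2
  rw [hd'] at d1
  rw [hx2'] at d2
  obtain ⟨c, s, hc1, hc2, hs, hy⟩ := four_std _ ((g₁ : Equiv.Perm leechLattice) w).2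
    ((g₁.2.2 w).trans hw) (by omega) (by omega)
  obtain ⟨c', s', hc1', hc2', hs', hy'⟩ := four_std _ ((g₂ : Equiv.Perm leechLattice) w').2
    ((g₂.2.2 w').trans hw') (by omega) (by omega)
  obtain ⟨n, hn1, hn2⟩ := four_move c c' s s' hc1 hc2 hc1' hc2' hs hs' _ _ hy hy'
  exact comp_move g₁ g₂ n v w w' (Subtype.ext (a1.trans b1.symm)) (fixBase_std hn1 _ a1) hn2

/-- the stabiliser of a vector of sum of squares 48 is transitive on its decompositions into
two minimal vectors -/
theorem co3_trans552 (u v v' : leechLattice) (hu : sqNorm (u : GolayPt → ℤ) = 48)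
    (hv : sqNorm (v : GolayPt → ℤ) = 32 ∧
      sqNorm ((u : GolayPt → ℤ) - (v : GolayPt → ℤ)) = 32)
    (hv' : sqNorm (v' : GolayPt → ℤ) = 32 ∧
      sqNorm ((u : GolayPt → ℤ) - (v' : GolayPt → ℤ)) = 32) :
    ∃ g : Co0, g • u = u ∧ g • v = v' := by
  have k : ∀ t : leechLattice, sqNorm (t : GolayPt → ℤ) = 32 →
      sqNorm ((u : GolayPt → ℤ) - (t : GolayPt → ℤ)) = 32 →
      dotInt (t : GolayPt → ℤ) ((u - t : leechLattice) : GolayPt → ℤ) = -8 := by
    intro t h1 h2
    have h := sqNorm_add (t : GolayPt → ℤ) ((u : GolayPt → ℤ) - (t : GolayPt → ℤ))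
    have e : (t : GolayPt → ℤ) + ((u : GolayPt → ℤ) - (t : GolayPt → ℤ)) = (u : GolayPt → ℤ) := by
      abel
    rw [e, hu, h1, h2] at h
    rw [AddSubgroup.coe_sub]
    linarith
  obtain ⟨hvm, g₀, e0⟩ := min_trans (v : GolayPt → ℤ) (v' : GolayPt → ℤ) v.2 hv.1 v'.2 hv'.1
  have e0' : (g₀ : Equiv.Perm leechLattice) v = v' := Subtype.ext e0
  have h1 : dotInt (v' : GolayPt → ℤ)
      (((g₀ : Equiv.Perm leechLattice) (u - v) : leechLattice) : GolayPt → ℤ) = -8 := by
    rw [← e0']
    exact (co0_dot (g₀ : Equiv.Perm leechLattice) g₀.2 v (u - v)).trans (k v hv.1 hv.2)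
  have n1 : sqNorm (((g₀ : Equiv.Perm leechLattice) (u - v) : leechLattice) : GolayPt → ℤ) =
      32 := by
    rw [g₀.2.2 (u - v), AddSubgroup.coe_sub]
    exact hv.2
  have n2 : sqNorm ((u - v' : leechLattice) : GolayPt → ℤ) = 32 := by
    rw [AddSubgroup.coe_sub]
    exact hv'.2
  obtain ⟨h, hh1, hh2⟩ := stab_trans_one v' ((g₀ : Equiv.Perm leechLattice) (u - v)) (u - v')
    hv'.1 n1 n2 h1 (k v' hv'.1 hv'.2)
  have hh1' : (h : Equiv.Perm leechLattice) v' = v' := hh1
  have hh2' : (h : Equiv.Perm leechLattice) ((g₀ : Equiv.Perm leechLattice) (u - v)) = u - v' :=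
    hh2
  refine ⟨h * g₀, ?_, ?_⟩
  · show (h : Equiv.Perm leechLattice) ((g₀ : Equiv.Perm leechLattice) u) = u
    have eu : u = v + (u - v) := by abel
    have e1 : (g₀ : Equiv.Perm leechLattice) u =
        v' + (g₀ : Equiv.Perm leechLattice) (u - v) := by
      conv_lhs => rw [eu]
      rw [g₀.2.1, e0']
    rw [e1, h.2.1, hh1', hh2']
    abel
  · show (h : Equiv.Perm leechLattice) ((g₀ : Equiv.Perm leechLattice) v) = v'
    rw [e0']
    exact hh1'

end Cfsg.Agent.Helper28
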