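import Cfsg.Agent.Helper28.HSCount

/-!
Counting data for the minimal vectors of inner product `-16` with the standard vector of sum
of squares 48, sorted by their coordinates at the two base points.
-/

set_option autoImplicit false

namespace Cfsg.Agent.Helper28

open Cfsg

/-- the tag detecting the values `a` and `b` -/
def tagAB (a b v : ℤ) : ℕ := (if v = a then 0 else if v = b then 70 else 210) + (v + 5).toNat

/-- the target tag sum -/
def tgtAB (a b s : ℤ) : ℕ := (if a = b then s + 120 else s + 190).toNat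

/-- minimal vectors with coordinates `a, b` (in some order) at the base points and coordinate
sum `s` -/
def wAB (a b s : ℤ) : Set (GolayPt → ℤ) :=
  {x | (x ∈ leechLattice ∧ ∑ i, x i ^ 2 = ((32 : ℕ) : ℤ) ∧ ∀ i, x i ∈ Finset.Icc (-5 : ℤ) 5) ∧
    ∑ i, (if i ∈ Cfsg.Agent.Helper3.gSupp 8388609 then tagAB a b (x i) else tagShift (x i)) =
      tgtAB a b s}

/-- the closed expression for the number of such vectors -/
noncomputable def wG (a b s : ℤ) : ℕ :=
  ∑ kj ∈ ({0, 8, 12, 16, 24} : Finset ℕ) ×ˢ Finset.range 3,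
    Cfsg.Agent.Helper3.gCountLt 4096 (fun n => decide (clsOf 8388609 n = kj)) *
      (dCnt (Finset.Icc (-5) 5) (tagAB a b) tagShift (Cfsg.Agent.Helper3.gPopc 8388609) 0 32
          (tgtAB a b s) kj.1 kj.2 +
        dCnt (Finset.Icc (-5) 5) (tagAB a b) tagShift (Cfsg.Agent.Helper3.gPopc 8388609) 1 32
          (tgtAB a b s) kj.1 kj.2)

theorem wAB_ncard (a b s : ℤ) : (wAB a b s).ncard = wG a b s :=
  count_tag (Finset.Icc (-5) 5) (Finset.Subset.refl _) 8388609 (tagAB a b) tagShift 32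
    (tgtAB a b s) (by norm_num) _ census_T

theorem wG_num : wG (-1) (-3) (-12) = 352 ∧ wG 0 (-2) (-16) = 352 ∧ wG (-2) (-2) (-8) = 1155 ∧
    wG (-1) (-1) (-12) = 2640 ∧ wG 0 0 (-16) = 330 ∧ wG (-3) (-1) (-4) = 1344 ∧
    wG (-2) 0 (-8) = 7392 ∧ wG (-1) 1 (-12) = 2464 ∧ wG (-4) 0 0 = 44 ∧
    wG (-3) 1 (-4) = 1232 ∧ wG (-2) 2 (-8) = 924 ∧ wG (-4) 4 0 = 2 := by
  decide +kernel

end Cfsg.Agent.Helper28
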