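import Cfsg.Agent.Helper28.HSCount

/-!
Counting data for the 2025 minimal vectors attached to two minimal vectors of inner product
`-8`: tags detecting a pair of opposite coordinates at the two base points.
-/

set_option autoImplicit false

namespace Cfsg.Agent.Helper28

open Cfsg

/-- the tag detecting the values `a` and `-a` -/
def tagPM (a v : ℤ) : ℕ := (if v = a then 0 else if v = -a then 70 else 210) + (v + 5).toNat

/-- the target tag sum -/
def tgtPM (a : ℤ) : ℕ := (if a = 0 then 136 else 206 + 4 * a).toNat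

/-- minimal vectors with coordinates `a, -a` (in some order) at the base points and coordinate
sum `16 + 4 a` -/
def wSet (a : ℤ) : Set (GolayPt → ℤ) :=
  {x | (x ∈ leechLattice ∧ ∑ i, x i ^ 2 = ((32 : ℕ) : ℤ) ∧ ∀ i, x i ∈ Finset.Icc (-5 : ℤ) 5) ∧
    ∑ i, (if i ∈ Cfsg.Agent.Helper3.gSupp 8388609 then tagPM a (x i) else tagShift (x i)) =
      tgtPM a}

/-- the closed expression for the number of such vectors -/
noncomputable def wF (a : ℤ) : ℕ :=
  ∑ kj ∈ ({0, 8, 12, 16, 24} : Finset ℕ) ×ˢ Finset.range 3,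
    Cfsg.Agent.Helper3.gCountLt 4096 (fun n => decide (clsOf 8388609 n = kj)) *
      (dCnt (Finset.Icc (-5) 5) (tagPM a) tagShift (Cfsg.Agent.Helper3.gPopc 8388609) 0 32
          (tgtPM a) kj.1 kj.2 +
        dCnt (Finset.Icc (-5) 5) (tagPM a) tagShift (Cfsg.Agent.Helper3.gPopc 8388609) 1 32
          (tgtPM a) kj.1 kj.2)

theorem wSet_ncard (a : ℤ) : (wSet a).ncard = wF a :=
  count_tag (Finset.Icc (-5) 5) (Finset.Subset.refl _) 8388609 (tagPM a) tagShift 32
    (tgtPM a) (by norm_num) _ census_T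

theorem w_num : wF (-4) = 2 ∧ wF (-3) = 0 ∧ wF (-2) = 924 ∧ wF (-1) = 2464 ∧ wF 0 = 330 ∧
    wF 1 = 0 ∧ wF 2 = 0 ∧ wF 3 = 0 ∧ wF 4 = 0 := by
  decide +kernel

end Cfsg.Agent.Helper28
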