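import Cfsg.Agent.Helper28.LeechMin

/-!
The extra automorphism of the lattice of a Golay-like code attached to a sextet: on each
tetrad subtract half the tetrad sum, then change sign on one tetrad.
-/

set_option autoImplicit false
set_option linter.unusedSectionVars false

namespace Cfsg.Agent.Helper28

open Cfsg

section Xi

variable {ι : Type*} [Fintype ι] [DecidableEq ι] (C : Submodule (ZMod 2) (ι → ZMod 2))

/-- six words of weight 4 with disjoint supports covering the index set, pairwise sums in the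
code -/
structure IsSextet (S : Finset (ι → ZMod 2)) : Prop where
  wt : ∀ u ∈ S, hammingNorm u = 4
  disj : ∀ u ∈ S, ∀ u' ∈ S, u ≠ u' → Disjoint (support₂ u) (support₂ u')
  cover : ∀ i, ∃ u ∈ S, u i ≠ 0
  add : ∀ u ∈ S, ∀ u' ∈ S, u + u' ∈ C
  card : S.card = 6

theorem isSextet_fib (h : GolayLike C) (v : ι → ZMod 2) (hv : hammingNorm v = 4) :
    IsSextet C (fib C v) where
  wt := fib_wt4 C h.hcard h.hdim h.hmin v hv
  disj := fun u hu u' hu' hne => fib_disj C h.hmin v u u' hu hu' hne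
  cover := fun i => by
    obtain ⟨u, hu, hi⟩ := sextet_cover C h.hcard h.hdim h.hmin v hv i
    exact ⟨u, hu, (mem_support₂ u i).1 hi⟩
  add := fun u hu u' hu' => by
    by_cases hne : u = u'
    · rw [hne, add_self₂]
      exact C.zero_mem
    · exact (fib_add C h.hmin v u u' hu hu' hne).1
  card := fib_card_six C h.hcard h.hdim h.hmin v hv

/-- the sum of the coordinates of `x` over the support of `u` -/
def su (x : ι → ℤ) (u : ι → ZMod 2) : ℤ := ∑ j, if u j ≠ 0 then x j else 0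

/-- the sum of the coordinates of `x` over the tetrad of `i` -/
def tsum (S : Finset (ι → ZMod 2)) (x : ι → ℤ) (i : ι) : ℤ :=
  ∑ u ∈ S, if u i ≠ 0 then su x u else 0

/-- the extra map -/
def xiMap (S : Finset (ι → ZMod 2)) (u₁ : ι → ZMod 2) (x : ι → ℤ) : ι → ℤ :=
  fun i => (if u₁ i ≠ 0 then -1 else 1) * (x i - tsum S x i / 2)

theorem su_add (x y : ι → ℤ) (u : ι → ZMod 2) : su (x + y) u = su x u + su y u := by
  unfold su
  rw [← Finset.sum_add_distrib]
  refine Finset.sum_congr rfl (fun j _ => ?_)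
  by_cases h : u j ≠ 0
  · rw [if_pos h, if_pos h, if_pos h]
    rfl
  · rw [if_neg h, if_neg h, if_neg h, add_zero]

theorem sum_ind_const (u : ι → ZMod 2) (c : ℤ) :
    ∑ j, (if u j ≠ 0 then c else 0) = (hammingNorm u : ℤ) * c := by
  have e : ∑ j, (if u j ≠ 0 then (1 : ℤ) else 0) = (hammingNorm u : ℤ) := by
    rw [Finset.sum_boole]
    rfl
  rw [← e, Finset.sum_mul]
  refine Finset.sum_congr rfl (fun j _ => ?_)
  by_cases h : u j ≠ 0
  · rw [if_pos h, if_pos h, one_mul]
  · rw [if_neg h, if_neg h, zero_mul]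

variable {C} {S : Finset (ι → ZMod 2)}

theorem IsSextet.eq_of_mem (hS : IsSextet C S) {u u' : ι → ZMod 2} (hu : u ∈ S) (hu' : u' ∈ S)
    {i : ι} (h : u i ≠ 0) (h' : u' i ≠ 0) : u = u' := by
  by_contra hne
  have hd := hS.disj u hu u' hu' hne
  exact Finset.disjoint_left.1 hd ((mem_support₂ u i).2 h) ((mem_support₂ u' i).2 h')

theorem IsSextet.sum_split (hS : IsSextet C S) (f : ι → ℤ) :
    ∑ i, f i = ∑ u ∈ S, ∑ i, (if u i ≠ 0 then f i else 0) := by
  rw [Finset.sum_comm]
  refine Finset.sum_congr rfl (fun i _ => ?_)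
  obtain ⟨u₀, hu₀, hi⟩ := hS.cover i
  rw [Finset.sum_eq_single u₀]
  · rw [if_pos hi]
  · intro u hu hne
    rw [if_neg]
    intro h
    exact hne (hS.eq_of_mem hu hu₀ h hi)
  · intro h
    exact absurd hu₀ h

theorem IsSextet.tsum_eq (hS : IsSextet C S) (x : ι → ℤ) {u : ι → ZMod 2} (hu : u ∈ S) {i : ι}
    (hi : u i ≠ 0) : tsum S x i = su x u := by
  unfold tsum
  rw [Finset.sum_eq_single u]
  · rw [if_pos hi]
  · intro u' hu' hne
    rw [if_neg]
    intro h
    exact hne (hS.eq_of_mem hu' hu h hi)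
  · intro h
    exact absurd hu h

theorem IsSextet.xiMap_apply (hS : IsSextet C S) {u₁ : ι → ZMod 2} (hu₁ : u₁ ∈ S) (x : ι → ℤ)
    {u : ι → ZMod 2} (hu : u ∈ S) {i : ι} (hi : u i ≠ 0) :
    xiMap S u₁ x i = (if u = u₁ then -1 else 1) * (x i - su x u / 2) := by
  unfold xiMap
  rw [hS.tsum_eq x hu hi]
  by_cases h : u = u₁
  · rw [if_pos h, if_pos (by rw [← h]; exact hi)]
  · rw [if_neg h, if_neg]
    intro h1
    exact h (hS.eq_of_mem hu hu₁ hi h1)

theorem IsSextet.su_xiMap (hS : IsSextet C S) {u₁ : ι → ZMod 2} (hu₁ : u₁ ∈ S) (x : ι → ℤ)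
    {u : ι → ZMod 2} (hu : u ∈ S) (hev : su x u % 2 = 0) :
    su (xiMap S u₁ x) u = -((if u = u₁ then -1 else 1) * su x u) := by
  have e : ∀ j, (if u j ≠ 0 then xiMap S u₁ x j else 0) =
      (if u = u₁ then (-1 : ℤ) else 1) *
        ((if u j ≠ 0 then x j else 0) - (if u j ≠ 0 then su x u / 2 else 0)) := by
    intro j
    by_cases h : u j ≠ 0
    · rw [if_pos h, if_pos h, if_pos h, hS.xiMap_apply hu₁ x hu h]
    · rw [if_neg h, if_neg h, if_neg h, sub_zero, mul_zero]
  have e2 : su (xiMap S u₁ x) u = (if u = u₁ then (-1 : ℤ) else 1) *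
      (su x u - (hammingNorm u : ℤ) * (su x u / 2)) := by
    rw [← sum_ind_const u (su x u / 2)]
    show ∑ j, (if u j ≠ 0 then xiMap S u₁ x j else 0) = (if u = u₁ then (-1 : ℤ) else 1) *
      ((∑ j, if u j ≠ 0 then x j else 0) - ∑ j, (if u j ≠ 0 then su x u / 2 else 0))
    rw [← Finset.sum_sub_distrib, Finset.mul_sum]
    exact Finset.sum_congr rfl (fun j _ => e j)
  rw [e2, hS.wt u hu]
  have e3 : su x u - ((4 : ℕ) : ℤ) * (su x u / 2) = - su x u := by
    push_cast
    omega
  rw [e3]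
  ring

theorem IsSextet.xiMap_xiMap (hS : IsSextet C S) {u₁ : ι → ZMod 2} (hu₁ : u₁ ∈ S) (x : ι → ℤ)
    (hev : ∀ u ∈ S, su x u % 2 = 0) : xiMap S u₁ (xiMap S u₁ x) = x := by
  funext i
  obtain ⟨u, hu, hi⟩ := hS.cover i
  rw [hS.xiMap_apply hu₁ _ hu hi, hS.su_xiMap hu₁ x hu (hev u hu), hS.xiMap_apply hu₁ x hu hi]
  have h2 := hev u hu
  by_cases h : u = u₁
  · simp only [if_pos h]
    omega
  · simp only [if_neg h]
    omega

theorem IsSextet.xiMap_add (hS : IsSextet C S) {u₁ : ι → ZMod 2} (hu₁ : u₁ ∈ S) (x y : ι → ℤ)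
    (hx : ∀ u ∈ S, su x u % 2 = 0) (hy : ∀ u ∈ S, su y u % 2 = 0) :
    xiMap S u₁ (x + y) = xiMap S u₁ x + xiMap S u₁ y := by
  funext i
  obtain ⟨u, hu, hi⟩ := hS.cover i
  rw [Pi.add_apply, hS.xiMap_apply hu₁ _ hu hi, hS.xiMap_apply hu₁ x hu hi,
    hS.xiMap_apply hu₁ y hu hi, su_add, Pi.add_apply]
  have h1 := hx u hu
  have h2 := hy u hu
  have e : (su x u + su y u) / 2 = su x u / 2 + su y u / 2 := by omega
  rw [e]
  ring

theorem IsSextet.xiMap_norm (hS : IsSextet C S) {u₁ : ι → ZMod 2} (hu₁ : u₁ ∈ S) (x : ι → ℤ)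
    (hev : ∀ u ∈ S, su x u % 2 = 0) : ∑ i, xiMap S u₁ x i ^ 2 = ∑ i, x i ^ 2 := by
  rw [hS.sum_split (fun i => xiMap S u₁ x i ^ 2), hS.sum_split (fun i => x i ^ 2)]
  refine Finset.sum_congr rfl (fun u hu => ?_)
  have h2 := hev u hu
  obtain ⟨h0, hs⟩ : ∃ h0, su x u = 2 * h0 := ⟨su x u / 2, by omega⟩
  have e2 : su x u / 2 = h0 := by omega
  have e : ∀ j, (if u j ≠ 0 then xiMap S u₁ x j ^ 2 else 0) =
      (if u j ≠ 0 then x j ^ 2 else 0) - su x u * (if u j ≠ 0 then x j else 0) +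
        (if u j ≠ 0 then (su x u / 2) ^ 2 else 0) := by
    intro j
    by_cases h : u j ≠ 0
    · rw [if_pos h, if_pos h, if_pos h, if_pos h, hS.xiMap_apply hu₁ x hu h, e2, hs]
      by_cases h' : u = u₁
      · rw [if_pos h']
        ring
      · rw [if_neg h']
        ring
    · rw [if_neg h, if_neg h, if_neg h, if_neg h]
      ring
  have e3 : ∑ j, (if u j ≠ 0 then x j else 0) = su x u := rfl
  rw [Finset.sum_congr rfl (fun j _ => e j), Finset.sum_add_distrib, Finset.sum_sub_distrib,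
    ← Finset.mul_sum, sum_ind_const, hS.wt u hu, e3, e2, hs]
  push_cast
  ring

theorem IsSextet.su_even (hS : IsSextet C S) {x : ι → ℤ} {m : ℤ} (hx : LP C x m)
    {u : ι → ZMod 2} (hu : u ∈ S) : su x u % 2 = 0 := by
  have e : ∀ j, (if u j ≠ 0 then x j else 0) =
      (if u j ≠ 0 then m else 0) + 2 * (if u j ≠ 0 then (x j - m) / 2 else 0) := by
    intro j
    have := hx.1 j
    unfold Int.ModEq at this
    by_cases h : u j ≠ 0
    · rw [if_pos h, if_pos h, if_pos h]
      omega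
    · rw [if_neg h, if_neg h, if_neg h]
      ring
  unfold su
  rw [Finset.sum_congr rfl (fun j _ => e j), Finset.sum_add_distrib, ← Finset.mul_sum,
    sum_ind_const, hS.wt u hu]
  push_cast
  omega

theorem IsSextet.LP_xiMap (hS : IsSextet C S) (h : GolayLike C) {u₁ : ι → ZMod 2} (hu₁ : u₁ ∈ S)
    {x : ι → ℤ} {m : ℤ} (hx : LP C x m) : ∃ m', LP C (xiMap S u₁ x) m' := by
  have hev : ∀ u ∈ S, su x u % 2 = 0 := fun u hu => hS.su_even hx hu
  obtain ⟨hpar, hsum, hcode⟩ := hx
  obtain ⟨a, ha⟩ : ∃ a : ι → ℤ, ∀ j, a j = (x j - m) / 2 := ⟨fun j => (x j - m) / 2, fun j => rfl⟩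
  have hxa : ∀ j, x j = m + 2 * a j := by
    intro j
    have := hpar j
    unfold Int.ModEq at this
    rw [ha j]
    omega
  have hh : ∀ j, halfWord x m j = ((a j : ℤ) : ZMod 2) := by
    intro j
    rw [ha j]
    rfl
  have hsu : ∀ u ∈ S, su x u = 4 * m + 2 * su a u := by
    intro u hu
    have e : ∀ j, (if u j ≠ 0 then x j else 0) =
        (if u j ≠ 0 then m else 0) + 2 * (if u j ≠ 0 then a j else 0) := by
      intro j
      by_cases h : u j ≠ 0
      · rw [if_pos h, if_pos h, if_pos h]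
        exact hxa j
      · rw [if_neg h, if_neg h, if_neg h]
        ring
    show ∑ j, (if u j ≠ 0 then x j else 0) = 4 * m + 2 * ∑ j, (if u j ≠ 0 then a j else 0)
    rw [Finset.sum_congr rfl (fun j _ => e j), Finset.sum_add_distrib, ← Finset.mul_sum,
      sum_ind_const, hS.wt u hu]
    push_cast
    ring
  have hA : ∀ u ∈ S, ((su a u : ℤ) : ZMod 2) = ∑ i, halfWord x m i * u i := by
    intro u hu
    unfold su
    rw [Int.cast_sum]
    refine Finset.sum_congr rfl (fun j _ => ?_)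
    by_cases h : u j ≠ 0
    · rw [if_pos h, zmod2_eq_one_of_ne _ h, mul_one, hh j]
    · rw [if_neg h, not_not.1 h, mul_zero, Int.cast_zero]
  obtain ⟨B, hB⟩ : ∃ B : ℤ, B = su a u₁ := ⟨_, rfl⟩
  have hAB : ∀ u ∈ S, (su a u - B) % 2 = 0 := by
    intro u hu
    have h1 := h.horth _ hcode _ (hS.add u hu u₁ hu₁)
    simp only [Pi.add_apply, mul_add, Finset.sum_add_distrib] at h1
    rw [← hA u hu, ← hA u₁ hu₁] at h1
    have h2 : ((su a u : ℤ) : ZMod 2) = ((su a u₁ : ℤ) : ZMod 2) := by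
      have h3 := congrArg (fun t => t + ((su a u₁ : ℤ) : ZMod 2)) h1
      simp only [add_assoc, zmod2_add_self, add_zero, zero_add] at h3
      exact h3
    rw [hB, ← intCast_zmod2_eq_zero, Int.cast_sub, h2, sub_self]
  have hAD : ∀ u ∈ S, su a u = B + 2 * ((su a u - B) / 2) := by
    intro u hu
    have := hAB u hu
    omega
  have hval : ∀ i, ∀ u ∈ S, u i ≠ 0 →
      xiMap S u₁ x i = (if u = u₁ then -1 else 1) * (2 * a i - m - su a u) := by
    intro i u hu hi
    rw [hS.xiMap_apply hu₁ x hu hi, hsu u hu, hxa i]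
    have e : (4 * m + 2 * su a u) / 2 = 2 * m + su a u := by omega
    rw [e]
    ring
  refine ⟨m + B, ?_, ?_, ?_⟩
  · intro i
    obtain ⟨u, hu, hi⟩ := hS.cover i
    rw [hval i u hu hi]
    have h1 := hAD u hu
    unfold Int.ModEq
    by_cases h' : u = u₁
    · rw [if_pos h']
      omega
    · rw [if_neg h']
      omega
  · have hs1 : ∑ i, xiMap S u₁ x i = ∑ u ∈ S, su (xiMap S u₁ x) u := hS.sum_split _
    have hs2 : ∀ u ∈ S, su (xiMap S u₁ x) u = -su x u + (if u = u₁ then 2 * su x u else 0) := by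
      intro u hu
      rw [hS.su_xiMap hu₁ x hu (hev u hu)]
      by_cases h' : u = u₁
      · rw [if_pos h', if_pos h']
        ring
      · rw [if_neg h', if_neg h']
        ring
    have hs3 : ∑ i, x i = ∑ u ∈ S, su x u := hS.sum_split _
    rw [hs1, Finset.sum_congr rfl hs2, Finset.sum_add_distrib, Finset.sum_neg_distrib, ← hs3,
      Finset.sum_ite_eq' S u₁ (fun u => 2 * su x u), if_pos hu₁, hsu u₁ hu₁]
    unfold Int.ModEq at hsum ⊢
    omega
  · obtain ⟨β, hβ⟩ : ∃ β : (ι → ZMod 2) → ZMod 2, ∀ u, β u =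
        if u = u₁ then 0 else ((((su a u - B) / 2 + (m + B) : ℤ)) : ZMod 2) :=
      ⟨fun u => if u = u₁ then 0 else ((((su a u - B) / 2 + (m + B) : ℤ)) : ZMod 2),
        fun u => rfl⟩
    have hw : halfWord (xiMap S u₁ x) (m + B) = halfWord x m + ∑ u ∈ S, β u • u := by
      funext i
      obtain ⟨u, hu, hi⟩ := hS.cover i
      have hsum1 : (∑ u' ∈ S, β u' • u') i = β u := by
        rw [Finset.sum_apply, Finset.sum_eq_single u]
        · rw [Pi.smul_apply, zmod2_eq_one_of_ne _ hi, smul_eq_mul, mul_one]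
        · intro u' hu' hne
          have h0 : u' i = 0 := by
            by_contra h'
            exact hne (hS.eq_of_mem hu' hu h' hi)
          rw [Pi.smul_apply, h0, smul_zero]
        · intro h'
          exact absurd hu h'
      rw [Pi.add_apply, hsum1, hh i]
      show (((xiMap S u₁ x i - (m + B)) / 2 : ℤ) : ZMod 2) = ((a i : ℤ) : ZMod 2) + β u
      rw [hval i u hu hi, hβ u]
      have h1 := hAD u hu
      by_cases h' : u = u₁
      · have hBu : su a u = B := by rw [h', hB]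
        rw [if_pos h', if_pos h', add_zero]
        have e : (-1 * (2 * a i - m - su a u) - (m + B)) / 2 = - a i := by omega
        rw [e, Int.cast_neg, zmod2_neg]
      · rw [if_neg h', if_neg h']
        have e : (1 * (2 * a i - m - su a u) - (m + B)) / 2 =
            a i - ((su a u - B) / 2 + (m + B)) := by omega
        rw [e, Int.cast_sub, sub_eq_add_neg, zmod2_neg]
    have hβsum : ∑ u ∈ S, β u = 0 := by
      have e1 : ∀ u ∈ S, β u = ((((su a u - B) / 2 + (m + B) : ℤ)) : ZMod 2) +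
          (if u = u₁ then (((m + B : ℤ)) : ZMod 2) else 0) := by
        intro u hu
        rw [hβ u]
        by_cases h' : u = u₁
        · rw [if_pos h', if_pos h']
          have e0 : (su a u - B) / 2 = 0 := by
            rw [h', ← hB]
            simp
          rw [e0, zero_add, zmod2_add_self]
        · rw [if_neg h', if_neg h', add_zero]
      have e2 : ∑ u ∈ S, ((su a u - B) / 2 + (m + B)) =
          ∑ u ∈ S, (su a u - B) / 2 + 6 * (m + B) := by
        rw [Finset.sum_add_distrib, Finset.sum_const, hS.card]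
        simp
      have e3 : ∑ u ∈ S, su a u = 6 * B + 2 * ∑ u ∈ S, (su a u - B) / 2 := by
        rw [Finset.sum_congr rfl hAD, Finset.sum_add_distrib, Finset.sum_const, hS.card,
          ← Finset.mul_sum]
        simp
      have e4 : ∑ i, a i = ∑ u ∈ S, su a u := hS.sum_split _
      have e5 : ∑ i, x i = 24 * m + 2 * ∑ i, a i := by
        rw [Finset.sum_congr rfl (fun j _ => hxa j), Finset.sum_add_distrib, Finset.sum_const,
          ← Finset.mul_sum, Finset.card_univ, h.hcard]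
        simp
      rw [Finset.sum_congr rfl e1, Finset.sum_add_distrib,
        Finset.sum_ite_eq' S u₁ (fun _ => (((m + B : ℤ)) : ZMod 2)), if_pos hu₁,
        ← Int.cast_sum, ← Int.cast_add, intCast_zmod2_eq_zero, e2]
      unfold Int.ModEq at hsum
      omega
    have hwC : ∑ u ∈ S, β u • u ∈ C := by
      have e : ∑ u ∈ S, β u • u = ∑ u ∈ S, β u • (u + u₁) := by
        simp only [smul_add, Finset.sum_add_distrib, ← Finset.sum_smul, hβsum, zero_smul,
          add_zero]
      rw [e]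
      exact C.sum_mem (fun u hu => C.smul_mem _ (hS.add u hu u₁ hu₁))
    rw [hw]
    exact C.add_mem hcode hwC

end Xi

end Cfsg.Agent.Helper28
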